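import Mathlib
import Cfsg.Agent.Lib.Helper4.SpOrder

set_option autoImplicit false

namespace Cfsg.Agent.Lib.Helper4

universe u v

/-- A space with a non-degenerate alternating form has even dimension. -/
theorem alt_nondeg_even (F : Type u) [Field F] :
    ∀ (d : ℕ) (V : Type v) [AddCommGroup V] [Module F V] [FiniteDimensional F V]
      (B : LinearMap.BilinForm F V), Module.finrank F V = d → (∀ x, B x x = 0) →
      B.Nondegenerate → Even d := by
  intro d
  induction d using Nat.strong_induction_on with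
  | _ d ih =>
    intro V _ _ _ B hV halt hB
    rcases Nat.eq_zero_or_pos d with rfl | hpos
    · exact ⟨0, rfl⟩
    · haveI : Nontrivial V := Module.nontrivial_of_finrank_pos (R := F) (by rw [hV]; exact hpos)
      obtain ⟨v, hv⟩ := exists_ne (0 : V)
      obtain ⟨w₀, hw₀⟩ : ∃ w₀, B v w₀ ≠ 0 := by
        by_contra hcon
        push Not at hcon
        exact hv (hB.1 v hcon)
      obtain ⟨w, hw⟩ : ∃ w, B v w = 1 :=
        ⟨(B v w₀)⁻¹ • w₀, by rw [map_smul, smul_eq_mul, inv_mul_cancel₀ hw₀]⟩
      have hd2 : 2 ≤ d := by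
        have hli : LinearIndependent F ![v, w] := by
          rw [LinearIndependent.pair_iff]
          intro s t hst
          have h1 : B v (s • v + t • w) = t := by
            rw [map_add, map_smul, map_smul, halt, hw]
            simp
          rw [hst, map_zero] at h1
          have ht : t = 0 := h1.symm
          rw [ht, zero_smul, add_zero] at hst
          rcases smul_eq_zero.mp hst with h | h
          · exact ⟨h, ht⟩
          · exact absurd h hv
        have h2 := hli.fintype_card_le_finrank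
        simpa [hV] using h2
      obtain ⟨k, rfl⟩ : ∃ k, d = k + 2 := ⟨d - 2, by omega⟩
      obtain ⟨hfr, hnd⟩ := alt_split B halt hB v w hw hV
      have h3 := ih k (by omega) _ _ hfr (fun x => halt (x : V)) hnd
      exact h3.add even_two

/-- Normal form of an alternating form (possibly degenerate). -/
theorem alt_normal_form {F : Type u} [Field F] {V : Type v} [AddCommGroup V] [Module F V]
    [FiniteDimensional F V] (B : LinearMap.BilinForm F V) (halt : ∀ x, B x x = 0) :
    ∃ (m k : ℕ) (b : Module.Basis ((Fin m ⊕ Fin m) ⊕ Fin k) F V),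
      (∀ i j : Fin m, B (b (Sum.inl (Sum.inl i))) (b (Sum.inl (Sum.inr j))) =
        if i = j then 1 else 0) ∧
      (∀ i j : Fin m, B (b (Sum.inl (Sum.inl i))) (b (Sum.inl (Sum.inl j))) = 0) ∧
      (∀ i j : Fin m, B (b (Sum.inl (Sum.inr i))) (b (Sum.inl (Sum.inr j))) = 0) ∧
      (∀ (j : Fin k) (v : V), B (b (Sum.inr j)) v = 0) := by
  classical
  obtain ⟨R, hR⟩ : ∃ R : Submodule F V, R = LinearMap.ker B := ⟨_, rfl⟩
  have hRmem : ∀ x, x ∈ R ↔ ∀ y, B x y = 0 := by
    intro x
    rw [hR, LinearMap.mem_ker]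
    constructor
    · intro h y
      rw [h]
      rfl
    · intro h
      ext y
      exact h y
  obtain ⟨W, hW⟩ := Submodule.exists_isCompl R
  have haltW : ∀ x : W, (B.restrict W) x x = 0 := fun x => halt x
  have hndW : (B.restrict W).Nondegenerate := by
    apply alt_nondeg_of_left _ haltW
    intro x hx
    have hxR : (x : V) ∈ R := by
      rw [hRmem]
      intro y
      obtain ⟨r, hr, w, hw, rfl⟩ : ∃ r ∈ R, ∃ w ∈ W, r + w = y :=
        Submodule.mem_sup.mp (by rw [hW.sup_eq_top]; trivial : y ∈ R ⊔ W)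
      rw [map_add, alt_swap B halt x r, (hRmem r).mp hr x, neg_zero, zero_add]
      exact hx ⟨w, hw⟩
    have h1 : (x : V) ∈ R ⊓ W := ⟨hxR, x.2⟩
    rw [hW.inf_eq_bot] at h1
    exact Subtype.ext ((Submodule.mem_bot F).mp h1)
  obtain ⟨m, hm⟩ := alt_nondeg_even F _ W (B.restrict W) rfl haltW hndW
  obtain ⟨b', hb'⟩ := alt_basis (B.restrict W) haltW hndW (n := m) (by rw [hm]; ring)
  have hJ : ∀ x y, B (b' x : V) (b' y : V) = Matrix.J (Fin m) F x y := by
    intro x y
    rw [← hb', LinearMap.BilinForm.toMatrix_apply]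
    rfl
  obtain ⟨b, hb⟩ : ∃ b : Module.Basis ((Fin m ⊕ Fin m) ⊕ Fin (Module.finrank F R)) F V,
      b = ((b'.reindex (Equiv.sumComm _ _)).prod (Module.finBasis F R)).map
        (W.prodEquivOfIsCompl R hW.symm) := ⟨_, rfl⟩
  have hbl : ∀ x, b (Sum.inl x) = (b' ((Equiv.sumComm _ _).symm x) : V) := by
    intro x
    rw [hb]
    simp
  have hbr : ∀ j, b (Sum.inr j) = (Module.finBasis F R j : V) := by
    intro j
    rw [hb]
    simp
  refine ⟨m, Module.finrank F R, b, ?_, ?_, ?_, ?_⟩
  · intro i j
    rw [hbl, hbl, hJ]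
    simp [Matrix.J, Matrix.one_apply]
  · intro i j
    rw [hbl, hbl, hJ]
    simp [Matrix.J]
  · intro i j
    rw [hbl, hbl, hJ]
    simp [Matrix.J]
  · intro j v
    rw [hbr]
    exact (hRmem _).mp (Module.finBasis F R j).2 v

end Cfsg.Agent.Lib.Helper4
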