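import Mathlib

set_option autoImplicit false

namespace Cfsg.Agent.Lib.Helper4

section

variable {F : Type*} [Field F] {V : Type*} [AddCommGroup V] [Module F V]

theorem aw_swap (B : LinearMap.BilinForm F V) (hA : ∀ x, B x x = 0) (x y : V) :
    B x y = - B y x := by
  have h := hA (x + y)
  simp only [map_add, LinearMap.add_apply, hA, zero_add, add_zero] at h
  linear_combination h

/-- The linear map `x ↦ x + c B(x, w) w`. -/
def altTransvLin (B : LinearMap.BilinForm F V) (w : V) (c : F) : V →ₗ[F] V where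
  toFun x := x + (c * B x w) • w
  map_add' x y := by
    simp only [map_add, LinearMap.add_apply, mul_add, add_smul]
    abel
  map_smul' k x := by
    simp only [map_smul, LinearMap.smul_apply, smul_eq_mul, RingHom.id_apply, smul_add, smul_smul]
    congr 2
    ring

theorem altTransvLin_apply (B : LinearMap.BilinForm F V) (w : V) (c : F) (x : V) :
    altTransvLin B w c x = x + (c * B x w) • w := rfl

theorem altTransvLin_comp (B : LinearMap.BilinForm F V) (hA : ∀ x, B x x = 0) (w : V) (c : F) :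
    (altTransvLin B w c).comp (altTransvLin B w (-c)) = LinearMap.id := by
  ext x
  rw [LinearMap.comp_apply, LinearMap.id_apply, altTransvLin_apply, altTransvLin_apply]
  have h1 : B (x + (-c * B x w) • w) w = B x w := by
    rw [map_add, LinearMap.add_apply, map_smul, LinearMap.smul_apply, hA, smul_zero, add_zero]
  rw [h1, add_assoc, ← add_smul]
  have h2 : -c * B x w + c * B x w = 0 := by ring
  rw [h2, zero_smul, add_zero]

/-- The transvection as a linear equivalence. -/
noncomputable def altTransv (B : LinearMap.BilinForm F V) (hA : ∀ x, B x x = 0) (w : V) (c : F) :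
    V ≃ₗ[F] V :=
  LinearEquiv.ofLinear (altTransvLin B w c) (altTransvLin B w (-c)) (altTransvLin_comp B hA w c)
    (by have h := altTransvLin_comp B hA w (-c); rwa [neg_neg] at h)

theorem altTransv_apply (B : LinearMap.BilinForm F V) (hA : ∀ x, B x x = 0) (w : V) (c : F)
    (x : V) : altTransv B hA w c x = x + (c * B x w) • w := rfl

theorem altTransv_isom (B : LinearMap.BilinForm F V) (hA : ∀ x, B x x = 0) (w : V) (c : F)
    (u v : V) : B (altTransv B hA w c u) (altTransv B hA w c v) = B u v := by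
  rw [altTransv_apply, altTransv_apply]
  simp only [map_add, map_smul, LinearMap.add_apply, LinearMap.smul_apply, smul_eq_mul, hA,
    mul_zero, add_zero]
  have h1 := aw_swap B hA w v
  rw [h1]
  ring

theorem alt_move1 (B : LinearMap.BilinForm F V) (hA : ∀ x, B x x = 0) (a b : V)
    (hab : B a b ≠ 0) :
    ∃ g : V ≃ₗ[F] V, (∀ u v, B (g u) (g v) = B u v) ∧ g a = b ∧
      ∀ s, B s a = B s b → g s = s := by
  refine ⟨altTransv B hA (a - b) (B a b)⁻¹, altTransv_isom B hA _ _, ?_, ?_⟩
  · rw [altTransv_apply, map_sub, hA, zero_sub, mul_neg, inv_mul_cancel₀ hab, neg_smul, one_smul]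
    abel
  · intro s hs
    rw [altTransv_apply, map_sub, hs, sub_self, mul_zero, zero_smul, add_zero]

theorem alt_move [FiniteDimensional F V] (B : LinearMap.BilinForm F V) (hB : B.Nondegenerate)
    (hA : ∀ x, B x x = 0) (W : Submodule F V) (a b : V)
    (ha : a ∉ W) (hb : b ∉ W) (hW : ∀ s ∈ W, B s a = B s b) :
    ∃ g : V ≃ₗ[F] V, (∀ u v, B (g u) (g v) = B u v) ∧ g a = b ∧ ∀ s ∈ W, g s = s := by
  by_cases hab : B a b = 0
  · have hrefl : B.IsRefl := LinearMap.BilinForm.IsAlt.isRefl hA
    have hex : ∀ x : V, x ∉ W → ∃ z, (∀ s ∈ W, B s z = 0) ∧ B x z ≠ 0 := by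
      intro x hx
      by_contra hcon
      push Not at hcon
      apply hx
      rw [← LinearMap.BilinForm.orthogonal_orthogonal hB hrefl W,
        LinearMap.BilinForm.mem_orthogonal_iff]
      intro z hz
      rw [aw_swap B hA z x, hcon z (fun s hs => hz s hs), neg_zero]
    obtain ⟨z₁, hz₁W, hz₁⟩ := hex a ha
    obtain ⟨z₂, hz₂W, hz₂⟩ := hex b hb
    obtain ⟨z, hzW, hza, hzb⟩ : ∃ z, (∀ s ∈ W, B s z = 0) ∧ B a z ≠ 0 ∧ B b z ≠ 0 := by
      by_cases h1 : B b z₁ = 0
      · by_cases h2 : B a z₂ = 0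
        · refine ⟨z₁ + z₂, fun s hs => by rw [map_add, hz₁W s hs, hz₂W s hs, add_zero], ?_, ?_⟩
          · rw [map_add, h2, add_zero]; exact hz₁
          · rw [map_add, h1, zero_add]; exact hz₂
        · exact ⟨z₂, hz₂W, h2, hz₂⟩
      · exact ⟨z₁, hz₁W, hz₁, h1⟩
    obtain ⟨g₁, hg₁, hg₁a, hg₁s⟩ := alt_move1 B hA a (a + z)
      (by rw [map_add, hA, zero_add]; exact hza)
    obtain ⟨g₂, hg₂, hg₂a, hg₂s⟩ := alt_move1 B hA (a + z) b (by
      rw [map_add, LinearMap.add_apply, hab, zero_add, aw_swap B hA z b]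
      exact neg_ne_zero.mpr hzb)
    refine ⟨g₁.trans g₂, fun u v => ?_, ?_, ?_⟩
    · rw [LinearEquiv.trans_apply, LinearEquiv.trans_apply, hg₂, hg₁]
    · rw [LinearEquiv.trans_apply, hg₁a, hg₂a]
    · intro s hs
      rw [LinearEquiv.trans_apply, hg₁s s (by rw [map_add, hzW s hs, add_zero]),
        hg₂s s (by rw [map_add, hzW s hs, add_zero]; exact hW s hs)]
  · obtain ⟨g, hg, hga, hgs⟩ := alt_move1 B hA a b hab
    exact ⟨g, hg, hga, fun s hs => hgs s (hW s hs)⟩

theorem alt_witt [FiniteDimensional F V] (B : LinearMap.BilinForm F V) (hB : B.Nondegenerate)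
    (hA : B.IsAlt) (X Y : Submodule F V) (φ : X ≃ₗ[F] Y)
    (hφ : ∀ x x' : X, B (φ x : V) (φ x' : V) = B (x : V) (x' : V)) :
    ∃ g : V ≃ₗ[F] V, (∀ u v : V, B (g u) (g v) = B u v) ∧ ∀ x : X, g (x : V) = (φ x : V) := by
  classical
  have hA' : ∀ x, B x x = 0 := fun x => hA x
  obtain ⟨k, ⟨bX⟩⟩ : ∃ k, Nonempty (Module.Basis (Fin k) F X) := ⟨_, ⟨Module.finBasis F X⟩⟩
  have hliX : LinearIndependent F (fun j : Fin k => (bX j : V)) :=
    bX.linearIndependent.map' X.subtype (Submodule.ker_subtype X)
  have hliY : LinearIndependent F (fun j : Fin k => (φ (bX j) : V)) :=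
    bX.linearIndependent.map' (Y.subtype.comp φ.toLinearMap)
      (LinearMap.ker_eq_bot.mpr ((Submodule.injective_subtype Y).comp φ.injective))
  have key : ∀ i ≤ k, ∃ g : V ≃ₗ[F] V, (∀ u v : V, B (g u) (g v) = B u v) ∧
      ∀ j : Fin k, (j : ℕ) < i → g (bX j : V) = (φ (bX j) : V) := by
    intro i
    induction i with
    | zero =>
      intro _
      exact ⟨LinearEquiv.refl F V, fun u v => rfl, fun j hj => absurd hj (Nat.not_lt_zero _)⟩
    | succ i ih =>
      intro hi
      obtain ⟨g, hg, hgj⟩ := ih (by omega)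
      obtain ⟨W, hWdef⟩ : ∃ W : Submodule F V, W = Submodule.span F
          ((fun j : Fin k => (bX j : V)) '' {j | (j : ℕ) < i}) := ⟨_, rfl⟩
      obtain ⟨ii, hii⟩ : ∃ ii : Fin k, (ii : ℕ) = i := ⟨⟨i, by omega⟩, rfl⟩
      obtain ⟨a, ha⟩ : ∃ a : V, a = (bX ii : V) := ⟨_, rfl⟩
      obtain ⟨b, hb⟩ : ∃ b : V, b = g.symm (φ (bX ii) : V) := ⟨_, rfl⟩
      have hgb : g b = (φ (bX ii) : V) := by rw [hb, LinearEquiv.apply_symm_apply]
      have hWfix : ∀ s ∈ W, B s a = B s b := by
        intro s hs
        rw [hWdef] at hs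
        refine Submodule.span_induction (p := fun s _ => B s a = B s b) ?_ ?_ ?_ ?_ hs
        · rintro _ ⟨j, hj, rfl⟩
          rw [← hg (bX j : V) b, hgj j hj, hgb, hφ, ha]
        · rw [map_zero, LinearMap.zero_apply, LinearMap.zero_apply]
        · intro x y _ _ hx hy
          rw [map_add, LinearMap.add_apply, LinearMap.add_apply, hx, hy]
        · intro c x _ hx
          rw [map_smul, LinearMap.smul_apply, LinearMap.smul_apply, hx]
      have hii_not : ii ∉ {j : Fin k | (j : ℕ) < i} := by
        intro h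
        rw [Set.mem_setOf_eq, hii] at h
        omega
      have haW : a ∉ W := by
        rw [ha, hWdef]
        exact hliX.notMem_span_image hii_not
      have hbW : b ∉ W := by
        intro hbW
        have h1 : g b ∈ Submodule.span F
            ((fun j : Fin k => (φ (bX j) : V)) '' {j | (j : ℕ) < i}) := by
          rw [hWdef] at hbW
          refine Submodule.span_induction (p := fun s _ => g s ∈ Submodule.span F
            ((fun j : Fin k => (φ (bX j) : V)) '' {j | (j : ℕ) < i})) ?_ ?_ ?_ ?_ hbW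
          · rintro _ ⟨j, hj, rfl⟩
            rw [hgj j hj]
            exact Submodule.subset_span ⟨j, hj, rfl⟩
          · rw [map_zero]; exact Submodule.zero_mem _
          · intro x y _ _ hx hy
            rw [map_add]; exact Submodule.add_mem _ hx hy
          · intro c x _ hx
            rw [map_smul]; exact Submodule.smul_mem _ c hx
        rw [hgb] at h1
        exact hliY.notMem_span_image hii_not h1
      obtain ⟨h, hh, hha, hhs⟩ := alt_move B hB hA' W a b haW hbW hWfix
      refine ⟨h.trans g, fun u v => by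
        rw [LinearEquiv.trans_apply, LinearEquiv.trans_apply, hg, hh], ?_⟩
      intro j hj
      rw [LinearEquiv.trans_apply]
      by_cases hji : (j : ℕ) < i
      · rw [hhs _ (by rw [hWdef]; exact Submodule.subset_span ⟨j, hji, rfl⟩), hgj j hji]
      · have hjii : j = ii := Fin.ext (by rw [hii]; omega)
        rw [hjii, ← ha, hha, hgb]
  obtain ⟨g, hg, hgj⟩ := key k le_rfl
  refine ⟨g, hg, ?_⟩
  have hlin : (g : V →ₗ[F] V).comp X.subtype = Y.subtype.comp (φ : X →ₗ[F] Y) := by
    apply bX.ext
    intro j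
    simp only [LinearMap.comp_apply, Submodule.subtype_apply, LinearEquiv.coe_coe]
    exact hgj j j.2
  intro x
  have h5 := congrArg (fun f : X →ₗ[F] V => f x) hlin
  simpa using h5

end

end Cfsg.Agent.Lib.Helper4
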