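import Mathlib

set_option autoImplicit false

namespace Cfsg.Agent.Lib.Helper4

open Matrix

theorem block_sum_one {F : Type*} [Field F] {n n₁ n₂ : Type*} [Fintype n] [DecidableEq n]
    [Fintype n₁] [DecidableEq n₁] [Fintype n₂] [DecidableEq n₂] (e : n ≃ n₁ ⊕ n₂)
    (P₁ : Matrix n n₁ F) (P₂ : Matrix n n₂ F) (Q₁ : Matrix n₁ n F) (Q₂ : Matrix n₂ n F)
    (h11 : Q₁ * P₁ = 1) (h12 : Q₁ * P₂ = 0) (h21 : Q₂ * P₁ = 0) (h22 : Q₂ * P₂ = 1) :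
    P₁ * Q₁ + P₂ * Q₂ = 1 := by
  have h := (Matrix.fromCols_mul_fromRows_eq_one_comm e P₁ P₂ Q₁ Q₂).mpr (by
    rw [Matrix.fromRows_mul_fromCols, h11, h12, h21, h22, Matrix.fromBlocks_one])
  rwa [Matrix.fromCols_mul_fromRows] at h

theorem block_decomp_iso {F : Type*} [Field F] {n n₁ n₂ : Type*} [Fintype n] [DecidableEq n]
    [Fintype n₁] [DecidableEq n₁] [Fintype n₂] [DecidableEq n₂]
    (P₁ : Matrix n n₁ F) (P₂ : Matrix n n₂ F) (Q₁ : Matrix n₁ n F) (Q₂ : Matrix n₂ n F)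
    (h11 : Q₁ * P₁ = 1) (h12 : Q₁ * P₂ = 0) (h21 : Q₂ * P₁ = 0) (h22 : Q₂ * P₂ = 1)
    (hsum : P₁ * Q₁ + P₂ * Q₂ = 1)
    {H H₁ H₂ : Type*} [Group H] [Group H₁] [Group H₂]
    (t : H →* Matrix n n F) (t₁ : H₁ →* Matrix n₁ n₁ F) (t₂ : H₂ →* Matrix n₂ n₂ F)
    (ht : Function.Injective t) (ht₁ : Function.Injective t₁) (ht₂ : Function.Injective t₂)
    (S : Subgroup H)
    (hα : ∀ h ∈ S, Q₂ * t h * P₁ = 0 ∧ Q₁ * t h * P₂ = 0 ∧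
      (∃ h₁, t₁ h₁ = Q₁ * t h * P₁) ∧ ∃ h₂, t₂ h₂ = Q₂ * t h * P₂)
    (hβ : ∀ h₁ h₂, ∃ h ∈ S, t h = P₁ * t₁ h₁ * Q₁ + P₂ * t₂ h₂ * Q₂) :
    Nonempty (↥S ≃* H₁ × H₂) := by
  classical
  choose f₁ hf₁ using fun h : S => (hα h.1 h.2).2.2.1
  choose f₂ hf₂ using fun h : S => (hα h.1 h.2).2.2.2
  have hk1 : ∀ h : S, t h.1 * P₁ = P₁ * (Q₁ * t h.1 * P₁) := by
    intro h
    have h0 := (hα h.1 h.2).1
    calc t h.1 * P₁ = (P₁ * Q₁ + P₂ * Q₂) * (t h.1 * P₁) := by rw [hsum, Matrix.one_mul]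
      _ = P₁ * (Q₁ * t h.1 * P₁) + P₂ * (Q₂ * t h.1 * P₁) := by
          simp only [Matrix.add_mul, Matrix.mul_assoc]
      _ = _ := by rw [h0, Matrix.mul_zero, add_zero]
  have hk2 : ∀ h : S, t h.1 * P₂ = P₂ * (Q₂ * t h.1 * P₂) := by
    intro h
    have h0 := (hα h.1 h.2).2.1
    calc t h.1 * P₂ = (P₁ * Q₁ + P₂ * Q₂) * (t h.1 * P₂) := by rw [hsum, Matrix.one_mul]
      _ = P₁ * (Q₁ * t h.1 * P₂) + P₂ * (Q₂ * t h.1 * P₂) := by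
          simp only [Matrix.add_mul, Matrix.mul_assoc]
      _ = _ := by rw [h0, Matrix.mul_zero, zero_add]
  have hmul1 : ∀ a b : S, f₁ (a * b) = f₁ a * f₁ b := by
    intro a b
    apply ht₁
    rw [map_mul, hf₁, hf₁, hf₁]
    have e1 : t (a * b : S).1 = t a.1 * t b.1 := map_mul t a.1 b.1
    rw [e1, Matrix.mul_assoc, Matrix.mul_assoc, hk1 b]
    simp only [Matrix.mul_assoc]
  have hmul2 : ∀ a b : S, f₂ (a * b) = f₂ a * f₂ b := by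
    intro a b
    apply ht₂
    rw [map_mul, hf₂, hf₂, hf₂]
    have e1 : t (a * b : S).1 = t a.1 * t b.1 := map_mul t a.1 b.1
    rw [e1, Matrix.mul_assoc, Matrix.mul_assoc, hk2 b]
    simp only [Matrix.mul_assoc]
  have hrec : ∀ h : S, t h.1 = P₁ * t₁ (f₁ h) * Q₁ + P₂ * t₂ (f₂ h) * Q₂ := by
    intro h
    calc t h.1 = t h.1 * (P₁ * Q₁ + P₂ * Q₂) := by rw [hsum, Matrix.mul_one]
      _ = t h.1 * P₁ * Q₁ + t h.1 * P₂ * Q₂ := by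
          simp only [Matrix.mul_add, Matrix.mul_assoc]
      _ = _ := by rw [hk1 h, hk2 h, hf₁, hf₂]
  have hA1 : ∀ (A₁ : Matrix n₁ n₁ F) (A₂ : Matrix n₂ n₂ F),
      Q₁ * (P₁ * A₁ * Q₁ + P₂ * A₂ * Q₂) * P₁ = A₁ := by
    intro A₁ A₂
    have e1 : Q₁ * (P₁ * A₁ * Q₁ + P₂ * A₂ * Q₂) * P₁ =
        (Q₁ * P₁) * A₁ * (Q₁ * P₁) + (Q₁ * P₂) * A₂ * (Q₂ * P₁) := by
      simp only [Matrix.mul_add, Matrix.add_mul, Matrix.mul_assoc]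
    rw [e1, h11, h12, Matrix.one_mul, Matrix.mul_one, Matrix.zero_mul, Matrix.zero_mul, add_zero]
  have hA2 : ∀ (A₁ : Matrix n₁ n₁ F) (A₂ : Matrix n₂ n₂ F),
      Q₂ * (P₁ * A₁ * Q₁ + P₂ * A₂ * Q₂) * P₂ = A₂ := by
    intro A₁ A₂
    have e1 : Q₂ * (P₁ * A₁ * Q₁ + P₂ * A₂ * Q₂) * P₂ =
        (Q₂ * P₁) * A₁ * (Q₁ * P₂) + (Q₂ * P₂) * A₂ * (Q₂ * P₂) := by
      simp only [Matrix.mul_add, Matrix.add_mul, Matrix.mul_assoc]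
    rw [e1, h22, h21, Matrix.one_mul, Matrix.mul_one, Matrix.zero_mul, Matrix.zero_mul, zero_add]
  refine ⟨MulEquiv.ofBijective
    (MonoidHom.mk' (fun h : S => (f₁ h, f₂ h)) (fun a b => Prod.ext (hmul1 a b) (hmul2 a b)))
    ⟨?_, ?_⟩⟩
  · intro a b hab
    have e1 : f₁ a = f₁ b := congrArg Prod.fst hab
    have e2 : f₂ a = f₂ b := congrArg Prod.snd hab
    apply Subtype.ext
    apply ht
    rw [hrec a, hrec b, e1, e2]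
  · rintro ⟨h₁, h₂⟩
    obtain ⟨h, hS, hh⟩ := hβ h₁ h₂
    refine ⟨⟨h, hS⟩, Prod.ext ?_ ?_⟩
    · apply ht₁
      show t₁ (f₁ ⟨h, hS⟩) = t₁ h₁
      rw [hf₁]
      show Q₁ * t h * P₁ = _
      rw [hh, hA1]
    · apply ht₂
      show t₂ (f₂ ⟨h, hS⟩) = t₂ h₂
      rw [hf₂]
      show Q₂ * t h * P₂ = _
      rw [hh, hA2]

end Cfsg.Agent.Lib.Helper4
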