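import Mathlib

set_option autoImplicit false

namespace Cfsg.Agent.Lib.Helper4

universe u

open Matrix

section

variable {F : Type u} [Field F] {n : ℕ}

/-- One step of the upper fixed-point series of a group of matrices. -/
def btStep (U : Subgroup (Matrix.SpecialLinearGroup (Fin n) F)) (W : Submodule F (Fin n → F)) :
    Submodule F (Fin n → F) :=
  ⨅ u ∈ U, Submodule.comap (Matrix.mulVecLin (u : Matrix (Fin n) (Fin n) F) - LinearMap.id) W

theorem mem_btStep (U : Subgroup (Matrix.SpecialLinearGroup (Fin n) F))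
    (W : Submodule F (Fin n → F)) (v : Fin n → F) :
    v ∈ btStep U W ↔ ∀ u ∈ U, (u : Matrix (Fin n) (Fin n) F).mulVec v - v ∈ W := by
  unfold btStep
  simp only [Submodule.mem_iInf, Submodule.mem_comap, LinearMap.sub_apply, Matrix.mulVecLin_apply,
    LinearMap.id_apply]

/-- The upper fixed-point series. -/
def btChain (U : Subgroup (Matrix.SpecialLinearGroup (Fin n) F)) : ℕ → Submodule F (Fin n → F)
  | 0 => ⊥
  | (i + 1) => btStep U (btChain U i)

theorem btChain_inv (U : Subgroup (Matrix.SpecialLinearGroup (Fin n) F)) (i : ℕ) :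
    ∀ u ∈ U, ∀ v ∈ btChain U i, (u : Matrix (Fin n) (Fin n) F).mulVec v ∈ btChain U i := by
  cases i with
  | zero =>
    intro u _ v hv
    have : v = 0 := (Submodule.mem_bot F).1 hv
    rw [this, Matrix.mulVec_zero]
    exact Submodule.zero_mem _
  | succ i =>
    intro u hu v hv
    show _ ∈ btStep U (btChain U i)
    rw [mem_btStep]
    intro u' hu'
    have hv' : v ∈ btStep U (btChain U i) := hv
    rw [mem_btStep] at hv'
    have h1 := hv' (u' * u) (U.mul_mem hu' hu)
    have h2 := hv' u hu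
    have h3 : (u' : Matrix (Fin n) (Fin n) F).mulVec ((u : Matrix (Fin n) (Fin n) F).mulVec v) -
        (u : Matrix (Fin n) (Fin n) F).mulVec v =
        (((u' * u : Matrix.SpecialLinearGroup (Fin n) F) : Matrix (Fin n) (Fin n) F).mulVec v - v) -
          ((u : Matrix (Fin n) (Fin n) F).mulVec v - v) := by
      rw [Matrix.SpecialLinearGroup.coe_mul, ← Matrix.mulVec_mulVec]
      abel
    rw [h3]
    exact Submodule.sub_mem _ h1 h2

theorem btChain_le_succ (U : Subgroup (Matrix.SpecialLinearGroup (Fin n) F)) (i : ℕ) :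
    btChain U i ≤ btChain U (i + 1) := by
  intro v hv
  show v ∈ btStep U (btChain U i)
  rw [mem_btStep]
  intro u hu
  exact Submodule.sub_mem _ (btChain_inv U i u hu v hv) hv

theorem btChain_normalizer (U : Subgroup (Matrix.SpecialLinearGroup (Fin n) F))
    (g : Matrix.SpecialLinearGroup (Fin n) F)
    (hg : g ∈ Subgroup.normalizer (U : Set (Matrix.SpecialLinearGroup (Fin n) F))) (i : ℕ) :
    ∀ v ∈ btChain U i, (g : Matrix (Fin n) (Fin n) F).mulVec v ∈ btChain U i := by
  induction i with
  | zero =>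
    intro v hv
    have : v = 0 := (Submodule.mem_bot F).1 hv
    rw [this, Matrix.mulVec_zero]
    exact Submodule.zero_mem _
  | succ i ih =>
    intro v hv
    show _ ∈ btStep U (btChain U i)
    rw [mem_btStep]
    intro u hu
    have hv' : v ∈ btStep U (btChain U i) := hv
    rw [mem_btStep] at hv'
    have hu' : g⁻¹ * u * g ∈ U := by
      have := (Subgroup.mem_normalizer_iff.1 (inv_mem hg) u).1 hu
      rwa [inv_inv] at this
    have h1 := ih _ (hv' _ hu')
    have h2 : (g : Matrix (Fin n) (Fin n) F).mulVec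
        (((g⁻¹ * u * g : Matrix.SpecialLinearGroup (Fin n) F) : Matrix (Fin n) (Fin n) F).mulVec v
          - v) =
        (u : Matrix (Fin n) (Fin n) F).mulVec ((g : Matrix (Fin n) (Fin n) F).mulVec v) -
          (g : Matrix (Fin n) (Fin n) F).mulVec v := by
      have hgg : g * (g⁻¹ * u * g) = u * g := by group
      rw [Matrix.mulVec_sub, Matrix.mulVec_mulVec, ← Matrix.SpecialLinearGroup.coe_mul, hgg,
        Matrix.SpecialLinearGroup.coe_mul, ← Matrix.mulVec_mulVec]
    rw [← h2]
    exact h1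

theorem btStep_strict [Fintype F] (p : ℕ) [Fact p.Prime] [CharP F p]
    (U : Subgroup (Matrix.SpecialLinearGroup (Fin n) F)) (hU : IsPGroup p ↥U)
    (W : Submodule F (Fin n → F)) (hW : W ≠ ⊤)
    (hinv : ∀ u ∈ U, ∀ v ∈ W, (u : Matrix (Fin n) (Fin n) F).mulVec v ∈ W) :
    ∃ v, v ∉ W ∧ v ∈ btStep U W := by
  classical
  have hcomap : ∀ u : U,
      W ≤ Submodule.comap (Matrix.mulVecLin (u.1 : Matrix (Fin n) (Fin n) F)) W := by
    intro u v hv
    exact hinv u.1 u.2 v hv
  let ρ : U →* Module.End F ((Fin n → F) ⧸ W) :=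
    { toFun := fun u => W.mapQ W (Matrix.mulVecLin (u.1 : Matrix (Fin n) (Fin n) F)) (hcomap u)
      map_one' := by
        apply LinearMap.ext
        intro x
        obtain ⟨v, rfl⟩ := Submodule.Quotient.mk_surjective W x
        rw [Submodule.mapQ_apply]
        simp
      map_mul' := fun u u' => by
        apply LinearMap.ext
        intro x
        obtain ⟨v, rfl⟩ := Submodule.Quotient.mk_surjective W x
        rw [Module.End.mul_apply, Submodule.mapQ_apply, Submodule.mapQ_apply,
          Submodule.mapQ_apply]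
        congr 1
        simp [Matrix.mulVec_mulVec] }
  letI : MulAction U ((Fin n → F) ⧸ W) := MulAction.compHom _ ρ
  haveI : Nontrivial ((Fin n → F) ⧸ W) := Submodule.Quotient.nontrivial_iff.2 hW
  haveI : Finite ((Fin n → F) ⧸ W) := Module.finite_of_finite F
  have hp : p ∣ Nat.card ((Fin n → F) ⧸ W) := by
    rw [Module.natCard_eq_pow_finrank (K := F)]
    have h1 : p ∣ Nat.card F := by
      rw [Nat.card_eq_fintype_card, ← CharP.cast_eq_zero_iff F p]
      exact Nat.cast_card_eq_zero F
    have h2 : 0 < Module.finrank F ((Fin n → F) ⧸ W) := Module.finrank_pos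
    exact dvd_trans h1 (dvd_pow_self _ h2.ne')
  have h0 : (0 : (Fin n → F) ⧸ W) ∈ MulAction.fixedPoints U ((Fin n → F) ⧸ W) := by
    rw [MulAction.mem_fixedPoints]
    intro u
    show ρ u 0 = 0
    exact map_zero _
  obtain ⟨b, hb, hb0⟩ := hU.exists_fixed_point_of_prime_dvd_card_of_fixed_point _ hp h0
  obtain ⟨v, rfl⟩ := Submodule.Quotient.mk_surjective W b
  refine ⟨v, ?_, ?_⟩
  · intro hv
    exact hb0 ((Submodule.Quotient.mk_eq_zero W).2 hv).symm
  · rw [mem_btStep]
    intro u hu
    rw [MulAction.mem_fixedPoints] at hb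
    have h1 := hb ⟨u, hu⟩
    have h2 : ρ ⟨u, hu⟩ (Submodule.Quotient.mk v) = Submodule.Quotient.mk v := h1
    have h3 : ρ ⟨u, hu⟩ (Submodule.Quotient.mk v) =
        Submodule.Quotient.mk ((u : Matrix (Fin n) (Fin n) F).mulVec v) := rfl
    rw [h3, Submodule.Quotient.eq] at h2
    exact h2

theorem borel_tits_flag [Fintype F] (p : ℕ) [Fact p.Prime] [CharP F p]
    (U : Subgroup (Matrix.SpecialLinearGroup (Fin n) F)) (hU : IsPGroup p ↥U) (hne : U ≠ ⊥) :
    ∃ (k : ℕ) (V : Fin (k + 2) → Submodule F (Fin n → F)), 1 ≤ k ∧ StrictMono V ∧ V 0 = ⊥ ∧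
      V (Fin.last (k + 1)) = ⊤ ∧
      (∀ g ∈ Subgroup.normalizer (U : Set (Matrix.SpecialLinearGroup (Fin n) F)), ∀ i,
        (V i).map (Matrix.mulVecLin (g : Matrix (Fin n) (Fin n) F)) = V i) ∧
      (∀ u ∈ U, ∀ i : Fin (k + 1), ∀ v ∈ V i.succ,
        (u : Matrix (Fin n) (Fin n) F).mulVec v - v ∈ V (Fin.castSucc i)) := by
  classical
  have hstrict : ∀ i, btChain U i ≠ ⊤ → btChain U i < btChain U (i + 1) := by
    intro i hi
    obtain ⟨v, hv1, hv2⟩ := btStep_strict p U hU (btChain U i) hi (btChain_inv U i)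
    refine lt_of_le_of_ne (btChain_le_succ U i) (fun h => hv1 ?_)
    rw [h]
    exact hv2
  have hterm : ∃ N, btChain U N = ⊤ := by
    by_contra hcon
    push Not at hcon
    have hfr : ∀ i, i ≤ Module.finrank F (btChain U i) := by
      intro i
      induction i with
      | zero => exact Nat.zero_le _
      | succ i ih =>
        have := Submodule.finrank_lt_finrank_of_lt (hstrict i (hcon i))
        omega
    have h1 := hfr (n + 1)
    have h2 := Submodule.finrank_le (btChain U (n + 1))
    rw [Module.finrank_fintype_fun_eq_card, Fintype.card_fin] at h2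
    omega
  obtain ⟨N, hN, hmin⟩ : ∃ N, btChain U N = ⊤ ∧ ∀ i < N, btChain U i ≠ ⊤ :=
    ⟨Nat.find hterm, Nat.find_spec hterm, fun i hi => Nat.find_min hterm hi⟩
  have hn0 : n ≠ 0 := by
    rintro rfl
    apply hne
    rw [Subgroup.eq_bot_iff_forall]
    intro x _
    apply Subtype.ext
    ext i
    exact i.elim0
  have hN0 : N ≠ 0 := by
    rintro rfl
    haveI : NeZero n := ⟨hn0⟩
    have h1 : (⊥ : Submodule F (Fin n → F)) = ⊤ := hN
    have h2 : (Pi.single 0 1 : Fin n → F) ∈ (⊤ : Submodule F (Fin n → F)) := Submodule.mem_top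
    rw [← h1, Submodule.mem_bot] at h2
    have := congrFun h2 0
    simp at this
  have hN1 : N ≠ 1 := by
    rintro rfl
    apply hne
    rw [Subgroup.eq_bot_iff_forall]
    intro u hu
    apply Subtype.ext
    apply Matrix.toLin'.injective
    apply LinearMap.ext
    intro v
    have hv : v ∈ btChain U 1 := by
      rw [hN]
      exact Submodule.mem_top
    have hv' : v ∈ btStep U ⊥ := hv
    rw [mem_btStep] at hv'
    have := hv' u hu
    rw [Submodule.mem_bot, sub_eq_zero] at this
    rw [Matrix.toLin'_apply, this]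
    simp
  obtain ⟨k, rfl⟩ : ∃ k, N = k + 1 := ⟨N - 1, by omega⟩
  refine ⟨k, fun i => btChain U i, by omega, ?_, rfl, hN, ?_, ?_⟩
  · rw [Fin.strictMono_iff_lt_succ]
    intro i
    show btChain U (i : ℕ) < btChain U ((i : ℕ) + 1)
    exact hstrict _ (hmin _ i.2)
  · intro g hg i
    apply le_antisymm
    · rintro _ ⟨v, hv, rfl⟩
      exact btChain_normalizer U g hg _ v hv
    · intro v hv
      refine ⟨(g⁻¹ : Matrix.SpecialLinearGroup (Fin n) F).1.mulVec v,
        btChain_normalizer U g⁻¹ (inv_mem hg) _ v hv, ?_⟩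
      rw [Matrix.mulVecLin_apply, Matrix.mulVec_mulVec]
      have : (g : Matrix (Fin n) (Fin n) F) * (g⁻¹ : Matrix.SpecialLinearGroup (Fin n) F).1 = 1 := by
        rw [← Matrix.SpecialLinearGroup.coe_mul, mul_inv_cancel, Matrix.SpecialLinearGroup.coe_one]
      rw [this, Matrix.one_mulVec]
  · intro u hu i v hv
    have hv' : v ∈ btStep U (btChain U (i : ℕ)) := hv
    rw [mem_btStep] at hv'
    exact hv' u hu

end

end Cfsg.Agent.Lib.Helper4
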