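import Mathlib

set_option autoImplicit false

namespace Cfsg.Agent.Lib.Helper4

/-- Gram determinant of a bilinear function given by a matrix `J`, in any basis: a nonzero square
times `det J`. -/
theorem gram_det_of_matrix {F : Type*} [Field F] {n : Type*} [Fintype n] [DecidableEq n]
    {ι : Type*} [Fintype ι] [DecidableEq ι] (J : Matrix n n F)
    (b : Module.Basis ι F (n → F)) :
    ∃ d : F, d ≠ 0 ∧
      (Matrix.of (fun i j : ι => (b i) ⬝ᵥ (J.mulVec (b j)))).det = d ^ 2 * J.det := by
  classical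
  have e : ι ≃ n := b.indexEquiv (Pi.basisFun F n)
  set A : Matrix n n F := Matrix.of (fun k l => b (e.symm k) l) with hA
  have hAunit : IsUnit A := by
    rw [← Matrix.linearIndependent_rows_iff_isUnit]
    have h1 : LinearIndependent F (fun k : n => b (e.symm k)) :=
      b.linearIndependent.comp _ e.symm.injective
    exact h1
  have hdet : A.det ≠ 0 := by
    have := (Matrix.isUnit_iff_isUnit_det A).1 hAunit
    exact this.ne_zero
  refine ⟨A.det, hdet, ?_⟩
  have h2 : (Matrix.of (fun i j : ι => (b i) ⬝ᵥ (J.mulVec (b j)))).det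
      = ((Matrix.of (fun i j : ι => (b i) ⬝ᵥ (J.mulVec (b j)))).submatrix e.symm e.symm).det := by
    rw [Matrix.det_submatrix_equiv_self]
  rw [h2]
  have h3 : (Matrix.of (fun i j : ι => (b i) ⬝ᵥ (J.mulVec (b j)))).submatrix e.symm e.symm
      = A * J * A.transpose := by
    ext k l
    simp only [Matrix.submatrix_apply, Matrix.of_apply, Matrix.mul_apply, Matrix.transpose_apply,
      dotProduct, Matrix.mulVec, hA, Finset.sum_mul, Finset.mul_sum]
    rw [Finset.sum_comm]
    refine Finset.sum_congr rfl fun x _ => Finset.sum_congr rfl fun y _ => ?_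
    ring
  rw [h3, Matrix.det_mul, Matrix.det_mul, Matrix.det_transpose]
  ring

/-- determinant of the hyperbolic Gram matrix -/
theorem det_hyp (F : Type*) [Field F] (m : ℕ) :
    (Matrix.fromBlocks (0 : Matrix (Fin m) (Fin m) F) (1 : Matrix (Fin m) (Fin m) F)
      (1 : Matrix (Fin m) (Fin m) F) (0 : Matrix (Fin m) (Fin m) F)).det = (-1) ^ m := by
  have h1 : (Matrix.fromBlocks (0 : Matrix (Fin m) (Fin m) F) (1 : Matrix (Fin m) (Fin m) F)
      (1 : Matrix (Fin m) (Fin m) F) (0 : Matrix (Fin m) (Fin m) F))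
      * (Matrix.fromBlocks (1 : Matrix (Fin m) (Fin m) F) (0 : Matrix (Fin m) (Fin m) F)
        (1 : Matrix (Fin m) (Fin m) F) (1 : Matrix (Fin m) (Fin m) F))
      = Matrix.fromBlocks (1 : Matrix (Fin m) (Fin m) F) (1 : Matrix (Fin m) (Fin m) F)
        (1 : Matrix (Fin m) (Fin m) F) (0 : Matrix (Fin m) (Fin m) F) := by
    rw [Matrix.fromBlocks_multiply]
    simp
  have h2 := congrArg Matrix.det h1
  rw [Matrix.det_mul, Matrix.det_fromBlocks_zero₁₂, Matrix.det_fromBlocks_one₁₁] at h2
  simp only [Matrix.det_one, mul_one, Matrix.mul_one, zero_sub, Matrix.det_neg,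
    Fintype.card_fin] at h2
  exact h2

/-- In a finite field of odd order `q`: `(-1)^m` is a square iff `m (q-1)/2` is even. -/
theorem isSquare_neg_one_pow_iff {F : Type*} [Field F] [Fintype F] {q : ℕ}
    (hF : Fintype.card F = q) (hq : Odd q) (m : ℕ) :
    IsSquare ((-1 : F) ^ m) ↔ Even (m * (q - 1) / 2) := by
  obtain ⟨k, hk⟩ := hq
  have hq1 : m * (q - 1) / 2 = m * k := by
    rw [hk]
    have : m * (2 * k + 1 - 1) = 2 * (m * k) := by
      simp only [Nat.add_sub_cancel]; ring
    rw [this]; simp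
  rw [hq1]
  have hneg : IsSquare (-1 : F) ↔ Even k := by
    rw [FiniteField.isSquare_neg_one_iff, hF, hk]
    constructor
    · intro h
      rcases Nat.even_or_odd k with he | ho
      · exact he
      · exfalso
        obtain ⟨j, hj⟩ := ho
        apply h
        omega
    · rintro ⟨j, hj⟩
      omega
  rcases Nat.even_or_odd m with he | ho
  · have : ((-1 : F)) ^ m = 1 := he.neg_one_pow
    rw [this]
    simp only [IsSquare.one, true_iff]
    exact he.mul_right k
  · have : ((-1 : F)) ^ m = -1 := ho.neg_one_pow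
    rw [this, hneg]
    constructor
    · intro h; exact h.mul_left m
    · intro h
      rcases (Nat.even_mul.1 h) with h' | h'
      · exact absurd h' (Nat.not_even_iff_odd.2 ho)
      · exact h'

theorem isSquare_sq_mul_iff {F : Type*} [Field F] {d x : F} (hd : d ≠ 0) :
    IsSquare (d ^ 2 * x) ↔ IsSquare x := by
  constructor
  · rintro ⟨r, hr⟩
    refine ⟨r / d, ?_⟩
    field_simp
    rw [mul_comm, hr]; ring
  · rintro ⟨r, hr⟩
    exact ⟨d * r, by rw [hr]; ring⟩

end Cfsg.Agent.Lib.Helper4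

namespace Cfsg.Agent.Lib.Helper4

theorem two_ne_zero_of_odd_card {F : Type*} [Field F] [Fintype F]
    (hq : Odd (Fintype.card F)) : (2 : F) ≠ 0 := by
  apply Ring.two_ne_zero
  intro h
  have := FiniteField.even_card_of_char_two h
  rcases hq with ⟨k, hk⟩
  omega

theorem isSquare_mul_nonsquare_iff {F : Type*} [Field F] [Fintype F] [DecidableEq F] {x N : F}
    (hx : x ≠ 0) (hN : ¬ IsSquare N) : IsSquare (x * N) ↔ ¬ IsSquare x := by
  have hN0 : N ≠ 0 := by
    rintro rfl; exact hN ⟨0, by simp⟩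
  have h1 := quadraticChar_neg_one_iff_not_isSquare (F := F) (a := N)
  have h2 := h1.2 hN
  rw [← quadraticChar_one_iff_isSquare (mul_ne_zero hx hN0), map_mul, h2,
    ← quadraticChar_neg_one_iff_not_isSquare]
  constructor
  · intro h; linarith
  · intro h; rw [h]; norm_num

/-- anisotropy of `z₁² + a z₁ z₂ + c z₂²` forces the discriminant `a² - 4c` to be a nonsquare. -/
theorem disc_nonsquare {F : Type*} [Field F] (h2 : (2 : F) ≠ 0) (a c : F)
    (hac : ∀ z₁ z₂ : F, z₁ ^ 2 + a * z₁ * z₂ + c * z₂ ^ 2 = 0 → z₁ = 0 ∧ z₂ = 0) :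
    ¬ IsSquare (a ^ 2 - 4 * c) := by
  rintro ⟨s, hs⟩
  have := hac ((-a + s) / 2) 1 (by
    field_simp
    linear_combination (-1 : F) * hs)
  exact one_ne_zero this.2

theorem det_ell (F : Type*) [Field F] (k : ℕ) (a c : F) :
    (Matrix.fromBlocks
      (Matrix.fromBlocks (0 : Matrix (Fin k) (Fin k) F) (1 : Matrix (Fin k) (Fin k) F)
        (1 : Matrix (Fin k) (Fin k) F) (0 : Matrix (Fin k) (Fin k) F))
      (0 : Matrix (Fin k ⊕ Fin k) (Fin 2) F) (0 : Matrix (Fin 2) (Fin k ⊕ Fin k) F)
      (!![2, a; a, 2 * c] : Matrix (Fin 2) (Fin 2) F)).det = (-1) ^ (k + 1) * (a ^ 2 - 4 * c) := by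
  rw [Matrix.det_fromBlocks_zero₁₂, det_hyp, Matrix.det_fin_two_of]
  ring

end Cfsg.Agent.Lib.Helper4
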