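import Mathlib

set_option autoImplicit false

namespace Cfsg.Agent.Lib.Helper4

universe u

section

variable {F : Type u} [Field F]

/-- membership in the fixed field of the cyclic group generated by `σ` -/
theorem mem_fixed_zpowers (σ : F ≃+* F) (a : F) :
    a ∈ FixedPoints.subfield (Subgroup.zpowers (σ : RingAut F)) F ↔ σ a = a := by
  constructor
  · intro h
    exact h ⟨σ, Subgroup.mem_zpowers σ⟩
  · intro h g
    have h1 : Subgroup.zpowers (σ : RingAut F) ≤ MulAction.stabilizer (RingAut F) a := by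
      rw [Subgroup.zpowers_le]
      exact h
    exact h1 g.2

theorem card_fixed_field [Fintype F] (σ : F ≃+* F) {q₀ r : ℕ} (hr : 0 < r)
    (hF : Fintype.card F = q₀ ^ r) (hσ : orderOf σ = r) :
    Nat.card (FixedPoints.subfield (Subgroup.zpowers (σ : RingAut F)) F) = q₀ := by
  classical
  have hcard : Nat.card (Subgroup.zpowers (σ : RingAut F)) = r := by
    rw [Nat.card_zpowers, hσ]
  haveI : Finite (Subgroup.zpowers (σ : RingAut F)) := Nat.finite_of_card_ne_zero (by omega)
  haveI : Fintype (Subgroup.zpowers (σ : RingAut F)) := Fintype.ofFinite _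
  have h1 := FixedPoints.finrank_eq_card (Subgroup.zpowers (σ : RingAut F)) F
  rw [← Nat.card_eq_fintype_card, hcard] at h1
  have h2 : Nat.card F =
      Nat.card (FixedPoints.subfield (Subgroup.zpowers (σ : RingAut F)) F) ^ r := by
    rw [Module.natCard_eq_pow_finrank
      (K := FixedPoints.subfield (Subgroup.zpowers (σ : RingAut F)) F) (V := F), h1]
  rw [Nat.card_eq_fintype_card, hF] at h2
  exact (Nat.pow_left_injective hr.ne' h2).symm

theorem aut_pow_of_semi (σ : F ≃+* F) (c a : F) (h : σ a = c * a) (k : ℕ) :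
    (σ ^ k) a = (∏ i ∈ Finset.range k, (σ ^ i) c) * a := by
  induction k with
  | zero => simp
  | succ k ih =>
    have h1 : (σ ^ (k + 1)) a = (σ ^ k) (σ a) := by
      rw [pow_succ]
      rfl
    rw [h1, h, map_mul, ih, Finset.prod_range_succ]
    ring

theorem norm_eq_one_of_semi (σ : F ≃+* F) {r : ℕ} (hσ : orderOf σ = r) (c a : F) (ha : a ≠ 0)
    (h : σ a = c * a) : ∏ i ∈ Finset.range r, (σ ^ i) c = 1 := by
  subst hσ
  have h1 := aut_pow_of_semi σ c a h (orderOf σ)
  rw [pow_orderOf_eq_one] at h1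
  have h2 : (1 : F ≃+* F) a = a := rfl
  rw [h2] at h1
  exact mul_right_cancel₀ ha (h1.symm.trans (one_mul a).symm)

theorem hilbert90_aut (σ : F ≃+* F) {r : ℕ} (hr : 0 < r) (hσ : orderOf σ = r) (c : F)
    (hN : ∏ i ∈ Finset.range r, (σ ^ i) c = 1) : ∃ d : F, d ≠ 0 ∧ c * σ d = d := by
  classical
  obtain ⟨b, hb⟩ : ∃ b : ℕ → F, ∀ i, b i = ∏ j ∈ Finset.range i, (σ ^ j) c :=
    ⟨_, fun _ => rfl⟩
  have hb0 : b 0 = 1 := by
    rw [hb]
    simp
  have hbr : b r = 1 := by rw [hb, hN]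
  have hbs : ∀ i, c * σ (b i) = b (i + 1) := by
    intro i
    rw [hb, hb, map_prod, Finset.prod_range_succ', mul_comm]
    congr 1
    refine Finset.prod_congr rfl fun j _ => ?_
    rw [pow_succ']
    rfl
  have hD : ∀ z, c * σ (∑ i ∈ Finset.range r, b i * (σ ^ i) z) =
      ∑ i ∈ Finset.range r, b i * (σ ^ i) z := by
    intro z
    rw [map_sum, Finset.mul_sum]
    have h1 : ∀ i ∈ Finset.range r, c * σ (b i * (σ ^ i) z) = b (i + 1) * (σ ^ (i + 1)) z := by
      intro i _
      rw [map_mul, ← mul_assoc, hbs, pow_succ']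
      rfl
    rw [Finset.sum_congr rfl h1]
    have h2 : ∑ i ∈ Finset.range (r + 1), b i * (σ ^ i) z =
        ∑ i ∈ Finset.range r, b (i + 1) * (σ ^ (i + 1)) z + b 0 * (σ ^ 0) z :=
      Finset.sum_range_succ' (fun i => b i * (σ ^ i) z) r
    have h3 : ∑ i ∈ Finset.range (r + 1), b i * (σ ^ i) z =
        ∑ i ∈ Finset.range r, b i * (σ ^ i) z + b r * (σ ^ r) z :=
      Finset.sum_range_succ (fun i => b i * (σ ^ i) z) r
    have h4 : b r * (σ ^ r) z = b 0 * (σ ^ 0) z := by
      rw [hbr, hb0, ← hσ, pow_orderOf_eq_one, pow_zero]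
    rw [h3, h4] at h2
    exact (add_right_cancel h2).symm
  obtain ⟨z, hz⟩ : ∃ z, ∑ i ∈ Finset.range r, b i * (σ ^ i) z ≠ 0 := by
    by_contra hcon
    push Not at hcon
    have hli := linearIndependent_monoidHom F F
    have hinj : Function.Injective
        (fun i : Fin r => (((σ ^ (i : ℕ) : F ≃+* F) : F →+* F) : F →* F)) := by
      intro i j hij
      have h1 : σ ^ (i : ℕ) = σ ^ (j : ℕ) := by
        ext x
        exact congrArg (fun f : F →* F => f x) hij
      apply Fin.ext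
      exact pow_injOn_Iio_orderOf (by rw [hσ]; exact i.2) (by rw [hσ]; exact j.2) h1
    have hli' := hli.comp _ hinj
    rw [Fintype.linearIndependent_iff] at hli'
    have h5 := hli' (fun i => b i) (by
      funext z
      simp only [Function.comp, Finset.sum_apply, Pi.smul_apply, smul_eq_mul, Pi.zero_apply]
      have h6 := hcon z
      rw [← Fin.sum_univ_eq_sum_range (fun i => b i * (σ ^ i) z) r] at h6
      exact h6) ⟨0, hr⟩
    simp only at h5
    rw [hb0] at h5
    exact one_ne_zero h5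
  exact ⟨_, hz, hD z⟩

theorem card_gl_fixed [Fintype F] (n : ℕ) (σ : F ≃+* F) (F₀ : Subfield F)
    (h₀ : ∀ a, a ∈ F₀ ↔ σ a = a) :
    Nat.card {g : GL (Fin n) F // (g : Matrix (Fin n) (Fin n) F).map σ = g} =
      ∏ i : Fin n, (Nat.card F₀ ^ n - Nat.card F₀ ^ (i : ℕ)) := by
  classical
  haveI : Fintype F₀ := Fintype.ofFinite _
  rw [Nat.card_eq_fintype_card (α := F₀), ← Matrix.card_GL_field]
  symm
  apply Nat.card_congr
  refine Equiv.ofBijective (fun g => ⟨Matrix.GeneralLinearGroup.map F₀.subtype g, ?_⟩) ⟨?_, ?_⟩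
  · ext i j
    simp only [Matrix.map_apply]
    exact (h₀ _).1 (g.1 i j).2
  · intro g g' h
    have h1 : Matrix.GeneralLinearGroup.map F₀.subtype g =
        Matrix.GeneralLinearGroup.map F₀.subtype g' := congrArg Subtype.val h
    apply Units.ext
    ext i j
    have h2 : (Matrix.GeneralLinearGroup.map F₀.subtype g : GL (Fin n) F).1 i j =
        (Matrix.GeneralLinearGroup.map F₀.subtype g' : GL (Fin n) F).1 i j := by rw [h1]
    exact h2
  · rintro ⟨g, hg⟩
    have hmem : ∀ i j, g.1 i j ∈ F₀ := fun i j => (h₀ _).2 (by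
      have := congrFun (congrFun hg i) j
      simpa using this)
    let M₀ : Matrix (Fin n) (Fin n) F₀ := fun i j => ⟨g.1 i j, hmem i j⟩
    have hM₀ : F₀.subtype.mapMatrix M₀ = g.1 := by
      ext i j
      rfl
    have hdet : M₀.det ≠ 0 := by
      intro h
      have h1 := RingHom.map_det F₀.subtype M₀
      rw [h, map_zero, hM₀] at h1
      exact ((Matrix.isUnit_iff_isUnit_det g.1).1 g.isUnit).ne_zero h1.symm
    refine ⟨Matrix.GeneralLinearGroup.mkOfDetNeZero M₀ hdet, ?_⟩
    apply Subtype.ext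
    apply Units.ext
    exact hM₀

theorem field_aut_fixed_cosets_card [Fintype F] {q₀ r n : ℕ} (hr : 0 < r) (hn : 1 ≤ n)
    (hF : Fintype.card F = q₀ ^ r) (σ : F ≃+* F) (hσ : orderOf σ = r) :
    Nat.card {g : GL (Fin n) F // ∃ c : F, c ≠ 0 ∧
        (g : Matrix (Fin n) (Fin n) F).map σ = c • (g : Matrix (Fin n) (Fin n) F)} =
      (q₀ ^ r - 1) / (q₀ - 1) * ∏ i : Fin n, (q₀ ^ n - q₀ ^ (i : ℕ)) := by
  classical
  haveI : NeZero n := ⟨by omega⟩
  obtain ⟨F₀, hF₀⟩ : ∃ F₀ : Subfield F,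
      F₀ = FixedPoints.subfield (Subgroup.zpowers (σ : RingAut F)) F := ⟨_, rfl⟩
  have h₀ : ∀ a, a ∈ F₀ ↔ σ a = a := by
    intro a
    rw [hF₀]
    exact mem_fixed_zpowers σ a
  have hcF₀ : Nat.card F₀ = q₀ := by
    rw [hF₀]
    exact card_fixed_field σ hr hF hσ
  have hq₀ : 2 ≤ q₀ := by
    rw [← hcF₀]
    haveI : Fintype F₀ := Fintype.ofFinite _
    rw [Nat.card_eq_fintype_card]
    exact Fintype.one_lt_card
  have hσne : ∀ a : F, a ≠ 0 → σ a ≠ 0 := by
    intro a ha h
    exact ha ((map_eq_zero σ).1 h)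
  let δ : Fˣ →* Fˣ :=
    { toFun := fun d => d / Units.map (σ : F →* F) d
      map_one' := by simp
      map_mul' := fun a b => by
        rw [map_mul]
        exact mul_div_mul_comm _ _ _ _ }
  have hδ : ∀ d : Fˣ, ((δ d : Fˣ) : F) = d.1 / σ d.1 := by
    intro d
    show ((d / Units.map (σ : F →* F) d : Fˣ) : F) = _
    rw [Units.val_div_eq_div_val]
    rfl
  have hker : Nat.card δ.ker = q₀ - 1 := by
    rw [← hcF₀, ← Nat.card_units]
    symm
    apply Nat.card_congr
    refine Equiv.ofBijective (fun u => ⟨Units.map (F₀.subtype : F₀ →* F) u, ?_⟩) ⟨?_, ?_⟩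
    · rw [MonoidHom.mem_ker]
      apply Units.ext
      rw [hδ]
      have h1 : σ (u.1 : F) = u.1 := (h₀ _).1 u.1.2
      have h2 : ((Units.map (F₀.subtype : F₀ →* F) u : Fˣ) : F) = (u.1 : F) := rfl
      rw [h2, h1]
      have h3 : (u.1 : F) ≠ 0 := fun h => u.ne_zero (Subtype.ext h)
      rw [div_self h3]
      rfl
    · intro u u' h
      have h1 := congrArg (fun x => ((x.1 : Fˣ) : F)) h
      exact Units.ext (Subtype.ext h1)
    · rintro ⟨d, hd⟩
      rw [MonoidHom.mem_ker] at hd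
      have h1 : σ d.1 = d.1 := by
        have h2 := congrArg Units.val hd
        rw [hδ] at h2
        have hne : σ d.1 ≠ 0 := hσne _ d.ne_zero
        have h3 : (d.1 : F) / σ d.1 = 1 := h2
        rw [div_eq_one_iff_eq hne] at h3
        exact h3.symm
      refine ⟨Units.mk0 ⟨d.1, (h₀ _).2 h1⟩ (by
        intro h
        exact d.ne_zero (congrArg Subtype.val h)), ?_⟩
      apply Subtype.ext
      apply Units.ext
      rfl
  have hrange : Nat.card δ.range = (q₀ ^ r - 1) / (q₀ - 1) := by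
    have h1 := Subgroup.card_eq_card_quotient_mul_card_subgroup δ.ker
    rw [Nat.card_congr (QuotientGroup.quotientKerEquivRange δ).toEquiv, hker, Nat.card_units,
      Nat.card_eq_fintype_card, hF] at h1
    exact (Nat.div_eq_of_eq_mul_left (by omega) h1).symm
  rw [← hrange, ← hcF₀, ← card_gl_fixed n σ F₀ h₀, ← Nat.card_prod]
  symm
  apply Nat.card_congr
  let sc : Fˣ →* GL (Fin n) F :=
    Units.map (algebraMap F (Matrix (Fin n) (Fin n) F)).toMonoidHom
  have hsc : ∀ (d : Fˣ) (g : GL (Fin n) F),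
      ((sc d * g : GL (Fin n) F) : Matrix (Fin n) (Fin n) F) = d.1 • g.1 := by
    intro d g
    show algebraMap F (Matrix (Fin n) (Fin n) F) d.1 * g.1 = _
    rw [Algebra.smul_def]
  have hsemi : ∀ (d : Fˣ) (h : GL (Fin n) F), (h : Matrix (Fin n) (Fin n) F).map σ = h.1 →
      ((sc d⁻¹ * h : GL (Fin n) F) : Matrix (Fin n) (Fin n) F).map σ =
        ((δ d : Fˣ) : F) • ((sc d⁻¹ * h : GL (Fin n) F) : Matrix (Fin n) (Fin n) F) := by
    intro d h hh
    rw [hsc, hδ]
    ext i j
    simp only [Matrix.map_apply, Matrix.smul_apply, smul_eq_mul, map_mul]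
    have h1 := congrFun (congrFun hh i) j
    simp only [Matrix.map_apply] at h1
    rw [h1]
    have hd : d.1 ≠ 0 := d.ne_zero
    have hσd : σ d.1 ≠ 0 := hσne _ hd
    rw [Units.val_inv_eq_inv_val, map_inv₀]
    field_simp
  refine Equiv.ofBijective
    (fun x => ⟨sc (x.1.2.choose)⁻¹ * x.2.1, ⟨(x.1.1 : F), x.1.1.ne_zero, ?_⟩⟩) ⟨?_, ?_⟩
  · have := hsemi x.1.2.choose x.2.1 x.2.2
    rw [x.1.2.choose_spec] at this
    exact this
  · rintro ⟨⟨c, hc⟩, ⟨h, hh⟩⟩ ⟨⟨c', hc'⟩, ⟨h', hh'⟩⟩ heq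
    have h1 : sc (hc.choose)⁻¹ * h = sc (hc'.choose)⁻¹ * h' := congrArg Subtype.val heq
    have h2 := hsemi hc.choose h hh
    have h3 := hsemi hc'.choose h' hh'
    rw [hc.choose_spec] at h2
    rw [hc'.choose_spec, ← h1, h2] at h3
    have hg0 : ((sc (hc.choose)⁻¹ * h : GL (Fin n) F) : Matrix (Fin n) (Fin n) F) ≠ 0 :=
      Units.ne_zero _
    have hcc : (c : F) = c' := by
      have h4 : ((c : F) - c') •
          ((sc (hc.choose)⁻¹ * h : GL (Fin n) F) : Matrix (Fin n) (Fin n) F) = 0 := by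
        rw [sub_smul, h3, sub_self]
      rcases smul_eq_zero.1 h4 with h5 | h5
      · exact sub_eq_zero.1 h5
      · exact absurd h5 hg0
    have hcc' : c = c' := Units.ext hcc
    subst hcc'
    have : h = h' := mul_left_cancel h1
    subst this
    rfl
  · rintro ⟨g, c, hc0, hg⟩
    have hg0 : (g : Matrix (Fin n) (Fin n) F) ≠ 0 := Units.ne_zero g
    obtain ⟨i, j, hij⟩ : ∃ i j, g.1 i j ≠ 0 := by
      by_contra hcon
      push Not at hcon
      exact hg0 (Matrix.ext hcon)
    have hN := norm_eq_one_of_semi σ hσ c (g.1 i j) hij (by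
      have := congrFun (congrFun hg i) j
      simpa using this)
    obtain ⟨d, hd0, hd⟩ := hilbert90_aut σ hr hσ c hN
    have hcr : Units.mk0 c hc0 ∈ δ.range := ⟨Units.mk0 d hd0, by
      apply Units.ext
      rw [hδ]
      simp only [Units.val_mk0]
      have : σ d ≠ 0 := hσne _ hd0
      rw [div_eq_iff this]
      exact hd.symm⟩
    obtain ⟨d', hd'⟩ : ∃ d', d' = hcr.choose := ⟨_, rfl⟩
    have hd'spec : δ d' = Units.mk0 c hc0 := by
      rw [hd']
      exact hcr.choose_spec
    have hfix : ((sc d' * g : GL (Fin n) F) : Matrix (Fin n) (Fin n) F).map σ =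
        (sc d' * g : GL (Fin n) F).1 := by
      rw [hsc]
      ext i j
      simp only [Matrix.map_apply, Matrix.smul_apply, smul_eq_mul, map_mul]
      have h1 := congrFun (congrFun hg i) j
      simp only [Matrix.map_apply, Matrix.smul_apply, smul_eq_mul] at h1
      rw [h1]
      have h2 := congrArg Units.val hd'spec
      rw [hδ] at h2
      simp only [Units.val_mk0] at h2
      rw [← h2]
      have : σ d'.1 ≠ 0 := hσne _ d'.ne_zero
      field_simp
    refine ⟨(⟨Units.mk0 c hc0, hcr⟩, ⟨sc d' * g, hfix⟩), ?_⟩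
    apply Subtype.ext
    show sc (hcr.choose)⁻¹ * (sc d' * g) = g
    rw [← hd', ← mul_assoc, ← map_mul, inv_mul_cancel, map_one, one_mul]

end

end Cfsg.Agent.Lib.Helper4
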