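import Mathlib
import Cfsg.Agent.Lib.Helper4.SympBasis
import Cfsg.Agent.Lib.Helper4.TwoRankSp

set_option autoImplicit false

namespace Cfsg.Agent.Lib.Helper4

theorem exists_ringHom_of_card_sq {F K : Type*} [Field F] [Fintype F] [Field K] [Fintype K]
    {q : ℕ} (hF : Fintype.card F = q) (hK : Fintype.card K = q ^ 2) : Nonempty (F →+* K) := by
  obtain ⟨p, hpF⟩ := CharP.exists F
  obtain ⟨p', hpK⟩ := CharP.exists K
  obtain ⟨n, hp, hcF⟩ := FiniteField.card F p
  obtain ⟨n', hp', hcK⟩ := FiniteField.card K p'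
  have h1 : p ^ (2 * (n : ℕ)) = p' ^ (n' : ℕ) := by
    rw [← hcK, hK, ← hF, hcF, ← pow_mul, mul_comm]
  have hpp' : p = p' := by
    by_contra hne
    have h2 := Nat.coprime_pow_primes (2 * (n : ℕ)) n' hp hp' hne
    rw [h1, Nat.coprime_self] at h2
    have h3 : 1 < p' ^ (n' : ℕ) := Nat.one_lt_pow n'.pos.ne' hp'.one_lt
    omega
  subst hpp'
  haveI := fact_iff.2 hp
  letI : Algebra (ZMod p) F := ZMod.algebra _ _
  letI : Algebra (ZMod p) K := ZMod.algebra _ _
  have h4 : p ^ Module.finrank (ZMod p) F = Fintype.card F := FiniteField.pow_finrank_eq_card p F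
  have h5 : p ^ Module.finrank (ZMod p) K = Fintype.card K := FiniteField.pow_finrank_eq_card p K
  have h6 : Module.finrank (ZMod p) K = 2 * Module.finrank (ZMod p) F := by
    apply Nat.pow_right_injective hp.two_le
    show p ^ _ = p ^ _
    rw [h5, hK, ← hF, ← h4, ← pow_mul, mul_comm]
  obtain ⟨f⟩ := FiniteField.nonempty_algHom_of_finrank_dvd (F := ZMod p) (K := F) (L := K)
    (by rw [h6]; exact dvd_mul_left _ _)
  exact ⟨f.toRingHom⟩

theorem finrank_eq_two_of_card_sq {F K : Type*} [Field F] [Fintype F] [Field K] [Fintype K]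
    [Algebra F K] {q : ℕ} (hF : Fintype.card F = q) (hK : Fintype.card K = q ^ 2) :
    Module.finrank F K = 2 := by
  have h := Module.card_eq_pow_finrank (K := F) (V := K)
  rw [hK, hF] at h
  have hq : 1 < q := by
    rw [← hF]
    exact Fintype.one_lt_card
  exact (Nat.pow_right_injective hq h).symm

theorem finrank_pi_of_card_sq {F K : Type*} [Field F] [Fintype F] [Field K] [Fintype K]
    [Algebra F K] {q : ℕ} (hF : Fintype.card F = q) (hK : Fintype.card K = q ^ 2)
    (ι : Type*) [Fintype ι] : Module.finrank F (ι → K) = 2 * Fintype.card ι := by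
  rw [Module.finrank_pi_fintype]
  simp only [finrank_eq_two_of_card_sq hF hK, Finset.sum_const, Finset.card_univ, smul_eq_mul]
  ring

theorem exists_not_frob_fixed {K : Type*} [Field K] [Fintype K] {q : ℕ} (hq : 1 < q)
    (hK : Fintype.card K = q ^ 2) : ∃ z : K, z - z ^ q ≠ 0 := by
  classical
  by_contra hcon
  push Not at hcon
  have hp0 : (Polynomial.X ^ q - Polynomial.X : Polynomial K) ≠ 0 :=
    FiniteField.X_pow_card_sub_X_ne_zero K hq
  have hsub : (Finset.univ : Finset K).val ⊆ (Polynomial.X ^ q - Polynomial.X : Polynomial K).roots := by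
    intro x _
    rw [Polynomial.mem_roots hp0]
    simp only [Polynomial.IsRoot, Polynomial.eval_sub, Polynomial.eval_pow, Polynomial.eval_X]
    have := hcon x
    rw [sub_eq_zero] at this
    rw [← this, sub_self]
  have h1 := Polynomial.card_le_degree_of_subset_roots hsub
  rw [FiniteField.X_pow_card_sub_X_natDegree_eq K hq, Finset.card_univ, hK] at h1
  nlinarith

/-- The restriction of scalars of the matrix action, as a monoid homomorphism. -/
noncomputable def matRestr (F : Type*) {K : Type*} [Field F] [Field K] [Algebra F K]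
    (ι : Type*) [Fintype ι] [DecidableEq ι] :
    Matrix ι ι K →* ((ι → K) →ₗ[F] (ι → K)) where
  toFun A := (Matrix.toLin' A).restrictScalars F
  map_one' := by
    apply LinearMap.ext
    intro v
    simp
  map_mul' A B := by
    apply LinearMap.ext
    intro v
    simp [Matrix.toLin'_mul]

theorem matRestr_apply (F : Type*) {K : Type*} [Field F] [Field K] [Algebra F K]
    (ι : Type*) [Fintype ι] [DecidableEq ι] (A : Matrix ι ι K) (v : ι → K) :
    matRestr F ι A v = A.mulVec v := by
  simp [matRestr]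

theorem matRestr_injective (F : Type*) {K : Type*} [Field F] [Field K] [Algebra F K]
    (ι : Type*) [Fintype ι] [DecidableEq ι] : Function.Injective (matRestr F (K := K) ι) := by
  intro A B h
  apply Matrix.toLin'.injective
  apply LinearMap.ext
  intro v
  have := congrArg (fun f : (ι → K) →ₗ[F] (ι → K) => f v) h
  simpa [matRestr] using this

theorem sp_ext_embedding {K F : Type*} [Field K] [Fintype K] [Field F] [Fintype F] {q : ℕ}
    (hK : Fintype.card K = q ^ 2) (hF : Fintype.card F = q) (a : ℕ) :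
    ∃ φ : ↥(Matrix.symplecticGroup (Fin a) K) →* ↥(Matrix.symplecticGroup (Fin (2 * a)) F),
      Function.Injective φ := by
  classical
  obtain ⟨ι⟩ := exists_ringHom_of_card_sq hF hK
  letI : Algebra F K := ι.toAlgebra
  obtain ⟨μ, hμ⟩ : ∃ μ : K →ₗ[F] F, μ 1 ≠ 0 := by
    by_contra hcon
    push Not at hcon
    exact one_ne_zero ((Module.forall_dual_apply_eq_zero_iff F (1 : K)).1 hcon)
  let BK : (Fin a ⊕ Fin a → K) →ₗ[K] (Fin a ⊕ Fin a → K) →ₗ[K] K :=
    Matrix.toLinearMap₂' K (Matrix.J (Fin a) K)
  have hBK : ∀ u v, BK u v = Cfsg.sympForm a K u v := by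
    intro u v
    show Matrix.toLinearMap₂' K (Matrix.J (Fin a) K) u v = _
    rw [Matrix.toLinearMap₂'_apply']
    rfl
  let B : LinearMap.BilinForm F (Fin a ⊕ Fin a → K) :=
    LinearMap.mk₂ F (fun u v => μ (BK u v))
      (fun u u' v => by simp only [map_add, LinearMap.add_apply])
      (fun c u v => by
        rw [LinearMap.map_smul_of_tower, LinearMap.smul_apply, map_smul])
      (fun u v v' => by simp only [map_add])
      (fun c u v => by
        rw [LinearMap.map_smul_of_tower, map_smul])
  have hBapp : ∀ u v, B u v = μ (Cfsg.sympForm a K u v) := by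
    intro u v
    rw [← hBK]
    rfl
  have hV : Module.finrank F (Fin a ⊕ Fin a → K) = 2 * (2 * a) := by
    rw [finrank_pi_of_card_sq hF hK]
    simp
    ring
  let ψ : ↥(Matrix.symplecticGroup (Fin a) K) →*
      ((Fin a ⊕ Fin a → K) →ₗ[F] (Fin a ⊕ Fin a → K)) :=
    (matRestr F (Fin a ⊕ Fin a)).comp (Matrix.symplecticGroup (Fin a) K).subtype
  refine exists_symp_embedding B ?_ ?_ hV ψ ?_ ?_
  · intro x
    rw [hBapp, sympForm_self, map_zero]
  · intro x hx
    apply sympForm_nondeg
    intro v
    by_contra hne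
    have h1 := hx ((Cfsg.sympForm a K x v)⁻¹ • v)
    rw [hBapp] at h1
    have h2 : Cfsg.sympForm a K x ((Cfsg.sympForm a K x v)⁻¹ • v) = 1 := by
      have := sympForm_smul_smul (1 : K) (Cfsg.sympForm a K x v)⁻¹ x v
      rw [one_smul, one_mul, inv_mul_cancel₀ hne] at this
      exact this
    rw [h2] at h1
    exact hμ h1
  · intro g h hgh
    apply Subtype.ext
    exact matRestr_injective F _ hgh
  · intro g u w
    rw [hBapp, hBapp]
    show μ (Cfsg.sympForm a K (matRestr F (Fin a ⊕ Fin a) g.1 u)
      (matRestr F (Fin a ⊕ Fin a) g.1 w)) = _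
    rw [matRestr_apply, matRestr_apply, sympForm_mulVec _ g.2]

end Cfsg.Agent.Lib.Helper4
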