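import Mathlib

set_option autoImplicit false

namespace Cfsg.Agent.Lib.Helper4

variable {F : Type*} [Field F]

/-- The scalar matrix `a • 1` as an element of `GL₂`. -/
noncomputable def gl2Scal (a : Fˣ) : Matrix.GeneralLinearGroup (Fin 2) F :=
  Matrix.GeneralLinearGroup.mkOfDetNeZero !![(a : F), 0; 0, (a : F)]
    (by simp [Matrix.det_fin_two])

/-- The companion matrix of `X² - tX + d` as an element of `GL₂`. -/
noncomputable def gl2Comp (t : F) (d : Fˣ) : Matrix.GeneralLinearGroup (Fin 2) F :=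
  Matrix.GeneralLinearGroup.mkOfDetNeZero !![0, -(d : F); 1, t]
    (by simp [Matrix.det_fin_two])

theorem gl2Scal_val (a : Fˣ) :
    ((gl2Scal a : Matrix.GeneralLinearGroup (Fin 2) F) : Matrix (Fin 2) (Fin 2) F) =
      !![(a : F), 0; 0, (a : F)] := rfl

theorem gl2Comp_val (t : F) (d : Fˣ) :
    ((gl2Comp t d : Matrix.GeneralLinearGroup (Fin 2) F) : Matrix (Fin 2) (Fin 2) F) =
      !![0, -(d : F); 1, t] := rfl

theorem gl2Scal_comm (a : Fˣ) (c : Matrix.GeneralLinearGroup (Fin 2) F) :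
    c * gl2Scal a = gl2Scal a * c := by
  apply Units.ext
  rw [Units.val_mul, Units.val_mul, gl2Scal_val]
  rw [Matrix.eta_fin_two (c : Matrix (Fin 2) (Fin 2) F)]
  ext i j
  fin_cases i <;> fin_cases j <;> simp [Matrix.mul_apply, Fin.sum_univ_two, mul_comm]

theorem gl2_conj_trace_det {g h : Matrix.GeneralLinearGroup (Fin 2) F} (hc : IsConj g h) :
    Matrix.trace (g : Matrix (Fin 2) (Fin 2) F) = Matrix.trace (h : Matrix (Fin 2) (Fin 2) F) ∧
      Matrix.det (g : Matrix (Fin 2) (Fin 2) F) = Matrix.det (h : Matrix (Fin 2) (Fin 2) F) := by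
  obtain ⟨c, rfl⟩ := isConj_iff.1 hc
  have hcc : ((c⁻¹ : Matrix.GeneralLinearGroup (Fin 2) F) : Matrix (Fin 2) (Fin 2) F) *
      (c : Matrix (Fin 2) (Fin 2) F) = 1 := by
    rw [← Units.val_mul, inv_mul_cancel, Units.val_one]
  constructor
  · rw [Units.val_mul, Units.val_mul, Matrix.trace_mul_comm, ← Matrix.mul_assoc, hcc,
      Matrix.one_mul]
  · rw [Units.val_mul, Units.val_mul, Matrix.det_mul, Matrix.det_mul]
    have h1 : Matrix.det ((c⁻¹ : Matrix.GeneralLinearGroup (Fin 2) F) : Matrix (Fin 2) (Fin 2) F) *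
        Matrix.det (c : Matrix (Fin 2) (Fin 2) F) = 1 := by
      rw [← Matrix.det_mul, hcc, Matrix.det_one]
    linear_combination (-(Matrix.det (g : Matrix (Fin 2) (Fin 2) F))) * h1

/-- A non-scalar element of `GL₂` is conjugate to the companion matrix of its characteristic
polynomial. -/
theorem gl2_isConj_comp (g : Matrix.GeneralLinearGroup (Fin 2) F)
    (hns : ¬ ((g : Matrix (Fin 2) (Fin 2) F) 0 1 = 0 ∧ (g : Matrix (Fin 2) (Fin 2) F) 1 0 = 0 ∧
      (g : Matrix (Fin 2) (Fin 2) F) 0 0 = (g : Matrix (Fin 2) (Fin 2) F) 1 1)) :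
    IsConj g (gl2Comp (Matrix.trace (g : Matrix (Fin 2) (Fin 2) F))
      (Matrix.GeneralLinearGroup.det g)) := by
  obtain ⟨a, ha⟩ : ∃ a, a = (g : Matrix (Fin 2) (Fin 2) F) 0 0 := ⟨_, rfl⟩
  obtain ⟨b, hb⟩ : ∃ b, b = (g : Matrix (Fin 2) (Fin 2) F) 0 1 := ⟨_, rfl⟩
  obtain ⟨c, hc⟩ : ∃ c, c = (g : Matrix (Fin 2) (Fin 2) F) 1 0 := ⟨_, rfl⟩
  obtain ⟨d, hd⟩ : ∃ d, d = (g : Matrix (Fin 2) (Fin 2) F) 1 1 := ⟨_, rfl⟩
  have hg : (g : Matrix (Fin 2) (Fin 2) F) = !![a, b; c, d] := by
    rw [ha, hb, hc, hd]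
    exact Matrix.eta_fin_two _
  rw [← ha, ← hb, ← hc, ← hd] at hns
  have htr : Matrix.trace (g : Matrix (Fin 2) (Fin 2) F) = a + d := by
    rw [hg, Matrix.trace_fin_two]
    simp
  have hdet : ((Matrix.GeneralLinearGroup.det g : Fˣ) : F) = a * d - b * c := by
    have : ((Matrix.GeneralLinearGroup.det g : Fˣ) : F) =
        Matrix.det (g : Matrix (Fin 2) (Fin 2) F) := rfl
    rw [this, hg, Matrix.det_fin_two]
    simp
  -- it suffices to find an invertible `P` with `g * P = P * C`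
  have key : ∀ (M : Matrix (Fin 2) (Fin 2) F) (hM : M.det ≠ 0),
      (g : Matrix (Fin 2) (Fin 2) F) * M = M * !![0, -(a * d - b * c); 1, a + d] →
      IsConj g (gl2Comp (Matrix.trace (g : Matrix (Fin 2) (Fin 2) F))
        (Matrix.GeneralLinearGroup.det g)) := by
    intro M hM hP
    rw [isConj_iff]
    refine ⟨(Matrix.GeneralLinearGroup.mkOfDetNeZero M hM)⁻¹, ?_⟩
    have h1 : g * Matrix.GeneralLinearGroup.mkOfDetNeZero M hM =
        Matrix.GeneralLinearGroup.mkOfDetNeZero M hM *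
          gl2Comp (Matrix.trace (g : Matrix (Fin 2) (Fin 2) F))
            (Matrix.GeneralLinearGroup.det g) := by
      apply Units.ext
      rw [Units.val_mul, Units.val_mul, gl2Comp_val, htr, hdet]
      exact hP
    rw [inv_inv, mul_assoc, h1, inv_mul_cancel_left]
  by_cases hc0 : c = 0
  · by_cases hb0 : b = 0
    · have had : a ≠ d := fun h => hns ⟨hb0, hc0, h⟩
      apply key !![1, a; 1, d] (by
        rw [Matrix.det_fin_two]
        simp
        exact fun h => had (by linear_combination -h))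
      rw [hg, hb0, hc0]
      ext i j
      fin_cases i <;> fin_cases j <;> simp [Matrix.mul_apply, Fin.sum_univ_two] <;> ring
    · apply key !![0, b; 1, d] (by
        rw [Matrix.det_fin_two]
        simp
        exact hb0)
      rw [hg]
      ext i j
      fin_cases i <;> fin_cases j <;> simp [Matrix.mul_apply, Fin.sum_univ_two] <;> ring
  · apply key !![1, a; 0, c] (by
      rw [Matrix.det_fin_two]
      simp
      exact hc0)
    rw [hg]
    ext i j
    fin_cases i <;> fin_cases j <;> simp [Matrix.mul_apply, Fin.sum_univ_two] <;> ring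

/-- The conjugacy classes of `GL₂` are parametrized by scalars and companion matrices. -/
theorem gl2_classes_bijective :
    Function.Bijective (Sum.elim (fun a : Fˣ => ConjClasses.mk (gl2Scal a))
      (fun p : F × Fˣ => ConjClasses.mk (gl2Comp p.1 p.2)) :
        Fˣ ⊕ (F × Fˣ) → ConjClasses (Matrix.GeneralLinearGroup (Fin 2) F)) := by
  constructor
  · rintro (a | ⟨t, d⟩) (b | ⟨t', d'⟩) h
    · simp only [Sum.elim_inl] at h
      rw [ConjClasses.mk_eq_mk_iff_isConj, isConj_iff] at h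
      obtain ⟨c, hc⟩ := h
      rw [gl2Scal_comm, mul_inv_cancel_right] at hc
      have h1 := congrArg (fun g : Matrix.GeneralLinearGroup (Fin 2) F =>
        (g : Matrix (Fin 2) (Fin 2) F) 0 0) hc
      simp only [gl2Scal_val] at h1
      congr 1
      exact Units.ext (by simpa using h1)
    · exfalso
      simp only [Sum.elim_inl, Sum.elim_inr] at h
      rw [ConjClasses.mk_eq_mk_iff_isConj, isConj_iff] at h
      obtain ⟨c, hc⟩ := h
      rw [gl2Scal_comm, mul_inv_cancel_right] at hc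
      have h1 := congrArg (fun g : Matrix.GeneralLinearGroup (Fin 2) F =>
        (g : Matrix (Fin 2) (Fin 2) F) 1 0) hc
      simp [gl2Scal_val, gl2Comp_val] at h1
    · exfalso
      simp only [Sum.elim_inl, Sum.elim_inr] at h
      rw [ConjClasses.mk_eq_mk_iff_isConj] at h
      rw [isConj_iff] at h
      obtain ⟨c, hc⟩ := h
      have hc' : gl2Comp t d = c⁻¹ * gl2Scal b * c := by
        rw [← hc]; group
      rw [gl2Scal_comm, mul_assoc, inv_mul_cancel, mul_one] at hc'
      have h1 := congrArg (fun g : Matrix.GeneralLinearGroup (Fin 2) F =>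
        (g : Matrix (Fin 2) (Fin 2) F) 1 0) hc'
      simp [gl2Scal_val, gl2Comp_val] at h1
    · simp only [Sum.elim_inr] at h
      rw [ConjClasses.mk_eq_mk_iff_isConj] at h
      obtain ⟨h1, h2⟩ := gl2_conj_trace_det h
      rw [gl2Comp_val, gl2Comp_val, Matrix.trace_fin_two] at h1
      rw [gl2Comp_val, gl2Comp_val, Matrix.det_fin_two, Matrix.det_fin_two] at h2
      simp at h1 h2
      congr 1
      exact Prod.ext h1 (Units.ext h2)
  · intro C
    obtain ⟨g, rfl⟩ := ConjClasses.mk_surjective C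
    by_cases hs : ((g : Matrix (Fin 2) (Fin 2) F) 0 1 = 0 ∧ (g : Matrix (Fin 2) (Fin 2) F) 1 0 = 0 ∧
      (g : Matrix (Fin 2) (Fin 2) F) 0 0 = (g : Matrix (Fin 2) (Fin 2) F) 1 1)
    · obtain ⟨h01, h10, h00⟩ := hs
      have hne : (g : Matrix (Fin 2) (Fin 2) F) 0 0 ≠ 0 := by
        intro h0
        have hdet : Matrix.det (g : Matrix (Fin 2) (Fin 2) F) = 0 := by
          rw [Matrix.det_fin_two, h01, h0]
          ring
        have h2 : ((Matrix.GeneralLinearGroup.det g : Fˣ) : F) = 0 := hdet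
        exact (Matrix.GeneralLinearGroup.det g).ne_zero h2
      refine ⟨Sum.inl (Units.mk0 _ hne), ?_⟩
      simp only [Sum.elim_inl]
      congr 1
      apply Units.ext
      rw [gl2Scal_val]
      ext i j
      fin_cases i <;> fin_cases j <;> simp [h01, h10, h00]
    · refine ⟨Sum.inr (Matrix.trace (g : Matrix (Fin 2) (Fin 2) F),
        Matrix.GeneralLinearGroup.det g), ?_⟩
      simp only [Sum.elim_inr]
      exact (ConjClasses.mk_eq_mk_iff_isConj.2 (gl2_isConj_comp g hs)).symm

end Cfsg.Agent.Lib.Helper4
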