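import Mathlib
import Cfsg.Prelude.Def_Characters
import Cfsg.Prelude.Def_ParabolicCharacters
import Cfsg.Agent.Lib.Helper4.GL2
import Cfsg.Agent.Lib.Helper4.GL2Borel
import Cfsg.Agent.Lib.Helper4.SL2CharB2
import Cfsg.Agent.Lib.Lead.CharInd3

set_option autoImplicit false

namespace Cfsg.Agent.Lib.Helper4

variable {F : Type*} [Field F]

/-- Upper triangular elements of `GL₂` from their entries. -/
noncomputable def gl2BorelMk (p : Fˣ × Fˣ × F) : Matrix.GeneralLinearGroup (Fin 2) F :=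
  Matrix.GeneralLinearGroup.mkOfDetNeZero !![(p.1 : F), p.2.2; 0, (p.2.1 : F)]
    (by simp [Matrix.det_fin_two])

theorem gl2BorelMk_val (p : Fˣ × Fˣ × F) :
    ((gl2BorelMk p : Matrix.GeneralLinearGroup (Fin 2) F) : Matrix (Fin 2) (Fin 2) F) =
      !![(p.1 : F), p.2.2; 0, (p.2.1 : F)] := rfl

theorem gl2Borel_diag_ne_zero (h : Matrix.GeneralLinearGroup (Fin 2) F)
    (h10 : (h : Matrix (Fin 2) (Fin 2) F) 1 0 = 0) :
    (h : Matrix (Fin 2) (Fin 2) F) 0 0 ≠ 0 ∧ (h : Matrix (Fin 2) (Fin 2) F) 1 1 ≠ 0 := by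
  have hdn := gl2_det_ne_zero h
  rw [Matrix.det_fin_two, h10, mul_zero, sub_zero] at hdn
  exact ⟨left_ne_zero_of_mul hdn, right_ne_zero_of_mul hdn⟩

theorem gl2BorelMk_bijective :
    Function.Bijective (fun p : Fˣ × Fˣ × F =>
      (⟨gl2BorelMk p, rfl⟩ :
        {h : Matrix.GeneralLinearGroup (Fin 2) F // (h : Matrix (Fin 2) (Fin 2) F) 1 0 = 0})) := by
  constructor
  · rintro ⟨a, d, c⟩ ⟨a', d', c'⟩ hh
    have h1 := congrArg (fun h : {h : Matrix.GeneralLinearGroup (Fin 2) F //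
      (h : Matrix (Fin 2) (Fin 2) F) 1 0 = 0} =>
        ((h : Matrix.GeneralLinearGroup (Fin 2) F) : Matrix (Fin 2) (Fin 2) F)) hh
    simp only [gl2BorelMk_val] at h1
    have e00 := congrFun (congrFun h1 0) 0
    have e01 := congrFun (congrFun h1 0) 1
    have e11 := congrFun (congrFun h1 1) 1
    simp at e00 e01 e11
    exact Prod.ext (Units.ext e00) (Prod.ext (Units.ext e11) e01)
  · rintro ⟨h, h10⟩
    obtain ⟨n0, n1⟩ := gl2Borel_diag_ne_zero h h10
    refine ⟨(Units.mk0 _ n0, Units.mk0 _ n1, (h : Matrix (Fin 2) (Fin 2) F) 0 1), ?_⟩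
    apply Subtype.ext
    apply Units.ext
    ext i j
    fin_cases i <;> fin_cases j <;> simp [gl2BorelMk_val, h10]

theorem sum_gl2_lower_zero [Fintype F] [DecidableEq F]
    (f : Matrix.GeneralLinearGroup (Fin 2) F → ℂ) :
    ∑ h : Matrix.GeneralLinearGroup (Fin 2) F,
      (if (h : Matrix (Fin 2) (Fin 2) F) 1 0 = 0 then f h else 0) =
      ∑ p : Fˣ × Fˣ × F, f (gl2BorelMk p) := by
  rw [← Finset.sum_filter,
    Finset.sum_subtype (Finset.univ.filter (fun h : Matrix.GeneralLinearGroup (Fin 2) F =>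
      (h : Matrix (Fin 2) (Fin 2) F) 1 0 = 0))
      (p := fun h : Matrix.GeneralLinearGroup (Fin 2) F => (h : Matrix (Fin 2) (Fin 2) F) 1 0 = 0)
      (by intro x; simp) f]
  symm
  exact Fintype.sum_equiv (Equiv.ofBijective _ gl2BorelMk_bijective) _ _ (fun p => rfl)

theorem card_gl2_lower_zero [Fintype F] [DecidableEq F] :
    (Finset.univ.filter (fun x : Matrix.GeneralLinearGroup (Fin 2) F =>
      (x : Matrix (Fin 2) (Fin 2) F) 1 0 = 0)).card =
      Fintype.card F * (Fintype.card F - 1) ^ 2 := by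
  rw [← Fintype.card_subtype, ← Nat.card_eq_fintype_card,
    ← Nat.card_congr (Equiv.subtypeEquivRight (mem_borel2_iff (F := F)))]
  exact card_borel2

theorem card_gl2_upper_zero [Fintype F] [DecidableEq F] :
    (Finset.univ.filter (fun x : Matrix.GeneralLinearGroup (Fin 2) F =>
      (x : Matrix (Fin 2) (Fin 2) F) 0 0 = 0)).card =
      Fintype.card F * (Fintype.card F - 1) ^ 2 := by
  rw [← card_gl2_lower_zero, ← Fintype.card_subtype, ← Fintype.card_subtype]
  refine Fintype.card_congr (Equiv.subtypeEquiv (Equiv.mulLeft (gl2Comp (0 : F) (-1))) ?_)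
  intro x
  rw [Equiv.coe_mulLeft, Units.val_mul, gl2Comp_val]
  simp [Matrix.mul_apply, Fin.sum_univ_two]

theorem gl2E_apply [DecidableEq F] (α β : MulChar F ℂ) (y : Matrix.GeneralLinearGroup (Fin 2) F) :
    Cfsg.extendByZero (Cfsg.upperTriangularGL 2 F)
      (fun b => α (((b : Matrix.GeneralLinearGroup (Fin 2) F) : Matrix (Fin 2) (Fin 2) F) 0 0) *
        β (((b : Matrix.GeneralLinearGroup (Fin 2) F) : Matrix (Fin 2) (Fin 2) F) 1 1)) y =
    if (y : Matrix (Fin 2) (Fin 2) F) 1 0 = 0 then α ((y : Matrix (Fin 2) (Fin 2) F) 0 0) *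
      β ((y : Matrix (Fin 2) (Fin 2) F) 1 1) else 0 := by
  by_cases h : (y : Matrix (Fin 2) (Fin 2) F) 1 0 = 0
  · rw [if_pos h, extendByZero_mem _ _ _ ((mem_borel2_iff _).2 h)]
  · rw [if_neg h, extendByZero_not_mem _ _ _ (fun hh => h ((mem_borel2_iff _).1 hh))]

/-- If `x⁻¹ g x` is upper triangular, the first column of `x` is an eigenvector of `g`. -/
theorem gl2_conj_borel (g x : Matrix.GeneralLinearGroup (Fin 2) F)
    (h10 : ((x⁻¹ * g * x : Matrix.GeneralLinearGroup (Fin 2) F) :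
      Matrix (Fin 2) (Fin 2) F) 1 0 = 0) :
    (g : Matrix (Fin 2) (Fin 2) F) 0 0 * (x : Matrix (Fin 2) (Fin 2) F) 0 0 +
      (g : Matrix (Fin 2) (Fin 2) F) 0 1 * (x : Matrix (Fin 2) (Fin 2) F) 1 0 =
      (x : Matrix (Fin 2) (Fin 2) F) 0 0 *
        ((x⁻¹ * g * x : Matrix.GeneralLinearGroup (Fin 2) F) : Matrix (Fin 2) (Fin 2) F) 0 0 ∧
    (g : Matrix (Fin 2) (Fin 2) F) 1 0 * (x : Matrix (Fin 2) (Fin 2) F) 0 0 +
      (g : Matrix (Fin 2) (Fin 2) F) 1 1 * (x : Matrix (Fin 2) (Fin 2) F) 1 0 =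
      (x : Matrix (Fin 2) (Fin 2) F) 1 0 *
        ((x⁻¹ * g * x : Matrix.GeneralLinearGroup (Fin 2) F) : Matrix (Fin 2) (Fin 2) F) 0 0 ∧
    ((x⁻¹ * g * x : Matrix.GeneralLinearGroup (Fin 2) F) : Matrix (Fin 2) (Fin 2) F) 0 0 *
      ((x⁻¹ * g * x : Matrix.GeneralLinearGroup (Fin 2) F) : Matrix (Fin 2) (Fin 2) F) 1 1 =
      Matrix.det (g : Matrix (Fin 2) (Fin 2) F) := by
  have h1 : x * (x⁻¹ * g * x) = g * x := by group
  have h2 : (x : Matrix (Fin 2) (Fin 2) F) *
      ((x⁻¹ * g * x : Matrix.GeneralLinearGroup (Fin 2) F) : Matrix (Fin 2) (Fin 2) F) =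
      (g : Matrix (Fin 2) (Fin 2) F) * (x : Matrix (Fin 2) (Fin 2) F) := by
    rw [← Units.val_mul, ← Units.val_mul, h1]
  have e00 := congrFun (congrFun h2 0) 0
  have e10 := congrFun (congrFun h2 1) 0
  simp only [Matrix.mul_apply, Fin.sum_univ_two, h10, mul_zero, add_zero] at e00 e10
  have hc : IsConj g (x⁻¹ * g * x) := by
    rw [isConj_iff]
    exact ⟨x⁻¹, by rw [inv_inv]⟩
  have hd := (gl2_conj_trace_det hc).2
  rw [Matrix.det_fin_two ((x⁻¹ * g * x : Matrix.GeneralLinearGroup (Fin 2) F) :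
    Matrix (Fin 2) (Fin 2) F), h10, mul_zero, sub_zero] at hd
  exact ⟨e00.symm, e10.symm, hd.symm⟩

/-- The inner sum in the Mackey formula for the Borel subgroup of `GL₂`. -/
theorem gl2_mackey_inner [Fintype F] [DecidableEq F] (α β α' β' : MulChar F ℂ)
    (z : Matrix.GeneralLinearGroup (Fin 2) F) :
    ∑ h : Matrix.GeneralLinearGroup (Fin 2) F,
      Cfsg.extendByZero (Cfsg.upperTriangularGL 2 F)
        (fun b => α (((b : Matrix.GeneralLinearGroup (Fin 2) F) : Matrix (Fin 2) (Fin 2) F) 0 0) *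
          β (((b : Matrix.GeneralLinearGroup (Fin 2) F) : Matrix (Fin 2) (Fin 2) F) 1 1)) h *
      (starRingEnd ℂ) (Cfsg.extendByZero (Cfsg.upperTriangularGL 2 F)
        (fun b => α' (((b : Matrix.GeneralLinearGroup (Fin 2) F) : Matrix (Fin 2) (Fin 2) F) 0 0) *
          β' (((b : Matrix.GeneralLinearGroup (Fin 2) F) : Matrix (Fin 2) (Fin 2) F) 1 1))
        (z⁻¹ * h * z)) =
    if (z : Matrix (Fin 2) (Fin 2) F) 1 0 = 0
      then (Fintype.card F : ℂ) * ((∑ a : Fˣ, α (a : F) * (starRingEnd ℂ) (α' (a : F))) *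
        (∑ d : Fˣ, β (d : F) * (starRingEnd ℂ) (β' (d : F))))
      else (∑ a : Fˣ, α (a : F) * (starRingEnd ℂ) (β' (a : F))) *
        (∑ d : Fˣ, β (d : F) * (starRingEnd ℂ) (α' (d : F))) := by
  obtain ⟨f, hf⟩ : ∃ f : Matrix.GeneralLinearGroup (Fin 2) F → ℂ,
      f = fun h : Matrix.GeneralLinearGroup (Fin 2) F =>
      (α ((h : Matrix (Fin 2) (Fin 2) F) 0 0) * β ((h : Matrix (Fin 2) (Fin 2) F) 1 1)) *
        (starRingEnd ℂ) (if
          ((z⁻¹ * h * z : Matrix.GeneralLinearGroup (Fin 2) F) : Matrix (Fin 2) (Fin 2) F) 1 0 = 0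
          then α' (((z⁻¹ * h * z : Matrix.GeneralLinearGroup (Fin 2) F) :
            Matrix (Fin 2) (Fin 2) F) 0 0) * β' (((z⁻¹ * h * z : Matrix.GeneralLinearGroup (Fin 2) F) :
            Matrix (Fin 2) (Fin 2) F) 1 1) else 0) := ⟨_, rfl⟩
  have h1 : ∀ h : Matrix.GeneralLinearGroup (Fin 2) F,
      Cfsg.extendByZero (Cfsg.upperTriangularGL 2 F)
        (fun b => α (((b : Matrix.GeneralLinearGroup (Fin 2) F) : Matrix (Fin 2) (Fin 2) F) 0 0) *
          β (((b : Matrix.GeneralLinearGroup (Fin 2) F) : Matrix (Fin 2) (Fin 2) F) 1 1)) h *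
      (starRingEnd ℂ) (Cfsg.extendByZero (Cfsg.upperTriangularGL 2 F)
        (fun b => α' (((b : Matrix.GeneralLinearGroup (Fin 2) F) : Matrix (Fin 2) (Fin 2) F) 0 0) *
          β' (((b : Matrix.GeneralLinearGroup (Fin 2) F) : Matrix (Fin 2) (Fin 2) F) 1 1))
        (z⁻¹ * h * z)) =
      if (h : Matrix (Fin 2) (Fin 2) F) 1 0 = 0 then f h else 0 := by
    intro h
    rw [gl2E_apply, gl2E_apply, hf]
    by_cases hh : (h : Matrix (Fin 2) (Fin 2) F) 1 0 = 0
    · rw [if_pos hh, if_pos hh]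
    · rw [if_neg hh, if_neg hh, zero_mul]
  rw [Finset.sum_congr rfl (fun h _ => h1 h), sum_gl2_lower_zero f, Fintype.sum_prod_type]
  simp only [Fintype.sum_prod_type]
  rw [hf]
  simp only []
  obtain ⟨p, hp⟩ : ∃ p, p = (z : Matrix (Fin 2) (Fin 2) F) 0 0 := ⟨_, rfl⟩
  obtain ⟨s, hs⟩ : ∃ s, s = (z : Matrix (Fin 2) (Fin 2) F) 1 0 := ⟨_, rfl⟩
  have hval : ∀ (a d : Fˣ) (c : F),
      ((gl2BorelMk (a, d, c) : Matrix.GeneralLinearGroup (Fin 2) F) :
        Matrix (Fin 2) (Fin 2) F) 0 0 = (a : F) ∧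
      ((gl2BorelMk (a, d, c) : Matrix.GeneralLinearGroup (Fin 2) F) :
        Matrix (Fin 2) (Fin 2) F) 1 1 = (d : F) ∧
      ((gl2BorelMk (a, d, c) : Matrix.GeneralLinearGroup (Fin 2) F) :
        Matrix (Fin 2) (Fin 2) F) 0 1 = c ∧
      ((gl2BorelMk (a, d, c) : Matrix.GeneralLinearGroup (Fin 2) F) :
        Matrix (Fin 2) (Fin 2) F) 1 0 = 0 := by
    intro a d c
    rw [gl2BorelMk_val]
    simp
  have heig : ∀ (a d : Fˣ) (c : F),
      ((z⁻¹ * gl2BorelMk (a, d, c) * z : Matrix.GeneralLinearGroup (Fin 2) F) :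
        Matrix (Fin 2) (Fin 2) F) 1 0 * Matrix.det (z : Matrix (Fin 2) (Fin 2) F) =
        s * (p * ((d : F) - (a : F)) - c * s) := by
    intro a d c
    rw [← eigDet_eq]
    unfold eigDet
    obtain ⟨v00, v11, v01, v10⟩ := hval a d c
    rw [v00, v11, v01, v10, ← hp, ← hs]
    ring
  have hdet : ∀ (a d : Fˣ) (c : F),
      Matrix.det ((gl2BorelMk (a, d, c) : Matrix.GeneralLinearGroup (Fin 2) F) :
        Matrix (Fin 2) (Fin 2) F) = (a : F) * (d : F) := by
    intro a d c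
    rw [gl2BorelMk_val, Matrix.det_fin_two]
    simp
  have hdz := gl2_det_ne_zero z
  rw [← hs]
  by_cases hs0 : s = 0
  · rw [if_pos hs0]
    have hp0 : p ≠ 0 := by
      rw [hp]
      exact (gl2Borel_diag_ne_zero z (by rw [← hs, hs0])).1
    have h3 : ∀ (a d : Fˣ) (c : F),
        (α (((gl2BorelMk (a, d, c) : Matrix.GeneralLinearGroup (Fin 2) F) :
          Matrix (Fin 2) (Fin 2) F) 0 0) *
        β (((gl2BorelMk (a, d, c) : Matrix.GeneralLinearGroup (Fin 2) F) :
          Matrix (Fin 2) (Fin 2) F) 1 1)) * (starRingEnd ℂ) (if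
          ((z⁻¹ * gl2BorelMk (a, d, c) * z : Matrix.GeneralLinearGroup (Fin 2) F) :
            Matrix (Fin 2) (Fin 2) F) 1 0 = 0
          then α' (((z⁻¹ * gl2BorelMk (a, d, c) * z : Matrix.GeneralLinearGroup (Fin 2) F) :
            Matrix (Fin 2) (Fin 2) F) 0 0) *
            β' (((z⁻¹ * gl2BorelMk (a, d, c) * z : Matrix.GeneralLinearGroup (Fin 2) F) :
            Matrix (Fin 2) (Fin 2) F) 1 1) else 0) =
        (α (a : F) * (starRingEnd ℂ) (α' (a : F))) *
          (β (d : F) * (starRingEnd ℂ) (β' (d : F))) := by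
      intro a d c
      have hy10 : ((z⁻¹ * gl2BorelMk (a, d, c) * z : Matrix.GeneralLinearGroup (Fin 2) F) :
          Matrix (Fin 2) (Fin 2) F) 1 0 = 0 := by
        have := heig a d c
        rw [hs0, zero_mul] at this
        exact (mul_eq_zero.1 this).resolve_right hdz
      obtain ⟨e1, -, e3⟩ := gl2_conj_borel (gl2BorelMk (a, d, c)) z hy10
      obtain ⟨v00, v11, v01, v10⟩ := hval a d c
      rw [v00, v01, ← hp, ← hs, hs0, mul_zero, add_zero] at e1
      have hy00 : ((z⁻¹ * gl2BorelMk (a, d, c) * z : Matrix.GeneralLinearGroup (Fin 2) F) :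
          Matrix (Fin 2) (Fin 2) F) 0 0 = (a : F) := by
        apply mul_left_cancel₀ hp0
        rw [← e1]; ring
      rw [hdet, hy00] at e3
      have hy11 : ((z⁻¹ * gl2BorelMk (a, d, c) * z : Matrix.GeneralLinearGroup (Fin 2) F) :
          Matrix (Fin 2) (Fin 2) F) 1 1 = (d : F) := mul_left_cancel₀ a.ne_zero e3
      rw [if_pos hy10, hy00, hy11, v00, v11, map_mul]
      ring
    simp only [h3, Finset.sum_const, Finset.card_univ, nsmul_eq_mul]
    rw [Finset.sum_mul_sum, Finset.mul_sum]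
    refine Finset.sum_congr rfl (fun a _ => ?_)
    rw [Finset.mul_sum]
  · rw [if_neg hs0]
    have h3 : ∀ (a d : Fˣ) (c : F),
        (α (((gl2BorelMk (a, d, c) : Matrix.GeneralLinearGroup (Fin 2) F) :
          Matrix (Fin 2) (Fin 2) F) 0 0) *
        β (((gl2BorelMk (a, d, c) : Matrix.GeneralLinearGroup (Fin 2) F) :
          Matrix (Fin 2) (Fin 2) F) 1 1)) * (starRingEnd ℂ) (if
          ((z⁻¹ * gl2BorelMk (a, d, c) * z : Matrix.GeneralLinearGroup (Fin 2) F) :
            Matrix (Fin 2) (Fin 2) F) 1 0 = 0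
          then α' (((z⁻¹ * gl2BorelMk (a, d, c) * z : Matrix.GeneralLinearGroup (Fin 2) F) :
            Matrix (Fin 2) (Fin 2) F) 0 0) *
            β' (((z⁻¹ * gl2BorelMk (a, d, c) * z : Matrix.GeneralLinearGroup (Fin 2) F) :
            Matrix (Fin 2) (Fin 2) F) 1 1) else 0) =
        if c = p * ((d : F) - (a : F)) / s then
          (α (a : F) * (starRingEnd ℂ) (β' (a : F))) *
          (β (d : F) * (starRingEnd ℂ) (α' (d : F))) else 0 := by
      intro a d c
      obtain ⟨v00, v11, v01, v10⟩ := hval a d c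
      by_cases hc : c = p * ((d : F) - (a : F)) / s
      · have hcs : c * s = p * ((d : F) - (a : F)) := by
          rw [hc]
          field_simp
        have hy10 : ((z⁻¹ * gl2BorelMk (a, d, c) * z : Matrix.GeneralLinearGroup (Fin 2) F) :
            Matrix (Fin 2) (Fin 2) F) 1 0 = 0 := by
          have := heig a d c
          rw [hcs, sub_self, mul_zero] at this
          exact (mul_eq_zero.1 this).resolve_right hdz
        obtain ⟨-, e2, e3⟩ := gl2_conj_borel (gl2BorelMk (a, d, c)) z hy10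
        rw [v10, v11, ← hp, ← hs, zero_mul, zero_add] at e2
        have hy00 : ((z⁻¹ * gl2BorelMk (a, d, c) * z : Matrix.GeneralLinearGroup (Fin 2) F) :
            Matrix (Fin 2) (Fin 2) F) 0 0 = (d : F) := by
          apply mul_left_cancel₀ hs0
          rw [← e2]; ring
        rw [hdet, hy00] at e3
        have hy11 : ((z⁻¹ * gl2BorelMk (a, d, c) * z : Matrix.GeneralLinearGroup (Fin 2) F) :
            Matrix (Fin 2) (Fin 2) F) 1 1 = (a : F) := by
          apply mul_left_cancel₀ d.ne_zero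
          rw [e3]; ring
        rw [if_pos hc, if_pos hy10, hy00, hy11, v00, v11, map_mul]
        ring
      · rw [if_neg hc, if_neg, map_zero, mul_zero]
        intro h
        apply hc
        have := heig a d c
        rw [h, zero_mul] at this
        have h5 := (mul_eq_zero.1 this.symm).resolve_left hs0
        rw [eq_div_iff hs0]
        linear_combination -h5
    simp only [h3]
    rw [Finset.sum_mul_sum]
    refine Finset.sum_congr rfl (fun a _ => ?_)
    refine Finset.sum_congr rfl (fun d _ => ?_)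
    rw [Finset.sum_ite_eq', if_pos (Finset.mem_univ _)]

/-- The inner product of two principal series functions of `GL₂(q)`. -/
theorem gl2R_inner [Fintype F] [DecidableEq F] (α β α' β' : MulChar F ℂ)
    [Decidable (α = α')] [Decidable (β = β')] [Decidable (α = β')] [Decidable (β = α')] :
    Cfsg.classInner
      (Cfsg.indFun (Cfsg.upperTriangularGL 2 F)
        (fun b => α (((b : Matrix.GeneralLinearGroup (Fin 2) F) : Matrix (Fin 2) (Fin 2) F) 0 0) *
          β (((b : Matrix.GeneralLinearGroup (Fin 2) F) : Matrix (Fin 2) (Fin 2) F) 1 1)))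
      (Cfsg.indFun (Cfsg.upperTriangularGL 2 F)
        (fun b => α' (((b : Matrix.GeneralLinearGroup (Fin 2) F) : Matrix (Fin 2) (Fin 2) F) 0 0) *
          β' (((b : Matrix.GeneralLinearGroup (Fin 2) F) : Matrix (Fin 2) (Fin 2) F) 1 1))) =
      (if α = α' then (if β = β' then 1 else 0) else 0) +
        (if α = β' then (if β = α' then 1 else 0) else 0) := by
  unfold Cfsg.classInner Cfsg.indFun
  have hc : (starRingEnd ℂ) ((Nat.card (Cfsg.upperTriangularGL 2 F) : ℂ)⁻¹) =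
      (Nat.card (Cfsg.upperTriangularGL 2 F) : ℂ)⁻¹ := by
    rw [map_inv₀, Complex.conj_natCast]
  have h1 : ∀ (A B : ℂ), ((Nat.card (Cfsg.upperTriangularGL 2 F) : ℂ)⁻¹ * A) *
      (starRingEnd ℂ) ((Nat.card (Cfsg.upperTriangularGL 2 F) : ℂ)⁻¹ * B) =
      ((Nat.card (Cfsg.upperTriangularGL 2 F) : ℂ)⁻¹ *
        (Nat.card (Cfsg.upperTriangularGL 2 F) : ℂ)⁻¹) * (A * (starRingEnd ℂ) B) := by
    intro A B
    rw [map_mul, hc]
    ring
  simp only [h1]
  rw [← Finset.mul_sum, sum_conj_sum_mul,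
    Finset.sum_congr rfl (fun z _ => gl2_mackey_inner α β α' β' z), Finset.sum_ite,
    Finset.sum_const, Finset.sum_const, card_gl2_lower_zero, nsmul_eq_mul, nsmul_eq_mul,
    mulChar_sum_mul_conj, mulChar_sum_mul_conj, mulChar_sum_mul_conj, mulChar_sum_mul_conj,
    card_borel2, ← Nat.card_eq_fintype_card (α := Matrix.GeneralLinearGroup (Fin 2) F),
    Matrix.card_GL_field, Fin.prod_univ_two]
  have hm := Finset.card_filter_add_card_filter_not
    (s := (Finset.univ : Finset (Matrix.GeneralLinearGroup (Fin 2) F)))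
    (fun z : Matrix.GeneralLinearGroup (Fin 2) F => (z : Matrix (Fin 2) (Fin 2) F) 1 0 = 0)
  rw [card_gl2_lower_zero, Finset.card_univ,
    ← Nat.card_eq_fintype_card (α := Matrix.GeneralLinearGroup (Fin 2) F),
    Matrix.card_GL_field, Fin.prod_univ_two] at hm
  obtain ⟨m, hmdef⟩ : ∃ m, m = (Finset.univ.filter
      (fun z : Matrix.GeneralLinearGroup (Fin 2) F =>
        ¬ (z : Matrix (Fin 2) (Fin 2) F) 1 0 = 0)).card := ⟨_, rfl⟩
  rw [← hmdef] at hm ⊢
  simp only [Fin.val_zero, Fin.val_one, pow_zero, pow_one] at hm ⊢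
  have hq2 := Fintype.one_lt_card (α := F)
  obtain ⟨r, hr⟩ : ∃ r, Fintype.card F = r + 2 := ⟨Fintype.card F - 2, by omega⟩
  rw [hr] at hm ⊢
  have h3 : (r + 2) ^ 2 - 1 = (r + 1) * (r + 3) := by
    have : (r + 2) ^ 2 = (r + 1) * (r + 3) + 1 := by ring
    omega
  have h4 : r + 2 - 1 = r + 1 := by omega
  have h5 : (r + 2) ^ 2 - (r + 2) = (r + 1) * (r + 2) := by
    have : (r + 2) ^ 2 = (r + 1) * (r + 2) + (r + 2) := by ring
    omega
  rw [h3, h4, h5] at hm ⊢
  have hm' : m = (r + 2) ^ 2 * (r + 1) ^ 2 := by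
    have : (r + 1) * (r + 3) * ((r + 1) * (r + 2)) =
        (r + 2) * (r + 1) ^ 2 + (r + 2) ^ 2 * (r + 1) ^ 2 := by ring
    omega
  rw [hm']
  have hr1 : (r : ℂ) + 1 ≠ 0 := by exact_mod_cast Nat.succ_ne_zero r
  have hr2 : (r : ℂ) + 2 ≠ 0 := by exact_mod_cast Nat.succ_ne_zero (r + 1)
  have hr3 : (r : ℂ) + 3 ≠ 0 := by exact_mod_cast Nat.succ_ne_zero (r + 2)
  push_cast
  by_cases h1 : α = α' <;> by_cases h2 : β = β' <;> by_cases h3 : α = β' <;>
    by_cases h4 : β = α'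
  all_goals
    (first | simp only [if_pos h1] | simp only [if_neg h1])
    (first | simp only [if_pos h2] | simp only [if_neg h2])
    (first | simp only [if_pos h3] | simp only [if_neg h3])
    (first | simp only [if_pos h4] | simp only [if_neg h4])
    first
      | (field_simp; ring)
      | simp

end Cfsg.Agent.Lib.Helper4
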