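import Mathlib
import Cfsg.Agent.Lib.Helper4.GL2CharA

set_option autoImplicit false

namespace Cfsg.Agent.Lib.Helper4

variable {F : Type*} [Field F]

/-- The diagonal of an upper triangular element. -/
noncomputable def gl2BorelDiag : (Cfsg.upperTriangularGL 2 F) →* Fˣ × Fˣ where
  toFun b := (Units.mk0 _ (gl2Borel_diag_ne_zero b.1 ((mem_borel2_iff _).1 b.2)).1,
    Units.mk0 _ (gl2Borel_diag_ne_zero b.1 ((mem_borel2_iff _).1 b.2)).2)
  map_one' := by
    apply Prod.ext <;> apply Units.ext <;> simp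
  map_mul' a b := by
    have ha := (mem_borel2_iff _).1 a.2
    have hb := (mem_borel2_iff _).1 b.2
    apply Prod.ext <;> apply Units.ext <;>
      simp [Matrix.mul_apply, Fin.sum_univ_two, ha, hb]

/-- The linear character `b ↦ α (b₀₀) β (b₁₁)` of the Borel subgroup of `GL₂`. -/
noncomputable def gl2BorelHom (α β : MulChar F ℂ) : (Cfsg.upperTriangularGL 2 F) →* ℂˣ :=
  ((α.toUnitHom.comp (MonoidHom.fst Fˣ Fˣ)) * (β.toUnitHom.comp (MonoidHom.snd Fˣ Fˣ))).comp
    gl2BorelDiag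

theorem gl2BorelHom_apply (α β : MulChar F ℂ) (b : Cfsg.upperTriangularGL 2 F) :
    ((gl2BorelHom α β b : ℂˣ) : ℂ) =
      α (((b : Matrix.GeneralLinearGroup (Fin 2) F) : Matrix (Fin 2) (Fin 2) F) 0 0) *
      β (((b : Matrix.GeneralLinearGroup (Fin 2) F) : Matrix (Fin 2) (Fin 2) F) 1 1) := by
  show ((α.toUnitHom _ * β.toUnitHom _ : ℂˣ) : ℂ) = _
  rw [Units.val_mul, MulChar.coe_toUnitHom, MulChar.coe_toUnitHom]
  rfl

variable [Fintype F] [DecidableEq F]

/-- The principal series function `R(α, β)` of `GL₂`. -/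
noncomputable def gl2R (α β : MulChar F ℂ) : Matrix.GeneralLinearGroup (Fin 2) F → ℂ :=
  Cfsg.indFun (Cfsg.upperTriangularGL 2 F)
    (fun b => α (((b : Matrix.GeneralLinearGroup (Fin 2) F) : Matrix (Fin 2) (Fin 2) F) 0 0) *
      β (((b : Matrix.GeneralLinearGroup (Fin 2) F) : Matrix (Fin 2) (Fin 2) F) 1 1))

theorem gl2R_isCharacter (α β : MulChar F ℂ) :
    Cfsg.IsCharacter (Matrix.GeneralLinearGroup (Fin 2) F) (gl2R α β) := by
  apply Lead.isCharacter_indFun
  have h := isCharacter_of_monoidHom (gl2BorelHom α β)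
  have e : (fun b : (Cfsg.upperTriangularGL 2 F) => ((gl2BorelHom α β b : ℂˣ) : ℂ)) =
      (fun b : (Cfsg.upperTriangularGL 2 F) =>
        α (((b : Matrix.GeneralLinearGroup (Fin 2) F) : Matrix (Fin 2) (Fin 2) F) 0 0) *
        β (((b : Matrix.GeneralLinearGroup (Fin 2) F) : Matrix (Fin 2) (Fin 2) F) 1 1)) := by
    funext b
    exact gl2BorelHom_apply α β b
  rw [← e]
  exact h

theorem gl2R_classInner (α β α' β' : MulChar F ℂ)
    [Decidable (α = α')] [Decidable (β = β')] [Decidable (α = β')] [Decidable (β = α')] :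
    Cfsg.classInner (gl2R α β) (gl2R α' β') =
      (if α = α' then (if β = β' then 1 else 0) else 0) +
        (if α = β' then (if β = α' then 1 else 0) else 0) :=
  gl2R_inner α β α' β'

theorem gl2R_isConj (α β : MulChar F ℂ) {g g' : Matrix.GeneralLinearGroup (Fin 2) F}
    (h : IsConj g g') : gl2R α β g = gl2R α β g' := indFun_isConj _ _ h

theorem gl2R_classFun (α β : MulChar F ℂ) :
    Cfsg.IsClassFunction (Matrix.GeneralLinearGroup (Fin 2) F) (gl2R α β) :=
  Lead.indFun_classFun _ _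

omit [Fintype F] in
theorem gl2R_term (α β : MulChar F ℂ) (g x : Matrix.GeneralLinearGroup (Fin 2) F) :
    Cfsg.extendByZero (Cfsg.upperTriangularGL 2 F)
      (fun b => α (((b : Matrix.GeneralLinearGroup (Fin 2) F) : Matrix (Fin 2) (Fin 2) F) 0 0) *
        β (((b : Matrix.GeneralLinearGroup (Fin 2) F) : Matrix (Fin 2) (Fin 2) F) 1 1))
      (x⁻¹ * g * x) =
    if eigDet g x = 0 then
      α (((x⁻¹ * g * x : Matrix.GeneralLinearGroup (Fin 2) F) : Matrix (Fin 2) (Fin 2) F) 0 0) *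
      β (((x⁻¹ * g * x : Matrix.GeneralLinearGroup (Fin 2) F) : Matrix (Fin 2) (Fin 2) F) 1 1)
    else 0 := by
  rw [gl2E_apply]
  have h := eigDet_eq g x
  by_cases h0 : ((x⁻¹ * g * x : Matrix.GeneralLinearGroup (Fin 2) F) :
      Matrix (Fin 2) (Fin 2) F) 1 0 = 0
  · rw [if_pos h0, if_pos (by rw [h, h0, zero_mul])]
  · rw [if_neg h0, if_neg (by rw [h]; exact mul_ne_zero h0 (gl2_det_ne_zero x))]

omit [Fintype F] [DecidableEq F] in
theorem gl2_conj_of_eigDet (g x : Matrix.GeneralLinearGroup (Fin 2) F) (h : eigDet g x = 0) :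
    ((x⁻¹ * g * x : Matrix.GeneralLinearGroup (Fin 2) F) : Matrix (Fin 2) (Fin 2) F) 1 0 = 0 := by
  rw [eigDet_eq] at h
  exact (mul_eq_zero.1 h).resolve_right (gl2_det_ne_zero x)

theorem gl2_card_div : (Nat.card (Cfsg.upperTriangularGL 2 F) : ℂ)⁻¹ *
    (Fintype.card (Matrix.GeneralLinearGroup (Fin 2) F) : ℂ) = (Fintype.card F : ℂ) + 1 := by
  have h := (Cfsg.upperTriangularGL 2 F).card_mul_index
  rw [index_borel2, Nat.card_eq_fintype_card (α := Matrix.GeneralLinearGroup (Fin 2) F)] at h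
  have h0 : (Nat.card (Cfsg.upperTriangularGL 2 F) : ℂ) ≠ 0 := by
    exact_mod_cast Nat.card_pos.ne'
  rw [← h]
  push_cast
  field_simp

theorem gl2_card_borel_ne_zero :
    ((Fintype.card F * (Fintype.card F - 1) ^ 2 : ℕ) : ℂ) ≠ 0 := by
  have hq2 := Fintype.one_lt_card (α := F)
  have h1 : 0 < Fintype.card F * (Fintype.card F - 1) ^ 2 := by
    apply Nat.mul_pos
    · omega
    · apply pow_pos
      omega
  exact_mod_cast h1.ne'

/-- Value of `R(α, β)` at a scalar matrix. -/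
theorem gl2R_central (α β : MulChar F ℂ) (g : Matrix.GeneralLinearGroup (Fin 2) F)
    (hg01 : (g : Matrix (Fin 2) (Fin 2) F) 0 1 = 0) (hg10 : (g : Matrix (Fin 2) (Fin 2) F) 1 0 = 0)
    (hg00 : (g : Matrix (Fin 2) (Fin 2) F) 0 0 = (g : Matrix (Fin 2) (Fin 2) F) 1 1) :
    gl2R α β g = ((Fintype.card F : ℂ) + 1) * (α ((g : Matrix (Fin 2) (Fin 2) F) 0 0) *
      β ((g : Matrix (Fin 2) (Fin 2) F) 0 0)) := by
  have hne := (gl2Borel_diag_ne_zero g hg10).1
  have hgs : g = gl2Scal (Units.mk0 _ hne) := by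
    apply Units.ext
    ext i j
    fin_cases i <;> fin_cases j <;> simp [gl2Scal_val, hg01, hg10, ← hg00]
  have hcomm : ∀ x : Matrix.GeneralLinearGroup (Fin 2) F, x⁻¹ * g * x = g := by
    intro x
    rw [hgs, mul_assoc, ← gl2Scal_comm, inv_mul_cancel_left]
  have hterm : ∀ x : Matrix.GeneralLinearGroup (Fin 2) F,
      Cfsg.extendByZero (Cfsg.upperTriangularGL 2 F)
      (fun b => α (((b : Matrix.GeneralLinearGroup (Fin 2) F) : Matrix (Fin 2) (Fin 2) F) 0 0) *
        β (((b : Matrix.GeneralLinearGroup (Fin 2) F) : Matrix (Fin 2) (Fin 2) F) 1 1))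
      (x⁻¹ * g * x) = α ((g : Matrix (Fin 2) (Fin 2) F) 0 0) *
        β ((g : Matrix (Fin 2) (Fin 2) F) 0 0) := by
    intro x
    rw [hcomm, gl2E_apply, if_pos hg10, ← hg00]
  unfold gl2R Cfsg.indFun
  rw [Finset.sum_congr rfl (fun x _ => hterm x), Finset.sum_const, Finset.card_univ,
    nsmul_eq_mul, ← mul_assoc, gl2_card_div]

/-- Value of `R(α, β)` at a non-semisimple upper triangular matrix. -/
theorem gl2R_unip (α β : MulChar F ℂ) (g : Matrix.GeneralLinearGroup (Fin 2) F)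
    (hg10 : (g : Matrix (Fin 2) (Fin 2) F) 1 0 = 0)
    (hg00 : (g : Matrix (Fin 2) (Fin 2) F) 0 0 = (g : Matrix (Fin 2) (Fin 2) F) 1 1)
    (hg01 : (g : Matrix (Fin 2) (Fin 2) F) 0 1 ≠ 0) :
    gl2R α β g = α ((g : Matrix (Fin 2) (Fin 2) F) 0 0) *
      β ((g : Matrix (Fin 2) (Fin 2) F) 0 0) := by
  obtain ⟨a, ha⟩ : ∃ a, a = (g : Matrix (Fin 2) (Fin 2) F) 0 0 := ⟨_, rfl⟩
  obtain ⟨c, hc⟩ : ∃ c, c = (g : Matrix (Fin 2) (Fin 2) F) 0 1 := ⟨_, rfl⟩
  have ha0 : a ≠ 0 := by rw [ha]; exact (gl2Borel_diag_ne_zero g hg10).1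
  have hdg : Matrix.det (g : Matrix (Fin 2) (Fin 2) F) = a * a := by
    rw [Matrix.det_fin_two, hg10, ← hg00, ← ha]; ring
  have hterm : ∀ x : Matrix.GeneralLinearGroup (Fin 2) F,
      Cfsg.extendByZero (Cfsg.upperTriangularGL 2 F)
      (fun b => α (((b : Matrix.GeneralLinearGroup (Fin 2) F) : Matrix (Fin 2) (Fin 2) F) 0 0) *
        β (((b : Matrix.GeneralLinearGroup (Fin 2) F) : Matrix (Fin 2) (Fin 2) F) 1 1))
      (x⁻¹ * g * x) =
      (if (x : Matrix (Fin 2) (Fin 2) F) 1 0 = 0 then α a * β a else 0) := by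
    intro x
    rw [gl2R_term]
    obtain ⟨p, hp⟩ : ∃ p, p = (x : Matrix (Fin 2) (Fin 2) F) 0 0 := ⟨_, rfl⟩
    obtain ⟨s, hs⟩ : ∃ s, s = (x : Matrix (Fin 2) (Fin 2) F) 1 0 := ⟨_, rfl⟩
    have he : eigDet g x = -(c * (s * s)) := by
      unfold eigDet
      rw [hg10, ← hg00, ← ha, ← hc, ← hp, ← hs]
      ring
    rw [← hs]
    by_cases hs0 : s = 0
    · have he0 : eigDet g x = 0 := by rw [he, hs0]; ring
      have hy10 := gl2_conj_of_eigDet g x he0
      obtain ⟨e1, -, e3⟩ := gl2_conj_borel g x hy10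
      have hp0 : p ≠ 0 := by
        rw [hp]
        exact (gl2Borel_diag_ne_zero x (by rw [← hs, hs0])).1
      rw [← ha, ← hp, ← hs, hs0, mul_zero, add_zero] at e1
      have hy00 : ((x⁻¹ * g * x : Matrix.GeneralLinearGroup (Fin 2) F) :
          Matrix (Fin 2) (Fin 2) F) 0 0 = a := by
        apply mul_left_cancel₀ hp0
        rw [← e1]; ring
      rw [hdg, hy00] at e3
      have hy11 : ((x⁻¹ * g * x : Matrix.GeneralLinearGroup (Fin 2) F) :
          Matrix (Fin 2) (Fin 2) F) 1 1 = a := mul_left_cancel₀ ha0 e3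
      rw [if_pos he0, if_pos hs0, hy00, hy11]
    · rw [if_neg, if_neg hs0]
      rw [he]
      intro h
      have h1 : c * (s * s) = 0 := by linear_combination -h
      rcases mul_eq_zero.1 h1 with h' | h'
      · exact hg01 (by rw [← hc]; exact h')
      · rcases mul_eq_zero.1 h' with h'' | h'' <;> exact hs0 h''
  unfold gl2R Cfsg.indFun
  rw [Finset.sum_congr rfl (fun x _ => hterm x), Finset.sum_ite, Finset.sum_const,
    Finset.sum_const_zero, add_zero, card_gl2_lower_zero, card_borel2, nsmul_eq_mul]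
  have h0 := gl2_card_borel_ne_zero (F := F)
  field_simp
  rw [ha]

/-- Value of `R(α, β)` at a diagonal matrix with distinct entries. -/
theorem gl2R_split (α β : MulChar F ℂ) (g : Matrix.GeneralLinearGroup (Fin 2) F)
    (hg01 : (g : Matrix (Fin 2) (Fin 2) F) 0 1 = 0) (hg10 : (g : Matrix (Fin 2) (Fin 2) F) 1 0 = 0)
    (hg : (g : Matrix (Fin 2) (Fin 2) F) 0 0 ≠ (g : Matrix (Fin 2) (Fin 2) F) 1 1) :
    gl2R α β g = α ((g : Matrix (Fin 2) (Fin 2) F) 0 0) * β ((g : Matrix (Fin 2) (Fin 2) F) 1 1) +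
      α ((g : Matrix (Fin 2) (Fin 2) F) 1 1) * β ((g : Matrix (Fin 2) (Fin 2) F) 0 0) := by
  obtain ⟨a, ha⟩ : ∃ a, a = (g : Matrix (Fin 2) (Fin 2) F) 0 0 := ⟨_, rfl⟩
  obtain ⟨d, hd⟩ : ∃ d, d = (g : Matrix (Fin 2) (Fin 2) F) 1 1 := ⟨_, rfl⟩
  have ha0 : a ≠ 0 := by rw [ha]; exact (gl2Borel_diag_ne_zero g hg10).1
  have hd0 : d ≠ 0 := by rw [hd]; exact (gl2Borel_diag_ne_zero g hg10).2
  have hdg : Matrix.det (g : Matrix (Fin 2) (Fin 2) F) = a * d := by
    rw [Matrix.det_fin_two, hg10, ← ha, ← hd]; ring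
  rw [← ha, ← hd] at hg ⊢
  have hterm : ∀ x : Matrix.GeneralLinearGroup (Fin 2) F,
      Cfsg.extendByZero (Cfsg.upperTriangularGL 2 F)
      (fun b => α (((b : Matrix.GeneralLinearGroup (Fin 2) F) : Matrix (Fin 2) (Fin 2) F) 0 0) *
        β (((b : Matrix.GeneralLinearGroup (Fin 2) F) : Matrix (Fin 2) (Fin 2) F) 1 1))
      (x⁻¹ * g * x) =
      (if (x : Matrix (Fin 2) (Fin 2) F) 1 0 = 0 then α a * β d else 0) +
      (if (x : Matrix (Fin 2) (Fin 2) F) 0 0 = 0 then α d * β a else 0) := by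
    intro x
    rw [gl2R_term]
    obtain ⟨p, hp⟩ : ∃ p, p = (x : Matrix (Fin 2) (Fin 2) F) 0 0 := ⟨_, rfl⟩
    obtain ⟨s, hs⟩ : ∃ s, s = (x : Matrix (Fin 2) (Fin 2) F) 1 0 := ⟨_, rfl⟩
    have he : eigDet g x = p * s * (d - a) := by
      unfold eigDet
      rw [hg10, hg01, ← ha, ← hd, ← hp, ← hs]
      ring
    have hdx := gl2_det_ne_zero x
    rw [Matrix.det_fin_two, ← hp, ← hs] at hdx
    rw [← hs, ← hp]
    by_cases hs0 : s = 0
    · have he0 : eigDet g x = 0 := by rw [he, hs0]; ring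
      have hy10 := gl2_conj_of_eigDet g x he0
      obtain ⟨e1, -, e3⟩ := gl2_conj_borel g x hy10
      have hp0 : p ≠ 0 := by
        intro hp0
        rw [hp0, hs0] at hdx
        simp at hdx
      rw [← ha, ← hp, ← hs, hs0, mul_zero, add_zero] at e1
      have hy00 : ((x⁻¹ * g * x : Matrix.GeneralLinearGroup (Fin 2) F) :
          Matrix (Fin 2) (Fin 2) F) 0 0 = a := by
        apply mul_left_cancel₀ hp0
        rw [← e1]; ring
      rw [hdg, hy00] at e3
      have hy11 : ((x⁻¹ * g * x : Matrix.GeneralLinearGroup (Fin 2) F) :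
          Matrix (Fin 2) (Fin 2) F) 1 1 = d := mul_left_cancel₀ ha0 e3
      rw [if_pos he0, if_pos hs0, if_neg hp0, add_zero, hy00, hy11]
    · by_cases hp0 : p = 0
      · have he0 : eigDet g x = 0 := by rw [he, hp0]; ring
        have hy10 := gl2_conj_of_eigDet g x he0
        obtain ⟨-, e2, e3⟩ := gl2_conj_borel g x hy10
        rw [hg10, ← hd, ← hs, zero_mul, zero_add] at e2
        have hy00 : ((x⁻¹ * g * x : Matrix.GeneralLinearGroup (Fin 2) F) :
            Matrix (Fin 2) (Fin 2) F) 0 0 = d := by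
          apply mul_left_cancel₀ hs0
          rw [← e2]; ring
        rw [hdg, hy00] at e3
        have hy11 : ((x⁻¹ * g * x : Matrix.GeneralLinearGroup (Fin 2) F) :
            Matrix (Fin 2) (Fin 2) F) 1 1 = a := by
          apply mul_left_cancel₀ hd0
          rw [e3]; ring
        rw [if_pos he0, if_neg hs0, if_pos hp0, zero_add, hy00, hy11]
      · rw [if_neg, if_neg hs0, if_neg hp0, add_zero]
        rw [he]
        intro h
        rcases mul_eq_zero.1 h with h' | h'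
        · rcases mul_eq_zero.1 h' with h'' | h''
          · exact hp0 h''
          · exact hs0 h''
        · exact hg (sub_eq_zero.1 h').symm
  unfold gl2R Cfsg.indFun
  rw [Finset.sum_congr rfl (fun x _ => hterm x), Finset.sum_add_distrib, Finset.sum_ite,
    Finset.sum_ite, Finset.sum_const, Finset.sum_const_zero, Finset.sum_const,
    Finset.sum_const_zero, add_zero, add_zero, card_gl2_lower_zero, card_gl2_upper_zero,
    card_borel2, nsmul_eq_mul, nsmul_eq_mul]
  have h0 := gl2_card_borel_ne_zero (F := F)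
  field_simp

/-- `R(α, β)` vanishes at elements without eigenvectors. -/
theorem gl2R_no_eig (α β : MulChar F ℂ) (g : Matrix.GeneralLinearGroup (Fin 2) F)
    (hg : ∀ (c : F) (v : Fin 2 → F), v ≠ 0 → (g : Matrix (Fin 2) (Fin 2) F).mulVec v ≠ c • v) :
    gl2R α β g = 0 := by
  have hterm : ∀ x : Matrix.GeneralLinearGroup (Fin 2) F,
      Cfsg.extendByZero (Cfsg.upperTriangularGL 2 F)
      (fun b => α (((b : Matrix.GeneralLinearGroup (Fin 2) F) : Matrix (Fin 2) (Fin 2) F) 0 0) *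
        β (((b : Matrix.GeneralLinearGroup (Fin 2) F) : Matrix (Fin 2) (Fin 2) F) 1 1))
      (x⁻¹ * g * x) = 0 := by
    intro x
    rw [gl2R_term, if_neg]
    intro h
    have hy10 := gl2_conj_of_eigDet g x h
    obtain ⟨e1, e2, -⟩ := gl2_conj_borel g x hy10
    have hdx := gl2_det_ne_zero x
    rw [Matrix.det_fin_two] at hdx
    obtain ⟨y, hy⟩ : ∃ y, y = ((x⁻¹ * g * x : Matrix.GeneralLinearGroup (Fin 2) F) :
      Matrix (Fin 2) (Fin 2) F) 0 0 := ⟨_, rfl⟩
    rw [← hy] at e1 e2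
    apply hg y
      ![(x : Matrix (Fin 2) (Fin 2) F) 0 0, (x : Matrix (Fin 2) (Fin 2) F) 1 0]
    · intro hv
      have e0 := congrFun hv 0
      have e1 := congrFun hv 1
      simp at e0 e1
      rw [e0, e1] at hdx
      simp at hdx
    · rw [Matrix.eta_fin_two (g : Matrix (Fin 2) (Fin 2) F)]
      funext i
      fin_cases i
      · simp [Matrix.mulVec, dotProduct, Fin.sum_univ_two]
        linear_combination e1
      · simp [Matrix.mulVec, dotProduct, Fin.sum_univ_two]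
        linear_combination e2
  unfold gl2R Cfsg.indFun
  rw [Finset.sum_congr rfl (fun x _ => hterm x), Finset.sum_const_zero, mul_zero]

theorem gl2R_one (α β : MulChar F ℂ) : gl2R α β 1 = (Fintype.card F : ℂ) + 1 := by
  rw [gl2R_central α β 1 (by simp) (by simp) (by simp)]
  simp

end Cfsg.Agent.Lib.Helper4
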