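import Mathlib
import Cfsg.Agent.Lib.Helper4.GL2CharB
import Cfsg.Agent.Lib.Lead.CharFrob
import Cfsg.Agent.Lib.Lead.CharArtin

set_option autoImplicit false

namespace Cfsg.Agent.Lib.Helper4

open scoped ComplexConjugate

variable {F : Type*} [Field F]

/-- The homomorphism `g ↦ α (det g)`. -/
noncomputable def gl2DetHom (α : MulChar F ℂ) : Matrix.GeneralLinearGroup (Fin 2) F →* ℂˣ :=
  α.toUnitHom.comp Matrix.GeneralLinearGroup.det

/-- The linear character `g ↦ α (det g)` of `GL₂`. -/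
noncomputable def gl2Det (α : MulChar F ℂ) : Matrix.GeneralLinearGroup (Fin 2) F → ℂ :=
  fun g => α (Matrix.det (g : Matrix (Fin 2) (Fin 2) F))

theorem gl2DetHom_apply (α : MulChar F ℂ) (g : Matrix.GeneralLinearGroup (Fin 2) F) :
    ((gl2DetHom α g : ℂˣ) : ℂ) = gl2Det α g := by
  show ((α.toUnitHom _ : ℂˣ) : ℂ) = _
  rw [MulChar.coe_toUnitHom]
  rfl

theorem gl2Det_irr (α : MulChar F ℂ) :
    Cfsg.IsIrrCharacter (Matrix.GeneralLinearGroup (Fin 2) F) (gl2Det α) := by
  have h := isIrrCharacter_of_monoidHom (gl2DetHom α)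
  have e : (fun g => ((gl2DetHom α g : ℂˣ) : ℂ)) = gl2Det α := funext (gl2DetHom_apply α)
  rw [← e]
  exact h

theorem gl2Det_one (α : MulChar F ℂ) : gl2Det α 1 = 1 := by
  unfold gl2Det
  simp

theorem gl2Det_injective {α γ : MulChar F ℂ} (h : gl2Det α = gl2Det γ) : α = γ := by
  apply MulChar.ext
  intro a
  have h1 := congrFun h (gl2BorelMk (a, 1, 0))
  unfold gl2Det at h1
  rw [gl2BorelMk_val, Matrix.det_fin_two] at h1
  simpa using h1

variable [Fintype F] [DecidableEq F]

/-- Frobenius reciprocity for the principal series, in coordinates. -/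
theorem gl2R_inner_classFun (α β : MulChar F ℂ)
    (f : Matrix.GeneralLinearGroup (Fin 2) F → ℂ)
    (hf : Cfsg.IsClassFunction (Matrix.GeneralLinearGroup (Fin 2) F) f) :
    Cfsg.classInner (gl2R α β) f =
      ((Fintype.card F * (Fintype.card F - 1) ^ 2 : ℕ) : ℂ)⁻¹ *
      ∑ a : Fˣ, ∑ d : Fˣ, ∑ c : F,
        α (a : F) * β (d : F) * conj (f (gl2BorelMk (a, d, c))) := by
  classical
  haveI : Fintype (Cfsg.upperTriangularGL 2 F) := Fintype.ofFinite _
  unfold gl2R
  rw [Lead.frobenius_reciprocity _ _ _ hf]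
  unfold Cfsg.classInner
  rw [card_borel2]
  congr 1
  obtain ⟨e, he⟩ : ∃ e : Fˣ × Fˣ × F ≃ (Cfsg.upperTriangularGL 2 F),
      ∀ p : Fˣ × Fˣ × F, ((e p : Cfsg.upperTriangularGL 2 F) :
        Matrix.GeneralLinearGroup (Fin 2) F) = gl2BorelMk p :=
    ⟨(Equiv.ofBijective _ gl2BorelMk_bijective).trans
      (Equiv.subtypeEquivRight (fun h => (mem_borel2_iff h).symm)), fun p => rfl⟩
  rw [← Fintype.sum_equiv e (fun p : Fˣ × Fˣ × F =>
    α (p.1 : F) * β (p.2.1 : F) * conj (f (gl2BorelMk p))) _ (fun p => ?_)]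
  · simp only [Fintype.sum_prod_type]
  · beta_reduce
    rw [he p, gl2BorelMk_val]
    simp

theorem gl2R_inner_det (α β γ : MulChar F ℂ) [Decidable (α = γ)] [Decidable (β = γ)] :
    Cfsg.classInner (gl2R α β) (gl2Det γ) =
      if α = γ then (if β = γ then 1 else 0) else 0 := by
  rw [gl2R_inner_classFun α β _ (Lead.isClassFunction_of_irr (gl2Det_irr γ))]
  have h1 : ∀ (a d : Fˣ) (c : F), α (a : F) * β (d : F) * conj (gl2Det γ (gl2BorelMk (a, d, c))) =
      (α (a : F) * (starRingEnd ℂ) (γ (a : F))) * (β (d : F) * (starRingEnd ℂ) (γ (d : F))) := by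
    intro a d c
    unfold gl2Det
    rw [gl2BorelMk_val, Matrix.det_fin_two]
    simp only [Matrix.of_apply, Matrix.cons_val', Matrix.cons_val_zero, Matrix.cons_val_one,
      Matrix.cons_val_fin_one, mul_zero, sub_zero, map_mul]
    ring
  have h2 : ∑ a : Fˣ, ∑ d : Fˣ, (Fintype.card F : ℂ) *
      ((α (a : F) * (starRingEnd ℂ) (γ (a : F))) * (β (d : F) * (starRingEnd ℂ) (γ (d : F)))) =
      (Fintype.card F : ℂ) * ((∑ a : Fˣ, α (a : F) * (starRingEnd ℂ) (γ (a : F))) *
        (∑ d : Fˣ, β (d : F) * (starRingEnd ℂ) (γ (d : F)))) := by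
    rw [Finset.sum_mul_sum, Finset.mul_sum]
    refine Finset.sum_congr rfl (fun a _ => ?_)
    rw [Finset.mul_sum]
  simp only [h1, Finset.sum_const, Finset.card_univ, nsmul_eq_mul]
  rw [h2, mulChar_sum_mul_conj, mulChar_sum_mul_conj]
  have h0 := gl2_card_borel_ne_zero (F := F)
  have hq2 := Fintype.one_lt_card (α := F)
  have hq1 : ((Fintype.card F : ℂ) - 1) ≠ 0 := by
    intro h
    have h' : (Fintype.card F : ℂ) = 1 := by linear_combination h
    have : Fintype.card F = 1 := by exact_mod_cast h'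
    omega
  have hq0 : (Fintype.card F : ℂ) ≠ 0 := by
    exact_mod_cast (by omega : Fintype.card F ≠ 0)
  have hcast : ((Fintype.card F * (Fintype.card F - 1) ^ 2 : ℕ) : ℂ) =
      (Fintype.card F : ℂ) * ((Fintype.card F : ℂ) - 1) ^ 2 := by
    rw [Nat.cast_mul, Nat.cast_pow, Nat.cast_sub (by omega)]
    simp
  rw [hcast]
  by_cases h2 : α = γ
  · by_cases h3 : β = γ
    · rw [if_pos h2, if_pos h3, if_pos h2, if_pos h3]
      field_simp
    · rw [if_pos h2, if_neg h3, if_pos h2, if_neg h3]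
      simp
  · rw [if_neg h2, if_neg h2]
    simp

theorem gl2Det_inner_R (α β γ : MulChar F ℂ) [Decidable (α = γ)] [Decidable (β = γ)] :
    Cfsg.classInner (gl2Det γ) (gl2R α β) =
      if α = γ then (if β = γ then 1 else 0) else 0 := by
  rw [← Lead.classInner_conj_symm, gl2R_inner_det]
  split_ifs <;> simp

theorem gl2Det_inner_det (α γ : MulChar F ℂ) [Decidable (α = γ)] :
    Cfsg.classInner (gl2Det α) (gl2Det γ) = if α = γ then 1 else 0 := by
  classical
  rw [Lead.classInner_irr (gl2Det_irr α) (gl2Det_irr γ)]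
  by_cases h : α = γ
  · rw [if_pos h, if_pos (by rw [h])]
  · rw [if_neg h, if_neg (fun h' => h (gl2Det_injective h'))]

/-- The Steinberg-type character `St_α = R(α, α) - α ∘ det`. -/
noncomputable def gl2St (α : MulChar F ℂ) : Matrix.GeneralLinearGroup (Fin 2) F → ℂ :=
  gl2R α α - gl2Det α

theorem gl2St_apply (α : MulChar F ℂ) (g : Matrix.GeneralLinearGroup (Fin 2) F) :
    gl2St α g = gl2R α α g - gl2Det α g := rfl

theorem gl2St_inner_det (α γ : MulChar F ℂ) :
    Cfsg.classInner (gl2St α) (gl2Det γ) = 0 := by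
  classical
  unfold gl2St
  rw [Lead.classInner_sub_left, gl2R_inner_det, gl2Det_inner_det]
  split_ifs <;> simp

theorem gl2Det_inner_St (α γ : MulChar F ℂ) :
    Cfsg.classInner (gl2Det γ) (gl2St α) = 0 := by
  rw [← Lead.classInner_conj_symm, gl2St_inner_det, map_zero]

theorem gl2R_inner_St (α β γ : MulChar F ℂ) [Decidable (α = γ)] [Decidable (β = γ)] :
    Cfsg.classInner (gl2R α β) (gl2St γ) =
      if α = γ then (if β = γ then 1 else 0) else 0 := by
  unfold gl2St
  rw [Lead.classInner_sub_right, gl2R_inner_det, gl2R_classInner]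
  split_ifs <;> norm_num

theorem gl2St_inner_R (α β γ : MulChar F ℂ) [Decidable (α = γ)] [Decidable (β = γ)] :
    Cfsg.classInner (gl2St γ) (gl2R α β) =
      if α = γ then (if β = γ then 1 else 0) else 0 := by
  rw [← Lead.classInner_conj_symm, gl2R_inner_St]
  split_ifs <;> simp

theorem gl2St_inner_St (α γ : MulChar F ℂ) [Decidable (α = γ)] :
    Cfsg.classInner (gl2St α) (gl2St γ) = if α = γ then 1 else 0 := by
  classical
  have h : Cfsg.classInner (gl2St α) (gl2St γ) =
      Cfsg.classInner (gl2R α α) (gl2St γ) - Cfsg.classInner (gl2Det α) (gl2St γ) := by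
    unfold gl2St
    rw [Lead.classInner_sub_left]
  rw [h, gl2R_inner_St, gl2Det_inner_St]
  split_ifs <;> simp

theorem gl2St_one (α : MulChar F ℂ) : gl2St α 1 = (Fintype.card F : ℂ) := by
  rw [gl2St_apply, gl2R_one, gl2Det_one]
  ring

theorem gl2St_irr (α : MulChar F ℂ) :
    Cfsg.IsIrrCharacter (Matrix.GeneralLinearGroup (Fin 2) F) (gl2St α) := by
  classical
  apply Lead.isIrrCharacter_of_genChar
  · exact Lead.isGenChar_sub (Lead.isGenChar_of_char (gl2R_isCharacter α α))
      (Lead.isGenChar_of_char (Lead.isCharacter_of_isIrrCharacter (gl2Det_irr α)))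
  · rw [gl2St_inner_St, if_pos rfl]
  · rw [gl2St_one]
    simp
    exact Fintype.card_pos

end Cfsg.Agent.Lib.Helper4
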