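import Mathlib
import Cfsg.Agent.Lib.Helper4.GL2CharC
import Cfsg.Agent.Lib.Helper4.SL2CharO
import Cfsg.Agent.Lib.Lead.CharCount
import Cfsg.Agent.Lib.Lead.CharCongr
import Cfsg.Agent.Lib.Lead.CharInt

set_option autoImplicit false

namespace Cfsg.Agent.Lib.Helper4

open scoped ComplexConjugate

section abstract

variable {G : Type*} [Group G] [Fintype G]

/-- Splitting a sum over all irreducible characters into the part over a weighted family of
known irreducible characters and the rest. -/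
theorem irr_sum_split [Fintype (Cfsg.IrrCharacter G)] {I : Type*} [Fintype I]
    (ξ : I → G → ℂ) (w : I → ℂ)
    (hirr : ∀ i, w i ≠ 0 → Cfsg.IsIrrCharacter G (ξ i))
    (hH : ∀ j, w j ≠ 0 → ∑ i, w i * Cfsg.classInner (ξ i) (ξ j) = 1)
    (P : Cfsg.IrrCharacter G → Prop) [DecidablePred P]
    (hP : ∀ χ : Cfsg.IrrCharacter G, P χ ↔ ∃ i, w i ≠ 0 ∧ ξ i = (χ : G → ℂ))
    (F : (G → ℂ) → ℂ) :
    ∑ χ : Cfsg.IrrCharacter G, F χ =
      ∑ i, w i * F (ξ i) + ∑ χ : Cfsg.IrrCharacter G, (if P χ then 0 else F χ) := by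
  classical
  have h1 : ∀ χ : Cfsg.IrrCharacter G,
      ∑ i, w i * Cfsg.classInner (ξ i) (χ : G → ℂ) = if P χ then 1 else 0 := by
    intro χ
    by_cases hχ : P χ
    · rw [if_pos hχ]
      obtain ⟨j, hj, hjχ⟩ := (hP χ).1 hχ
      rw [← hjχ]
      exact hH j hj
    · rw [if_neg hχ]
      apply Finset.sum_eq_zero
      intro i _
      by_cases hi : w i = 0
      · rw [hi, zero_mul]
      · rw [Lead.classInner_irr (hirr i hi) χ.2, if_neg, mul_zero]
        intro h
        exact hχ ((hP χ).2 ⟨i, hi, h⟩)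
  have h2 : ∀ i, w i * F (ξ i) =
      ∑ χ : Cfsg.IrrCharacter G, w i * Cfsg.classInner (ξ i) (χ : G → ℂ) * F χ := by
    intro i
    by_cases hi : w i = 0
    · simp [hi]
    · rw [Finset.sum_eq_single (⟨ξ i, hirr i hi⟩ : Cfsg.IrrCharacter G)]
      · rw [Lead.classInner_irr_self (hirr i hi), mul_one]
      · intro χ _ hne
        rw [Lead.classInner_irr (hirr i hi) χ.2, if_neg, mul_zero, zero_mul]
        intro h
        exact hne (Subtype.ext h.symm)
      · intro h
        exact absurd (Finset.mem_univ _) h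
  rw [Finset.sum_congr rfl (fun i _ => h2 i), Finset.sum_comm, ← Finset.sum_add_distrib]
  refine Finset.sum_congr rfl (fun χ _ => ?_)
  rw [← Finset.sum_mul, h1 χ]
  by_cases hχ : P χ
  · rw [if_pos hχ, if_pos hχ]; ring
  · rw [if_neg hχ, if_neg hχ]; ring

theorem gl2_classFun_isConj {f : G → ℂ} (hf : Cfsg.IsClassFunction G f)
    {g g' : G} (h : IsConj g g') : f g = f g' := by
  obtain ⟨c, rfl⟩ := isConj_iff.mp h
  exact (hf g c).symm

end abstract

variable {F : Type*} [Field F]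

theorem gl2_isConj_of_trace_det (g h : Matrix.GeneralLinearGroup (Fin 2) F)
    (hg : ¬ ((g : Matrix (Fin 2) (Fin 2) F) 0 1 = 0 ∧ (g : Matrix (Fin 2) (Fin 2) F) 1 0 = 0 ∧
      (g : Matrix (Fin 2) (Fin 2) F) 0 0 = (g : Matrix (Fin 2) (Fin 2) F) 1 1))
    (hh : ¬ ((h : Matrix (Fin 2) (Fin 2) F) 0 1 = 0 ∧ (h : Matrix (Fin 2) (Fin 2) F) 1 0 = 0 ∧
      (h : Matrix (Fin 2) (Fin 2) F) 0 0 = (h : Matrix (Fin 2) (Fin 2) F) 1 1))
    (ht : Matrix.trace (g : Matrix (Fin 2) (Fin 2) F) =
      Matrix.trace (h : Matrix (Fin 2) (Fin 2) F))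
    (hd : Matrix.det (g : Matrix (Fin 2) (Fin 2) F) =
      Matrix.det (h : Matrix (Fin 2) (Fin 2) F)) : IsConj g h := by
  have h1 := gl2_isConj_comp g hg
  have h2 := gl2_isConj_comp h hh
  have hd' : Matrix.GeneralLinearGroup.det g = Matrix.GeneralLinearGroup.det h := Units.ext hd
  rw [ht, hd'] at h1
  exact h1.trans h2.symm

variable [Fintype F] [DecidableEq F]

theorem gl2_card_sub_one_ne_zero : ((Fintype.card F : ℂ) - 1) ≠ 0 := by
  have hq2 := Fintype.one_lt_card (α := F)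
  intro h
  have h' : (Fintype.card F : ℂ) = 1 := by linear_combination h
  have : Fintype.card F = 1 := by exact_mod_cast h'
  omega

/-- Dual orthogonality for multiplicative characters of a finite field. -/
theorem mulChar_dual_sum [Fintype (MulChar F ℂ)] (a b : Fˣ) :
    ∑ χ : MulChar F ℂ, χ (a : F) * conj (χ (b : F)) =
      if a = b then ((Fintype.card F : ℂ) - 1) else 0 := by
  haveI : NeZero (Monoid.exponent Fˣ) := ⟨Monoid.exponent_ne_zero_of_finite⟩
  have h1 : ∀ χ : MulChar F ℂ, χ (a : F) * conj (χ (b : F)) = χ ((a * b⁻¹ : Fˣ) : F) := by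
    intro χ
    have h3 : conj (χ (b : F)) = χ⁻¹ (b : F) := MulChar.star_apply' χ _
    rw [h3, MulChar.inv_apply', ← map_mul, Units.val_mul, Units.val_inv_eq_inv_val]
  rw [Finset.sum_congr rfl (fun χ _ => h1 χ)]
  by_cases hab : a = b
  · rw [if_pos hab, hab, mul_inv_cancel]
    simp only [Units.val_one, map_one, Finset.sum_const, Finset.card_univ, nsmul_eq_mul, mul_one]
    rw [← Nat.card_eq_fintype_card, sl2_card_mulChar, Nat.cast_sub Fintype.card_pos, Nat.cast_one]
  · rw [if_neg hab]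
    have hc : ((a * b⁻¹ : Fˣ) : F) ≠ 1 := by
      intro h
      apply hab
      have : a * b⁻¹ = 1 := Units.ext h
      exact mul_inv_eq_one.1 this
    obtain ⟨χ₀, hχ₀⟩ := MulChar.exists_apply_ne_one_of_hasEnoughRootsOfUnity F ℂ hc
    refine eq_zero_of_mul_eq_self_left hχ₀ ?_
    simp only [Finset.mul_sum, ← MulChar.mul_apply]
    exact Fintype.sum_bijective _ (Group.mulLeft_bijective χ₀) _ _ fun χ' ↦ rfl

/-- Fourier inversion on `Fˣ`. -/
theorem mulChar_fourier_inj [Fintype (MulChar F ℂ)] (f : Fˣ → ℂ)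
    (h : ∀ α : MulChar F ℂ, ∑ a : Fˣ, α (a : F) * f a = 0) (b : Fˣ) : f b = 0 := by
  have h1 : ∑ α : MulChar F ℂ, conj (α (b : F)) * ∑ a : Fˣ, α (a : F) * f a = 0 := by
    apply Finset.sum_eq_zero
    intro α _
    rw [h α, mul_zero]
  have h2 : ∑ α : MulChar F ℂ, conj (α (b : F)) * ∑ a : Fˣ, α (a : F) * f a =
      ((Fintype.card F : ℂ) - 1) * f b := by
    simp only [Finset.mul_sum]
    rw [Finset.sum_comm]
    have h3 : ∀ a : Fˣ, ∑ α : MulChar F ℂ, conj (α (b : F)) * (α (a : F) * f a) =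
        (if a = b then ((Fintype.card F : ℂ) - 1) else 0) * f a := by
      intro a
      rw [← mulChar_dual_sum a b, Finset.sum_mul]
      refine Finset.sum_congr rfl (fun α _ => by ring)
    rw [Finset.sum_congr rfl (fun a _ => h3 a)]
    simp
  rw [h2] at h1
  exact (mul_eq_zero.1 h1).resolve_left gl2_card_sub_one_ne_zero

/-- A class function orthogonal to the principal series has vanishing sums over the cosets of
the unipotent radical in the Borel subgroup. -/
theorem gl2_cusp_sum [Fintype (MulChar F ℂ)] (χ : Matrix.GeneralLinearGroup (Fin 2) F → ℂ)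
    (hχ : Cfsg.IsClassFunction (Matrix.GeneralLinearGroup (Fin 2) F) χ)
    (hc : ∀ α β : MulChar F ℂ, Cfsg.classInner (gl2R α β) χ = 0) (a d : Fˣ) :
    ∑ c : F, χ (gl2BorelMk (a, d, c)) = 0 := by
  have h1 : ∀ α β : MulChar F ℂ, ∑ a : Fˣ, α (a : F) * ∑ d : Fˣ, β (d : F) *
      ∑ c : F, conj (χ (gl2BorelMk (a, d, c))) = 0 := by
    intro α β
    have h := hc α β
    rw [gl2R_inner_classFun α β χ hχ] at h
    have h' := (mul_eq_zero.1 h).resolve_left (inv_ne_zero gl2_card_borel_ne_zero)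
    rw [← h']
    refine Finset.sum_congr rfl (fun a _ => ?_)
    rw [Finset.mul_sum]
    refine Finset.sum_congr rfl (fun d _ => ?_)
    rw [Finset.mul_sum, Finset.mul_sum]
    refine Finset.sum_congr rfl (fun c _ => ?_)
    ring
  have h2 : ∀ (β : MulChar F ℂ) (a : Fˣ), ∑ d : Fˣ, β (d : F) *
      ∑ c : F, conj (χ (gl2BorelMk (a, d, c))) = 0 := by
    intro β a
    exact mulChar_fourier_inj (fun a => ∑ d : Fˣ, β (d : F) *
      ∑ c : F, conj (χ (gl2BorelMk (a, d, c)))) (fun α => h1 α β) a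
  have h3 := mulChar_fourier_inj (fun d => ∑ c : F, conj (χ (gl2BorelMk (a, d, c))))
    (fun β => h2 β a) d
  have h4 := congrArg conj h3
  rw [map_sum, map_zero] at h4
  simpa using h4

/-- A class function orthogonal to the principal series vanishes at split regular elements. -/
theorem gl2_cusp_split [Fintype (MulChar F ℂ)] (χ : Matrix.GeneralLinearGroup (Fin 2) F → ℂ)
    (hχ : Cfsg.IsClassFunction (Matrix.GeneralLinearGroup (Fin 2) F) χ)
    (hc : ∀ α β : MulChar F ℂ, Cfsg.classInner (gl2R α β) χ = 0)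
    (g : Matrix.GeneralLinearGroup (Fin 2) F)
    (hg01 : (g : Matrix (Fin 2) (Fin 2) F) 0 1 = 0) (hg10 : (g : Matrix (Fin 2) (Fin 2) F) 1 0 = 0)
    (hne : (g : Matrix (Fin 2) (Fin 2) F) 0 0 ≠ (g : Matrix (Fin 2) (Fin 2) F) 1 1) :
    χ g = 0 := by
  obtain ⟨n0, n1⟩ := gl2Borel_diag_ne_zero g hg10
  have h := gl2_cusp_sum χ hχ hc (Units.mk0 _ n0) (Units.mk0 _ n1)
  have h1 : ∀ c : F, χ (gl2BorelMk (Units.mk0 _ n0, Units.mk0 _ n1, c)) = χ g := by
    intro c
    apply gl2_classFun_isConj hχ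
    apply gl2_isConj_of_trace_det
    · rw [gl2BorelMk_val]
      simp
      intro _
      exact hne
    · exact fun h => hne h.2.2
    · rw [gl2BorelMk_val, Matrix.trace_fin_two, Matrix.trace_fin_two]
      simp
    · rw [gl2BorelMk_val, Matrix.det_fin_two, Matrix.det_fin_two, hg10]
      simp
  rw [Finset.sum_congr rfl (fun c _ => h1 c), Finset.sum_const, Finset.card_univ,
    nsmul_eq_mul] at h
  exact (mul_eq_zero.1 h).resolve_left (by exact_mod_cast Fintype.card_ne_zero)

/-- A class function orthogonal to the principal series: value at a transvection. -/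
theorem gl2_cusp_unip [Fintype (MulChar F ℂ)] (χ : Matrix.GeneralLinearGroup (Fin 2) F → ℂ)
    (hχ : Cfsg.IsClassFunction (Matrix.GeneralLinearGroup (Fin 2) F) χ)
    (hc : ∀ α β : MulChar F ℂ, Cfsg.classInner (gl2R α β) χ = 0)
    (u : Matrix.GeneralLinearGroup (Fin 2) F)
    (hu : (u : Matrix (Fin 2) (Fin 2) F) = !![1, 1; 0, 1]) :
    χ 1 + ((Fintype.card F : ℂ) - 1) * χ u = 0 := by
  have h := gl2_cusp_sum χ hχ hc 1 1
  have h1 : ∀ c : F, χ (gl2BorelMk (1, 1, c)) = χ u + (if c = 0 then χ 1 - χ u else 0) := by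
    intro c
    by_cases hc0 : c = 0
    · rw [if_pos hc0, hc0]
      have : gl2BorelMk ((1 : Fˣ), (1 : Fˣ), (0 : F)) = 1 := by
        apply Units.ext
        rw [gl2BorelMk_val]
        ext i j
        fin_cases i <;> fin_cases j <;> simp
      rw [this]
      ring
    · rw [if_neg hc0, add_zero]
      apply gl2_classFun_isConj hχ
      apply gl2_isConj_of_trace_det
      · rw [gl2BorelMk_val]
        simp
        intro h
        exact absurd h hc0
      · rw [hu]
        simp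
      · rw [gl2BorelMk_val, hu, Matrix.trace_fin_two, Matrix.trace_fin_two]
        simp
      · rw [gl2BorelMk_val, hu, Matrix.det_fin_two, Matrix.det_fin_two]
        simp
  rw [Finset.sum_congr rfl (fun c _ => h1 c), Finset.sum_add_distrib, Finset.sum_const,
    Finset.card_univ, nsmul_eq_mul, Finset.sum_ite_eq', if_pos (Finset.mem_univ _)] at h
  linear_combination h

/-- The degree of an irreducible character orthogonal to the principal series is a multiple of
`q - 1`. -/
theorem gl2_cusp_deg [Fintype (MulChar F ℂ)] (χ : Matrix.GeneralLinearGroup (Fin 2) F → ℂ)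
    (hχ : Cfsg.IsIrrCharacter (Matrix.GeneralLinearGroup (Fin 2) F) χ)
    (hc : ∀ α β : MulChar F ℂ, Cfsg.classInner (gl2R α β) χ = 0) :
    ∃ k : ℕ, k ≠ 0 ∧ χ 1 = (k : ℂ) * ((Fintype.card F : ℂ) - 1) := by
  obtain ⟨n, hn0, hn⟩ := Lead.irr_one hχ
  have hq2 := Fintype.one_lt_card (α := F)
  have h := gl2_cusp_unip χ (Lead.isClassFunction_of_irr hχ) hc (gl2BorelMk (1, 1, 1))
    (by rw [gl2BorelMk_val]; simp)
  have hint := Lead.isIntegral_isCharacter (Lead.isCharacter_of_isIrrCharacter hχ)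
    (gl2BorelMk ((1 : Fˣ), (1 : Fˣ), (1 : F)))
  have hq1 := gl2_card_sub_one_ne_zero (F := F)
  have hval : -χ (gl2BorelMk ((1 : Fˣ), (1 : Fˣ), (1 : F))) =
      (n : ℂ) / ((Fintype.card F - 1 : ℕ) : ℂ) := by
    rw [Nat.cast_sub Fintype.card_pos, Nat.cast_one, eq_div_iff hq1]
    rw [hn] at h
    linear_combination -h
  have hint2 : IsIntegral ℤ ((n : ℂ) / ((Fintype.card F - 1 : ℕ) : ℂ)) := by
    rw [← hval]
    exact hint.neg
  obtain ⟨k, hk⟩ := Lead.dvd_of_isIntegral_div n (Fintype.card F - 1) (by omega) hint2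
  refine ⟨k, ?_, ?_⟩
  · rintro rfl
    rw [mul_zero] at hk
    exact hn0 hk
  · rw [hn, hk, Nat.cast_mul, Nat.cast_sub Fintype.card_pos, Nat.cast_one]
    ring

end Cfsg.Agent.Lib.Helper4
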