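import Mathlib
import Cfsg.Agent.Lib.Helper4.GL2CharD
import Cfsg.Agent.Lib.Lead.CharQuot

set_option autoImplicit false

namespace Cfsg.Agent.Lib.Helper4

open scoped ComplexConjugate

theorem sum_offdiag_half {X : Type*} [Fintype X] [DecidableEq X] (c : ℂ) :
    ∑ p : X × X, (if p.1 = p.2 then (0 : ℂ) else 1 / 2) * c =
      (((Fintype.card X : ℂ) ^ 2 - Fintype.card X) / 2) * c := by
  rw [Fintype.sum_prod_type]
  have h1 : ∀ x : X, ∑ y : X, (if x = y then (0 : ℂ) else 1 / 2) * c =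
      ((Fintype.card X : ℂ) / 2 - 1 / 2) * c := by
    intro x
    have h : ∀ y : X, (if x = y then (0 : ℂ) else 1 / 2) * c =
        1 / 2 * c - (if x = y then 1 / 2 * c else 0) := by
      intro y
      split_ifs <;> ring
    rw [Finset.sum_congr rfl (fun y _ => h y), Finset.sum_sub_distrib, Finset.sum_const,
      Finset.card_univ, Finset.sum_ite_eq, if_pos (Finset.mem_univ _), nsmul_eq_mul]
    ring
  rw [Finset.sum_congr rfl (fun x _ => h1 x), Finset.sum_const, Finset.card_univ, nsmul_eq_mul]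
  ring

theorem natCard_subtype_cast {X : Type*} [Fintype X] (p : X → Prop) [DecidablePred p] :
    (Nat.card {x : X // p x} : ℂ) = ∑ x : X, if p x then (1 : ℂ) else 0 := by
  rw [Nat.card_eq_fintype_card, Fintype.card_subtype, Finset.card_filter]
  push_cast
  rfl

variable {F : Type*} [Field F]

theorem gl2_card_conjClasses [Fintype F] :
    Nat.card (ConjClasses (Matrix.GeneralLinearGroup (Fin 2) F)) = Fintype.card F ^ 2 - 1 := by
  classical
  rw [← Nat.card_congr (Equiv.ofBijective _ (gl2_classes_bijective (F := F))), Nat.card_sum,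
    Nat.card_prod, Nat.card_eq_fintype_card, Fintype.card_units, Nat.card_eq_fintype_card]
  have hq := Fintype.card_pos (α := F)
  obtain ⟨r, hr⟩ : ∃ r, Fintype.card F = r + 1 := ⟨Fintype.card F - 1, by omega⟩
  rw [hr]
  have : (r + 1) ^ 2 = r + (r + 1) * r + 1 := by ring
  simp only [Nat.add_sub_cancel]
  omega

variable [Fintype F] [DecidableEq F]

open Classical in
/-- The weights of the family of principal irreducible characters. -/
noncomputable def gl2Wt (i : MulChar F ℂ ⊕ MulChar F ℂ ⊕ (MulChar F ℂ × MulChar F ℂ)) : ℂ :=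
  Sum.elim (fun _ => 1) (Sum.elim (fun _ => 1) (fun p => if p.1 = p.2 then 0 else 1 / 2)) i

/-- The family of principal irreducible characters. -/
noncomputable def gl2Fam (i : MulChar F ℂ ⊕ MulChar F ℂ ⊕ (MulChar F ℂ × MulChar F ℂ)) :
    Matrix.GeneralLinearGroup (Fin 2) F → ℂ :=
  Sum.elim gl2Det (Sum.elim gl2St (fun p => gl2R p.1 p.2)) i

theorem gl2R_irr (α β : MulChar F ℂ) (h : α ≠ β) :
    Cfsg.IsIrrCharacter (Matrix.GeneralLinearGroup (Fin 2) F) (gl2R α β) := by
  classical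
  have hin := gl2R_classInner α β α β
  rw [if_pos rfl, if_pos rfl, if_neg h, add_zero] at hin
  exact Lead.isIrrCharacter_of_norm_one (gl2R_isCharacter α β) hin

theorem gl2Fam_irr (i : MulChar F ℂ ⊕ MulChar F ℂ ⊕ (MulChar F ℂ × MulChar F ℂ))
    (hi : gl2Wt i ≠ 0) :
    Cfsg.IsIrrCharacter (Matrix.GeneralLinearGroup (Fin 2) F) (gl2Fam i) := by
  classical
  rcases i with α | α | ⟨α, β⟩
  · exact gl2Det_irr α
  · exact gl2St_irr α
  · apply gl2R_irr
    intro h
    apply hi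
    have h' : α = β := h
    simp [gl2Wt, h']

theorem gl2Fam_H [Fintype (MulChar F ℂ)]
    (j : MulChar F ℂ ⊕ MulChar F ℂ ⊕ (MulChar F ℂ × MulChar F ℂ)) (hj : gl2Wt j ≠ 0) :
    ∑ i, gl2Wt i * Cfsg.classInner (gl2Fam i) (gl2Fam j) = 1 := by
  classical
  rw [Fintype.sum_sum_type, Fintype.sum_sum_type]
  rcases j with γ | γ | ⟨α₀, β₀⟩
  · simp only [gl2Fam, gl2Wt, Sum.elim_inl, Sum.elim_inr, one_mul]
    have h1 : ∑ α : MulChar F ℂ, Cfsg.classInner (gl2Det α) (gl2Det γ) = 1 := by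
      simp only [gl2Det_inner_det]
      rw [Finset.sum_ite_eq', if_pos (Finset.mem_univ _)]
    have h2 : ∑ α : MulChar F ℂ, Cfsg.classInner (gl2St α) (gl2Det γ) = 0 := by
      simp only [gl2St_inner_det, Finset.sum_const_zero]
    have h3 : ∑ p : MulChar F ℂ × MulChar F ℂ, (if p.1 = p.2 then (0 : ℂ) else 1 / 2) *
        Cfsg.classInner (gl2R p.1 p.2) (gl2Det γ) = 0 := by
      apply Finset.sum_eq_zero
      intro p _
      rw [gl2R_inner_det]
      by_cases e1 : p.1 = γ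
      · by_cases e2 : p.2 = γ
        · rw [if_pos (e1.trans e2.symm), zero_mul]
        · rw [if_pos e1, if_neg e2, mul_zero]
      · rw [if_neg e1, mul_zero]
    rw [h1, h2, h3]
    ring
  · simp only [gl2Fam, gl2Wt, Sum.elim_inl, Sum.elim_inr, one_mul]
    have h1 : ∑ α : MulChar F ℂ, Cfsg.classInner (gl2Det α) (gl2St γ) = 0 := by
      simp only [gl2Det_inner_St, Finset.sum_const_zero]
    have h2 : ∑ α : MulChar F ℂ, Cfsg.classInner (gl2St α) (gl2St γ) = 1 := by
      simp only [gl2St_inner_St]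
      rw [Finset.sum_ite_eq', if_pos (Finset.mem_univ _)]
    have h3 : ∑ p : MulChar F ℂ × MulChar F ℂ, (if p.1 = p.2 then (0 : ℂ) else 1 / 2) *
        Cfsg.classInner (gl2R p.1 p.2) (gl2St γ) = 0 := by
      apply Finset.sum_eq_zero
      intro p _
      rw [gl2R_inner_St]
      by_cases e1 : p.1 = γ
      · by_cases e2 : p.2 = γ
        · rw [if_pos (e1.trans e2.symm), zero_mul]
        · rw [if_pos e1, if_neg e2, mul_zero]
      · rw [if_neg e1, mul_zero]
    rw [h1, h2, h3]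
    ring
  · have hne : α₀ ≠ β₀ := by
      intro h
      apply hj
      simp [gl2Wt, h]
    simp only [gl2Fam, gl2Wt, Sum.elim_inl, Sum.elim_inr, one_mul]
    have h1 : ∑ α : MulChar F ℂ, Cfsg.classInner (gl2Det α) (gl2R α₀ β₀) = 0 := by
      apply Finset.sum_eq_zero
      intro α _
      rw [gl2Det_inner_R]
      by_cases e1 : α₀ = α
      · rw [if_pos e1, if_neg (fun e2 => hne (e1.trans e2.symm))]
      · rw [if_neg e1]
    have h2 : ∑ α : MulChar F ℂ, Cfsg.classInner (gl2St α) (gl2R α₀ β₀) = 0 := by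
      apply Finset.sum_eq_zero
      intro α _
      rw [gl2St_inner_R]
      by_cases e1 : α₀ = α
      · rw [if_pos e1, if_neg (fun e2 => hne (e1.trans e2.symm))]
      · rw [if_neg e1]
    have h3 : ∑ p : MulChar F ℂ × MulChar F ℂ, (if p.1 = p.2 then (0 : ℂ) else 1 / 2) *
        Cfsg.classInner (gl2R p.1 p.2) (gl2R α₀ β₀) = 1 := by
      have h4 : ∀ p : MulChar F ℂ × MulChar F ℂ, (if p.1 = p.2 then (0 : ℂ) else 1 / 2) *
          Cfsg.classInner (gl2R p.1 p.2) (gl2R α₀ β₀) =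
          (if p = (α₀, β₀) then (1 / 2 : ℂ) else 0) + (if p = (β₀, α₀) then (1 / 2 : ℂ) else 0) := by
        rintro ⟨a, b⟩
        rw [gl2R_classInner]
        simp only [Prod.mk.injEq]
        have hne' : ¬ β₀ = α₀ := fun h => hne h.symm
        by_cases e1 : a = α₀
        · by_cases e2 : b = β₀
          · simp [e1, e2, hne, hne']
          · simp [e1, e2, hne, hne']
        · by_cases e3 : a = β₀
          · by_cases e4 : b = α₀
            · simp [e3, e4, hne, hne']
            · simp [e3, e4, hne, hne']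
          · simp [e1, e3]
      rw [Finset.sum_congr rfl (fun p _ => h4 p), Finset.sum_add_distrib, Finset.sum_ite_eq',
        Finset.sum_ite_eq', if_pos (Finset.mem_univ _), if_pos (Finset.mem_univ _)]
      norm_num
    rw [h1, h2, h3]
    ring

/-- An irreducible character outside the principal family is orthogonal to the principal
series. -/
theorem gl2_not_fam_cusp (χ : Matrix.GeneralLinearGroup (Fin 2) F → ℂ)
    (hχ : Cfsg.IsIrrCharacter (Matrix.GeneralLinearGroup (Fin 2) F) χ)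
    (h : ¬ ∃ i, gl2Wt i ≠ 0 ∧ gl2Fam (F := F) i = χ) (α β : MulChar F ℂ) :
    Cfsg.classInner (gl2R α β) χ = 0 := by
  classical
  by_cases hαβ : α = β
  · have hR : gl2R α β = gl2Det α + gl2St α := by
      rw [hαβ]
      unfold gl2St
      abel
    rw [hR, Lead.classInner_add_left, Lead.classInner_irr (gl2Det_irr α) hχ,
      Lead.classInner_irr (gl2St_irr α) hχ, if_neg, if_neg, add_zero]
    · intro h'
      exact h ⟨Sum.inr (Sum.inl α), by simp [gl2Wt], h'⟩
    · intro h'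
      exact h ⟨Sum.inl α, by simp [gl2Wt], h'⟩
  · rw [Lead.classInner_irr (gl2R_irr α β hαβ) hχ, if_neg]
    intro h'
    exact h ⟨Sum.inr (Sum.inr (α, β)), by simp [gl2Wt, hαβ], h'⟩

/-- Splitting a sum over all irreducible characters of `GL₂(q)`. -/
theorem gl2_split_sum [Fintype (MulChar F ℂ)]
    [Fintype (Cfsg.IrrCharacter (Matrix.GeneralLinearGroup (Fin 2) F))]
    (P : Cfsg.IrrCharacter (Matrix.GeneralLinearGroup (Fin 2) F) → Prop) [DecidablePred P]
    (hP : ∀ χ : Cfsg.IrrCharacter (Matrix.GeneralLinearGroup (Fin 2) F),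
      P χ ↔ ∃ i, gl2Wt i ≠ 0 ∧ gl2Fam (F := F) i = (χ : Matrix.GeneralLinearGroup (Fin 2) F → ℂ))
    (Fn : (Matrix.GeneralLinearGroup (Fin 2) F → ℂ) → ℂ) (c₁ c₂ c₃ : ℂ)
    (h₁ : ∀ α : MulChar F ℂ, Fn (gl2Det α) = c₁) (h₂ : ∀ α : MulChar F ℂ, Fn (gl2St α) = c₂)
    (h₃ : ∀ α β : MulChar F ℂ, α ≠ β → Fn (gl2R α β) = c₃) :
    ∑ χ : Cfsg.IrrCharacter (Matrix.GeneralLinearGroup (Fin 2) F), Fn χ =
      ((Fintype.card F : ℂ) - 1) * c₁ + ((Fintype.card F : ℂ) - 1) * c₂ +
      (((Fintype.card F : ℂ) - 1) * ((Fintype.card F : ℂ) - 2) / 2) * c₃ +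
      ∑ χ : Cfsg.IrrCharacter (Matrix.GeneralLinearGroup (Fin 2) F),
        (if P χ then 0 else Fn χ) := by
  classical
  rw [irr_sum_split gl2Fam gl2Wt gl2Fam_irr gl2Fam_H P hP Fn, Fintype.sum_sum_type,
    Fintype.sum_sum_type]
  have hcard : (Fintype.card (MulChar F ℂ) : ℂ) = (Fintype.card F : ℂ) - 1 := by
    rw [← Nat.card_eq_fintype_card, sl2_card_mulChar, Nat.cast_sub Fintype.card_pos,
      Nat.cast_one]
  have e1 : ∑ α : MulChar F ℂ, gl2Wt (Sum.inl α) * Fn (gl2Fam (Sum.inl α)) =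
      ((Fintype.card F : ℂ) - 1) * c₁ := by
    simp only [gl2Fam, gl2Wt, Sum.elim_inl, one_mul, h₁, Finset.sum_const, Finset.card_univ,
      nsmul_eq_mul, hcard]
  have e2 : ∑ α : MulChar F ℂ, gl2Wt (Sum.inr (Sum.inl α)) * Fn (gl2Fam (Sum.inr (Sum.inl α))) =
      ((Fintype.card F : ℂ) - 1) * c₂ := by
    simp only [gl2Fam, gl2Wt, Sum.elim_inl, Sum.elim_inr, one_mul, h₂, Finset.sum_const,
      Finset.card_univ, nsmul_eq_mul, hcard]
  have e3 : ∑ p : MulChar F ℂ × MulChar F ℂ, gl2Wt (Sum.inr (Sum.inr p)) *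
      Fn (gl2Fam (Sum.inr (Sum.inr p))) =
      (((Fintype.card F : ℂ) - 1) * ((Fintype.card F : ℂ) - 2) / 2) * c₃ := by
    have h4 : ∀ p : MulChar F ℂ × MulChar F ℂ, gl2Wt (Sum.inr (Sum.inr p)) *
        Fn (gl2Fam (Sum.inr (Sum.inr p))) = (if p.1 = p.2 then (0 : ℂ) else 1 / 2) * c₃ := by
      intro p
      simp only [gl2Fam, gl2Wt, Sum.elim_inr]
      by_cases e : p.1 = p.2
      · rw [if_pos e, zero_mul, zero_mul]
      · rw [if_neg e, h₃ _ _ e]
    rw [Finset.sum_congr rfl (fun p _ => h4 p), sum_offdiag_half, hcard]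
    ring
  rw [e1, e2, e3]
  ring

end Cfsg.Agent.Lib.Helper4
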