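import Mathlib
import Cfsg.Agent.Lib.Helper4.GL2CharE

set_option autoImplicit false

namespace Cfsg.Agent.Lib.Helper4

open scoped ComplexConjugate

variable {F : Type*} [Field F] [Fintype F] [DecidableEq F]

theorem gl2_card_cast : (Nat.card (Matrix.GeneralLinearGroup (Fin 2) F) : ℂ) =
    (Fintype.card F : ℂ) * ((Fintype.card F : ℂ) - 1) ^ 2 * ((Fintype.card F : ℂ) + 1) := by
  rw [Matrix.card_GL_field, Fin.prod_univ_two]
  simp only [Fin.val_zero, Fin.val_one, pow_zero, pow_one]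
  have hq2 := Fintype.one_lt_card (α := F)
  obtain ⟨r, hr⟩ : ∃ r, Fintype.card F = r + 2 := ⟨Fintype.card F - 2, by omega⟩
  rw [hr]
  have h3 : (r + 2) ^ 2 - 1 = (r + 1) * (r + 3) := by
    have : (r + 2) ^ 2 = (r + 1) * (r + 3) + 1 := by ring
    omega
  have h5 : (r + 2) ^ 2 - (r + 2) = (r + 1) * (r + 2) := by
    have : (r + 2) ^ 2 = (r + 1) * (r + 2) + (r + 2) := by ring
    omega
  rw [h3, h5]
  push_cast
  ring

/-- The irreducible characters outside the principal family have degree `q - 1`, and there are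
`q (q - 1) / 2` of them. -/
theorem gl2_cusp_count [Fintype (MulChar F ℂ)]
    [Fintype (Cfsg.IrrCharacter (Matrix.GeneralLinearGroup (Fin 2) F))]
    (P : Cfsg.IrrCharacter (Matrix.GeneralLinearGroup (Fin 2) F) → Prop) [DecidablePred P]
    (hP : ∀ χ : Cfsg.IrrCharacter (Matrix.GeneralLinearGroup (Fin 2) F),
      P χ ↔ ∃ i, gl2Wt i ≠ 0 ∧
        gl2Fam (F := F) i = (χ : Matrix.GeneralLinearGroup (Fin 2) F → ℂ)) :
    (∀ χ : Cfsg.IrrCharacter (Matrix.GeneralLinearGroup (Fin 2) F), ¬ P χ →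
      (χ : Matrix.GeneralLinearGroup (Fin 2) F → ℂ) 1 = (Fintype.card F : ℂ) - 1) ∧
    ∑ χ : Cfsg.IrrCharacter (Matrix.GeneralLinearGroup (Fin 2) F),
      (if P χ then (0 : ℂ) else 1) = (Fintype.card F : ℂ) * ((Fintype.card F : ℂ) - 1) / 2 := by
  classical
  have hq2 := Fintype.one_lt_card (α := F)
  have hq1 := gl2_card_sub_one_ne_zero (F := F)
  -- the count
  have hN := gl2_split_sum P hP (fun _ => (1 : ℂ)) 1 1 1 (fun _ => rfl) (fun _ => rfl)
    (fun _ _ _ => rfl)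
  have hcardIrr : ∑ _χ : Cfsg.IrrCharacter (Matrix.GeneralLinearGroup (Fin 2) F), (1 : ℂ) =
      (Fintype.card F : ℂ) ^ 2 - 1 := by
    rw [Finset.sum_const, Finset.card_univ, nsmul_eq_mul, mul_one, ← Nat.card_eq_fintype_card,
      Lead.card_irr, gl2_card_conjClasses, Nat.cast_sub (Nat.one_le_pow _ _ Fintype.card_pos)]
    push_cast
    ring
  rw [hcardIrr] at hN
  -- the sum of squares
  have hS := gl2_split_sum P hP (fun χ => χ 1 ^ 2) 1 ((Fintype.card F : ℂ) ^ 2)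
    (((Fintype.card F : ℂ) + 1) ^ 2) (fun α => by rw [gl2Det_one]; ring)
    (fun α => by rw [gl2St_one]) (fun α β _ => by rw [gl2R_one])
  have hsq := Lead.sum_sq_degrees (Matrix.GeneralLinearGroup (Fin 2) F)
  rw [finsum_eq_sum_of_fintype, gl2_card_cast] at hsq
  rw [hsq] at hS
  -- degrees of the remaining characters
  have hdeg : ∀ χ : Cfsg.IrrCharacter (Matrix.GeneralLinearGroup (Fin 2) F), ¬ P χ →
      ∃ k : ℕ, k ≠ 0 ∧ (χ : Matrix.GeneralLinearGroup (Fin 2) F → ℂ) 1 =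
        (k : ℂ) * ((Fintype.card F : ℂ) - 1) := by
    intro χ hχ
    exact gl2_cusp_deg (F := F) (χ : Matrix.GeneralLinearGroup (Fin 2) F → ℂ) χ.2
      (gl2_not_fam_cusp (F := F) (χ : Matrix.GeneralLinearGroup (Fin 2) F → ℂ) χ.2
        (fun h => hχ ((hP χ).2 h)))
  have hT : ∑ χ : Cfsg.IrrCharacter (Matrix.GeneralLinearGroup (Fin 2) F),
      (if P χ then (0 : ℂ) else ((χ : Matrix.GeneralLinearGroup (Fin 2) F → ℂ) 1 ^ 2 -
        ((Fintype.card F : ℂ) - 1) ^ 2)) = 0 := by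
    have h1 : ∀ χ : Cfsg.IrrCharacter (Matrix.GeneralLinearGroup (Fin 2) F),
        (if P χ then (0 : ℂ) else ((χ : Matrix.GeneralLinearGroup (Fin 2) F → ℂ) 1 ^ 2 -
          ((Fintype.card F : ℂ) - 1) ^ 2)) =
        (if P χ then (0 : ℂ) else (χ : Matrix.GeneralLinearGroup (Fin 2) F → ℂ) 1 ^ 2) -
        ((Fintype.card F : ℂ) - 1) ^ 2 * (if P χ then (0 : ℂ) else 1) := by
      intro χ
      split_ifs <;> ring
    rw [Finset.sum_congr rfl (fun χ _ => h1 χ), Finset.sum_sub_distrib, ← Finset.mul_sum]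
    linear_combination -hS + ((Fintype.card F : ℂ) - 1) ^ 2 * hN
  have hreal : ∀ χ : Cfsg.IrrCharacter (Matrix.GeneralLinearGroup (Fin 2) F),
      ∃ r : ℝ, 0 ≤ r ∧ (if P χ then (0 : ℂ) else
        ((χ : Matrix.GeneralLinearGroup (Fin 2) F → ℂ) 1 ^ 2 -
        ((Fintype.card F : ℂ) - 1) ^ 2)) = (r : ℂ) := by
    intro χ
    by_cases hχ : P χ
    · exact ⟨0, le_refl _, by rw [if_pos hχ]; simp⟩
    · obtain ⟨k, hk0, hk⟩ := hdeg χ hχ
      refine ⟨((k : ℝ) ^ 2 - 1) * ((Fintype.card F : ℝ) - 1) ^ 2, ?_, ?_⟩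
      · apply mul_nonneg
        · have : (1 : ℝ) ≤ k := by exact_mod_cast Nat.one_le_iff_ne_zero.2 hk0
          nlinarith
        · positivity
      · rw [if_neg hχ, hk]
        push_cast
        ring
  choose r hr0 hr using hreal
  rw [Finset.sum_congr rfl (fun χ _ => hr χ)] at hT
  have hT' : ∑ χ : Cfsg.IrrCharacter (Matrix.GeneralLinearGroup (Fin 2) F), r χ = 0 := by
    exact_mod_cast hT
  have hzero := (Finset.sum_eq_zero_iff_of_nonneg (fun χ _ => hr0 χ)).1 hT'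
  constructor
  · intro χ hχ
    obtain ⟨k, hk0, hk⟩ := hdeg χ hχ
    have h1 := hr χ
    rw [hzero χ (Finset.mem_univ _), if_neg hχ, hk] at h1
    have h2 : ((k : ℂ) ^ 2 - 1) * ((Fintype.card F : ℂ) - 1) ^ 2 = 0 := by
      rw [Complex.ofReal_zero] at h1
      linear_combination h1
    have h3 : (k : ℂ) ^ 2 - 1 = 0 := (mul_eq_zero.1 h2).resolve_right (pow_ne_zero 2 hq1)
    have h4 : k ^ 2 = 1 := by
      have : (k : ℂ) ^ 2 = 1 := by linear_combination h3
      exact_mod_cast this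
    have h5 : k = 1 := by
      rcases Nat.lt_or_ge k 2 with h | h
      · omega
      · nlinarith
    rw [hk, h5]
    simp
  · linear_combination -hN

/-- The classification of the irreducible characters of `GL₂(q)`. -/
theorem gl2_irr_cases (χ : Matrix.GeneralLinearGroup (Fin 2) F → ℂ)
    (hχ : Cfsg.IsIrrCharacter (Matrix.GeneralLinearGroup (Fin 2) F) χ) :
    (∃ α : MulChar F ℂ, χ = gl2Det α) ∨ (∃ α : MulChar F ℂ, χ = gl2St α) ∨
    (∃ α β : MulChar F ℂ, α ≠ β ∧ χ = gl2R α β) ∨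
    (χ 1 = (Fintype.card F : ℂ) - 1 ∧
      ∀ α β : MulChar F ℂ, Cfsg.classInner (gl2R α β) χ = 0) := by
  classical
  haveI : Fintype (MulChar F ℂ) := Fintype.ofFinite _
  haveI : Fintype (Cfsg.IrrCharacter (Matrix.GeneralLinearGroup (Fin 2) F)) := Fintype.ofFinite _
  by_cases h : ∃ i, gl2Wt i ≠ 0 ∧ gl2Fam (F := F) i = χ
  · obtain ⟨i, hi, rfl⟩ := h
    rcases i with α | α | ⟨α, β⟩
    · exact Or.inl ⟨α, rfl⟩
    · exact Or.inr (Or.inl ⟨α, rfl⟩)
    · refine Or.inr (Or.inr (Or.inl ⟨α, β, ?_, rfl⟩))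
      intro h'
      apply hi
      simp [gl2Wt, h']
  · refine Or.inr (Or.inr (Or.inr ⟨?_, gl2_not_fam_cusp χ hχ h⟩))
    exact (gl2_cusp_count (fun χ : Cfsg.IrrCharacter (Matrix.GeneralLinearGroup (Fin 2) F) =>
      ∃ i, gl2Wt i ≠ 0 ∧ gl2Fam (F := F) i = (χ : Matrix.GeneralLinearGroup (Fin 2) F → ℂ))
      (fun _ => Iff.rfl)).1 ⟨χ, hχ⟩ h

/-- The number of irreducible characters of `GL₂(q)` of a given degree. -/
theorem gl2_irr_deg_count (c : ℂ) :
    (Nat.card {χ : Cfsg.IrrCharacter (Matrix.GeneralLinearGroup (Fin 2) F) //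
      (χ : Matrix.GeneralLinearGroup (Fin 2) F → ℂ) 1 = c} : ℂ) =
      ((Fintype.card F : ℂ) - 1) * (if (1 : ℂ) = c then 1 else 0) +
      ((Fintype.card F : ℂ) - 1) * (if (Fintype.card F : ℂ) = c then 1 else 0) +
      (((Fintype.card F : ℂ) - 1) * ((Fintype.card F : ℂ) - 2) / 2) *
        (if (Fintype.card F : ℂ) + 1 = c then 1 else 0) +
      ((Fintype.card F : ℂ) * ((Fintype.card F : ℂ) - 1) / 2) *
        (if (Fintype.card F : ℂ) - 1 = c then 1 else 0) := by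
  classical
  haveI : Fintype (MulChar F ℂ) := Fintype.ofFinite _
  haveI : Fintype (Cfsg.IrrCharacter (Matrix.GeneralLinearGroup (Fin 2) F)) := Fintype.ofFinite _
  rw [natCard_subtype_cast]
  obtain ⟨hdeg, hcnt⟩ := gl2_cusp_count
    (fun χ : Cfsg.IrrCharacter (Matrix.GeneralLinearGroup (Fin 2) F) =>
      ∃ i, gl2Wt i ≠ 0 ∧ gl2Fam (F := F) i = (χ : Matrix.GeneralLinearGroup (Fin 2) F → ℂ))
      (fun _ => Iff.rfl)
  have h := gl2_split_sum
    (fun χ : Cfsg.IrrCharacter (Matrix.GeneralLinearGroup (Fin 2) F) =>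
      ∃ i, gl2Wt i ≠ 0 ∧ gl2Fam (F := F) i = (χ : Matrix.GeneralLinearGroup (Fin 2) F → ℂ))
      (fun _ => Iff.rfl) (fun χ => if χ 1 = c then (1 : ℂ) else 0)
      (if (1 : ℂ) = c then 1 else 0) (if (Fintype.card F : ℂ) = c then 1 else 0)
      (if (Fintype.card F : ℂ) + 1 = c then 1 else 0)
      (fun α => by rw [gl2Det_one]) (fun α => by rw [gl2St_one]) (fun α β _ => by rw [gl2R_one])
  beta_reduce at h
  rw [h]
  congr 1
  have h2 : ∀ χ : Cfsg.IrrCharacter (Matrix.GeneralLinearGroup (Fin 2) F),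
      (if (∃ i, gl2Wt i ≠ 0 ∧ gl2Fam (F := F) i =
        (χ : Matrix.GeneralLinearGroup (Fin 2) F → ℂ)) then (0 : ℂ)
        else (if (χ : Matrix.GeneralLinearGroup (Fin 2) F → ℂ) 1 = c then (1 : ℂ) else 0)) =
      (if (Fintype.card F : ℂ) - 1 = c then 1 else 0) *
      (if (∃ i, gl2Wt i ≠ 0 ∧ gl2Fam (F := F) i =
        (χ : Matrix.GeneralLinearGroup (Fin 2) F → ℂ)) then (0 : ℂ) else 1) := by
    intro χ
    by_cases hχ : ∃ i, gl2Wt i ≠ 0 ∧ gl2Fam (F := F) i =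
        (χ : Matrix.GeneralLinearGroup (Fin 2) F → ℂ)
    · rw [if_pos hχ, if_pos hχ, mul_zero]
    · rw [if_neg hχ, if_neg hχ, hdeg χ hχ, mul_one]
  rw [Finset.sum_congr rfl (fun χ _ => h2 χ), ← Finset.mul_sum, hcnt]
  ring

end Cfsg.Agent.Lib.Helper4
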