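import Mathlib
import Cfsg.Agent.Lib.Helper4.GL2CharF

set_option autoImplicit false

namespace Cfsg.Agent.Lib.Helper4

open scoped ComplexConjugate

variable {F : Type*} [Field F] [Fintype F]

theorem mulChar_norm_unit (α : MulChar F ℂ) {a : F} (ha : a ≠ 0) : ‖α a‖ = 1 := by
  have hq2 := Fintype.one_lt_card (α := F)
  have h1 : α a ^ (Fintype.card F - 1) = 1 := by
    rw [← map_pow, FiniteField.pow_card_sub_one_eq_one a ha, map_one]
  exact Complex.norm_eq_one_of_pow_eq_one h1 (by omega)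

theorem unit_eq_one_of_card_two (h2 : Fintype.card F = 2) {x : F} (hx : x ≠ 0) : x = 1 := by
  classical
  have hc : Fintype.card Fˣ = 1 := by rw [Fintype.card_units, h2]
  have hs : Subsingleton Fˣ := Fintype.card_le_one_iff_subsingleton.1 hc.le
  have := congrArg Units.val (Subsingleton.elim (Units.mk0 x hx) 1)
  simpa using this

variable [DecidableEq F]

theorem gl2Det_at_u (α : MulChar F ℂ) (u : Matrix.GeneralLinearGroup (Fin 2) F)
    (hu : (u : Matrix (Fin 2) (Fin 2) F) = !![1, 1; 0, 1]) : gl2Det α u = 1 := by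
  unfold gl2Det
  rw [hu, Matrix.det_fin_two]
  simp

theorem gl2R_at_u (α β : MulChar F ℂ) (u : Matrix.GeneralLinearGroup (Fin 2) F)
    (hu : (u : Matrix (Fin 2) (Fin 2) F) = !![1, 1; 0, 1]) : gl2R α β u = 1 := by
  rw [gl2R_unip α β u (by rw [hu]; simp) (by rw [hu]; simp) (by rw [hu]; simp), hu]
  simp

theorem gl2St_at_u (α : MulChar F ℂ) (u : Matrix.GeneralLinearGroup (Fin 2) F)
    (hu : (u : Matrix (Fin 2) (Fin 2) F) = !![1, 1; 0, 1]) : gl2St α u = 0 := by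
  rw [gl2St_apply, gl2R_at_u α α u hu, gl2Det_at_u α u hu, sub_self]

theorem gl2St_split_norm (α : MulChar F ℂ) (g : Matrix.GeneralLinearGroup (Fin 2) F)
    (hg01 : (g : Matrix (Fin 2) (Fin 2) F) 0 1 = 0) (hg10 : (g : Matrix (Fin 2) (Fin 2) F) 1 0 = 0)
    (hne : (g : Matrix (Fin 2) (Fin 2) F) 0 0 ≠ (g : Matrix (Fin 2) (Fin 2) F) 1 1) :
    ‖gl2St α g‖ = 1 := by
  obtain ⟨n0, n1⟩ := gl2Borel_diag_ne_zero g hg10
  have h1 : gl2St α g = α ((g : Matrix (Fin 2) (Fin 2) F) 0 0) *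
      α ((g : Matrix (Fin 2) (Fin 2) F) 1 1) := by
    rw [gl2St_apply, gl2R_split α α g hg01 hg10 hne]
    unfold gl2Det
    rw [Matrix.det_fin_two, hg10, mul_zero, sub_zero, map_mul]
    ring
  rw [h1, norm_mul, mulChar_norm_unit α n0, mulChar_norm_unit α n1, mul_one]

theorem gl2St_no_eig_norm (α : MulChar F ℂ) (g : Matrix.GeneralLinearGroup (Fin 2) F)
    (hg : ∀ (c : F) (v : Fin 2 → F), v ≠ 0 → (g : Matrix (Fin 2) (Fin 2) F).mulVec v ≠ c • v) :
    ‖gl2St α g‖ = 1 := by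
  rw [gl2St_apply, gl2R_no_eig α α g hg, zero_sub, norm_neg]
  unfold gl2Det
  exact mulChar_norm_unit α (gl2_det_ne_zero g)

end Cfsg.Agent.Lib.Helper4
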