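import Mathlib
import Cfsg.Agent.Lib.Lead.SLGen

set_option autoImplicit false

namespace Cfsg.Agent.Lib.Helper4

open Matrix Matrix.SpecialLinearGroup

open scoped commutatorElement

section general

variable {G : Type*} [Group G]

theorem conj_central_mul {z x y : G} (hz : z ∈ Subgroup.center G) :
    z * x * y * (z * x)⁻¹ = x * y * x⁻¹ := by
  have h := (Subgroup.mem_center_iff.1 hz) (x * y * x⁻¹)
  calc z * x * y * (z * x)⁻¹ = z * (x * y * x⁻¹) * z⁻¹ := by group
    _ = (x * y * x⁻¹) * z * z⁻¹ := by rw [h]
    _ = x * y * x⁻¹ := by group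

theorem commutator_central_mul {z₁ z₂ a b : G} (h₁ : z₁ ∈ Subgroup.center G)
    (h₂ : z₂ ∈ Subgroup.center G) : ⁅z₁ * a, z₂ * b⁆ = ⁅a, b⁆ := by
  have e1 : ⁅z₁ * a, z₂ * b⁆ = ⁅a, z₂ * b⁆ := by
    rw [commutatorElement_def, commutatorElement_def, conj_central_mul h₁]
  have e2 : ⁅z₂ * b, a⁆ = ⁅b, a⁆ := by
    rw [commutatorElement_def, commutatorElement_def, conj_central_mul h₂]
  rw [e1, ← commutatorElement_inv, e2, commutatorElement_inv]

/-- A normal subgroup of a perfect group with simple central quotient is central or everything. -/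
theorem normal_le_center_or_eq_top (hperf : commutator G = ⊤)
    (hsimple : IsSimpleGroup (G ⧸ Subgroup.center G)) (H : Subgroup G) [hH : H.Normal] :
    H ≤ Subgroup.center G ∨ H = ⊤ := by
  have hn : (H.map (QuotientGroup.mk' (Subgroup.center G))).Normal :=
    Subgroup.Normal.map hH _ (QuotientGroup.mk'_surjective _)
  rcases hn.eq_bot_or_eq_top with h | h
  · left
    rw [Subgroup.map_eq_bot_iff, QuotientGroup.ker_mk'] at h
    exact h
  · right
    have h2 : H ⊔ Subgroup.center G = ⊤ := by
      have h3 := congrArg (Subgroup.comap (QuotientGroup.mk' (Subgroup.center G))) h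
      rw [Subgroup.comap_map_eq, QuotientGroup.ker_mk', Subgroup.comap_top] at h3
      exact h3
    rw [eq_top_iff, ← hperf, commutator_def, Subgroup.commutator_le]
    intro a _ b _
    have ha : a ∈ H ⊔ Subgroup.center G := by rw [h2]; exact Subgroup.mem_top _
    have hb : b ∈ H ⊔ Subgroup.center G := by rw [h2]; exact Subgroup.mem_top _
    obtain ⟨h₁, hh₁, z₁, hz₁, rfl⟩ := Subgroup.mem_sup_of_normal_right.1 ha
    obtain ⟨h₂, hh₂, z₂, hz₂, rfl⟩ := Subgroup.mem_sup_of_normal_right.1 hb
    have e1 : h₁ * z₁ = z₁ * h₁ := (Subgroup.mem_center_iff.1 hz₁) h₁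
    have e2 : h₂ * z₂ = z₂ * h₂ := (Subgroup.mem_center_iff.1 hz₂) h₂
    rw [e1, e2, commutator_central_mul hz₁ hz₂]
    exact Subgroup.commutator_mem_commutator hh₁ hh₂ |> fun h' =>
      (Subgroup.commutator_le_left H H) h'

end general

variable {F : Type*} [Field F] {ι : Type*} [DecidableEq ι] [Fintype ι]

theorem exists_sl_conj (g : Matrix.GeneralLinearGroup ι F) (a : Matrix.SpecialLinearGroup ι F) :
    ∃ a' : Matrix.SpecialLinearGroup ι F,
      Matrix.SpecialLinearGroup.toGL a' = g * Matrix.SpecialLinearGroup.toGL a * g⁻¹ := by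
  have hdet : Matrix.GeneralLinearGroup.det (g * Matrix.SpecialLinearGroup.toGL a * g⁻¹) = 1 := by
    rw [map_mul, map_mul, map_inv, mul_comm, inv_mul_cancel_left]
    apply Units.ext
    simp
  refine ⟨⟨((g * Matrix.SpecialLinearGroup.toGL a * g⁻¹ : Matrix.GeneralLinearGroup ι F) :
    Matrix ι ι F), ?_⟩, ?_⟩
  · have h1 : Matrix.det (g : Matrix ι ι F) *
        Matrix.det ((g⁻¹ : Matrix.GeneralLinearGroup ι F) : Matrix ι ι F) = 1 := by
      rw [← Matrix.det_mul, ← Units.val_mul, mul_inv_cancel, Units.val_one, Matrix.det_one]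
    have h2 : Matrix.det ((Matrix.SpecialLinearGroup.toGL a : Matrix.GeneralLinearGroup ι F) :
        Matrix ι ι F) = 1 := a.det_coe
    rw [Units.val_mul, Units.val_mul, Matrix.det_mul, Matrix.det_mul, h2, mul_one, h1]
  · apply Units.ext
    rfl

/-- A subgroup of `GL` normalized by `SL` is scalar or contains `SL`, provided `SL` is perfect
and `PSL` is simple. -/
theorem gl_normalized_by_sl
    (hperf : commutator (Matrix.SpecialLinearGroup ι F) = ⊤)
    (hsimple : IsSimpleGroup (Matrix.ProjectiveSpecialLinearGroup ι F))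
    (G : Subgroup (Matrix.GeneralLinearGroup ι F))
    (hG : ∀ s : Matrix.SpecialLinearGroup ι F, ∀ g ∈ G,
      (Matrix.SpecialLinearGroup.toGL s) * g * (Matrix.SpecialLinearGroup.toGL s)⁻¹ ∈ G) :
    (∀ g ∈ G, ∃ c : F, (g : Matrix ι ι F) = c • (1 : Matrix ι ι F)) ∨
      (Matrix.SpecialLinearGroup.toGL : Matrix.SpecialLinearGroup ι F →* _).range ≤ G := by
  have hHn : (G.comap (Matrix.SpecialLinearGroup.toGL :
      Matrix.SpecialLinearGroup ι F →* Matrix.GeneralLinearGroup ι F)).Normal := by
    constructor
    intro h hh s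
    rw [Subgroup.mem_comap] at hh ⊢
    rw [map_mul, map_mul, map_inv]
    exact hG s _ hh
  rcases normal_le_center_or_eq_top hperf hsimple (G.comap (Matrix.SpecialLinearGroup.toGL :
      Matrix.SpecialLinearGroup ι F →* Matrix.GeneralLinearGroup ι F)) with hH | hH
  · left
    intro g hg
    -- `g` commutes with the image of every commutator
    have hK : commutator (Matrix.SpecialLinearGroup ι F) ≤
        (Subgroup.centralizer ({g} : Set (Matrix.GeneralLinearGroup ι F))).comap
          (Matrix.SpecialLinearGroup.toGL :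
            Matrix.SpecialLinearGroup ι F →* Matrix.GeneralLinearGroup ι F) := by
      rw [commutator_def, Subgroup.commutator_le]
      intro a _ b _
      obtain ⟨a', ha'⟩ := exists_sl_conj g a
      obtain ⟨b', hb'⟩ := exists_sl_conj g b
      have hza : a' * a⁻¹ ∈ Subgroup.center (Matrix.SpecialLinearGroup ι F) := by
        apply hH
        rw [Subgroup.mem_comap, map_mul, map_inv, ha']
        have h1 := hG a g⁻¹ (G.inv_mem hg)
        have h2 := G.mul_mem hg h1
        have e : g * (Matrix.SpecialLinearGroup.toGL a * g⁻¹ *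
            (Matrix.SpecialLinearGroup.toGL a)⁻¹) =
            g * Matrix.SpecialLinearGroup.toGL a * g⁻¹ *
              (Matrix.SpecialLinearGroup.toGL a)⁻¹ := by group
        rw [← e]
        exact h2
      have hzb : b' * b⁻¹ ∈ Subgroup.center (Matrix.SpecialLinearGroup ι F) := by
        apply hH
        rw [Subgroup.mem_comap, map_mul, map_inv, hb']
        have h1 := hG b g⁻¹ (G.inv_mem hg)
        have h2 := G.mul_mem hg h1
        have e : g * (Matrix.SpecialLinearGroup.toGL b * g⁻¹ *
            (Matrix.SpecialLinearGroup.toGL b)⁻¹) =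
            g * Matrix.SpecialLinearGroup.toGL b * g⁻¹ *
              (Matrix.SpecialLinearGroup.toGL b)⁻¹ := by group
        rw [← e]
        exact h2
      have hcomm : ⁅a', b'⁆ = ⁅a, b⁆ := by
        have ea : a' = a' * a⁻¹ * a := by group
        have eb : b' = b' * b⁻¹ * b := by group
        rw [ea, eb]
        exact commutator_central_mul hza hzb
      have h3 := congrArg (Matrix.SpecialLinearGroup.toGL :
        Matrix.SpecialLinearGroup ι F →* Matrix.GeneralLinearGroup ι F) hcomm
      rw [map_commutatorElement, map_commutatorElement, ha', hb'] at h3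
      rw [Subgroup.mem_comap, Subgroup.mem_centralizer_iff]
      intro x hx
      rw [Set.mem_singleton_iff] at hx
      subst hx
      rw [map_commutatorElement]
      have h4 : x * ⁅Matrix.SpecialLinearGroup.toGL a, Matrix.SpecialLinearGroup.toGL b⁆ * x⁻¹ =
          ⁅Matrix.SpecialLinearGroup.toGL a, Matrix.SpecialLinearGroup.toGL b⁆ := by
        conv_rhs => rw [← h3]
        simp only [commutatorElement_def]
        group
      calc x * ⁅Matrix.SpecialLinearGroup.toGL a, Matrix.SpecialLinearGroup.toGL b⁆ =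
          (x * ⁅Matrix.SpecialLinearGroup.toGL a, Matrix.SpecialLinearGroup.toGL b⁆ * x⁻¹) * x := by
            group
        _ = ⁅Matrix.SpecialLinearGroup.toGL a, Matrix.SpecialLinearGroup.toGL b⁆ * x := by
            rw [h4]
    have hcomm : ∀ s : Matrix.SpecialLinearGroup ι F,
        g * Matrix.SpecialLinearGroup.toGL s = Matrix.SpecialLinearGroup.toGL s * g := by
      intro s
      have hs : s ∈ commutator (Matrix.SpecialLinearGroup ι F) := by
        rw [hperf]
        exact Subgroup.mem_top _
      have := hK hs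
      rw [Subgroup.mem_comap, Subgroup.mem_centralizer_iff] at this
      exact this g rfl
    have hsc : (g : Matrix ι ι F) ∈ Set.range (Matrix.scalar ι) := by
      apply Matrix.mem_range_scalar_of_commute_transvectionStruct
      intro t
      have h1 := hcomm (Matrix.SpecialLinearGroup.transvection t.hij t.c)
      have h2 := congrArg (fun x : Matrix.GeneralLinearGroup ι F => (x : Matrix ι ι F)) h1
      simp only [Units.val_mul] at h2
      exact h2.symm
    obtain ⟨c, hc⟩ := hsc
    refine ⟨c, ?_⟩
    rw [← hc, Matrix.smul_one_eq_diagonal]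
    rfl
  · right
    rintro _ ⟨s, rfl⟩
    have : s ∈ G.comap (Matrix.SpecialLinearGroup.toGL :
        Matrix.SpecialLinearGroup ι F →* Matrix.GeneralLinearGroup ι F) := by
      rw [hH]
      exact Subgroup.mem_top _
    exact this

theorem exists_sq_ne_one_of_four_le [Fintype F] (hF : 4 ≤ Fintype.card F) :
    ∃ a : F, a ≠ 0 ∧ a ^ 2 ≠ 1 := by
  classical
  obtain ⟨x, hx⟩ : IsCyclic Fˣ := by infer_instance
  refine ⟨x, Units.ne_zero x, fun h ↦ ?_⟩
  have h1 : orderOf x = Fintype.card Fˣ := by
    rw [← Nat.card_eq_fintype_card]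
    exact orderOf_eq_card_of_forall_mem_zpowers hx
  have h2 : orderOf x ≤ 2 := orderOf_le_of_pow_eq_one zero_lt_two (Units.ext <| by simpa using h)
  rw [h1, Fintype.card_units] at h2
  omega

end Cfsg.Agent.Lib.Helper4
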