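import Mathlib
import Cfsg.Prelude.Def_LieClassical
import Cfsg.Agent.Lib.Helper4.FieldEmb

set_option autoImplicit false

namespace Cfsg.Agent.Lib.Helper4

section

variable {K F : Type*} [Field K] [Fintype K] [Field F] [Fintype F] [Algebra F K] {q : ℕ}

theorem frob_add (hF : Fintype.card F = q) (x y : K) : (x + y) ^ q = x ^ q + y ^ q := by
  have := map_add (FiniteField.frobeniusAlgHom F K) x y
  simpa [FiniteField.coe_frobeniusAlgHom, hF] using this

theorem frob_smul (hF : Fintype.card F = q) (c : F) (x : K) : (c • x) ^ q = c • x ^ q := by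
  rw [Algebra.smul_def, mul_pow, ← map_pow, Algebra.smul_def]
  congr 2
  rw [← hF]
  exact FiniteField.pow_card c

theorem frob_frob (hK : Fintype.card K = q ^ 2) (x : K) : (x ^ q) ^ q = x := by
  rw [← pow_mul, ← pow_two, ← hK]
  exact FiniteField.pow_card x

/-- The Hermitian form as an `F`-bilinear map. -/
noncomputable def hermLin (hF : Fintype.card F = q) (m : ℕ) :
    (Fin m → K) →ₗ[F] (Fin m → K) →ₗ[F] K :=
  LinearMap.mk₂ F (fun u v => Cfsg.hermForm m K q u v)
    (fun u u' v => by
      simp only [Cfsg.hermForm, Pi.add_apply, add_mul, Finset.sum_add_distrib])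
    (fun c u v => by
      simp only [Cfsg.hermForm, Pi.smul_apply, Finset.smul_sum, smul_mul_assoc])
    (fun u v v' => by
      simp only [Cfsg.hermForm, Pi.add_apply, frob_add hF, mul_add, Finset.sum_add_distrib])
    (fun c u v => by
      simp only [Cfsg.hermForm, Pi.smul_apply, frob_smul hF, Finset.smul_sum, mul_smul_comm])

theorem hermLin_apply (hF : Fintype.card F = q) (m : ℕ) (u v : Fin m → K) :
    hermLin hF m u v = Cfsg.hermForm m K q u v := rfl

end

theorem gu_sp_embedding {K F : Type*} [Field K] [Fintype K] [Field F] [Fintype F] {q : ℕ}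
    (hK : Fintype.card K = q ^ 2) (hF : Fintype.card F = q) (m : ℕ) :
    ∃ φ : ↥(Cfsg.GU m K q) →* ↥(Matrix.symplecticGroup (Fin m) F), Function.Injective φ := by
  classical
  obtain ⟨ι⟩ := exists_ringHom_of_card_sq hF hK
  letI : Algebra F K := ι.toAlgebra
  have hq : 1 < q := by
    rw [← hF]
    exact Fintype.one_lt_card
  obtain ⟨z₀, hz₀⟩ := exists_not_frob_fixed hq hK
  obtain ⟨μ, hμ⟩ : ∃ μ : K →ₗ[F] F, μ (z₀ - z₀ ^ q) ≠ 0 := by
    by_contra hcon
    push Not at hcon
    exact hz₀ ((Module.forall_dual_apply_eq_zero_iff F (z₀ - z₀ ^ q)).1 hcon)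
  let B : LinearMap.BilinForm F (Fin m → K) :=
    LinearMap.compr₂ (hermLin (K := K) hF m - LinearMap.flip (hermLin (K := K) hF m)) μ
  have hBapp : ∀ u v, B u v = μ (Cfsg.hermForm m K q u v - Cfsg.hermForm m K q v u) := by
    intro u v
    rfl
  have hV : Module.finrank F (Fin m → K) = 2 * m := by
    rw [finrank_pi_of_card_sq hF hK]
    simp
  let ψ : ↥(Cfsg.GU m K q) →* ((Fin m → K) →ₗ[F] (Fin m → K)) :=
    ((matRestr F (Fin m)).comp (Units.coeHom (Matrix (Fin m) (Fin m) K))).comp
      (Cfsg.GU m K q).subtype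
  refine exists_symp_embedding B ?_ ?_ hV ψ ?_ ?_
  · intro x
    rw [hBapp, sub_self, map_zero]
  · intro x hx
    by_contra hne
    obtain ⟨i, hi⟩ : ∃ i, x i ≠ 0 := by
      by_contra hcon
      push Not at hcon
      exact hne (funext hcon)
    have h1 := hx (Pi.single i ((z₀ / x i) ^ q))
    rw [hBapp] at h1
    have hq0 : q ≠ 0 := by omega
    have h2 : Cfsg.hermForm m K q x (Pi.single i ((z₀ / x i) ^ q)) = z₀ := by
      unfold Cfsg.hermForm
      rw [Finset.sum_eq_single i]
      · rw [Pi.single_eq_same, frob_frob hK]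
        field_simp
      · intro j _ hji
        rw [Pi.single_eq_of_ne hji, zero_pow hq0, mul_zero]
      · intro h
        exact absurd (Finset.mem_univ i) h
    have h3 : Cfsg.hermForm m K q (Pi.single i ((z₀ / x i) ^ q)) x = z₀ ^ q := by
      unfold Cfsg.hermForm
      rw [Finset.sum_eq_single i]
      · rw [Pi.single_eq_same, ← mul_pow]
        congr 1
        field_simp
      · intro j _ hji
        rw [Pi.single_eq_of_ne hji, zero_mul]
      · intro h
        exact absurd (Finset.mem_univ i) h
    rw [h2, h3] at h1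
    exact hμ h1
  · intro g h hgh
    apply Subtype.ext
    apply Units.ext
    exact matRestr_injective F _ hgh
  · intro g u w
    rw [hBapp, hBapp]
    show μ (Cfsg.hermForm m K q (matRestr F (Fin m) (g.1 : Matrix (Fin m) (Fin m) K) u)
      (matRestr F (Fin m) (g.1 : Matrix (Fin m) (Fin m) K) w) -
      Cfsg.hermForm m K q (matRestr F (Fin m) (g.1 : Matrix (Fin m) (Fin m) K) w)
      (matRestr F (Fin m) (g.1 : Matrix (Fin m) (Fin m) K) u)) = _
    rw [matRestr_apply, matRestr_apply]
    have h1 := g.2 u w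
    have h2 := g.2 w u
    simp only [Units.coeHom_apply] at h1 h2
    rw [h1, h2]

end Cfsg.Agent.Lib.Helper4
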