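import Mathlib
import Cfsg.Prelude.Def_LieClassical

set_option autoImplicit false

namespace Cfsg.Agent.Lib.Helper4

open Matrix

theorem su_mem_iff {F : Type*} [Field F] (n q : ℕ) (g : Matrix.SpecialLinearGroup (Fin n) F) :
    g ∈ Cfsg.SU n F q ↔ ∀ u v, Cfsg.hermForm n F q (g.1 *ᵥ u) (g.1 *ᵥ v) =
      Cfsg.hermForm n F q u v := Iff.rfl

/-- Diagonal elements of `SU_n`. -/
theorem su_diag_mem {F : Type*} [Field F] (n q : ℕ) (d : Fin n → F)
    (hd : ∀ i, d i ^ (q + 1) = 1) (hdet : ∏ i, d i = 1) :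
    ∃ g : Matrix.SpecialLinearGroup (Fin n) F, g ∈ Cfsg.SU n F q ∧ g.1 = Matrix.diagonal d := by
  refine ⟨⟨Matrix.diagonal d, by rw [Matrix.det_diagonal, hdet]⟩, ?_, rfl⟩
  refine (su_mem_iff n q _).mpr (fun u v => ?_)
  unfold Cfsg.hermForm
  refine Finset.sum_congr rfl (fun i _ => ?_)
  show (Matrix.diagonal d *ᵥ u) i * (Matrix.diagonal d *ᵥ v) i ^ q = _
  rw [Matrix.mulVec_diagonal, Matrix.mulVec_diagonal, mul_pow]
  have h1 := hd i
  rw [pow_succ] at h1
  linear_combination (u i * v i ^ q) * h1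

/-- Even permutation matrices lie in `SU_n`. -/
theorem su_perm_mem {F : Type*} [Field F] (n q : ℕ) (σ : Equiv.Perm (Fin n))
    (hσ : Equiv.Perm.sign σ = 1) :
    ∃ g : Matrix.SpecialLinearGroup (Fin n) F, g ∈ Cfsg.SU n F q ∧
      g.1 = Equiv.Perm.permMatrix F σ := by
  refine ⟨⟨Equiv.Perm.permMatrix F σ, by rw [Matrix.det_permutation, hσ]; simp⟩, ?_, rfl⟩
  refine (su_mem_iff n q _).mpr (fun u v => ?_)
  show Cfsg.hermForm n F q (Equiv.Perm.permMatrix F σ *ᵥ u) (Equiv.Perm.permMatrix F σ *ᵥ v) = _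
  rw [Matrix.permMatrix_mulVec, Matrix.permMatrix_mulVec]
  unfold Cfsg.hermForm
  exact Equiv.sum_comp σ (fun i => u i * v i ^ q)

theorem card_sq_two_le {F : Type*} [Field F] [Fintype F] {q : ℕ} (hF : Fintype.card F = q ^ 2) :
    2 ≤ q := by
  have h1 : 1 < Fintype.card F := Fintype.one_lt_card
  rw [hF] at h1
  by_contra h
  have : q = 0 ∨ q = 1 := by omega
  rcases this with rfl | rfl <;> simp at h1

/-- An element of norm one whose square is not one. -/
theorem exists_norm_one_sq_ne {F : Type*} [Field F] [Fintype F] {q : ℕ}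
    (hF : Fintype.card F = q ^ 2) : ∃ a : F, a ^ (q + 1) = 1 ∧ a ^ 2 ≠ 1 := by
  classical
  have hq := card_sq_two_le hF
  obtain ⟨ζ, hζ⟩ := IsCyclic.exists_generator (α := Fˣ)
  have hord : orderOf ζ = q ^ 2 - 1 := by
    rw [orderOf_eq_card_of_forall_mem_zpowers hζ, Nat.card_units, Nat.card_eq_fintype_card, hF]
  have hfac : q ^ 2 - 1 = (q - 1) * (q + 1) := by
    obtain ⟨k, rfl⟩ : ∃ k, q = k + 1 := ⟨q - 1, by omega⟩
    simp only [Nat.add_sub_cancel]
    have : (k + 1) ^ 2 = k * (k + 1 + 1) + 1 := by ring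
    rw [this, Nat.add_sub_cancel]
  have hord2 : orderOf (ζ ^ (q - 1)) = q + 1 := by
    rw [orderOf_pow' ζ (by omega : q - 1 ≠ 0), hord, hfac, Nat.gcd_mul_right_left]
    exact Nat.mul_div_cancel_left _ (by omega)
  refine ⟨((ζ ^ (q - 1) : Fˣ) : F), ?_, ?_⟩
  · have h1 := pow_orderOf_eq_one (ζ ^ (q - 1))
    rw [hord2] at h1
    have h2 := congrArg (fun u : Fˣ => (u : F)) h1
    simpa using h2
  · intro h
    have h1 : (ζ ^ (q - 1)) ^ 2 = 1 := by
      apply Units.ext
      simpa using h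
    have h2 := orderOf_dvd_of_pow_eq_one h1
    rw [hord2] at h2
    have := Nat.le_of_dvd (by norm_num) h2
    omega

/-- Central elements of `SU_n`, `n ≥ 3`, are scalar matrices. -/
theorem su_center_scalar {F : Type*} [Field F] [Fintype F] {q : ℕ}
    (hF : Fintype.card F = q ^ 2) (n : ℕ) (hn : 3 ≤ n) (z : Cfsg.SU n F q)
    (hz : z ∈ Subgroup.center (Cfsg.SU n F q)) (i₀ : Fin n) :
    (z.1.1 : Matrix (Fin n) (Fin n) F) = (z.1.1 i₀ i₀) • (1 : Matrix (Fin n) (Fin n) F) := by
  classical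
  obtain ⟨a, ha1, ha2⟩ := exists_norm_one_sq_ne hF
  have ha0 : a ≠ 0 := by
    rintro rfl
    rw [zero_pow (by omega)] at ha1
    exact zero_ne_one ha1
  have hcomm : ∀ g : Matrix.SpecialLinearGroup (Fin n) F, g ∈ Cfsg.SU n F q →
      g.1 * z.1.1 = z.1.1 * g.1 := by
    intro g hg
    have h1 := Subgroup.mem_center_iff.mp hz ⟨g, hg⟩
    have h2 := congrArg (fun x : Cfsg.SU n F q => (x.1.1 : Matrix (Fin n) (Fin n) F)) h1
    exact h2
  -- off-diagonal entries vanish
  have hoff : ∀ k l : Fin n, k ≠ l → z.1.1 k l = 0 := by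
    intro k l hkl
    obtain ⟨d, hd⟩ : ∃ d : Fin n → F, d = fun i => if i = k then a else if i = l then a⁻¹ else 1 :=
      ⟨_, rfl⟩
    have hdk : d k = a := by rw [hd]; simp
    have hdl : d l = a⁻¹ := by rw [hd]; simp [hkl.symm]
    have hd1 : ∀ i, d i ^ (q + 1) = 1 := by
      intro i
      rw [hd]
      dsimp only
      split_ifs
      · exact ha1
      · rw [inv_pow, ha1, inv_one]
      · exact one_pow _
    have hdet : ∏ i, d i = 1 := by
      rw [Finset.prod_eq_mul k l hkl (fun c _ hc => by rw [hd]; simp [hc.1, hc.2])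
        (fun h => absurd (Finset.mem_univ _) h) (fun h => absurd (Finset.mem_univ _) h), hdk, hdl,
        mul_inv_cancel₀ ha0]
    obtain ⟨g, hg, hgd⟩ := su_diag_mem n q d hd1 hdet
    have h1 := hcomm g hg
    rw [hgd] at h1
    have h2 := congrFun (congrFun h1 k) l
    rw [Matrix.diagonal_mul, Matrix.mul_diagonal, hdk, hdl] at h2
    have h3 : z.1.1 k l * (a - a⁻¹) = 0 := by linear_combination h2
    rcases mul_eq_zero.mp h3 with h | h
    · exact h
    · exfalso
      apply ha2
      have : a = a⁻¹ := sub_eq_zero.mp h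
      rw [pow_two]
      nth_rewrite 2 [this]
      exact mul_inv_cancel₀ ha0
  -- diagonal entries agree
  have hdiag : ∀ i j : Fin n, i ≠ j → z.1.1 i i = z.1.1 j j := by
    intro i j hij
    obtain ⟨k, hki, hkj⟩ : ∃ k : Fin n, k ≠ i ∧ k ≠ j := by
      by_contra hcon
      push Not at hcon
      have h1 : (Finset.univ : Finset (Fin n)) ⊆ {i, j} := by
        intro k _
        by_cases hk : k = i
        · simp [hk]
        · simp [hcon k hk]
      have h2 := Finset.card_le_card h1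
      rw [Finset.card_univ, Fintype.card_fin] at h2
      have h3 : ({i, j} : Finset (Fin n)).card ≤ 2 := Finset.card_le_two
      omega
    obtain ⟨σ, hσ⟩ : ∃ σ : Equiv.Perm (Fin n), σ = Equiv.swap i j * Equiv.swap i k := ⟨_, rfl⟩
    have hsign : Equiv.Perm.sign σ = 1 := by
      rw [hσ, Equiv.Perm.sign_mul, Equiv.Perm.sign_swap hij, Equiv.Perm.sign_swap (Ne.symm hki)]
      rfl
    obtain ⟨g, hg, hgp⟩ := su_perm_mem (F := F) n q σ hsign
    have h1 := hcomm g hg
    rw [hgp] at h1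
    have h2 : ∀ x y : Fin n, z.1.1 (σ x) y = z.1.1 x (σ.symm y) := by
      intro x y
      have h3 := congrFun (congrFun h1 x) y
      have e1 : Equiv.Perm.permMatrix F σ * z.1.1 = (z.1.1 : Matrix _ _ F).submatrix σ id :=
        PEquiv.toMatrix_toPEquiv_mul σ _
      have e2 : z.1.1 * Equiv.Perm.permMatrix F σ = (z.1.1 : Matrix _ _ F).submatrix id σ.symm :=
        PEquiv.mul_toMatrix_toPEquiv _ σ
      rw [e1, e2] at h3
      exact h3
    have hσi : σ i = k := by
      rw [hσ, Equiv.Perm.mul_apply, Equiv.swap_apply_left,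
        Equiv.swap_apply_of_ne_of_ne hki hkj]
    have hσk : σ k = j := by
      rw [hσ, Equiv.Perm.mul_apply, Equiv.swap_apply_right, Equiv.swap_apply_left]
    have h4 : z.1.1 k k = z.1.1 i i := by
      have := h2 i k
      rw [hσi, ← hσi, Equiv.symm_apply_apply] at this
      rw [hσi] at this
      exact this
    have h5 : z.1.1 j j = z.1.1 k k := by
      have := h2 k j
      rw [hσk, ← hσk, Equiv.symm_apply_apply] at this
      rw [hσk] at this
      exact this
    rw [h5, h4]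
  ext x y
  by_cases hxy : x = y
  · subst hxy
    by_cases hx : x = i₀
    · subst hx; simp
    · simp [hdiag x i₀ hx]
  · simp [hoff x y hxy, Matrix.one_apply, hxy]

theorem su_center_card {F : Type*} [Field F] [Fintype F] {q : ℕ} (hF : Fintype.card F = q ^ 2)
    (n : ℕ) (hn : 3 ≤ n) :
    Nat.card (Subgroup.center (Cfsg.SU n F q)) = Nat.gcd n (q + 1) := by
  classical
  have hq := card_sq_two_le hF
  obtain ⟨i₀, hi₀⟩ : ∃ i₀ : Fin n, i₀ = ⟨0, by omega⟩ := ⟨_, rfl⟩
  have hprop : ∀ z : Subgroup.center (Cfsg.SU n F q),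
      (z.1.1.1 i₀ i₀ : F) ^ n = 1 ∧ (z.1.1.1 i₀ i₀ : F) ^ (q + 1) = 1 := by
    intro z
    have h1 := su_center_scalar hF n hn z.1 z.2 i₀
    constructor
    · have h2 : (z.1.1.1 : Matrix (Fin n) (Fin n) F).det = 1 := z.1.1.2
      rw [h1, Matrix.det_smul, Matrix.det_one, mul_one, Fintype.card_fin] at h2
      exact h2
    · have h3 := (su_mem_iff n q z.1.1).mp z.1.2 (Pi.single i₀ 1) (Pi.single i₀ 1)
      rw [h1] at h3
      unfold Cfsg.hermForm at h3
      simp only [Matrix.smul_mulVec, Matrix.one_mulVec] at h3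
      rw [Finset.sum_eq_single i₀ (fun b _ hb => by simp [hb]) (fun h => absurd (Finset.mem_univ _) h),
        Finset.sum_eq_single i₀ (fun b _ hb => by simp [hb]) (fun h => absurd (Finset.mem_univ _) h)]
        at h3
      simp only [Pi.smul_apply, Pi.single_eq_same, smul_eq_mul, mul_one, one_pow] at h3
      rw [pow_succ, mul_comm]
      exact h3
  let f : Subgroup.center (Cfsg.SU n F q) → {c : F // c ^ n = 1 ∧ c ^ (q + 1) = 1} :=
    fun z => ⟨z.1.1.1 i₀ i₀, hprop z⟩
  have hf : Function.Bijective f := by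
    constructor
    · intro z z' hzz
      have h1 := su_center_scalar hF n hn z.1 z.2 i₀
      have h2 := su_center_scalar hF n hn z'.1 z'.2 i₀
      have h3 : (z.1.1.1 i₀ i₀ : F) = z'.1.1.1 i₀ i₀ := congrArg Subtype.val hzz
      apply Subtype.ext
      apply Subtype.ext
      apply Subtype.ext
      rw [h1, h2, h3]
    · rintro ⟨c, hc1, hc2⟩
      obtain ⟨g, hg, hgd⟩ := su_diag_mem n q (fun _ => c) (fun _ => hc2)
        (by rw [Finset.prod_const, Finset.card_univ, Fintype.card_fin]; exact hc1)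
      have hcen : (⟨g, hg⟩ : Cfsg.SU n F q) ∈ Subgroup.center (Cfsg.SU n F q) := by
        rw [Subgroup.mem_center_iff]
        intro h
        apply Subtype.ext
        apply Subtype.ext
        show h.1.1 * g.1 = g.1 * h.1.1
        rw [hgd]
        ext x y
        rw [Matrix.mul_diagonal, Matrix.diagonal_mul, mul_comm]
      refine ⟨⟨⟨g, hg⟩, hcen⟩, ?_⟩
      apply Subtype.ext
      show g.1 i₀ i₀ = c
      rw [hgd, Matrix.diagonal_apply_eq]
  rw [Nat.card_congr (Equiv.ofBijective f hf)]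
  have hfac : q ^ 2 - 1 = (q - 1) * (q + 1) := by
    obtain ⟨k, rfl⟩ : ∃ k, q = k + 1 := ⟨q - 1, by omega⟩
    simp only [Nat.add_sub_cancel]
    have : (k + 1) ^ 2 = k * (k + 1 + 1) + 1 := by ring
    rw [this, Nat.add_sub_cancel]
  have hd : Nat.gcd n (q + 1) ∣ q ^ 2 - 1 := by
    rw [hfac]
    exact dvd_trans (Nat.gcd_dvd_right n (q + 1)) (Dvd.intro_left _ rfl)
  let e : {c : F // c ^ n = 1 ∧ c ^ (q + 1) = 1} ≃
      (powMonoidHom (Nat.gcd n (q + 1)) : Fˣ →* Fˣ).ker :=
    { toFun := fun c => ⟨Units.mk0 c.1 (by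
          intro h
          have h1 := c.2.1
          rw [h, zero_pow (by omega)] at h1
          exact zero_ne_one h1), by
        rw [MonoidHom.mem_ker, powMonoidHom_apply]
        apply Units.ext
        simp only [Units.val_pow_eq_pow_val, Units.val_mk0, Units.val_one]
        exact pow_gcd_eq_one.mpr c.2⟩
      invFun := fun u => ⟨((u.1 : Fˣ) : F), by
        have h := u.2
        rw [MonoidHom.mem_ker, powMonoidHom_apply] at h
        have h2 : ((u.1 : Fˣ) : F) ^ (Nat.gcd n (q + 1)) = 1 := by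
          have := congrArg (fun x : Fˣ => (x : F)) h
          simpa using this
        exact pow_gcd_eq_one.mp h2⟩
      left_inv := fun c => Subtype.ext rfl
      right_inv := fun u => Subtype.ext (Units.ext rfl) }
  rw [Nat.card_congr e, IsCyclic.card_powMonoidHom_ker, Nat.card_units, Nat.card_eq_fintype_card, hF]
  exact Nat.gcd_eq_right hd

end Cfsg.Agent.Lib.Helper4
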