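import Mathlib
import Cfsg.Prelude.Def_LieClassical
import Cfsg.Agent.Lib.Helper4.SUCenter

set_option autoImplicit false

namespace Cfsg.Agent.Lib.Helper4

section

variable {F : Type*} [Field F] [Fintype F] {q : ℕ}

/-- `x ↦ x ^ q` as a ring homomorphism. -/
theorem exists_frobQ (hF : Fintype.card F = q ^ 2) : ∃ φ : F →+* F, ∀ x, φ x = x ^ q := by
  obtain ⟨p, hp⟩ := CharP.exists F
  haveI := hp
  obtain ⟨k, hpp, hk⟩ := FiniteField.card F p
  haveI : Fact p.Prime := ⟨hpp⟩
  have hq : q ∣ p ^ (k : ℕ) := by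
    rw [← hk, hF]
    exact dvd_pow_self q two_ne_zero
  obtain ⟨j, _, hj⟩ := (Nat.dvd_prime_pow hpp).mp hq
  exact ⟨iterateFrobenius F p j, fun x => by rw [iterateFrobenius_def, hj]⟩

theorem pow_card_sq (hF : Fintype.card F = q ^ 2) (x : F) : (x ^ q) ^ q = x := by
  rw [← pow_mul, ← pow_two, ← hF, FiniteField.pow_card]

theorem sq_sub_one_fac (hq : 2 ≤ q) : q ^ 2 - 1 = (q - 1) * (q + 1) := by
  obtain ⟨k, rfl⟩ : ∃ k, q = k + 1 := ⟨q - 1, by omega⟩
  simp only [Nat.add_sub_cancel]
  have : (k + 1) ^ 2 = k * (k + 1 + 1) + 1 := by ring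
  rw [this, Nat.add_sub_cancel]

theorem norm_fixed (hF : Fintype.card F = q ^ 2) (x : F) : (x * x ^ q) ^ q = x * x ^ q := by
  rw [mul_pow, pow_card_sq hF, mul_comm]

/-- The norm fibres over non-zero fixed elements have `q + 1` elements. -/
theorem norm_fiber_card (hF : Fintype.card F = q ^ 2) (c : F) (hc0 : c ≠ 0) (hc : c ^ q = c) :
    Nat.card {x : F // x ^ (q + 1) = c} = q + 1 := by
  classical
  have hq := card_sq_two_le hF
  have hcard : Nat.card Fˣ = q ^ 2 - 1 := by
    rw [Nat.card_units, Nat.card_eq_fintype_card, hF]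
  have hfac := sq_sub_one_fac hq
  have hker : Nat.card (powMonoidHom (q + 1) : Fˣ →* Fˣ).ker = q + 1 := by
    rw [IsCyclic.card_powMonoidHom_ker, hcard, hfac]
    exact Nat.gcd_eq_right (Dvd.intro_left _ rfl)
  have hrange : Nat.card (powMonoidHom (q + 1) : Fˣ →* Fˣ).range = q - 1 := by
    rw [IsCyclic.card_powMonoidHom_range, hcard, hfac, Nat.gcd_eq_right (Dvd.intro_left _ rfl)]
    exact Nat.mul_div_cancel _ (by omega)
  have hker2 : Nat.card (powMonoidHom (q - 1) : Fˣ →* Fˣ).ker = q - 1 := by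
    rw [IsCyclic.card_powMonoidHom_ker, hcard, hfac]
    exact Nat.gcd_eq_right (Dvd.intro _ rfl)
  have hle : (powMonoidHom (q + 1) : Fˣ →* Fˣ).range ≤ (powMonoidHom (q - 1) : Fˣ →* Fˣ).ker := by
    rintro _ ⟨x, rfl⟩
    rw [MonoidHom.mem_ker, powMonoidHom_apply, powMonoidHom_apply, ← pow_mul, mul_comm, ← hfac,
      ← hcard]
    exact pow_card_eq_one'
  have heq : (powMonoidHom (q + 1) : Fˣ →* Fˣ).range = (powMonoidHom (q - 1) : Fˣ →* Fˣ).ker :=
    Subgroup.eq_of_le_of_card_ge hle (by rw [hrange, hker2])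
  have hcu : Units.mk0 c hc0 ∈ (powMonoidHom (q - 1) : Fˣ →* Fˣ).ker := by
    rw [MonoidHom.mem_ker, powMonoidHom_apply]
    apply Units.ext
    simp only [Units.val_pow_eq_pow_val, Units.val_mk0, Units.val_one]
    have h1 : c ^ (q - 1) * c = c := by
      rw [← pow_succ, Nat.sub_add_cancel (by omega)]
      exact hc
    exact mul_right_cancel₀ hc0 (by rw [h1, one_mul])
  rw [← heq] at hcu
  obtain ⟨y, hy⟩ := hcu
  rw [powMonoidHom_apply] at hy
  have hy' : (y : F) ^ (q + 1) = c := by
    have := congrArg (fun u : Fˣ => (u : F)) hy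
    simpa using this
  have hcongr : Nat.card {x : F // x ^ (q + 1) = c} =
      Nat.card (powMonoidHom (q + 1) : Fˣ →* Fˣ).ker := by
    symm
    refine Nat.card_congr (Equiv.ofBijective
      (fun k : (powMonoidHom (q + 1) : Fˣ →* Fˣ).ker => (⟨((k.1 : Fˣ) : F) * y, ?_⟩ :
        {x : F // x ^ (q + 1) = c})) ⟨?_, ?_⟩)
    · have hk := k.2
      rw [MonoidHom.mem_ker, powMonoidHom_apply] at hk
      have hk' : ((k.1 : Fˣ) : F) ^ (q + 1) = 1 := by
        have := congrArg (fun u : Fˣ => (u : F)) hk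
        simpa using this
      rw [mul_pow, hk', one_mul, hy']
    · intro k k' hkk
      have h1 : ((k.1 : Fˣ) : F) * y = ((k'.1 : Fˣ) : F) * y := congrArg Subtype.val hkk
      have h2 := mul_right_cancel₀ (Units.ne_zero y) h1
      exact Subtype.ext (Units.ext h2)
    · rintro ⟨x, hx⟩
      have hx0 : x ≠ 0 := by
        rintro rfl
        rw [zero_pow (by omega)] at hx
        exact hc0 hx.symm
      refine ⟨⟨Units.mk0 x hx0 * y⁻¹, ?_⟩, ?_⟩
      · rw [MonoidHom.mem_ker, powMonoidHom_apply]
        apply Units.ext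
        simp only [Units.val_pow_eq_pow_val, Units.val_mul, Units.val_mk0, Units.val_one,
          Units.val_inv_eq_inv_val, mul_pow, inv_pow]
        rw [hx, hy', mul_inv_cancel₀ hc0]
      · apply Subtype.ext
        simp
  rw [hcongr, hker]

theorem exists_norm_eq (hF : Fintype.card F = q ^ 2) (c : F) (hc0 : c ≠ 0) (hc : c ^ q = c) :
    ∃ a : F, a ^ (q + 1) = c := by
  have h := norm_fiber_card hF c hc0 hc
  have h2 : Nonempty {x : F // x ^ (q + 1) = c} := by
    by_contra hne
    rw [not_nonempty_iff] at hne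
    rw [Nat.card_of_isEmpty] at h
    omega
  obtain ⟨⟨a, ha⟩⟩ := h2
  exact ⟨a, ha⟩

/-- Peeling off the first coordinate. -/
theorem herm_count_succ (n : ℕ) (c : F) :
    Nat.card {v : Fin (n + 1) → F // Cfsg.hermForm (n + 1) F q v v = c} =
      ∑ x : F, Nat.card {w : Fin n → F // Cfsg.hermForm n F q w w = c - x * x ^ q} := by
  classical
  rw [← Nat.card_sigma]
  refine Nat.card_congr ?_
  exact
    { toFun := fun v => ⟨v.1 0, ⟨fun i => v.1 i.succ, by
          have h := v.2
          unfold Cfsg.hermForm at h ⊢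
          rw [Fin.sum_univ_succ] at h
          linear_combination h⟩⟩
      invFun := fun p => ⟨Fin.cons p.1 p.2.1, by
          have h := p.2.2
          unfold Cfsg.hermForm at h ⊢
          rw [Fin.sum_univ_succ]
          simp only [Fin.cons_zero, Fin.cons_succ]
          linear_combination h⟩
      left_inv := fun v => Subtype.ext (by
        funext i
        refine Fin.cases ?_ (fun j => ?_) i <;> simp)
      right_inv := fun p => rfl }

theorem sum_ite_const_card (p : F → Prop) [DecidablePred p] (a b : ℕ) :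
    ∑ x : F, (if p x then a else b) =
      (Finset.univ.filter p).card * a + (Fintype.card F - (Finset.univ.filter p).card) * b := by
  classical
  rw [Finset.sum_ite, Finset.sum_const, Finset.sum_const, smul_eq_mul, smul_eq_mul]
  congr 2
  rw [Finset.filter_not, Finset.card_sdiff_of_subset (Finset.filter_subset _ _), Finset.card_univ]

/-- The two counting sequences: isotropic vectors (with zero) and vectors of norm one. -/
def hermZU (q : ℕ) : ℕ → ℕ × ℕ
  | 0 => (1, 0)
  | (n + 1) => ((hermZU q n).1 + (q ^ 2 - 1) * (hermZU q n).2,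
      (q + 1) * (hermZU q n).1 + (q ^ 2 - (q + 1)) * (hermZU q n).2)

theorem herm_count (hF : Fintype.card F = q ^ 2) (n : ℕ) :
    Nat.card {v : Fin n → F // Cfsg.hermForm n F q v v = 0} = (hermZU q n).1 ∧
    ∀ c : F, c ≠ 0 → c ^ q = c →
      Nat.card {v : Fin n → F // Cfsg.hermForm n F q v v = c} = (hermZU q n).2 := by
  classical
  have hq := card_sq_two_le hF
  obtain ⟨φ, hφ⟩ := exists_frobQ hF
  induction n with
  | zero =>
    constructor
    · show _ = 1
      rw [Nat.card_eq_one_iff_unique]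
      refine ⟨⟨fun a b => Subtype.ext (funext fun i => i.elim0)⟩, ⟨⟨fun i => i.elim0, ?_⟩⟩⟩
      unfold Cfsg.hermForm
      simp
    · intro c hc0 _
      show _ = 0
      rw [Nat.card_eq_zero]
      left
      refine ⟨fun v => hc0 ?_⟩
      have h := v.2
      unfold Cfsg.hermForm at h
      simp at h
      exact h.symm
  | succ n ih =>
    obtain ⟨ihZ, ihU⟩ := ih
    constructor
    · rw [herm_count_succ]
      have h1 : ∀ x : F, Nat.card {w : Fin n → F // Cfsg.hermForm n F q w w = 0 - x * x ^ q} =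
          if x = 0 then (hermZU q n).1 else (hermZU q n).2 := by
        intro x
        by_cases hx : x = 0
        · rw [if_pos hx, hx, zero_mul, sub_zero, ihZ]
        · rw [if_neg hx]
          apply ihU
          · rw [zero_sub, neg_ne_zero]
            exact mul_ne_zero hx (pow_ne_zero _ hx)
          · rw [zero_sub, ← hφ, map_neg, hφ, norm_fixed hF]
      have h2 : (Finset.univ.filter (fun x : F => x = 0)).card = 1 := by
        rw [Finset.card_eq_one]
        exact ⟨0, by ext x; simp⟩
      rw [Finset.sum_congr rfl (fun x _ => h1 x), sum_ite_const_card, h2, one_mul, hF]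
      rfl
    · intro c hc0 hc
      rw [herm_count_succ]
      have h1 : ∀ x : F, Nat.card {w : Fin n → F // Cfsg.hermForm n F q w w = c - x * x ^ q} =
          if x ^ (q + 1) = c then (hermZU q n).1 else (hermZU q n).2 := by
        intro x
        rw [pow_succ']
        by_cases hx : x * x ^ q = c
        · rw [if_pos hx, hx, sub_self, ihZ]
        · rw [if_neg hx]
          apply ihU
          · exact sub_ne_zero.mpr (fun h => hx h.symm)
          · rw [← hφ, map_sub, hφ, hφ, norm_fixed hF, hc]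
      rw [Finset.sum_congr rfl (fun x _ => h1 x), sum_ite_const_card, hF]
      have h2 : (Finset.univ.filter (fun x : F => x ^ (q + 1) = c)).card = q + 1 :=
        calc (Finset.univ.filter (fun x : F => x ^ (q + 1) = c)).card
            = Fintype.card {x : F // x ^ (q + 1) = c} := (Fintype.card_subtype _).symm
          _ = Nat.card {x : F // x ^ (q + 1) = c} := Nat.card_eq_fintype_card.symm
          _ = q + 1 := norm_fiber_card hF c hc0 hc
      rw [h2]
      rfl

end

theorem hermZU_closed (q : ℕ) (hq : 2 ≤ q) (m : ℕ) :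
    ((hermZU q (m + 1)).1 : ℤ) =
        (q : ℤ) ^ (2 * m + 1) - (-1) ^ m * ((q : ℤ) ^ (m + 1) - (q : ℤ) ^ m) ∧
    ((hermZU q (m + 1)).2 : ℤ) = (q : ℤ) ^ m * ((q : ℤ) ^ (m + 1) + (-1) ^ m) := by
  induction m with
  | zero =>
    show (((1 + (q ^ 2 - 1) * 0 : ℕ)) : ℤ) = _ ∧
      (((q + 1) * 1 + (q ^ 2 - (q + 1)) * 0 : ℕ) : ℤ) = _
    constructor
    · push_cast; ring
    · push_cast; ring
  | succ m ih =>
    obtain ⟨ihZ, ihU⟩ := ih
    have h1 : 1 ≤ q ^ 2 := Nat.one_le_pow _ _ (by omega)
    have h2 : q + 1 ≤ q ^ 2 := by nlinarith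
    have e1 : (hermZU q (m + 1 + 1)).1 =
        (hermZU q (m + 1)).1 + (q ^ 2 - 1) * (hermZU q (m + 1)).2 := rfl
    have e2 : (hermZU q (m + 1 + 1)).2 =
        (q + 1) * (hermZU q (m + 1)).1 + (q ^ 2 - (q + 1)) * (hermZU q (m + 1)).2 := rfl
    constructor
    · rw [e1]
      push_cast [Nat.cast_sub h1]
      rw [ihZ, ihU]
      ring
    · rw [e2]
      push_cast [Nat.cast_sub h2]
      rw [ihZ, ihU]
      ring

/-- Closed form for the number of vectors of norm one. -/
theorem hermZU_snd (q : ℕ) (hq : 2 ≤ q) (n : ℕ) :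
    (hermZU q n).2 = if Even n then q ^ (n - 1) * (q ^ n - 1) else q ^ (n - 1) * (q ^ n + 1) := by
  rcases n with _ | m
  · show 0 = _
    simp
  · have h := (hermZU_closed q hq m).2
    have h1 : 1 ≤ q ^ (m + 1) := Nat.one_le_pow _ _ (by omega)
    simp only [Nat.add_sub_cancel]
    by_cases hm : Even m
    · rw [if_neg (by rw [Nat.even_add_one]; exact not_not.mpr hm)]
      rw [hm.neg_one_pow] at h
      exact_mod_cast h
    · rw [if_pos (by rw [Nat.even_add_one]; exact hm)]
      rw [(Nat.not_even_iff_odd.mp hm).neg_one_pow] at h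
      zify [h1]
      rw [h]
      ring

/-- Closed form for the number of isotropic vectors (including zero). -/
theorem hermZU_fst (q : ℕ) (hq : 2 ≤ q) (n : ℕ) :
    (hermZU q n).1 = (if Even n then (q ^ n - 1) * (q ^ (n - 1) + 1)
      else (q ^ n + 1) * (q ^ (n - 1) - 1)) + 1 := by
  rcases n with _ | m
  · show 1 = _
    simp
  · have h := (hermZU_closed q hq m).1
    have h1 : 1 ≤ q ^ (m + 1) := Nat.one_le_pow _ _ (by omega)
    have h2 : 1 ≤ q ^ m := Nat.one_le_pow _ _ (by omega)
    simp only [Nat.add_sub_cancel]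
    by_cases hm : Even m
    · rw [if_neg (by rw [Nat.even_add_one]; exact not_not.mpr hm)]
      rw [hm.neg_one_pow] at h
      zify [h2]
      rw [h]
      ring
    · rw [if_pos (by rw [Nat.even_add_one]; exact hm)]
      rw [(Nat.not_even_iff_odd.mp hm).neg_one_pow] at h
      zify [h1]
      rw [h]
      ring

end Cfsg.Agent.Lib.Helper4
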