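import Mathlib
import Cfsg.Prelude.Def_LieClassical
import Cfsg.Agent.Lib.Helper4.HermCount

set_option autoImplicit false

namespace Cfsg.Agent.Lib.Helper4

open Matrix

section

variable {F : Type*} [Field F] {q : ℕ}

theorem herm_eq_dot (φ : F →+* F) (hφ : ∀ x, φ x = x ^ q) (n : ℕ) (u v : Fin n → F) :
    Cfsg.hermForm n F q u v = u ⬝ᵥ (fun i => φ (v i)) := by
  unfold Cfsg.hermForm dotProduct
  simp only [hφ]

theorem herm_add_left (n : ℕ) (u u' v : Fin n → F) :
    Cfsg.hermForm n F q (u + u') v = Cfsg.hermForm n F q u v + Cfsg.hermForm n F q u' v := by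
  unfold Cfsg.hermForm
  simp only [Pi.add_apply, add_mul, Finset.sum_add_distrib]

theorem herm_smul_left (n : ℕ) (c : F) (u v : Fin n → F) :
    Cfsg.hermForm n F q (c • u) v = c * Cfsg.hermForm n F q u v := by
  unfold Cfsg.hermForm
  simp only [Pi.smul_apply, smul_eq_mul, mul_assoc, Finset.mul_sum]

theorem herm_smul_right (n : ℕ) (c : F) (u v : Fin n → F) :
    Cfsg.hermForm n F q u (c • v) = c ^ q * Cfsg.hermForm n F q u v := by
  unfold Cfsg.hermForm
  simp only [Pi.smul_apply, smul_eq_mul, mul_pow, Finset.mul_sum]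
  refine Finset.sum_congr rfl (fun i _ => ?_)
  ring

theorem herm_neg_left (n : ℕ) (u v : Fin n → F) :
    Cfsg.hermForm n F q (-u) v = - Cfsg.hermForm n F q u v := by
  have h := herm_smul_left (q := q) n (-1 : F) u v
  rw [neg_one_smul, neg_one_mul] at h
  exact h

theorem herm_sub_left (n : ℕ) (u u' v : Fin n → F) :
    Cfsg.hermForm n F q (u - u') v = Cfsg.hermForm n F q u v - Cfsg.hermForm n F q u' v := by
  rw [sub_eq_add_neg, herm_add_left, herm_neg_left, ← sub_eq_add_neg]

theorem herm_sum_left {ι : Type*} (s : Finset ι) (n : ℕ) (f : ι → Fin n → F) (v : Fin n → F) :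
    Cfsg.hermForm n F q (∑ i ∈ s, f i) v = ∑ i ∈ s, Cfsg.hermForm n F q (f i) v := by
  classical
  induction s using Finset.induction_on with
  | empty =>
    unfold Cfsg.hermForm
    simp
  | insert a s ha ih =>
    rw [Finset.sum_insert ha, Finset.sum_insert ha, herm_add_left, ih]

theorem herm_symm [Fintype F] (hF : Fintype.card F = q ^ 2) (n : ℕ) (u v : Fin n → F) :
    Cfsg.hermForm n F q v u = (Cfsg.hermForm n F q u v) ^ q := by
  obtain ⟨φ, hφ⟩ := exists_frobQ hF
  unfold Cfsg.hermForm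
  rw [← hφ, map_sum]
  refine Finset.sum_congr rfl (fun i _ => ?_)
  rw [map_mul, hφ, hφ, pow_card_sq hF, mul_comm]

theorem herm_single_left' (φ : F →+* F) (hφ : ∀ x, φ x = x ^ q) (n : ℕ) (j : Fin n)
    (v : Fin n → F) : Cfsg.hermForm n F q (Pi.single j 1) v = (v j) ^ q := by
  rw [herm_eq_dot φ hφ, single_one_dotProduct, hφ]

/-- Matrix form of unitarity. -/
theorem herm_mulVec_iff (φ : F →+* F) (hφ : ∀ x, φ x = x ^ q) (n : ℕ)
    (G : Matrix (Fin n) (Fin n) F) :
    (∀ u v, Cfsg.hermForm n F q (G *ᵥ u) (G *ᵥ v) = Cfsg.hermForm n F q u v) ↔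
      Gᵀ * G.map φ = 1 := by
  classical
  constructor
  · intro h
    ext j l
    have h1 := h (Pi.single j 1) (Pi.single l 1)
    rw [herm_eq_dot φ hφ, herm_eq_dot φ hφ, single_one_dotProduct, Matrix.mulVec_single_one,
      Matrix.mulVec_single_one] at h1
    rw [Matrix.mul_apply, Matrix.one_apply]
    have h2 : φ ((Pi.single l 1 : Fin n → F) j) = if j = l then 1 else 0 := by
      rw [Pi.single_apply]
      split_ifs <;> simp
    rw [← h2, ← h1]
    rfl
  · intro h u v
    rw [herm_eq_dot φ hφ, herm_eq_dot φ hφ]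
    have h1 : (fun i => φ ((G *ᵥ v) i)) = (G.map φ) *ᵥ (fun i => φ (v i)) := by
      funext i
      exact RingHom.map_mulVec φ G v i
    rw [h1, dotProduct_comm, Matrix.dotProduct_mulVec, dotProduct_comm, ← Matrix.mulVec_transpose,
      Matrix.mulVec_mulVec, h, Matrix.one_mulVec]

theorem gu_mem_iff (φ : F →+* F) (hφ : ∀ x, φ x = x ^ q) (n : ℕ) (g : GL (Fin n) F) :
    g ∈ Cfsg.GU n F q ↔ (g.1)ᵀ * (g.1).map φ = 1 :=
  herm_mulVec_iff φ hφ n g.1

theorem herm_add_right (φ : F →+* F) (hφ : ∀ x, φ x = x ^ q) (n : ℕ) (u v v' : Fin n → F) :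
    Cfsg.hermForm n F q u (v + v') = Cfsg.hermForm n F q u v + Cfsg.hermForm n F q u v' := by
  rw [herm_eq_dot φ hφ, herm_eq_dot φ hφ, herm_eq_dot φ hφ, ← dotProduct_add]
  congr 1
  funext i
  simp

end

section ext

variable {F : Type*} [Field F] [Fintype F] {q : ℕ}

theorem exists_not_fixed (hF : Fintype.card F = q ^ 2) : ∃ c : F, c ^ q ≠ c := by
  classical
  have hq := card_sq_two_le hF
  obtain ⟨ζ, hζ⟩ := IsCyclic.exists_generator (α := Fˣ)
  have hord : orderOf ζ = q ^ 2 - 1 := by
    rw [orderOf_eq_card_of_forall_mem_zpowers hζ, Nat.card_units, Nat.card_eq_fintype_card, hF]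
  refine ⟨(ζ : F), fun h => ?_⟩
  have h1 : ζ ^ (q - 1) = 1 := by
    apply Units.ext
    simp only [Units.val_pow_eq_pow_val, Units.val_one]
    have h2 : (ζ : F) ^ (q - 1) * ζ = ζ := by
      rw [← pow_succ, Nat.sub_add_cancel (by omega)]
      exact h
    exact mul_right_cancel₀ (Units.ne_zero ζ) (by rw [h2, one_mul])
  have h3 := orderOf_dvd_of_pow_eq_one h1
  rw [hord, sq_sub_one_fac hq] at h3
  have h4 := Nat.le_of_dvd (by omega) h3
  have h5 : (q - 1) * 2 ≤ (q - 1) * (q + 1) := Nat.mul_le_mul_left _ (by omega)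
  omega

theorem herm_extend_step (hF : Fintype.card F = q ^ 2) (n k : ℕ) (hk : k < n)
    (w : Fin k → Fin n → F)
    (hw : ∀ i j, Cfsg.hermForm n F q (w i) (w j) = if i = j then 1 else 0) :
    ∃ v : Fin n → F, Cfsg.hermForm n F q v v = 1 ∧ ∀ i, Cfsg.hermForm n F q v (w i) = 0 := by
  classical
  have hq := card_sq_two_le hF
  obtain ⟨φ, hφ⟩ := exists_frobQ hF
  obtain ⟨P, hP⟩ : ∃ P : (Fin n → F) → (Fin n → F),
      P = fun x => x - ∑ i, Cfsg.hermForm n F q x (w i) • w i := ⟨_, rfl⟩
  have hPW : ∀ x j, Cfsg.hermForm n F q (P x) (w j) = 0 := by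
    intro x j
    rw [hP]
    simp only
    rw [herm_sub_left, herm_sum_left]
    simp only [herm_smul_left, hw, mul_ite, mul_one, mul_zero]
    rw [Finset.sum_ite_eq' Finset.univ j, if_pos (Finset.mem_univ _), sub_self]
  have hPx : ∀ x, x = P x + ∑ i, Cfsg.hermForm n F q x (w i) • w i := by
    intro x
    rw [hP]
    simp
  obtain ⟨x, hx⟩ : ∃ x, P x ≠ 0 := by
    by_contra hcon
    push Not at hcon
    have h1 : ∀ x : Fin n → F, x ∈ Submodule.span F (Set.range w) := by
      intro x
      rw [hPx x, hcon x, zero_add]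
      exact Submodule.sum_mem _ (fun i _ => Submodule.smul_mem _ _ (Submodule.subset_span ⟨i, rfl⟩))
    have h3 : Submodule.span F (Set.range w) = ⊤ := by
      rw [eq_top_iff]
      intro x _
      exact h1 x
    have h4 := finrank_range_le_card (R := F) w
    unfold Set.finrank at h4
    rw [h3, finrank_top, Module.finrank_fintype_fun_eq_card, Fintype.card_fin, Fintype.card_fin]
      at h4
    omega
  have hex : ∃ y : Fin n → F, (∀ i, Cfsg.hermForm n F q y (w i) = 0) ∧
      Cfsg.hermForm n F q y y ≠ 0 := by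
    by_contra hcon
    push Not at hcon
    have hcross : ∀ y y' : Fin n → F, (∀ i, Cfsg.hermForm n F q y (w i) = 0) →
        (∀ i, Cfsg.hermForm n F q y' (w i) = 0) → Cfsg.hermForm n F q y y' = 0 := by
      intro y y' hy hy'
      obtain ⟨t, ht⟩ : ∃ t, t = Cfsg.hermForm n F q y y' := ⟨_, rfl⟩
      have key : ∀ c : F, c ^ q * t + c * t ^ q = 0 := by
        intro c
        have hW : ∀ i, Cfsg.hermForm n F q (y + c • y') (w i) = 0 := by
          intro i
          rw [herm_add_left, herm_smul_left, hy i, hy' i, mul_zero, add_zero]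
        have hW' : ∀ i, Cfsg.hermForm n F q (c • y') (w i) = 0 := by
          intro i
          rw [herm_smul_left, hy' i, mul_zero]
        have h1 := hcon _ hW
        rw [herm_add_left, herm_add_right φ hφ, herm_add_right φ hφ, hcon y hy, hcon _ hW',
          herm_smul_right, herm_smul_left, herm_symm hF n y y', ← ht] at h1
        linear_combination h1
      have h1 := key 1
      rw [one_pow, one_mul, one_mul] at h1
      obtain ⟨c₀, hc₀⟩ := exists_not_fixed hF
      have h2 := key c₀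
      have h3 : t * (c₀ ^ q - c₀) = 0 := by linear_combination h2 - c₀ * h1
      rcases mul_eq_zero.mp h3 with h | h
      · rw [← ht]; exact h
      · exact absurd (sub_eq_zero.mp h) hc₀
    apply hx
    funext j
    have h1 : Cfsg.hermForm n F q (Pi.single j 1) (P x) = 0 := by
      rw [hPx (Pi.single j 1), herm_add_left, herm_sum_left,
        hcross _ _ (hPW _) (hPW x), zero_add]
      refine Finset.sum_eq_zero (fun i _ => ?_)
      rw [herm_smul_left, herm_symm hF n (P x) (w i), hPW x i, zero_pow (by omega), mul_zero]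
    rw [herm_single_left' φ hφ] at h1
    exact pow_eq_zero_iff (by omega) |>.mp h1
  obtain ⟨y, hyW, hyN⟩ := hex
  have hfix : (Cfsg.hermForm n F q y y) ^ q = Cfsg.hermForm n F q y y :=
    (herm_symm hF n y y).symm
  obtain ⟨a, ha⟩ := exists_norm_eq hF (Cfsg.hermForm n F q y y)⁻¹ (inv_ne_zero hyN)
    (by rw [inv_pow, hfix])
  refine ⟨a • y, ?_, fun i => ?_⟩
  · rw [herm_smul_left, herm_smul_right, ← mul_assoc, ← pow_succ', ha, inv_mul_cancel₀ hyN]
  · rw [herm_smul_left, hyW i, mul_zero]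

/-- A vector of norm one is the first member of an orthonormal frame of any admissible size. -/
theorem herm_extend (hF : Fintype.card F = q ^ 2) (n : ℕ) (v : Fin n → F)
    (hv : Cfsg.hermForm n F q v v = 1) :
    ∀ k, k + 1 ≤ n → ∃ w : Fin (k + 1) → Fin n → F,
      (∀ i j, Cfsg.hermForm n F q (w i) (w j) = if i = j then 1 else 0) ∧ w 0 = v := by
  have hq := card_sq_two_le hF
  intro k
  induction k with
  | zero =>
    intro _
    refine ⟨fun _ => v, fun i j => ?_, rfl⟩
    have hij : i = j := by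
      apply Fin.ext
      have h1 := i.2
      have h2 := j.2
      omega
    rw [if_pos hij]
    exact hv
  | succ k ih =>
    intro hk
    obtain ⟨w, hw, hw0⟩ := ih (by omega)
    obtain ⟨u, hu1, hu2⟩ := herm_extend_step hF n (k + 1) (by omega) w hw
    refine ⟨Fin.snoc w u, ?_, ?_⟩
    · intro i j
      refine Fin.lastCases ?_ (fun i' => ?_) i <;> refine Fin.lastCases ?_ (fun j' => ?_) j
      · simp [hu1]
      · rw [Fin.snoc_last, Fin.snoc_castSucc, hu2 j', if_neg]
        exact (Fin.castSucc_lt_last j').ne'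
      · rw [Fin.snoc_last, Fin.snoc_castSucc, herm_symm hF n u (w i'), hu2 i',
          zero_pow (by omega), if_neg]
        exact (Fin.castSucc_lt_last i').ne
      · rw [Fin.snoc_castSucc, Fin.snoc_castSucc, hw]
        simp [Fin.castSucc_inj]
    · have h0 : (0 : Fin (k + 1 + 1)) = Fin.castSucc 0 := rfl
      rw [h0, Fin.snoc_castSucc, hw0]

/-- An orthonormal frame of full size is the set of columns of an element of `GU_n`. -/
theorem gu_of_frame (hF : Fintype.card F = q ^ 2) (n : ℕ) (w : Fin n → Fin n → F)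
    (hw : ∀ i j, Cfsg.hermForm n F q (w i) (w j) = if i = j then 1 else 0) :
    ∃ g : GL (Fin n) F, g ∈ Cfsg.GU n F q ∧ ∀ i j, g.1 i j = w j i := by
  classical
  obtain ⟨φ, hφ⟩ := exists_frobQ hF
  obtain ⟨G, hG⟩ : ∃ G : Matrix (Fin n) (Fin n) F, G = Matrix.of (fun i j => w j i) := ⟨_, rfl⟩
  have h1 : Gᵀ * G.map φ = 1 := by
    ext j l
    rw [Matrix.mul_apply, Matrix.one_apply, ← hw j l]
    unfold Cfsg.hermForm
    refine Finset.sum_congr rfl (fun i _ => ?_)
    rw [hG]
    simp [hφ]
  have h2 : G.map φ * Gᵀ = 1 := mul_eq_one_comm.mp h1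
  have h3 : G * (G.map φ)ᵀ = 1 := by
    have := congrArg Matrix.transpose h2
    rw [Matrix.transpose_mul, Matrix.transpose_transpose, Matrix.transpose_one] at this
    exact this
  have h4 : (G.map φ)ᵀ * G = 1 := mul_eq_one_comm.mp h3
  refine ⟨⟨G, (G.map φ)ᵀ, h3, h4⟩, (gu_mem_iff φ hφ n _).mpr h1, fun i j => ?_⟩
  show G i j = w j i
  rw [hG]
  rfl

end ext

end Cfsg.Agent.Lib.Helper4
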