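import Mathlib
import Cfsg.Prelude.Def_LieClassical
import Cfsg.Agent.Lib.Helper4.HermForm

set_option autoImplicit false

namespace Cfsg.Agent.Lib.Helper4

open Matrix

section

variable {F : Type*} [Field F] {q : ℕ}

/-- The general linear element attached to a unitary matrix. -/
def unitaryGL (φ : F →+* F) {n : ℕ} (G : Matrix (Fin n) (Fin n) F) (h : Gᵀ * G.map φ = 1) :
    GL (Fin n) F :=
  ⟨G, (G.map φ)ᵀ, by
    have h2 : G.map φ * Gᵀ = 1 := mul_eq_one_comm.mp h
    have := congrArg Matrix.transpose h2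
    rw [Matrix.transpose_mul, Matrix.transpose_transpose, Matrix.transpose_one] at this
    exact this, by
    have h2 : G.map φ * Gᵀ = 1 := mul_eq_one_comm.mp h
    have h3 : G * (G.map φ)ᵀ = 1 := by
      have := congrArg Matrix.transpose h2
      rw [Matrix.transpose_mul, Matrix.transpose_transpose, Matrix.transpose_one] at this
      exact this
    exact mul_eq_one_comm.mp h3⟩

theorem unitaryGL_val (φ : F →+* F) {n : ℕ} (G : Matrix (Fin n) (Fin n) F)
    (h : Gᵀ * G.map φ = 1) : (unitaryGL φ G h).1 = G := rfl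

theorem unitary_row_zero (φ : F →+* F) (m : ℕ) (G : Matrix (Fin (m + 1)) (Fin (m + 1)) F)
    (hG : Gᵀ * G.map φ = 1) (hcol : ∀ i, G i 0 = if i = 0 then 1 else 0) :
    ∀ j, G 0 j = if j = 0 then 1 else 0 := by
  intro j
  have h := congrFun (congrFun hG j) 0
  rw [Matrix.mul_apply, Matrix.one_apply] at h
  rw [← h, Finset.sum_eq_single 0]
  · simp [hcol]
  · intro i _ hi
    simp [hcol, hi]
  · intro h
    exact absurd (Finset.mem_univ _) h

theorem unitary_sub (φ : F →+* F) (m : ℕ) (G : Matrix (Fin (m + 1)) (Fin (m + 1)) F)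
    (hG : Gᵀ * G.map φ = 1) (hcol : ∀ i, G i 0 = if i = 0 then 1 else 0) :
    (G.submatrix Fin.succ Fin.succ)ᵀ * (G.submatrix Fin.succ Fin.succ).map φ = 1 := by
  have hrow := unitary_row_zero φ m G hG hcol
  ext j l
  have h := congrFun (congrFun hG j.succ) l.succ
  rw [Matrix.mul_apply, Matrix.one_apply, Fin.sum_univ_succ] at h
  rw [Matrix.mul_apply, Matrix.one_apply]
  simp only [Matrix.transpose_apply, Matrix.map_apply, Matrix.submatrix_apply] at h ⊢
  rw [hrow j.succ, if_neg (Fin.succ_ne_zero j), zero_mul, zero_add] at h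
  rw [h]
  simp [Fin.succ_inj]

/-- The block matrix `1 ⊕ G'`. -/
def blockOne (m : ℕ) (G' : Matrix (Fin m) (Fin m) F) : Matrix (Fin (m + 1)) (Fin (m + 1)) F :=
  Matrix.of (fun i j => Fin.cases (Fin.cases (1 : F) (fun _ => 0) j)
    (fun i' => Fin.cases (0 : F) (fun j' => G' i' j') j) i)

theorem blockOne_zero_zero (m : ℕ) (G' : Matrix (Fin m) (Fin m) F) : blockOne m G' 0 0 = 1 := rfl

theorem blockOne_zero_succ (m : ℕ) (G' : Matrix (Fin m) (Fin m) F) (j : Fin m) :
    blockOne m G' 0 j.succ = 0 := rfl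

theorem blockOne_succ_zero (m : ℕ) (G' : Matrix (Fin m) (Fin m) F) (i : Fin m) :
    blockOne m G' i.succ 0 = 0 := rfl

theorem blockOne_succ_succ (m : ℕ) (G' : Matrix (Fin m) (Fin m) F) (i j : Fin m) :
    blockOne m G' i.succ j.succ = G' i j := rfl

theorem blockOne_unitary (φ : F →+* F) (m : ℕ) (G' : Matrix (Fin m) (Fin m) F)
    (h : G'ᵀ * G'.map φ = 1) : (blockOne m G')ᵀ * (blockOne m G').map φ = 1 := by
  ext j l
  rw [Matrix.mul_apply, Matrix.one_apply, Fin.sum_univ_succ]
  simp only [Matrix.transpose_apply, Matrix.map_apply]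
  refine Fin.cases ?_ (fun j' => ?_) j <;> refine Fin.cases ?_ (fun l' => ?_) l
  · simp [blockOne_zero_zero, blockOne_succ_zero]
  · simp [blockOne_zero_zero, blockOne_succ_zero, blockOne_zero_succ]
    exact (Fin.succ_ne_zero l').symm
  · simp [blockOne_zero_zero, blockOne_succ_zero, blockOne_zero_succ]
  · simp only [blockOne_zero_succ, zero_mul, zero_add, blockOne_succ_succ]
    have h1 := congrFun (congrFun h j') l'
    rw [Matrix.mul_apply, Matrix.one_apply] at h1
    simp only [Matrix.transpose_apply, Matrix.map_apply] at h1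
    rw [h1]
    simp [Fin.succ_inj]

end

section card

variable {F : Type*} [Field F] [Fintype F] {q : ℕ}

theorem gu_card_succ (hF : Fintype.card F = q ^ 2) (m : ℕ) :
    Nat.card (Cfsg.GU (m + 1) F q) = (hermZU q (m + 1)).2 * Nat.card (Cfsg.GU m F q) := by
  classical
  have hq := card_sq_two_le hF
  obtain ⟨φ, hφ⟩ := exists_frobQ hF
  obtain ⟨e₀, he₀⟩ : ∃ e₀ : Fin (m + 1) → F, e₀ = Pi.single 0 1 := ⟨_, rfl⟩
  have he₀N : Cfsg.hermForm (m + 1) F q e₀ e₀ = 1 := by
    rw [he₀, herm_single_left' φ hφ]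
    simp
  have hcolgen : ∀ G : Matrix (Fin (m + 1)) (Fin (m + 1)) F, G *ᵥ e₀ = e₀ →
      ∀ i, G i 0 = if i = 0 then 1 else 0 := by
    intro G hG i
    have h1 := congrFun hG i
    rw [he₀, Matrix.mulVec_single_one, Pi.single_apply] at h1
    exact h1
  let X := {v : Fin (m + 1) → F // Cfsg.hermForm (m + 1) F q v v = 1}
  haveI : Fintype X := Fintype.ofFinite X
  let π : ↥(Cfsg.GU (m + 1) F q) → X := fun g => ⟨g.1.1 *ᵥ e₀, by
    have h := (herm_mulVec_iff φ hφ _ _).mpr ((gu_mem_iff φ hφ _ g.1).mp g.2) e₀ e₀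
    rw [← he₀N]
    exact h⟩
  rw [← Nat.card_congr (Equiv.sigmaFiberEquiv π), Nat.card_sigma]
  have hfib : ∀ v : X, Nat.card {g // π g = v} = Nat.card (Cfsg.GU m F q) := by
    intro v
    obtain ⟨w, hw, hw0⟩ := herm_extend hF (m + 1) v.1 v.2 m (le_refl _)
    obtain ⟨gv, hgv, hgvw⟩ := gu_of_frame hF (m + 1) w hw
    have hgv0 : gv.1 *ᵥ e₀ = v.1 := by
      rw [he₀, Matrix.mulVec_single_one]
      funext i
      show gv.1 i 0 = v.1 i
      rw [hgvw, hw0]
    let S := {g : ↥(Cfsg.GU (m + 1) F q) // g.1.1 *ᵥ e₀ = e₀}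
    have e1 : {g // π g = v} ≃ S :=
      { toFun := fun g => ⟨⟨gv, hgv⟩⁻¹ * g.1, by
          have h1 : g.1.1.1 *ᵥ e₀ = v.1 := congrArg Subtype.val g.2
          show ((⟨gv, hgv⟩ : ↥(Cfsg.GU (m + 1) F q))⁻¹ * g.1).1.1 *ᵥ e₀ = e₀
          have h2 : ((⟨gv, hgv⟩ : ↥(Cfsg.GU (m + 1) F q))⁻¹ * g.1).1.1 = (gv⁻¹).1 * g.1.1.1 := rfl
          rw [h2, ← Matrix.mulVec_mulVec, h1, ← hgv0, Matrix.mulVec_mulVec, ← Units.val_mul,
            inv_mul_cancel, Units.val_one, Matrix.one_mulVec]⟩
        invFun := fun s => ⟨⟨gv, hgv⟩ * s.1, by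
          apply Subtype.ext
          show ((⟨gv, hgv⟩ : ↥(Cfsg.GU (m + 1) F q)) * s.1).1.1 *ᵥ e₀ = v.1
          have h2 : ((⟨gv, hgv⟩ : ↥(Cfsg.GU (m + 1) F q)) * s.1).1.1 = gv.1 * s.1.1.1 := rfl
          rw [h2, ← Matrix.mulVec_mulVec, s.2, hgv0]⟩
        left_inv := fun g => by
          apply Subtype.ext
          simp
        right_inv := fun s => by
          apply Subtype.ext
          simp }
    rw [Nat.card_congr e1]
    have hScol : ∀ s : S, ∀ i, s.1.1.1 i 0 = if i = 0 then 1 else 0 :=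
      fun s => hcolgen _ s.2
    have hSunit : ∀ s : S, (s.1.1.1)ᵀ * (s.1.1.1).map φ = 1 :=
      fun s => (gu_mem_iff φ hφ _ s.1.1).mp s.1.2
    let f : S → ↥(Cfsg.GU m F q) := fun s =>
      ⟨unitaryGL φ (s.1.1.1.submatrix Fin.succ Fin.succ)
          (unitary_sub φ m _ (hSunit s) (hScol s)),
        (gu_mem_iff φ hφ _ _).mpr (unitary_sub φ m _ (hSunit s) (hScol s))⟩
    have hf : Function.Bijective f := by
      constructor
      · intro s s' hss
        have h1 : s.1.1.1.submatrix Fin.succ Fin.succ =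
            s'.1.1.1.submatrix Fin.succ Fin.succ := by
          have := congrArg (fun g : ↥(Cfsg.GU m F q) => (g.1.1 : Matrix (Fin m) (Fin m) F)) hss
          exact this
        apply Subtype.ext
        apply Subtype.ext
        apply Units.ext
        ext i j
        refine Fin.cases ?_ (fun i' => ?_) i
        · rw [unitary_row_zero φ m _ (hSunit s) (hScol s) j,
            unitary_row_zero φ m _ (hSunit s') (hScol s') j]
        · refine Fin.cases ?_ (fun j' => ?_) j
          · rw [hScol s, hScol s']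
          · exact congrFun (congrFun h1 i') j'
      · intro g'
        have hg' : (g'.1.1)ᵀ * (g'.1.1).map φ = 1 := (gu_mem_iff φ hφ _ g'.1).mp g'.2
        have hB := blockOne_unitary φ m g'.1.1 hg'
        refine ⟨⟨⟨unitaryGL φ (blockOne m g'.1.1) hB, (gu_mem_iff φ hφ _ _).mpr hB⟩, ?_⟩, ?_⟩
        · show blockOne m g'.1.1 *ᵥ e₀ = e₀
          rw [he₀, Matrix.mulVec_single_one]
          funext i
          refine Fin.cases ?_ (fun i' => ?_) i
          · show blockOne m g'.1.1 0 0 = _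
            rw [blockOne_zero_zero]
            simp
          · show blockOne m g'.1.1 i'.succ 0 = _
            rw [blockOne_succ_zero]
            simp
        · apply Subtype.ext
          apply Units.ext
          ext i j
          rfl
    exact Nat.card_congr (Equiv.ofBijective f hf)
  simp only [hfib]
  rw [Finset.sum_const, Finset.card_univ, smul_eq_mul, ← Nat.card_eq_fintype_card,
    (herm_count hF (m + 1)).2 1 one_ne_zero (one_pow q)]

theorem gu_card (hF : Fintype.card F = q ^ 2) (n : ℕ) :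
    Nat.card (Cfsg.GU n F q) = q ^ (n * (n - 1) / 2) *
      ∏ i ∈ Finset.range n, (if Even i then q ^ (i + 1) + 1 else q ^ (i + 1) - 1) := by
  have hq := card_sq_two_le hF
  induction n with
  | zero =>
    haveI : Subsingleton (GL (Fin 0) F) := ⟨fun a b => Units.ext (Subsingleton.elim _ _)⟩
    simp only [Nat.zero_mul, Nat.zero_div, pow_zero, Finset.range_zero, Finset.prod_empty,
      mul_one]
    exact Nat.card_eq_one_iff_unique.mpr ⟨inferInstance, ⟨1⟩⟩
  | succ m ih =>
    rw [gu_card_succ hF m, ih, hermZU_snd q hq (m + 1), Finset.prod_range_succ]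
    simp only [Nat.add_sub_cancel]
    have hexp : (m + 1) * m / 2 = m * (m - 1) / 2 + m := by
      rcases m with _ | k
      · simp
      · have h1 : (k + 1 + 1) * (k + 1) = (k + 1) * k + (k + 1) * 2 := by ring
        rw [h1, Nat.add_mul_div_right _ _ (by norm_num : 0 < 2)]
        simp
    rw [hexp, pow_add]
    by_cases hm : Even m
    · rw [if_neg (by rw [Nat.even_add_one]; exact not_not.mpr hm), if_pos hm]
      ring
    · rw [if_pos (by rw [Nat.even_add_one]; exact hm), if_neg hm]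
      ring

end card

end Cfsg.Agent.Lib.Helper4
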