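import Mathlib
import Cfsg.Prelude.Def_LieClassical
import Cfsg.Agent.Lib.Helper4.GUOrder

set_option autoImplicit false

namespace Cfsg.Agent.Lib.Helper4

open Matrix

section

variable {F : Type*} [Field F] [Fintype F] {q : ℕ}

theorem norm_ker_card (hF : Fintype.card F = q ^ 2) :
    Nat.card (powMonoidHom (q + 1) : Fˣ →* Fˣ).ker = q + 1 := by
  have hq := card_sq_two_le hF
  have hcard : Nat.card Fˣ = q ^ 2 - 1 := by
    rw [Nat.card_units, Nat.card_eq_fintype_card, hF]
  rw [IsCyclic.card_powMonoidHom_ker, hcard, sq_sub_one_fac hq]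
  exact Nat.gcd_eq_right (Dvd.intro_left _ rfl)

theorem gu_det_pow (hF : Fintype.card F = q ^ 2) (n : ℕ) (g : GL (Fin n) F)
    (hg : g ∈ Cfsg.GU n F q) : (Matrix.GeneralLinearGroup.det g) ^ (q + 1) = 1 := by
  obtain ⟨φ, hφ⟩ := exists_frobQ hF
  have h := (gu_mem_iff φ hφ n g).mp hg
  have h2 := congrArg Matrix.det h
  rw [Matrix.det_mul, Matrix.det_transpose, Matrix.det_one] at h2
  have h3 : (g.1.map φ).det = φ g.1.det := (RingHom.map_det φ g.1).symm
  rw [h3, hφ] at h2
  apply Units.ext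
  simp only [Units.val_pow_eq_pow_val, Units.val_one]
  rw [Matrix.GeneralLinearGroup.val_det_apply, pow_succ']
  exact h2

/-- `(q + 1) * |SU_n(q)| = |GU_n(q)|` for `n ≥ 1`. -/
theorem su_card_mul (hF : Fintype.card F = q ^ 2) (n : ℕ) (hn : 1 ≤ n) :
    (q + 1) * Nat.card (Cfsg.SU n F q) = Nat.card (Cfsg.GU n F q) := by
  classical
  obtain ⟨φ, hφ⟩ := exists_frobQ hF
  obtain ⟨D, hD⟩ : ∃ D : ↥(Cfsg.GU n F q) →* Fˣ,
      D = Matrix.GeneralLinearGroup.det.comp (Subgroup.subtype _) := ⟨_, rfl⟩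
  have hDapp : ∀ g : ↥(Cfsg.GU n F q), ((D g : Fˣ) : F) = (g.1.1 : Matrix (Fin n) (Fin n) F).det := by
    intro g
    rw [hD]
    exact Matrix.GeneralLinearGroup.val_det_apply g.1
  have hrange : D.range = (powMonoidHom (q + 1) : Fˣ →* Fˣ).ker := by
    ext a
    constructor
    · rintro ⟨g, rfl⟩
      rw [MonoidHom.mem_ker, powMonoidHom_apply, hD]
      exact gu_det_pow hF n g.1 g.2
    · intro ha
      rw [MonoidHom.mem_ker, powMonoidHom_apply] at ha
      have ha' : (a : F) ^ (q + 1) = 1 := by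
        have := congrArg (fun u : Fˣ => (u : F)) ha
        simpa using this
      obtain ⟨i₀, hi₀⟩ : ∃ i₀ : Fin n, i₀ = ⟨0, hn⟩ := ⟨_, rfl⟩
      obtain ⟨d, hd⟩ : ∃ d : Fin n → F, d = fun i => if i = i₀ then (a : F) else 1 := ⟨_, rfl⟩
      have hd1 : ∀ i, d i ^ (q + 1) = 1 := by
        intro i
        rw [hd]
        dsimp only
        split_ifs
        · exact ha'
        · exact one_pow _
      have hG : (Matrix.diagonal d)ᵀ * (Matrix.diagonal d).map φ = 1 := by
        rw [Matrix.diagonal_transpose, Matrix.diagonal_map (map_zero φ),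
          Matrix.diagonal_mul_diagonal, ← Matrix.diagonal_one]
        congr 1
        funext i
        rw [hφ, ← pow_succ']
        exact hd1 i
      refine ⟨⟨unitaryGL φ (Matrix.diagonal d) hG, (gu_mem_iff φ hφ n _).mpr hG⟩, ?_⟩
      apply Units.ext
      rw [hDapp]
      show (Matrix.diagonal d).det = a
      rw [Matrix.det_diagonal, Finset.prod_eq_single i₀ (fun b _ hb => by rw [hd]; simp [hb])
        (fun h => absurd (Finset.mem_univ _) h), hd]
      simp
  have hker : Nat.card D.ker = Nat.card (Cfsg.SU n F q) := by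
    symm
    refine Nat.card_congr (Equiv.ofBijective (fun s : Cfsg.SU n F q =>
      (⟨⟨Matrix.SpecialLinearGroup.toGL s.1, s.2⟩, ?_⟩ : D.ker)) ⟨?_, ?_⟩)
    · rw [MonoidHom.mem_ker]
      apply Units.ext
      rw [hDapp]
      exact s.1.2
    · intro s s' hss
      have h1 := congrArg (fun g : D.ker => (g.1.1.1 : Matrix (Fin n) (Fin n) F)) hss
      apply Subtype.ext
      apply Subtype.ext
      exact h1
    · intro g
      have hdet : (g.1.1.1 : Matrix (Fin n) (Fin n) F).det = 1 := by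
        have h1 := g.2
        rw [MonoidHom.mem_ker] at h1
        have h2 := congrArg (fun u : Fˣ => (u : F)) h1
        simp only [Units.val_one] at h2
        rw [hDapp] at h2
        exact h2
      have hmem : (⟨g.1.1.1, hdet⟩ : Matrix.SpecialLinearGroup (Fin n) F) ∈ Cfsg.SU n F q :=
        g.1.2
      refine ⟨⟨⟨g.1.1.1, hdet⟩, hmem⟩, ?_⟩
      apply Subtype.ext
      apply Subtype.ext
      apply Units.ext
      rfl
  rw [← Subgroup.card_mul_index D.ker, Subgroup.index_ker, hrange, norm_ker_card hF, hker, mul_comm]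

end

end Cfsg.Agent.Lib.Helper4
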