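import Mathlib
import Cfsg.Prelude.Def_LieClassical
import Cfsg.Agent.Lib.Helper4.SUOrder

set_option autoImplicit false

namespace Cfsg.Agent.Lib.Helper4

open Matrix

theorem neg_one_pow_q_succ {F : Type*} [Field F] [Fintype F] {q : ℕ}
    (hF : Fintype.card F = q ^ 2) : (-1 : F) ^ (q + 1) = 1 := by
  obtain ⟨φ, hφ⟩ := exists_frobQ hF
  rw [pow_succ, ← hφ, map_neg, map_one]
  ring

/-- Signed transposition matrices lie in `SU_n`. -/
theorem su_signed_swap_mem {F : Type*} [Field F] [Fintype F] {q : ℕ}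
    (hF : Fintype.card F = q ^ 2) (n : ℕ) (i j : Fin n) (hij : i ≠ j) :
    ∃ g : Matrix.SpecialLinearGroup (Fin n) F, g ∈ Cfsg.SU n F q ∧
      g.1 = Equiv.Perm.permMatrix F (Equiv.swap i j) *
        Matrix.diagonal (fun k => if k = i then (-1 : F) else 1) := by
  classical
  obtain ⟨d, hd⟩ : ∃ d : Fin n → F, d = fun k => if k = i then (-1 : F) else 1 := ⟨_, rfl⟩
  have hd1 : ∀ k, d k ^ (q + 1) = 1 := by
    intro k
    rw [hd]
    dsimp only
    split_ifs
    · exact neg_one_pow_q_succ hF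
    · exact one_pow _
  have hdet : (Equiv.Perm.permMatrix F (Equiv.swap i j) * Matrix.diagonal d).det = 1 := by
    rw [Matrix.det_mul, Matrix.det_permutation, Equiv.Perm.sign_swap hij, Matrix.det_diagonal,
      Finset.prod_eq_single i (fun b _ hb => by rw [hd]; simp [hb])
        (fun h => absurd (Finset.mem_univ _) h), hd]
    simp
  rw [← hd]
  refine ⟨⟨_, hdet⟩, ?_, rfl⟩
  refine (su_mem_iff n q _).mpr (fun u v => ?_)
  show Cfsg.hermForm n F q ((Equiv.Perm.permMatrix F (Equiv.swap i j) * Matrix.diagonal d) *ᵥ u)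
    ((Equiv.Perm.permMatrix F (Equiv.swap i j) * Matrix.diagonal d) *ᵥ v) = _
  rw [← Matrix.mulVec_mulVec, ← Matrix.mulVec_mulVec, Matrix.permMatrix_mulVec,
    Matrix.permMatrix_mulVec]
  unfold Cfsg.hermForm
  refine (Equiv.sum_comp (Equiv.swap i j)
    (fun k => (Matrix.diagonal d *ᵥ u) k * (Matrix.diagonal d *ᵥ v) k ^ q)).trans ?_
  refine Finset.sum_congr rfl (fun k _ => ?_)
  rw [Matrix.mulVec_diagonal, Matrix.mulVec_diagonal, mul_pow]
  have h1 := hd1 k
  rw [pow_succ] at h1
  linear_combination (u k * v k ^ q) * h1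

/-- Central elements of `SU_n`, `n ≥ 2`, are scalar matrices. -/
theorem su_center_scalar2 {F : Type*} [Field F] [Fintype F] {q : ℕ}
    (hF : Fintype.card F = q ^ 2) (n : ℕ) (hn : 2 ≤ n) (z : Cfsg.SU n F q)
    (hz : z ∈ Subgroup.center (Cfsg.SU n F q)) (i₀ : Fin n) :
    (z.1.1 : Matrix (Fin n) (Fin n) F) = (z.1.1 i₀ i₀) • (1 : Matrix (Fin n) (Fin n) F) := by
  classical
  obtain ⟨a, ha1, ha2⟩ := exists_norm_one_sq_ne hF
  have ha0 : a ≠ 0 := by
    rintro rfl
    rw [zero_pow (by omega)] at ha1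
    exact zero_ne_one ha1
  have hcomm : ∀ g : Matrix.SpecialLinearGroup (Fin n) F, g ∈ Cfsg.SU n F q →
      g.1 * z.1.1 = z.1.1 * g.1 := by
    intro g hg
    have h1 := Subgroup.mem_center_iff.mp hz ⟨g, hg⟩
    have h2 := congrArg (fun x : Cfsg.SU n F q => (x.1.1 : Matrix (Fin n) (Fin n) F)) h1
    exact h2
  -- off-diagonal entries vanish
  have hoff : ∀ k l : Fin n, k ≠ l → z.1.1 k l = 0 := by
    intro k l hkl
    obtain ⟨d, hd⟩ : ∃ d : Fin n → F, d = fun i => if i = k then a else if i = l then a⁻¹ else 1 :=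
      ⟨_, rfl⟩
    have hdk : d k = a := by rw [hd]; simp
    have hdl : d l = a⁻¹ := by rw [hd]; simp [hkl.symm]
    have hd1 : ∀ i, d i ^ (q + 1) = 1 := by
      intro i
      rw [hd]
      dsimp only
      split_ifs
      · exact ha1
      · rw [inv_pow, ha1, inv_one]
      · exact one_pow _
    have hdet : ∏ i, d i = 1 := by
      rw [Finset.prod_eq_mul k l hkl (fun c _ hc => by rw [hd]; simp [hc.1, hc.2])
        (fun h => absurd (Finset.mem_univ _) h) (fun h => absurd (Finset.mem_univ _) h), hdk, hdl,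
        mul_inv_cancel₀ ha0]
    obtain ⟨g, hg, hgd⟩ := su_diag_mem n q d hd1 hdet
    have h1 := hcomm g hg
    rw [hgd] at h1
    have h2 := congrFun (congrFun h1 k) l
    rw [Matrix.diagonal_mul, Matrix.mul_diagonal, hdk, hdl] at h2
    have h3 : z.1.1 k l * (a - a⁻¹) = 0 := by linear_combination h2
    rcases mul_eq_zero.mp h3 with h | h
    · exact h
    · exfalso
      apply ha2
      have : a = a⁻¹ := sub_eq_zero.mp h
      rw [pow_two]
      nth_rewrite 2 [this]
      exact mul_inv_cancel₀ ha0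
  -- diagonal entries agree
  have hdiag : ∀ i j : Fin n, i ≠ j → z.1.1 i i = z.1.1 j j := by
    intro i j hij
    obtain ⟨g, hg, hgp⟩ := su_signed_swap_mem hF n i j hij
    have h1 := hcomm g hg
    have h2 := congrFun (congrFun h1 i) j
    rw [Matrix.mul_apply, Matrix.mul_apply,
      Finset.sum_eq_single j (fun b _ hb => by rw [hoff b j hb, mul_zero])
        (fun h => absurd (Finset.mem_univ _) h),
      Finset.sum_eq_single i (fun b _ hb => by rw [hoff i b (Ne.symm hb), zero_mul])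
        (fun h => absurd (Finset.mem_univ _) h)] at h2
    have h3 : g.1 i j = 1 := by
      rw [hgp, Matrix.mul_diagonal, if_neg (Ne.symm hij), mul_one]
      show (Equiv.swap i j).toPEquiv.toMatrix i j = 1
      rw [PEquiv.toMatrix_toPEquiv_apply, Equiv.swap_apply_left, Pi.single_eq_same]
    rw [h3, one_mul, mul_one] at h2
    exact h2.symm
  ext x y
  by_cases hxy : x = y
  · subst hxy
    by_cases hx : x = i₀
    · subst hx; simp
    · simp [hdiag x i₀ hx]
  · simp [hoff x y hxy, hxy]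

theorem su_center_card2 {F : Type*} [Field F] [Fintype F] {q : ℕ} (hF : Fintype.card F = q ^ 2)
    (n : ℕ) (hn : 2 ≤ n) :
    Nat.card (Subgroup.center (Cfsg.SU n F q)) = Nat.gcd n (q + 1) := by
  classical
  have hq := card_sq_two_le hF
  obtain ⟨i₀, hi₀⟩ : ∃ i₀ : Fin n, i₀ = ⟨0, by omega⟩ := ⟨_, rfl⟩
  have hprop : ∀ z : Subgroup.center (Cfsg.SU n F q),
      (z.1.1.1 i₀ i₀ : F) ^ n = 1 ∧ (z.1.1.1 i₀ i₀ : F) ^ (q + 1) = 1 := by
    intro z
    have h1 := su_center_scalar2 hF n hn z.1 z.2 i₀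
    constructor
    · have h2 : (z.1.1.1 : Matrix (Fin n) (Fin n) F).det = 1 := z.1.1.2
      rw [h1, Matrix.det_smul, Matrix.det_one, mul_one, Fintype.card_fin] at h2
      exact h2
    · have h3 := (su_mem_iff n q z.1.1).mp z.1.2 (Pi.single i₀ 1) (Pi.single i₀ 1)
      rw [h1] at h3
      unfold Cfsg.hermForm at h3
      simp only [Matrix.smul_mulVec, Matrix.one_mulVec] at h3
      rw [Finset.sum_eq_single i₀ (fun b _ hb => by simp [hb]) (fun h => absurd (Finset.mem_univ _) h),
        Finset.sum_eq_single i₀ (fun b _ hb => by simp [hb]) (fun h => absurd (Finset.mem_univ _) h)]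
        at h3
      simp only [Pi.smul_apply, Pi.single_eq_same, smul_eq_mul, mul_one, one_pow] at h3
      rw [pow_succ, mul_comm]
      exact h3
  let f : Subgroup.center (Cfsg.SU n F q) → {c : F // c ^ n = 1 ∧ c ^ (q + 1) = 1} :=
    fun z => ⟨z.1.1.1 i₀ i₀, hprop z⟩
  have hf : Function.Bijective f := by
    constructor
    · intro z z' hzz
      have h1 := su_center_scalar2 hF n hn z.1 z.2 i₀
      have h2 := su_center_scalar2 hF n hn z'.1 z'.2 i₀
      have h3 : (z.1.1.1 i₀ i₀ : F) = z'.1.1.1 i₀ i₀ := congrArg Subtype.val hzz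
      apply Subtype.ext
      apply Subtype.ext
      apply Subtype.ext
      rw [h1, h2, h3]
    · rintro ⟨c, hc1, hc2⟩
      obtain ⟨g, hg, hgd⟩ := su_diag_mem n q (fun _ => c) (fun _ => hc2)
        (by rw [Finset.prod_const, Finset.card_univ, Fintype.card_fin]; exact hc1)
      have hcen : (⟨g, hg⟩ : Cfsg.SU n F q) ∈ Subgroup.center (Cfsg.SU n F q) := by
        rw [Subgroup.mem_center_iff]
        intro h
        apply Subtype.ext
        apply Subtype.ext
        show h.1.1 * g.1 = g.1 * h.1.1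
        rw [hgd]
        ext x y
        rw [Matrix.mul_diagonal, Matrix.diagonal_mul, mul_comm]
      refine ⟨⟨⟨g, hg⟩, hcen⟩, ?_⟩
      apply Subtype.ext
      show g.1 i₀ i₀ = c
      rw [hgd, Matrix.diagonal_apply_eq]
  rw [Nat.card_congr (Equiv.ofBijective f hf)]
  have hfac : q ^ 2 - 1 = (q - 1) * (q + 1) := by
    obtain ⟨k, rfl⟩ : ∃ k, q = k + 1 := ⟨q - 1, by omega⟩
    simp only [Nat.add_sub_cancel]
    have : (k + 1) ^ 2 = k * (k + 1 + 1) + 1 := by ring
    rw [this, Nat.add_sub_cancel]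
  have hd : Nat.gcd n (q + 1) ∣ q ^ 2 - 1 := by
    rw [hfac]
    exact dvd_trans (Nat.gcd_dvd_right n (q + 1)) (Dvd.intro_left _ rfl)
  let e : {c : F // c ^ n = 1 ∧ c ^ (q + 1) = 1} ≃
      (powMonoidHom (Nat.gcd n (q + 1)) : Fˣ →* Fˣ).ker :=
    { toFun := fun c => ⟨Units.mk0 c.1 (by
          intro h
          have h1 := c.2.1
          rw [h, zero_pow (by omega)] at h1
          exact zero_ne_one h1), by
        rw [MonoidHom.mem_ker, powMonoidHom_apply]
        apply Units.ext
        simp only [Units.val_pow_eq_pow_val, Units.val_mk0, Units.val_one]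
        exact pow_gcd_eq_one.mpr c.2⟩
      invFun := fun u => ⟨((u.1 : Fˣ) : F), by
        have h := u.2
        rw [MonoidHom.mem_ker, powMonoidHom_apply] at h
        have h2 : ((u.1 : Fˣ) : F) ^ (Nat.gcd n (q + 1)) = 1 := by
          have := congrArg (fun x : Fˣ => (x : F)) h
          simpa using this
        exact pow_gcd_eq_one.mp h2⟩
      left_inv := fun c => Subtype.ext rfl
      right_inv := fun u => Subtype.ext (Units.ext rfl) }
  rw [Nat.card_congr e, IsCyclic.card_powMonoidHom_ker, Nat.card_units, Nat.card_eq_fintype_card, hF]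
  exact Nat.gcd_eq_right hd

end Cfsg.Agent.Lib.Helper4
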