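import Mathlib
import Cfsg.Prelude.Def_LieClassical
import Cfsg.Agent.Lib.Helper4.SUCenter2

set_option autoImplicit false

namespace Cfsg.Agent.Lib.Helper4

open Matrix

theorem matrix_scalar_of_comm_su {F : Type*} [Field F] [Fintype F] {q : ℕ}
    (hF : Fintype.card F = q ^ 2) (n : ℕ) (Z : Matrix (Fin n) (Fin n) F)
    (hcomm : ∀ g : Matrix.SpecialLinearGroup (Fin n) F, g ∈ Cfsg.SU n F q →
      g.1 * Z = Z * g.1) (i₀ : Fin n) :
    Z = (Z i₀ i₀) • (1 : Matrix (Fin n) (Fin n) F) := by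
  classical
  obtain ⟨a, ha1, ha2⟩ := exists_norm_one_sq_ne hF
  have ha0 : a ≠ 0 := by
    rintro rfl
    rw [zero_pow (by omega)] at ha1
    exact zero_ne_one ha1
  -- off-diagonal entries vanish
  have hoff : ∀ k l : Fin n, k ≠ l → Z k l = 0 := by
    intro k l hkl
    obtain ⟨d, hd⟩ : ∃ d : Fin n → F, d = fun i => if i = k then a else if i = l then a⁻¹ else 1 :=
      ⟨_, rfl⟩
    have hdk : d k = a := by rw [hd]; simp
    have hdl : d l = a⁻¹ := by rw [hd]; simp [hkl.symm]
    have hd1 : ∀ i, d i ^ (q + 1) = 1 := by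
      intro i
      rw [hd]
      dsimp only
      split_ifs
      · exact ha1
      · rw [inv_pow, ha1, inv_one]
      · exact one_pow _
    have hdet : ∏ i, d i = 1 := by
      rw [Finset.prod_eq_mul k l hkl (fun c _ hc => by rw [hd]; simp [hc.1, hc.2])
        (fun h => absurd (Finset.mem_univ _) h) (fun h => absurd (Finset.mem_univ _) h), hdk, hdl,
        mul_inv_cancel₀ ha0]
    obtain ⟨g, hg, hgd⟩ := su_diag_mem n q d hd1 hdet
    have h1 := hcomm g hg
    rw [hgd] at h1
    have h2 := congrFun (congrFun h1 k) l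
    rw [Matrix.diagonal_mul, Matrix.mul_diagonal, hdk, hdl] at h2
    have h3 : Z k l * (a - a⁻¹) = 0 := by linear_combination h2
    rcases mul_eq_zero.mp h3 with h | h
    · exact h
    · exfalso
      apply ha2
      have : a = a⁻¹ := sub_eq_zero.mp h
      rw [pow_two]
      nth_rewrite 2 [this]
      exact mul_inv_cancel₀ ha0
  -- diagonal entries agree
  have hdiag : ∀ i j : Fin n, i ≠ j → Z i i = Z j j := by
    intro i j hij
    obtain ⟨g, hg, hgp⟩ := su_signed_swap_mem hF n i j hij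
    have h1 := hcomm g hg
    have h2 := congrFun (congrFun h1 i) j
    rw [Matrix.mul_apply, Matrix.mul_apply,
      Finset.sum_eq_single j (fun b _ hb => by rw [hoff b j hb, mul_zero])
        (fun h => absurd (Finset.mem_univ _) h),
      Finset.sum_eq_single i (fun b _ hb => by rw [hoff i b (Ne.symm hb), zero_mul])
        (fun h => absurd (Finset.mem_univ _) h)] at h2
    have h3 : g.1 i j = 1 := by
      rw [hgp, Matrix.mul_diagonal, if_neg (Ne.symm hij), mul_one]
      show (Equiv.swap i j).toPEquiv.toMatrix i j = 1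
      rw [PEquiv.toMatrix_toPEquiv_apply, Equiv.swap_apply_left, Pi.single_eq_same]
    rw [h3, one_mul, mul_one] at h2
    exact h2.symm
  ext x y
  by_cases hxy : x = y
  · subst hxy
    by_cases hx : x = i₀
    · subst hx; simp
    · simp [hdiag x i₀ hx]
  · simp [hoff x y hxy, hxy]


theorem exists_surj_zmod {C : Type*} [Group C] [IsCyclic C] (d : ℕ) (hd : d ∣ Nat.card C) :
    ∃ θ : C →* Multiplicative (ZMod d), Function.Surjective θ := by
  obtain ⟨e⟩ : Nonempty (Multiplicative (ZMod (Nat.card C)) ≃* C) :=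
    ⟨zmodCyclicMulEquiv inferInstance⟩
  refine ⟨(AddMonoidHom.toMultiplicative (ZMod.castHom hd (ZMod d)).toAddMonoidHom).comp
    e.symm.toMonoidHom, ?_⟩
  intro x
  obtain ⟨y, hy⟩ := ZMod.ringHom_surjective (ZMod.castHom hd (ZMod d)) (Multiplicative.toAdd x)
  refine ⟨e (Multiplicative.ofAdd y), ?_⟩
  simp only [MonoidHom.coe_comp, MulEquiv.coe_toMonoidHom, Function.comp_apply,
    MulEquiv.symm_apply_apply]
  exact congrArg Multiplicative.ofAdd hy

theorem ker_eq_pow_range {C : Type*} [CommGroup C] [Finite C] [IsCyclic C] (n d : ℕ)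
    (hd : d = Nat.gcd n (Nat.card C)) (θ : C →* Multiplicative (ZMod d))
    (hθ : Function.Surjective θ) :
    θ.ker = (powMonoidHom n : C →* C).range := by
  have hdn : d ∣ n := hd ▸ Nat.gcd_dvd_left _ _
  have hd0 : 0 < d := by
    rw [hd]; exact Nat.gcd_pos_of_pos_right _ Nat.card_pos
  symm
  apply Subgroup.eq_of_le_of_card_ge
  · rintro _ ⟨c, rfl⟩
    rw [MonoidHom.mem_ker, powMonoidHom_apply, map_pow]
    apply Multiplicative.toAdd.injective
    rw [toAdd_pow, toAdd_one, nsmul_eq_mul, (ZMod.natCast_eq_zero_iff n d).mpr hdn, zero_mul]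
  · have h1 := Subgroup.card_mul_index θ.ker
    rw [Subgroup.index_ker, MonoidHom.range_eq_top.mpr hθ, Subgroup.card_top] at h1
    have h2 : Nat.card (Multiplicative (ZMod d)) = d := by
      rw [Nat.card_congr Multiplicative.toAdd, Nat.card_zmod]
    rw [h2] at h1
    rw [IsCyclic.card_powMonoidHom_range, Nat.gcd_comm, ← hd, ← h1, Nat.mul_div_cancel _ hd0]

theorem gu_det_surj {F : Type*} [Field F] [Fintype F] {q : ℕ} (hF : Fintype.card F = q ^ 2)
    (n : ℕ) (hn : 1 ≤ n) (a : Fˣ) (ha : a ^ (q + 1) = 1) :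
    ∃ g : GL (Fin n) F, g ∈ Cfsg.GU n F q ∧ Matrix.GeneralLinearGroup.det g = a := by
  classical
  obtain ⟨φ, hφ⟩ := exists_frobQ hF
  have ha' : (a : F) ^ (q + 1) = 1 := by
    have := congrArg (fun u : Fˣ => (u : F)) ha
    simpa using this
  obtain ⟨i₀, hi₀⟩ : ∃ i₀ : Fin n, i₀ = ⟨0, hn⟩ := ⟨_, rfl⟩
  obtain ⟨d, hd⟩ : ∃ d : Fin n → F, d = fun i => if i = i₀ then (a : F) else 1 := ⟨_, rfl⟩
  have hd1 : ∀ i, d i ^ (q + 1) = 1 := by
    intro i
    rw [hd]
    dsimp only
    split_ifs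
    · exact ha'
    · exact one_pow _
  have hG : (Matrix.diagonal d)ᵀ * (Matrix.diagonal d).map φ = 1 := by
    rw [Matrix.diagonal_transpose, Matrix.diagonal_map (map_zero φ),
      Matrix.diagonal_mul_diagonal, ← Matrix.diagonal_one]
    congr 1
    funext i
    rw [hφ, ← pow_succ']
    exact hd1 i
  refine ⟨unitaryGL φ (Matrix.diagonal d) hG, (gu_mem_iff φ hφ n _).mpr hG, ?_⟩
  apply Units.ext
  rw [Matrix.GeneralLinearGroup.val_det_apply]
  show (Matrix.diagonal d).det = a
  rw [Matrix.det_diagonal, Finset.prod_eq_single i₀ (fun b _ hb => by rw [hd]; simp [hb])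
    (fun h => absurd (Finset.mem_univ _) h), hd]
  simp

theorem gu_scalar {F : Type*} [Field F] [Fintype F] {q : ℕ} (hF : Fintype.card F = q ^ 2)
    (n : ℕ) (c : F) (hc : c ^ (q + 1) = 1) :
    ∃ s : GL (Fin n) F, s ∈ Cfsg.GU n F q ∧ s.1 = Matrix.diagonal (fun _ => c) := by
  classical
  obtain ⟨φ, hφ⟩ := exists_frobQ hF
  have hG : (Matrix.diagonal (fun _ : Fin n => c))ᵀ * (Matrix.diagonal (fun _ : Fin n => c)).map φ
      = 1 := by
    rw [Matrix.diagonal_transpose, Matrix.diagonal_map (map_zero φ),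
      Matrix.diagonal_mul_diagonal, ← Matrix.diagonal_one]
    congr 1
    funext i
    rw [hφ, ← pow_succ']
    exact hc
  exact ⟨unitaryGL φ _ hG, (gu_mem_iff φ hφ n _).mpr hG, rfl⟩

theorem gu_quot_cyclic {F : Type*} [Field F] [Fintype F] {q : ℕ} (hF : Fintype.card F = q ^ 2)
    (n : ℕ) (hn : 2 ≤ n) :
    ∃ φ : ↥(Cfsg.GU n F q) →* Multiplicative (ZMod (Nat.gcd n (q + 1))), Function.Surjective φ ∧
      φ.ker = (Matrix.GeneralLinearGroup.det :
        Matrix.GeneralLinearGroup (Fin n) F →* Fˣ).ker.subgroupOf (Cfsg.GU n F q) ⊔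
          Subgroup.center ↥(Cfsg.GU n F q) := by
  classical
  obtain ⟨φq, hφq⟩ := exists_frobQ hF
  obtain ⟨μ, hμ⟩ : ∃ μ : Subgroup Fˣ, μ = (powMonoidHom (q + 1) : Fˣ →* Fˣ).ker := ⟨_, rfl⟩
  have hμcard : Nat.card μ = q + 1 := by rw [hμ]; exact norm_ker_card hF
  have hμmem : ∀ a : Fˣ, a ∈ μ ↔ a ^ (q + 1) = 1 := by
    intro a; rw [hμ, MonoidHom.mem_ker, powMonoidHom_apply]
  obtain ⟨D, hD⟩ : ∃ D : ↥(Cfsg.GU n F q) →* ↥μ,
      ∀ g, ((D g : ↥μ) : Fˣ) = Matrix.GeneralLinearGroup.det g.1 :=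
    ⟨(Matrix.GeneralLinearGroup.det.comp (Subgroup.subtype _)).codRestrict μ
      (fun g => (hμmem _).mpr (gu_det_pow hF n g.1 g.2)), fun g => rfl⟩
  have hDsurj : Function.Surjective D := by
    intro a
    obtain ⟨g, hg, hga⟩ := gu_det_surj hF n (by omega) a.1 ((hμmem _).mp a.2)
    refine ⟨⟨g, hg⟩, ?_⟩
    apply Subtype.ext
    rw [hD]
    exact hga
  obtain ⟨θ, hθ⟩ := exists_surj_zmod (C := ↥μ) (Nat.gcd n (q + 1))
    (by rw [hμcard]; exact Nat.gcd_dvd_right _ _)
  have hker := ker_eq_pow_range (C := ↥μ) n (Nat.gcd n (q + 1)) (by rw [hμcard]) θ hθ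
  refine ⟨θ.comp D, hθ.comp hDsurj, ?_⟩
  apply le_antisymm
  · intro g hg
    have hg' : D g ∈ θ.ker := hg
    rw [hker] at hg'
    obtain ⟨c, hc⟩ := hg'
    rw [powMonoidHom_apply] at hc
    have hc1 : ((c : Fˣ) : F) ^ (q + 1) = 1 := by
      have h1 := (hμmem _).mp c.2
      have h2 := congrArg (fun u : Fˣ => (u : F)) h1
      simpa using h2
    obtain ⟨s, hs, hsv⟩ := gu_scalar hF n ((c : Fˣ) : F) hc1
    have hscen : (⟨s, hs⟩ : ↥(Cfsg.GU n F q)) ∈ Subgroup.center ↥(Cfsg.GU n F q) := by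
      rw [Subgroup.mem_center_iff]
      intro h
      apply Subtype.ext
      apply Units.ext
      show h.1.1 * s.1 = s.1 * h.1.1
      rw [hsv]
      ext x y
      rw [Matrix.mul_diagonal, Matrix.diagonal_mul, mul_comm]
    have hsdet : Matrix.GeneralLinearGroup.det s = (c : Fˣ) ^ n := by
      apply Units.ext
      rw [Matrix.GeneralLinearGroup.val_det_apply, hsv, Matrix.det_diagonal, Finset.prod_const,
        Finset.card_univ, Fintype.card_fin]
      simp
    have hgs : g * (⟨s, hs⟩ : ↥(Cfsg.GU n F q))⁻¹ ∈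
        (Matrix.GeneralLinearGroup.det :
          Matrix.GeneralLinearGroup (Fin n) F →* Fˣ).ker.subgroupOf (Cfsg.GU n F q) := by
      rw [Subgroup.mem_subgroupOf, MonoidHom.mem_ker]
      show Matrix.GeneralLinearGroup.det (g.1 * s⁻¹) = 1
      rw [map_mul, map_inv, hsdet, ← hD g, ← hc]
      simp
    have h5 := Subgroup.mul_mem_sup hgs hscen
    rwa [inv_mul_cancel_right] at h5
  · apply sup_le
    · intro g hg
      rw [Subgroup.mem_subgroupOf, MonoidHom.mem_ker] at hg
      rw [MonoidHom.mem_ker, MonoidHom.comp_apply]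
      have h1 : D g = 1 := by
        apply Subtype.ext
        rw [hD]
        exact hg
      rw [h1, map_one]
    · intro z hz
      obtain ⟨i₀, -⟩ : ∃ i₀ : Fin n, i₀ = ⟨0, by omega⟩ := ⟨_, rfl⟩
      have hcomm : ∀ g : Matrix.SpecialLinearGroup (Fin n) F, g ∈ Cfsg.SU n F q →
          g.1 * z.1.1 = z.1.1 * g.1 := by
        intro g hg
        have h1 := Subgroup.mem_center_iff.mp hz ⟨Matrix.SpecialLinearGroup.toGL g, hg⟩
        have h2 := congrArg (fun x : ↥(Cfsg.GU n F q) => (x.1.1 : Matrix (Fin n) (Fin n) F)) h1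
        exact h2
      have hZ := matrix_scalar_of_comm_su hF n z.1.1 hcomm i₀
      obtain ⟨c, hc⟩ : ∃ c : F, c = z.1.1 i₀ i₀ := ⟨_, rfl⟩
      rw [← hc] at hZ
      have hcn : c ^ (q + 1) = 1 := by
        have h3 := (gu_mem_iff φq hφq n z.1).mp z.2
        have h4 := congrFun (congrFun h3 i₀) i₀
        rw [Matrix.mul_apply, Finset.sum_eq_single i₀ (fun b _ hb => by
          rw [Matrix.transpose_apply, hZ]; simp [hb])
          (fun h => absurd (Finset.mem_univ _) h)] at h4
        rw [Matrix.transpose_apply, Matrix.map_apply, ← hc, hφq, Matrix.one_apply_eq] at h4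
        rw [pow_succ']; exact h4
      have hc0 : c ≠ 0 := by
        rintro rfl
        rw [zero_pow (by omega)] at hcn
        exact zero_ne_one hcn
      have hu : Units.mk0 c hc0 ∈ μ := by
        rw [hμmem]
        apply Units.ext
        simpa using hcn
      have h6 : D z ∈ θ.ker := by
        rw [hker]
        refine ⟨⟨Units.mk0 c hc0, hu⟩, ?_⟩
        rw [powMonoidHom_apply]
        apply Subtype.ext
        rw [hD]
        apply Units.ext
        rw [Matrix.GeneralLinearGroup.val_det_apply, hZ, Matrix.det_smul, Matrix.det_one, mul_one,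
          Fintype.card_fin]
        simp
      exact h6

end Cfsg.Agent.Lib.Helper4
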