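import Mathlib
import Cfsg.Agent.Lib.Helper4.FieldAutGL
import Cfsg.Agent.Lib.Helper4.HermCount

set_option autoImplicit false

namespace Cfsg.Agent.Lib.Helper4

section

variable {F : Type*} [Field F]

/-- An involutive non-identity automorphism of a finite field is `x ↦ x ^ q` with `|F| = q ^ 2`. -/
theorem involution_eq_frob [Fintype F] (σ : F →+* F) (hσ : σ ≠ RingHom.id F)
    (hσ2 : ∀ a : F, σ (σ a) = a) :
    ∃ q : ℕ, Fintype.card F = q ^ 2 ∧ ∀ a, σ a = a ^ q := by
  classical
  obtain ⟨σe, hσe⟩ : ∃ σe : F ≃+* F, ∀ a, σe a = σ a :=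
    ⟨RingEquiv.ofBijective σ (Function.Involutive.bijective hσ2), fun a => rfl⟩
  have hne : σe ≠ 1 := by
    intro h
    apply hσ
    ext a
    rw [← hσe, h]
    rfl
  have hsq : σe ^ 2 = 1 := by
    ext a
    rw [sq]
    show σe (σe a) = a
    rw [hσe, hσe, hσ2]
  have hord : orderOf σe = 2 := orderOf_eq_prime hsq hne
  have hcard : Nat.card (Subgroup.zpowers (σe : RingAut F)) = 2 := by
    rw [Nat.card_zpowers, hord]
  haveI : Finite (Subgroup.zpowers (σe : RingAut F)) := Nat.finite_of_card_ne_zero (by omega)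
  haveI : Fintype (Subgroup.zpowers (σe : RingAut F)) := Fintype.ofFinite _
  have h1 := FixedPoints.finrank_eq_card (Subgroup.zpowers (σe : RingAut F)) F
  rw [← Nat.card_eq_fintype_card, hcard] at h1
  haveI : Fintype (FixedPoints.subfield (Subgroup.zpowers (σe : RingAut F)) F) := Fintype.ofFinite _
  refine ⟨Fintype.card (FixedPoints.subfield (Subgroup.zpowers (σe : RingAut F)) F), ?_, ?_⟩
  · rw [Module.card_eq_pow_finrank
      (K := FixedPoints.subfield (Subgroup.zpowers (σe : RingAut F)) F) (V := F), h1]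
  · have hcomm : ∀ r : FixedPoints.subfield (Subgroup.zpowers (σe : RingAut F)) F,
        σ (algebraMap (FixedPoints.subfield (Subgroup.zpowers (σe : RingAut F)) F) F r) =
          algebraMap (FixedPoints.subfield (Subgroup.zpowers (σe : RingAut F)) F) F r := by
      intro r
      have := (mem_fixed_zpowers σe r.1).mp r.2
      rw [hσe] at this
      exact this
    let σ' : F →ₐ[FixedPoints.subfield (Subgroup.zpowers (σe : RingAut F)) F] F :=
      { σ with commutes' := hcomm }
    obtain ⟨⟨n, hn⟩, hσn⟩ := (FiniteField.bijective_frobeniusAlgHom_pow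
      (FixedPoints.subfield (Subgroup.zpowers (σe : RingAut F)) F) F).2 σ'
    rw [h1] at hn
    simp only at hσn
    intro a
    have h2 : σ a = σ' a := rfl
    rw [h2, ← hσn]
    interval_cases n
    · exfalso
      apply hσ
      ext x
      have h3 : σ x = σ' x := rfl
      rw [h3, ← hσn, pow_zero]
      rfl
    · rw [pow_one]
      rfl

theorem involution_norm_surj [Finite F] (σ : F →+* F) (hσ : σ ≠ RingHom.id F)
    (hσ2 : ∀ a : F, σ (σ a) = a) (t : F) (ht0 : t ≠ 0) (ht : σ t = t) : ∃ a : F, σ a * a = t := by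
  haveI := Fintype.ofFinite F
  obtain ⟨q, hF, hq⟩ := involution_eq_frob σ hσ hσ2
  obtain ⟨a, ha⟩ := exists_norm_eq hF t ht0 (by rw [← hq]; exact ht)
  exact ⟨a, by rw [hq, ← pow_succ]; exact ha⟩

variable {V : Type*} [AddCommGroup V] [Module F V]

theorem herm_exists_aniso (σ : F →+* F) (hσ : σ ≠ RingHom.id F)
    (B : V →ₛₗ[σ] V →ₗ[F] F) (hS : B.IsSymm) (W : Submodule F V)
    (u w : V) (hu : u ∈ W) (hw : w ∈ W) (huw : B u w ≠ 0) : ∃ v ∈ W, B v v ≠ 0 := by
  by_contra hcon
  push Not at hcon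
  have h1 : ∀ c : F, c * B u w + σ (c * B u w) = 0 := by
    intro c
    have h2 := hcon (u + c • w) (W.add_mem hu (W.smul_mem c hw))
    have h3 := hcon u hu
    have h4 := hcon w hw
    simp only [map_add, LinearMap.add_apply, map_smul, map_smulₛₗ, LinearMap.smul_apply,
      smul_eq_mul, h3, h4] at h2
    rw [map_mul, hS.eq u w]
    linear_combination h2
  have h5 : ∀ x : F, x + σ x = 0 := by
    intro x
    have := h1 (x / B u w)
    rwa [div_mul_cancel₀ x huw] at this
  have h6 : (1 : F) + 1 = 0 := by simpa using h5 1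
  apply hσ
  ext x
  have h7 := h5 x
  rw [RingHom.id_apply]
  linear_combination h7 - x * h6

theorem herm_orthonormal_extend [Finite F] [FiniteDimensional F V]
    (σ : F →+* F) (hσ : σ ≠ RingHom.id F) (hσ2 : ∀ a : F, σ (σ a) = a)
    (B : V →ₛₗ[σ] V →ₗ[F] F) (hS : B.IsSymm) (hB : B.Nondegenerate)
    (k : ℕ) (b : Fin k → V) (hb : ∀ i j, B (b i) (b j) = if i = j then 1 else 0)
    (hk : k < Module.finrank F V) :
    ∃ v : V, (∀ i, B (b i) v = 0) ∧ B v v = 1 := by
  classical
  obtain ⟨W, hW⟩ : ∃ W : Submodule F V, ∀ v, v ∈ W ↔ ∀ i, B (b i) v = 0 :=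
    ⟨{ carrier := {v | ∀ i, B (b i) v = 0}
       add_mem' := fun {x y} hx hy i => by rw [map_add, hx i, hy i, add_zero]
       zero_mem' := fun i => map_zero _
       smul_mem' := fun c x hx i => by rw [map_smul, hx i, smul_zero] }, fun v => Iff.rfl⟩
  have hproj : ∀ x : V, x - ∑ i, B (b i) x • b i ∈ W := by
    intro x
    rw [hW]
    intro j
    rw [map_sub, map_sum]
    simp only [map_smul, smul_eq_mul, hb, mul_ite, mul_one, mul_zero, Finset.sum_ite_eq,
      Finset.mem_univ, if_true]
    exact sub_self _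
  have hsymm0 : ∀ w ∈ W, ∀ i, B w (b i) = 0 := by
    intro w hw i
    rw [← hS.eq (b i) w, (hW w).mp hw i, map_zero]
  obtain ⟨x, hx⟩ : ∃ x : V, x ∉ Submodule.span F (Set.range b) := by
    by_contra hcon
    push Not at hcon
    have htop : Submodule.span F (Set.range b) = ⊤ := (Submodule.eq_top_iff').mpr hcon
    have h1 := finrank_range_le_card (R := F) b
    rw [Set.finrank, htop, finrank_top, Fintype.card_fin] at h1
    omega
  have hx' : x - ∑ i, B (b i) x • b i ≠ 0 := by
    intro h
    apply hx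
    rw [sub_eq_zero.mp h]
    exact Submodule.sum_mem _ (fun i _ => Submodule.smul_mem _ _ (Submodule.subset_span ⟨i, rfl⟩))
  obtain ⟨y, hy⟩ : ∃ y, B (x - ∑ i, B (b i) x • b i) y ≠ 0 := by
    by_contra hcon
    push Not at hcon
    exact hx' (hB.1 _ hcon)
  have hxy : B (x - ∑ i, B (b i) x • b i) (y - ∑ i, B (b i) y • b i) ≠ 0 := by
    rw [map_sub, map_sum]
    simp only [map_smul, smul_eq_mul, hsymm0 _ (hproj x), mul_zero, Finset.sum_const_zero, sub_zero]
    exact hy
  obtain ⟨v, hvW, hv⟩ := herm_exists_aniso σ hσ B hS W _ _ (hproj x) (hproj y) hxy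
  have ht : σ (B v v) = B v v := hS.eq v v
  obtain ⟨a, ha⟩ := involution_norm_surj σ hσ hσ2 (B v v)⁻¹ (inv_ne_zero hv)
    (by rw [map_inv₀, ht])
  refine ⟨a • v, fun i => ?_, ?_⟩
  · rw [map_smul, (hW v).mp hvW i, smul_zero]
  · have e1 : B (a • v) = σ a • B v := map_smulₛₗ B a v
    rw [e1, LinearMap.smul_apply, map_smul, smul_eq_mul, smul_eq_mul, ← mul_assoc, ha,
      inv_mul_cancel₀ hv]

theorem herm_orthonormal_family [Finite F] [FiniteDimensional F V]
    (σ : F →+* F) (hσ : σ ≠ RingHom.id F) (hσ2 : ∀ a : F, σ (σ a) = a)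
    (B : V →ₛₗ[σ] V →ₗ[F] F) (hS : B.IsSymm) (hB : B.Nondegenerate)
    (k : ℕ) (hk : k ≤ Module.finrank F V) :
    ∃ b : Fin k → V, ∀ i j, B (b i) (b j) = if i = j then 1 else 0 := by
  classical
  induction k with
  | zero => exact ⟨Fin.elim0, fun i => i.elim0⟩
  | succ k ih =>
    obtain ⟨b, hb⟩ := ih (by omega)
    obtain ⟨v, hv0, hv1⟩ := herm_orthonormal_extend σ hσ hσ2 B hS hB k b hb (by omega)
    refine ⟨Fin.snoc (α := fun _ => V) b v, ?_⟩
    intro i j
    induction i using Fin.lastCases with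
    | last =>
      induction j using Fin.lastCases with
      | last => rw [Fin.snoc_last, if_pos rfl]; exact hv1
      | cast j =>
        rw [Fin.snoc_last, Fin.snoc_castSucc, if_neg (Fin.castSucc_lt_last j).ne',
          ← hS.eq (b j) v, hv0 j, map_zero]
    | cast i =>
      induction j using Fin.lastCases with
      | last =>
        rw [Fin.snoc_last, Fin.snoc_castSucc, if_neg (Fin.castSucc_lt_last i).ne]
        exact hv0 i
      | cast j =>
        rw [Fin.snoc_castSucc, Fin.snoc_castSucc, hb i j]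
        simp only [Fin.castSucc_inj]

theorem herm_onb [Finite F] [FiniteDimensional F V]
    (σ : F →+* F) (hσ : σ ≠ RingHom.id F) (hσ2 : ∀ a : F, σ (σ a) = a)
    (B : V →ₛₗ[σ] V →ₗ[F] F) (hS : B.IsSymm) (hB : B.Nondegenerate) :
    ∃ b : Module.Basis (Fin (Module.finrank F V)) F V,
      ∀ i j, B (b i) (b j) = if i = j then 1 else 0 := by
  classical
  obtain ⟨b, hb⟩ := herm_orthonormal_family σ hσ hσ2 B hS hB (Module.finrank F V) le_rfl
  have hli : LinearIndependent F b := by
    rw [Fintype.linearIndependent_iff]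
    intro c hc j
    have h1 := congrArg (B (b j)) hc
    rw [map_sum, map_zero] at h1
    simp only [map_smul, smul_eq_mul, hb, mul_ite, mul_one, mul_zero, Finset.sum_ite_eq,
      Finset.mem_univ, if_true] at h1
    exact h1
  refine ⟨basisOfLinearIndependentOfCardEqFinrank' b hli (Fintype.card_fin _), ?_⟩
  intro i j
  rw [coe_basisOfLinearIndependentOfCardEqFinrank']
  exact hb i j

end

end Cfsg.Agent.Lib.Helper4
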