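import Mathlib
import Cfsg.Prelude.Def_ClassicalGeometry
import Cfsg.Prelude.Def_LieClassical
import Cfsg.Agent.Lib.Helper4.BlockDecomp
import Cfsg.Agent.Lib.Helper4.HermForm
import Cfsg.Agent.Lib.Helper4.HermONB
import Cfsg.Agent.Lib.Helper4.GUOrder

set_option autoImplicit false

namespace Cfsg.Agent.Lib.Helper4

open Matrix

section

variable {F : Type*} [Field F] [Fintype F] {q : ℕ}

theorem herm_extend_family (hF : Fintype.card F = q ^ 2) (n k : ℕ) (b : Fin k → Fin n → F)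
    (hb : ∀ i j, Cfsg.hermForm n F q (b i) (b j) = if i = j then 1 else 0) :
    ∀ j, k + j ≤ n → ∃ w : Fin (k + j) → Fin n → F,
      (∀ i i', Cfsg.hermForm n F q (w i) (w i') = if i = i' then 1 else 0) ∧
        ∀ i : Fin k, w (Fin.castAdd j i) = b i := by
  have hq := card_sq_two_le hF
  intro j
  induction j with
  | zero =>
    intro _
    exact ⟨b, hb, fun i => rfl⟩
  | succ j ih =>
    intro hj
    obtain ⟨w, hw, hw0⟩ := ih (by omega)
    obtain ⟨u, hu1, hu2⟩ := herm_extend_step hF n (k + j) (by omega) w hw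
    refine ⟨Fin.snoc w u, ?_, ?_⟩
    · intro i i'
      refine Fin.lastCases ?_ (fun i₁ => ?_) i <;> refine Fin.lastCases ?_ (fun i₂ => ?_) i'
      · simp [hu1]
      · rw [Fin.snoc_last, Fin.snoc_castSucc, hu2 i₂, if_neg]
        exact (Fin.castSucc_lt_last i₂).ne'
      · rw [Fin.snoc_last, Fin.snoc_castSucc, herm_symm hF n u (w i₁), hu2 i₁,
          zero_pow (by omega), if_neg]
        exact (Fin.castSucc_lt_last i₁).ne
      · rw [Fin.snoc_castSucc, Fin.snoc_castSucc, hw]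
        simp [Fin.castSucc_inj]
    · intro i
      have h0 : (Fin.castAdd (j + 1) i : Fin (k + (j + 1))) =
          Fin.castSucc (Fin.castAdd j i) := rfl
      rw [h0, Fin.snoc_castSucc, hw0]

theorem herm_sub_onb (hF : Fintype.card F = q ^ 2) (n : ℕ) (W : Submodule F (Fin n → F))
    (hW : ∀ u ∈ W, (∀ v ∈ W, Cfsg.hermForm n F q u v = 0) → u = 0) :
    ∃ b : Module.Basis (Fin (Module.finrank F W)) F W,
      ∀ i j, Cfsg.hermForm n F q (b i : Fin n → F) (b j : Fin n → F) =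
        if i = j then 1 else 0 := by
  classical
  have hq := card_sq_two_le hF
  obtain ⟨φ, hφ⟩ := exists_frobQ hF
  have hφ2 : ∀ a : F, φ (φ a) = a := fun a => by rw [hφ, hφ, pow_card_sq hF]
  have hφne : φ ≠ RingHom.id F := by
    obtain ⟨c, hc⟩ := exists_not_fixed hF
    intro h
    apply hc
    rw [← hφ, h]
    rfl
  obtain ⟨B, hBdef⟩ : ∃ B : W →ₛₗ[φ] W →ₗ[F] F,
      ∀ x y : W, B x y = Cfsg.hermForm n F q y.1 x.1 := by
    refine ⟨LinearMap.mk₂'ₛₗ φ (RingHom.id F)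
      (fun x y : W => Cfsg.hermForm n F q y.1 x.1) ?_ ?_ ?_ ?_, fun x y => rfl⟩
    · intro x x' y
      exact herm_add_right φ hφ n y.1 x.1 x'.1
    · intro c x y
      show Cfsg.hermForm n F q y.1 (c • x.1) = φ c • Cfsg.hermForm n F q y.1 x.1
      rw [herm_smul_right, hφ, smul_eq_mul]
    · intro x y y'
      exact herm_add_left n y.1 y'.1 x.1
    · intro c x y
      show Cfsg.hermForm n F q (c • y.1) x.1 = c • Cfsg.hermForm n F q y.1 x.1
      rw [herm_smul_left, smul_eq_mul]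
  have hS : B.IsSymm := by
    refine ⟨fun x y => ?_⟩
    rw [hBdef, hBdef, hφ, ← herm_symm hF]
  have hB : B.Nondegenerate := by
    constructor
    · intro x hx
      apply Subtype.ext
      apply hW x.1 x.2
      intro v hv
      have h1 := hx ⟨v, hv⟩
      rw [hBdef] at h1
      rw [herm_symm hF n v x.1, h1, zero_pow (by omega)]
    · intro y hy
      apply Subtype.ext
      apply hW y.1 y.2
      intro v hv
      have h1 := hy ⟨v, hv⟩
      rw [hBdef] at h1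
      exact h1
  obtain ⟨b, hb⟩ := herm_onb φ hφne hφ2 B hS hB
  refine ⟨b, fun i j => ?_⟩
  have h1 := hb j i
  rw [hBdef] at h1
  rw [h1]
  by_cases hij : i = j
  · rw [if_pos hij, if_pos hij.symm]
  · rw [if_neg hij, if_neg (Ne.symm hij)]

set_option maxHeartbeats 1600000 in
theorem gu_stab_nondeg_iso (hF : Fintype.card F = q ^ 2) (n k : ℕ) (hk : k ≤ n)
    (W : Submodule F (Fin n → F)) (hWk : Module.finrank F W = k)
    (hW : ∀ u ∈ W, (∀ v ∈ W, Cfsg.hermForm n F q u v = 0) → u = 0) :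
    Nonempty (↥((Cfsg.stabilizing (Cfsg.glToMat (Fin n) F)
        (W : Set (Fin n → F))).subgroupOf (Cfsg.GU n F q)) ≃*
      ↥(Cfsg.GU k F q) × ↥(Cfsg.GU (n - k) F q)) := by
  classical
  obtain ⟨φ, hφ⟩ := exists_frobQ hF
  obtain ⟨b, hb⟩ : ∃ b : Module.Basis (Fin k) F W,
      ∀ i j, Cfsg.hermForm n F q (b i : Fin n → F) (b j : Fin n → F) =
        if i = j then 1 else 0 := by
    obtain ⟨b₀, hb₀⟩ := herm_sub_onb hF n W hW
    refine ⟨b₀.reindex (finCongr hWk), fun i j => ?_⟩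
    rw [Module.Basis.reindex_apply, Module.Basis.reindex_apply, hb₀]
    simp
  obtain ⟨w, hw, hwb⟩ := herm_extend_family hF n k (fun i => (b i : Fin n → F)) hb (n - k)
    (by omega)
  obtain ⟨P₁, hP₁⟩ : ∃ P₁ : Matrix (Fin n) (Fin k) F,
      P₁ = Matrix.of (fun a j => w (Fin.castAdd (n - k) j) a) := ⟨_, rfl⟩
  obtain ⟨P₂, hP₂⟩ : ∃ P₂ : Matrix (Fin n) (Fin (n - k)) F,
      P₂ = Matrix.of (fun a j => w (Fin.natAdd k j) a) := ⟨_, rfl⟩
  have hcol1 : ∀ j, (fun a => P₁ a j) = w (Fin.castAdd (n - k) j) := by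
    intro j; rw [hP₁]; rfl
  have hcol1' : ∀ j, (fun a => P₁ a j) = (b j : Fin n → F) := by
    intro j; rw [hcol1, hwb]
  have hcol2 : ∀ j, (fun a => P₂ a j) = w (Fin.natAdd k j) := by
    intro j; rw [hP₂]; rfl
  have hgram : ∀ {ι ι' : Type} (P : Matrix (Fin n) ι F) (P' : Matrix (Fin n) ι' F) (i : ι)
      (j : ι'), (Pᵀ * P'.map φ) i j =
        Cfsg.hermForm n F q (fun a => P a i) (fun a => P' a j) := by
    intro ι ι' P P' i j
    unfold Cfsg.hermForm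
    rw [Matrix.mul_apply]
    refine Finset.sum_congr rfl (fun a _ => ?_)
    rw [Matrix.transpose_apply, Matrix.map_apply, hφ]
  have hR1 : P₁ᵀ * P₁.map φ = 1 := by
    ext i j
    rw [hgram, hcol1, hcol1, hw, Matrix.one_apply]
    simp [Fin.castAdd_inj]
  have hR2 : P₂ᵀ * P₂.map φ = 1 := by
    ext i j
    rw [hgram, hcol2, hcol2, hw, Matrix.one_apply]
    simp [Fin.natAdd_inj]
  have hne : ∀ (i : Fin k) (j : Fin (n - k)), Fin.castAdd (n - k) i ≠ Fin.natAdd k j := by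
    intro i j h
    have h1 := congrArg Fin.val h
    simp at h1
    omega
  have hR3 : P₁ᵀ * P₂.map φ = 0 := by
    ext i j
    rw [hgram, hcol1, hcol2, hw, if_neg (hne i j)]
    rfl
  have hR4 : P₂ᵀ * P₁.map φ = 0 := by
    ext i j
    rw [hgram, hcol2, hcol1, hw, if_neg (Ne.symm (hne j i))]
    rfl
  obtain ⟨Q₁, hQ₁⟩ : ∃ Q₁ : Matrix (Fin k) (Fin n) F, Q₁ = (P₁.map φ)ᵀ := ⟨_, rfl⟩
  obtain ⟨Q₂, hQ₂⟩ : ∃ Q₂ : Matrix (Fin (n - k)) (Fin n) F, Q₂ = (P₂.map φ)ᵀ := ⟨_, rfl⟩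
  have h11 : Q₁ * P₁ = 1 := by
    have h := congrArg Matrix.transpose hR1
    rw [Matrix.transpose_mul, Matrix.transpose_transpose, Matrix.transpose_one] at h
    rw [hQ₁]; exact h
  have h12 : Q₁ * P₂ = 0 := by
    have h := congrArg Matrix.transpose hR4
    rw [Matrix.transpose_mul, Matrix.transpose_transpose, Matrix.transpose_zero] at h
    rw [hQ₁]; exact h
  have h21 : Q₂ * P₁ = 0 := by
    have h := congrArg Matrix.transpose hR3
    rw [Matrix.transpose_mul, Matrix.transpose_transpose, Matrix.transpose_zero] at h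
    rw [hQ₂]; exact h
  have h22 : Q₂ * P₂ = 1 := by
    have h := congrArg Matrix.transpose hR2
    rw [Matrix.transpose_mul, Matrix.transpose_transpose, Matrix.transpose_one] at h
    rw [hQ₂]; exact h
  have e : Fin n ≃ Fin k ⊕ Fin (n - k) := Fintype.equivOfCardEq (by simp; omega)
  have hsum := block_sum_one e P₁ P₂ Q₁ Q₂ h11 h12 h21 h22
  have hPc : ∀ c : Fin k → F, P₁ *ᵥ c = ((∑ j, c j • b j : W) : Fin n → F) := by
    intro c
    ext a
    rw [Submodule.coe_sum]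
    simp only [Matrix.mulVec, dotProduct, Finset.sum_apply, Submodule.coe_smul, Pi.smul_apply,
      smul_eq_mul]
    refine Finset.sum_congr rfl (fun j _ => ?_)
    rw [mul_comm]
    congr 1
    exact congrFun (hcol1' j) a
  have hWiff : ∀ v : Fin n → F, v ∈ W ↔ Q₂ *ᵥ v = 0 := by
    intro v
    constructor
    · intro hv
      have h1 : v = P₁ *ᵥ (fun j => b.repr ⟨v, hv⟩ j) := by
        rw [hPc, b.sum_repr]
      rw [h1, Matrix.mulVec_mulVec, h21, Matrix.zero_mulVec]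
    · intro hv
      have h1 : v = P₁ *ᵥ (Q₁ *ᵥ v) := by
        have h2 := congrArg (fun M => M *ᵥ v) hsum
        simp only [Matrix.add_mulVec, Matrix.one_mulVec, ← Matrix.mulVec_mulVec, hv,
          Matrix.mulVec_zero, add_zero] at h2
        exact h2.symm
      rw [h1, hPc]
      exact Submodule.coe_mem _
  have hstab : ∀ A : ↥(Cfsg.GU n F q),
      A ∈ (Cfsg.stabilizing (Cfsg.glToMat (Fin n) F) (W : Set (Fin n → F))).subgroupOf
        (Cfsg.GU n F q) ↔ ∀ v : Fin n → F, v ∈ W ↔ A.1.1 *ᵥ v ∈ W := fun A => Iff.rfl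
  have hU : ∀ A : ↥(Cfsg.GU n F q), A.1.1ᵀ * A.1.1.map φ = 1 :=
    fun A => (gu_mem_iff φ hφ n A.1).mp A.2
  have hS1 : ∀ A ∈ (Cfsg.stabilizing (Cfsg.glToMat (Fin n) F)
      (W : Set (Fin n → F))).subgroupOf (Cfsg.GU n F q), Q₂ * A.1.1 * P₁ = 0 := by
    intro A hA
    ext i j
    have h1 : (Q₂ * A.1.1 * P₁) i j = ((Q₂ * A.1.1) *ᵥ (fun a => P₁ a j)) i := rfl
    have h2 : Q₂ *ᵥ (A.1.1 *ᵥ (b j : Fin n → F)) = 0 :=
      (hWiff _).mp (((hstab A).mp hA _).mp (b j).2)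
    rw [h1, hcol1', ← Matrix.mulVec_mulVec, h2]
    rfl
  have hAP : ∀ A ∈ (Cfsg.stabilizing (Cfsg.glToMat (Fin n) F)
      (W : Set (Fin n → F))).subgroupOf (Cfsg.GU n F q),
      A.1.1 * P₁ = P₁ * (Q₁ * A.1.1 * P₁) := by
    intro A hA
    calc A.1.1 * P₁ = (P₁ * Q₁ + P₂ * Q₂) * (A.1.1 * P₁) := by rw [hsum, Matrix.one_mul]
      _ = P₁ * (Q₁ * A.1.1 * P₁) + P₂ * (Q₂ * A.1.1 * P₁) := by
          simp only [Matrix.add_mul, Matrix.mul_assoc]
      _ = _ := by rw [hS1 A hA, Matrix.mul_zero, add_zero]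
  have hinvM : ∀ A : ↥(Cfsg.GU n F q), A.1.1 = ((A⁻¹).1.1.map φ)ᵀ := by
    intro A
    have h1 := congrArg Matrix.transpose (hU A⁻¹)
    rw [Matrix.transpose_mul, Matrix.transpose_transpose, Matrix.transpose_one] at h1
    have h2 : (A⁻¹).1.1 * A.1.1 = 1 := by
      have h3 := congrArg (fun g : ↥(Cfsg.GU n F q) => g.1.1) (inv_mul_cancel A)
      exact h3
    calc A.1.1 = (((A⁻¹).1.1.map φ)ᵀ * (A⁻¹).1.1) * A.1.1 := by rw [h1, Matrix.one_mul]
      _ = ((A⁻¹).1.1.map φ)ᵀ * ((A⁻¹).1.1 * A.1.1) := by rw [Matrix.mul_assoc]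
      _ = _ := by rw [h2, Matrix.mul_one]
  have hS2 : ∀ A ∈ (Cfsg.stabilizing (Cfsg.glToMat (Fin n) F)
      (W : Set (Fin n → F))).subgroupOf (Cfsg.GU n F q), Q₁ * A.1.1 * P₂ = 0 := by
    intro A hA
    have hA' := inv_mem hA
    have h1 := hAP A⁻¹ hA'
    have e1 : Q₁ * A.1.1 = (((A⁻¹).1.1 * P₁).map φ)ᵀ := by
      rw [Matrix.map_mul, Matrix.transpose_mul, ← hinvM A, hQ₁]
    rw [e1, h1, Matrix.map_mul, Matrix.transpose_mul, Matrix.mul_assoc, ← hQ₁, h12,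
      Matrix.mul_zero]
  have hAP2 : ∀ A ∈ (Cfsg.stabilizing (Cfsg.glToMat (Fin n) F)
      (W : Set (Fin n → F))).subgroupOf (Cfsg.GU n F q),
      A.1.1 * P₂ = P₂ * (Q₂ * A.1.1 * P₂) := by
    intro A hA
    calc A.1.1 * P₂ = (P₁ * Q₁ + P₂ * Q₂) * (A.1.1 * P₂) := by rw [hsum, Matrix.one_mul]
      _ = P₁ * (Q₁ * A.1.1 * P₂) + P₂ * (Q₂ * A.1.1 * P₂) := by
          simp only [Matrix.add_mul, Matrix.mul_assoc]
      _ = _ := by rw [hS2 A hA, Matrix.mul_zero, zero_add]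
  have hC1 : ∀ A ∈ (Cfsg.stabilizing (Cfsg.glToMat (Fin n) F)
      (W : Set (Fin n → F))).subgroupOf (Cfsg.GU n F q),
      (Q₁ * A.1.1 * P₁)ᵀ * (Q₁ * A.1.1 * P₁).map φ = 1 := by
    intro A hA
    have h2 := hAP A hA
    obtain ⟨C, hC⟩ : ∃ C : Matrix (Fin k) (Fin k) F, C = Q₁ * A.1.1 * P₁ := ⟨_, rfl⟩
    rw [← hC] at h2 ⊢
    calc Cᵀ * C.map φ = (P₁ * C)ᵀ * (P₁ * C).map φ := by
          rw [Matrix.transpose_mul, Matrix.map_mul, Matrix.mul_assoc, ← Matrix.mul_assoc P₁ᵀ,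
            hR1, Matrix.one_mul]
      _ = P₁ᵀ * (A.1.1ᵀ * A.1.1.map φ) * P₁.map φ := by
          rw [← h2, Matrix.transpose_mul, Matrix.map_mul]; simp only [Matrix.mul_assoc]
      _ = 1 := by rw [hU A, Matrix.mul_one, hR1]
  have hC2 : ∀ A ∈ (Cfsg.stabilizing (Cfsg.glToMat (Fin n) F)
      (W : Set (Fin n → F))).subgroupOf (Cfsg.GU n F q),
      (Q₂ * A.1.1 * P₂)ᵀ * (Q₂ * A.1.1 * P₂).map φ = 1 := by
    intro A hA
    have h2 := hAP2 A hA
    obtain ⟨C, hC⟩ : ∃ C : Matrix (Fin (n - k)) (Fin (n - k)) F, C = Q₂ * A.1.1 * P₂ :=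
      ⟨_, rfl⟩
    rw [← hC] at h2 ⊢
    calc Cᵀ * C.map φ = (P₂ * C)ᵀ * (P₂ * C).map φ := by
          rw [Matrix.transpose_mul, Matrix.map_mul, Matrix.mul_assoc, ← Matrix.mul_assoc P₂ᵀ,
            hR2, Matrix.one_mul]
      _ = P₂ᵀ * (A.1.1ᵀ * A.1.1.map φ) * P₂.map φ := by
          rw [← h2, Matrix.transpose_mul, Matrix.map_mul]; simp only [Matrix.mul_assoc]
      _ = 1 := by rw [hU A, Matrix.mul_one, hR2]
  have hR1' : ∀ Z : Matrix (Fin k) (Fin n) F, P₁ᵀ * (P₁.map φ * Z) = Z := by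
    intro Z; rw [← Matrix.mul_assoc, hR1, Matrix.one_mul]
  have hR2' : ∀ Z : Matrix (Fin (n - k)) (Fin n) F, P₂ᵀ * (P₂.map φ * Z) = Z := by
    intro Z; rw [← Matrix.mul_assoc, hR2, Matrix.one_mul]
  have hR3' : ∀ Z : Matrix (Fin (n - k)) (Fin n) F, P₁ᵀ * (P₂.map φ * Z) = 0 := by
    intro Z; rw [← Matrix.mul_assoc, hR3, Matrix.zero_mul]
  have hR4' : ∀ Z : Matrix (Fin k) (Fin n) F, P₂ᵀ * (P₁.map φ * Z) = 0 := by
    intro Z; rw [← Matrix.mul_assoc, hR4, Matrix.zero_mul]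
  have hma : ∀ (X Y : Matrix (Fin n) (Fin n) F), (X + Y).map φ = X.map φ + Y.map φ :=
    fun X Y => Matrix.map_add φ (map_add φ) X Y
  have hgen : ∀ (X₁ Y₁ : Matrix (Fin k) (Fin k) F)
      (X₂ Y₂ : Matrix (Fin (n - k)) (Fin (n - k)) F),
      (P₁ * X₁ * Q₁ + P₂ * X₂ * Q₂)ᵀ * (P₁ * Y₁ * Q₁ + P₂ * Y₂ * Q₂).map φ =
        Q₁ᵀ * (X₁ᵀ * (Y₁.map φ * Q₁.map φ)) + Q₂ᵀ * (X₂ᵀ * (Y₂.map φ * Q₂.map φ)) := by
    intro X₁ Y₁ X₂ Y₂
    simp only [hma, Matrix.map_mul, Matrix.transpose_add, Matrix.transpose_mul, Matrix.add_mul,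
      Matrix.mul_add, Matrix.mul_assoc, hR1', hR2', hR3', hR4', Matrix.mul_zero, add_zero,
      zero_add]
  have hmo : ∀ (l : ℕ), ((1 : Matrix (Fin l) (Fin l) F)).map φ = 1 :=
    fun l => Matrix.map_one φ (map_zero φ) (map_one φ)
  have hI : (1 : Matrix (Fin n) (Fin n) F) = Q₁ᵀ * Q₁.map φ + Q₂ᵀ * Q₂.map φ := by
    have h1 := hgen 1 1 1 1
    rw [Matrix.mul_one, Matrix.mul_one, hsum, Matrix.transpose_one, hmo, Matrix.one_mul,
      Matrix.transpose_one, Matrix.transpose_one, hmo, hmo] at h1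
    simp only [Matrix.one_mul] at h1
    exact h1
  have hβ : ∀ (A₁ : ↥(Cfsg.GU k F q)) (A₂ : ↥(Cfsg.GU (n - k) F q)),
      ∃ h ∈ (Cfsg.stabilizing (Cfsg.glToMat (Fin n) F)
        (W : Set (Fin n → F))).subgroupOf (Cfsg.GU n F q),
        h.1.1 = P₁ * A₁.1.1 * Q₁ + P₂ * A₂.1.1 * Q₂ := by
    intro A₁ A₂
    have hU₁ := (gu_mem_iff φ hφ k A₁.1).mp A₁.2
    have hU₂ := (gu_mem_iff φ hφ (n - k) A₂.1).mp A₂.2
    have hM : (P₁ * A₁.1.1 * Q₁ + P₂ * A₂.1.1 * Q₂)ᵀ *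
        (P₁ * A₁.1.1 * Q₁ + P₂ * A₂.1.1 * Q₂).map φ = 1 := by
      rw [hgen, ← Matrix.mul_assoc A₁.1.1ᵀ, hU₁, Matrix.one_mul, ← Matrix.mul_assoc A₂.1.1ᵀ,
        hU₂, Matrix.one_mul]
      exact hI.symm
    refine ⟨⟨unitaryGL φ _ hM, (gu_mem_iff φ hφ n _).mpr hM⟩, ?_, rfl⟩
    rw [hstab]
    intro v
    show v ∈ W ↔ (P₁ * A₁.1.1 * Q₁ + P₂ * A₂.1.1 * Q₂) *ᵥ v ∈ W
    rw [hWiff, hWiff, Matrix.mulVec_mulVec]
    have e1 : Q₂ * (P₁ * A₁.1.1 * Q₁ + P₂ * A₂.1.1 * Q₂) = A₂.1.1 * Q₂ := by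
      have e2 : Q₂ * (P₁ * A₁.1.1 * Q₁ + P₂ * A₂.1.1 * Q₂) =
          (Q₂ * P₁) * A₁.1.1 * Q₁ + (Q₂ * P₂) * A₂.1.1 * Q₂ := by
        simp only [Matrix.mul_add, Matrix.mul_assoc]
      rw [e2, h21, h22, Matrix.zero_mul, Matrix.zero_mul, Matrix.one_mul, zero_add]
    rw [e1, ← Matrix.mulVec_mulVec]
    constructor
    · intro h; rw [h, Matrix.mulVec_zero]
    · intro h
      have h2 := congrArg Matrix.transpose hU₂
      rw [Matrix.transpose_mul, Matrix.transpose_transpose, Matrix.transpose_one] at h2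
      have h3 : (A₂.1.1.map φ)ᵀ *ᵥ (A₂.1.1 *ᵥ (Q₂ *ᵥ v)) = 0 := by
        rw [h, Matrix.mulVec_zero]
      rw [Matrix.mulVec_mulVec, h2, Matrix.one_mulVec] at h3
      exact h3
  have hinj : ∀ l : ℕ, Function.Injective
      (((Units.coeHom (Matrix (Fin l) (Fin l) F)).comp (Cfsg.GU l F q).subtype) :
        ↥(Cfsg.GU l F q) →* Matrix (Fin l) (Fin l) F) :=
    fun l a b h => Subtype.ext (Units.ext h)
  exact block_decomp_iso P₁ P₂ Q₁ Q₂ h11 h12 h21 h22 hsum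
    ((Units.coeHom (Matrix (Fin n) (Fin n) F)).comp (Cfsg.GU n F q).subtype)
    ((Units.coeHom (Matrix (Fin k) (Fin k) F)).comp (Cfsg.GU k F q).subtype)
    ((Units.coeHom (Matrix (Fin (n - k)) (Fin (n - k)) F)).comp (Cfsg.GU (n - k) F q).subtype)
    (hinj n) (hinj k) (hinj (n - k)) _
    (fun A hA => ⟨hS1 A hA, hS2 A hA,
      ⟨⟨unitaryGL φ _ (hC1 A hA), (gu_mem_iff φ hφ k _).mpr (hC1 A hA)⟩, rfl⟩,
      ⟨⟨unitaryGL φ _ (hC2 A hA), (gu_mem_iff φ hφ (n - k) _).mpr (hC2 A hA)⟩, rfl⟩⟩) hβ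

end

end Cfsg.Agent.Lib.Helper4
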