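import Mathlib

set_option autoImplicit false

namespace Cfsg.Agent.Lib.Helper4

open QuadraticMap

section basic

variable {R M : Type*} [CommRing R] [AddCommGroup M] [Module R M]

theorem quad_add3 (Q : QuadraticForm R M) (a b c : M) :
    Q (a + b + c) = Q a + Q b + Q c + polar Q a b + polar Q a c + polar Q b c := by
  rw [QuadraticMap.map_add (⇑Q) (a + b) c, QuadraticMap.map_add (⇑Q) a b, polar_add_left]
  ring

theorem quad_add2 (Q : QuadraticForm R M) (a b : M) :
    Q (a + b) = Q a + Q b + polar Q a b :=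
  QuadraticMap.map_add (⇑Q) a b

end basic

section CW

variable {F : Type*} [Field F] [Fintype F]

theorem td_CXX (a : F) (i j : Fin 3) :
    (MvPolynomial.C a * MvPolynomial.X i * MvPolynomial.X j :
      MvPolynomial (Fin 3) F).totalDegree ≤ 2 := by
  refine (MvPolynomial.totalDegree_mul _ _).trans ?_
  have h1 := MvPolynomial.totalDegree_mul (MvPolynomial.C a : MvPolynomial (Fin 3) F)
    (MvPolynomial.X i)
  rw [MvPolynomial.totalDegree_C, MvPolynomial.totalDegree_X] at h1
  rw [MvPolynomial.totalDegree_X]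
  omega

/-- Chevalley–Warning for ternary quadratic forms over a finite field. -/
theorem quad_three_isotropic (Q : QuadraticForm F (Fin 3 → F)) :
    ∃ x : Fin 3 → F, x ≠ 0 ∧ Q x = 0 := by
  classical
  set e : Fin 3 → (Fin 3 → F) := fun i => Pi.single i 1 with he
  set f : MvPolynomial (Fin 3) F :=
    MvPolynomial.C (Q (e 0)) * MvPolynomial.X 0 * MvPolynomial.X 0 +
    MvPolynomial.C (Q (e 1)) * MvPolynomial.X 1 * MvPolynomial.X 1 +
    MvPolynomial.C (Q (e 2)) * MvPolynomial.X 2 * MvPolynomial.X 2 +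
    MvPolynomial.C (polar Q (e 0) (e 1)) * MvPolynomial.X 0 * MvPolynomial.X 1 +
    MvPolynomial.C (polar Q (e 0) (e 2)) * MvPolynomial.X 0 * MvPolynomial.X 2 +
    MvPolynomial.C (polar Q (e 1) (e 2)) * MvPolynomial.X 1 * MvPolynomial.X 2 with hf
  have htd : f.totalDegree < Fintype.card (Fin 3) := by
    have h2 : f.totalDegree ≤ 2 := by
      rw [hf]
      refine (MvPolynomial.totalDegree_add _ _).trans (max_le ?_ (td_CXX _ _ _))
      refine (MvPolynomial.totalDegree_add _ _).trans (max_le ?_ (td_CXX _ _ _))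
      refine (MvPolynomial.totalDegree_add _ _).trans (max_le ?_ (td_CXX _ _ _))
      refine (MvPolynomial.totalDegree_add _ _).trans (max_le ?_ (td_CXX _ _ _))
      refine (MvPolynomial.totalDegree_add _ _).trans (max_le (td_CXX _ _ _) (td_CXX _ _ _))
    rw [Fintype.card_fin]
    omega
  have heval : ∀ x : Fin 3 → F, MvPolynomial.eval x f = Q x := by
    intro x
    have hx : x = x 0 • e 0 + x 1 • e 1 + x 2 • e 2 := by
      funext i
      fin_cases i <;> simp [he]
    conv_rhs => rw [hx, quad_add3]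
    simp only [hf, map_add, map_mul, MvPolynomial.eval_C, MvPolynomial.eval_X,
      QuadraticMap.map_smul, polar_smul_left, polar_smul_right, smul_eq_mul]
    ring
  haveI := ringChar.charP F
  have hdvd := char_dvd_card_solutions (ringChar F) htd
  have hp : (ringChar F).Prime := CharP.char_is_prime F (ringChar F)
  have hzero : MvPolynomial.eval (0 : Fin 3 → F) f = 0 := by
    rw [heval, QuadraticMap.map_zero]
  have hpos : 0 < Fintype.card { x : Fin 3 → F // MvPolynomial.eval x f = 0 } :=
    Fintype.card_pos_iff.2 ⟨⟨0, hzero⟩⟩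
  have hge : 1 < Fintype.card { x : Fin 3 → F // MvPolynomial.eval x f = 0 } :=
    lt_of_lt_of_le hp.one_lt (Nat.le_of_dvd hpos hdvd)
  obtain ⟨⟨x, hx⟩, hne⟩ := Fintype.exists_ne_of_one_lt_card hge ⟨0, hzero⟩
  refine ⟨x, fun h => hne (Subtype.ext h), ?_⟩
  rw [← heval]
  exact hx

end CW

section struct

variable {F : Type*} [Field F] {V : Type*} [AddCommGroup V] [Module F V]

theorem exists_isotropic [Fintype F] [FiniteDimensional F V] (Q : QuadraticForm F V)
    (h : 3 ≤ Module.finrank F V) : ∃ v : V, v ≠ 0 ∧ Q v = 0 := by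
  classical
  let b := Module.finBasis F V
  let e : Fin 3 → V := fun i => b (Fin.castLE h i)
  have he : LinearIndependent F e := b.linearIndependent.comp _ (Fin.castLE_injective h)
  obtain ⟨x, hx, hQ⟩ := quad_three_isotropic (Q.comp (Fintype.linearCombination F e))
  refine ⟨Fintype.linearCombination F e x, ?_, hQ⟩
  intro h0
  exact hx (he.fintypeLinearCombination_injective (by rw [h0, map_zero]))

theorem exists_repr_of_anisotropic [Fintype F] (Q : QuadraticForm F V) (u w : V)
    (han : ∀ a b : F, Q (a • u + b • w) = 0 → a = 0 ∧ b = 0) (c : F) :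
    ∃ a b : F, Q (a • u + b • w) = c := by
  classical
  let L : (Fin 3 → F) →ₗ[F] V :=
    (LinearMap.proj 0 : (Fin 3 → F) →ₗ[F] F).smulRight u +
      (LinearMap.proj 1 : (Fin 3 → F) →ₗ[F] F).smulRight w
  obtain ⟨x, hx, hQ⟩ := quad_three_isotropic
    (Q.comp L - c • QuadraticMap.linMulLin (LinearMap.proj 2 : (Fin 3 → F) →ₗ[F] F)
      (LinearMap.proj 2))
  have hQ' : Q (x 0 • u + x 1 • w) = c * (x 2 * x 2) := by
    have h1 : Q (L x) - c * (x 2 * x 2) = 0 := hQ
    have h2 : L x = x 0 • u + x 1 • w := rfl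
    rw [h2] at h1
    exact sub_eq_zero.1 h1
  by_cases h2 : x 2 = 0
  · exfalso
    rw [h2, mul_zero, mul_zero] at hQ'
    obtain ⟨h0, h1⟩ := han _ _ hQ'
    apply hx
    funext i
    fin_cases i
    · exact h0
    · exact h1
    · exact h2
  · refine ⟨(x 2)⁻¹ * x 0, (x 2)⁻¹ * x 1, ?_⟩
    have h3 : ((x 2)⁻¹ * x 0) • u + ((x 2)⁻¹ * x 1) • w = (x 2)⁻¹ • (x 0 • u + x 1 • w) := by
      rw [smul_add, smul_smul, smul_smul]
    rw [h3, QuadraticMap.map_smul, hQ', smul_eq_mul]
    field_simp

theorem exists_hyp_partner (Q : QuadraticForm F V)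
    (hB : (QuadraticMap.polarBilin Q).Nondegenerate)
    (v : V) (hv : v ≠ 0) (hQv : Q v = 0) : ∃ w : V, Q w = 0 ∧ polar Q v w = 1 := by
  obtain ⟨y, hy⟩ : ∃ y, polar Q v y ≠ 0 := by
    by_contra hcon
    push Not at hcon
    exact hv (hB.1 v hcon)
  obtain ⟨w₀, hw₀⟩ : ∃ w₀ : V, w₀ = (polar Q v y)⁻¹ • y := ⟨_, rfl⟩
  have h1 : polar Q v w₀ = 1 := by
    rw [hw₀, polar_smul_right, smul_eq_mul, inv_mul_cancel₀ hy]
  have h1' : polar Q w₀ v = 1 := by rw [polar_comm, h1]
  refine ⟨w₀ - Q w₀ • v, ?_, ?_⟩
  · have h3 : w₀ - Q w₀ • v = w₀ + (-Q w₀) • v := by rw [neg_smul, sub_eq_add_neg]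
    rw [h3, quad_add2, QuadraticMap.map_smul, hQv, polar_smul_right, h1']
    simp
  · rw [polar_sub_right, polar_smul_right, polar_self, hQv, h1]
    simp

theorem hyp_orth_mem (Q : QuadraticForm F V) (v w z : V) :
    z ∈ LinearMap.BilinForm.orthogonal (polarBilin Q) (Submodule.span F (Set.range ![v, w])) ↔
      polar Q v z = 0 ∧ polar Q w z = 0 := by
  rw [LinearMap.BilinForm.mem_orthogonal_iff]
  constructor
  · intro h
    exact ⟨h v (Submodule.subset_span ⟨0, rfl⟩), h w (Submodule.subset_span ⟨1, rfl⟩)⟩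
  · rintro ⟨h1, h2⟩ n hn
    induction hn using Submodule.span_induction with
    | mem x hx =>
      obtain ⟨i, rfl⟩ := hx
      fin_cases i
      · exact h1
      · exact h2
    | zero => exact polar_zero_left Q z
    | add x y _ _ hx hy =>
      show polar Q (x + y) z = 0
      rw [polar_add_left]
      have hx' : polar Q x z = 0 := hx
      have hy' : polar Q y z = 0 := hy
      rw [hx', hy', add_zero]
    | smul a x _ hx =>
      show polar Q (a • x) z = 0
      have hx' : polar Q x z = 0 := hx
      rw [polar_smul_left, hx', smul_zero]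

theorem hyp_split [FiniteDimensional F V] (Q : QuadraticForm F V)
    (hB : (polarBilin Q).Nondegenerate) (v w : V) (hv : Q v = 0) (hw : Q w = 0)
    (hvw : polar Q v w = 1) {k : ℕ} (hV : Module.finrank F V = k + 2) :
    Module.finrank F (LinearMap.BilinForm.orthogonal (polarBilin Q) (Submodule.span F (Set.range ![v, w]))) = k ∧
    (polarBilin (Q.restrict
      (LinearMap.BilinForm.orthogonal (polarBilin Q) (Submodule.span F (Set.range ![v, w]))))).Nondegenerate := by
  have hvv : polar Q v v = 0 := by rw [polar_self, hv, smul_zero]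
  have hww : polar Q w w = 0 := by rw [polar_self, hw, smul_zero]
  have hwv : polar Q w v = 1 := by rw [polar_comm, hvw]
  have hli : LinearIndependent F ![v, w] := by
    rw [LinearIndependent.pair_iff]
    intro s t hst
    have h1 := congrArg (polar Q v) hst
    have h2 := congrArg (polar Q w) hst
    rw [polar_add_right, polar_smul_right, polar_smul_right, hvv, hvw, polar_zero_right] at h1
    rw [polar_add_right, polar_smul_right, polar_smul_right, hww, hwv, polar_zero_right] at h2
    simp only [smul_eq_mul, mul_zero, mul_one, zero_add, add_zero] at h1 h2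
    exact ⟨h2, h1⟩
  have hfr := finrank_span_eq_card hli
  rw [Fintype.card_fin] at hfr
  refine ⟨?_, ?_⟩
  · rw [LinearMap.BilinForm.finrank_orthogonal hB, hfr, hV]
    omega
  · have key : ∀ z : LinearMap.BilinForm.orthogonal (polarBilin Q) (Submodule.span F (Set.range ![v, w])),
        (∀ y : LinearMap.BilinForm.orthogonal (polarBilin Q) (Submodule.span F (Set.range ![v, w])),
          polar Q (z : V) (y : V) = 0) → z = 0 := by
      intro z hz
      apply Subtype.ext
      apply hB.1
      intro u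
      obtain ⟨hz1, hz2⟩ := (hyp_orth_mem Q v w z).1 z.2
      have hu' : u - polar Q w u • v - polar Q v u • w ∈
          LinearMap.BilinForm.orthogonal (polarBilin Q) (Submodule.span F (Set.range ![v, w])) := by
        rw [hyp_orth_mem]
        constructor
        · rw [polar_sub_right, polar_sub_right, polar_smul_right, polar_smul_right, hvv, hvw]
          simp
        · rw [polar_sub_right, polar_sub_right, polar_smul_right, polar_smul_right, hww, hwv]
          simp
      have h3 := hz ⟨_, hu'⟩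
      simp only at h3
      rw [polar_sub_right, polar_sub_right, polar_smul_right, polar_smul_right,
        polar_comm Q (z : V) v, polar_comm Q (z : V) w, hz1, hz2] at h3
      simp only [smul_zero, sub_zero] at h3
      exact h3
    refine ⟨fun z hz => key z hz, ?_⟩
    intro y hy
    apply key y
    intro z
    have := hy z
    rw [polar_comm]
    exact this

/-- A family of hyperbolic pairs. -/
def HypFam (Q : QuadraticForm F V) {k : ℕ} (e f : Fin k → V) : Prop :=
  (∀ i, Q (e i) = 0 ∧ Q (f i) = 0) ∧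
  (∀ i j, polar Q (e i) (f j) = if i = j then 1 else 0) ∧
  (∀ i j, polar Q (e i) (e j) = 0 ∧ polar Q (f i) (f j) = 0)

theorem HypFam.cons (Q : QuadraticForm F V) {k : ℕ} {e f : Fin k → V} (h : HypFam Q e f)
    (v w : V) (hv : Q v = 0) (hw : Q w = 0) (hvw : polar Q v w = 1)
    (horth : ∀ i, polar Q v (e i) = 0 ∧ polar Q w (e i) = 0 ∧ polar Q v (f i) = 0 ∧
      polar Q w (f i) = 0) :
    HypFam Q (Fin.cons v e : Fin (k + 1) → V) (Fin.cons w f : Fin (k + 1) → V) := by
  have hvv : polar Q v v = 0 := by rw [polar_self, hv, smul_zero]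
  have hww : polar Q w w = 0 := by rw [polar_self, hw, smul_zero]
  obtain ⟨h1, h2, h3⟩ := h
  refine ⟨?_, ?_, ?_⟩
  · intro i
    refine Fin.cases ?_ (fun i' => ?_) i
    · exact ⟨hv, hw⟩
    · simp only [Fin.cons_succ]
      exact h1 i'
  · intro i j
    refine Fin.cases ?_ (fun i' => ?_) i <;> refine Fin.cases ?_ (fun j' => ?_) j
    · simp [hvw]
    · simp [(horth j').2.2.1, (Fin.succ_ne_zero j').symm]
    · have h5 : polar Q (e i') w = 0 := by rw [polar_comm]; exact (horth i').2.1
      simp [h5, Fin.succ_ne_zero]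
    · simp [h2 i' j', Fin.succ_inj]
  · intro i j
    refine Fin.cases ?_ (fun i' => ?_) i <;> refine Fin.cases ?_ (fun j' => ?_) j
    · simp only [Fin.cons_zero]
      exact ⟨hvv, hww⟩
    · simp only [Fin.cons_zero, Fin.cons_succ]
      exact ⟨(horth j').1, (horth j').2.2.2⟩
    · simp only [Fin.cons_zero, Fin.cons_succ]
      exact ⟨by rw [polar_comm]; exact (horth i').1, by rw [polar_comm]; exact (horth i').2.2.2⟩
    · simp only [Fin.cons_succ]
      exact h3 i' j'

theorem linearIndependent_of_dual {ι : Type*} [Fintype ι] [DecidableEq ι]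
    (Q : QuadraticForm F V) (g g' : ι → V)
    (h0 : ∀ i j, i ≠ j → polar Q (g' j) (g i) = 0) (h1 : ∀ i, polar Q (g' i) (g i) ≠ 0) :
    LinearIndependent F g := by
  rw [Fintype.linearIndependent_iff]
  intro c hc j
  have h2 := congrArg (polarBilin Q (g' j)) hc
  rw [map_sum, map_zero] at h2
  simp only [map_smul, polarBilin_apply_apply, smul_eq_mul] at h2
  rw [Finset.sum_eq_single j (fun i _ hij => by rw [h0 i j hij, mul_zero]) (by simp)] at h2
  exact (mul_eq_zero.1 h2).resolve_right (h1 j)

end struct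

universe u v

theorem quad_odd_struct (F : Type u) [Field F] [Fintype F] :
    ∀ (m : ℕ) (V : Type v) [AddCommGroup V] [Module F V] [FiniteDimensional F V]
      (Q : QuadraticForm F V), Module.finrank F V = 2 * m + 1 →
      (polarBilin Q).Nondegenerate →
      ∃ (x : V) (e f : Fin m → V), Q x ≠ 0 ∧ polar Q x x ≠ 0 ∧
        (∀ i, polar Q x (e i) = 0 ∧ polar Q x (f i) = 0) ∧ HypFam Q e f := by
  intro m
  induction m with
  | zero =>
    intro V _ _ _ Q hV hB
    have hV1 : Module.finrank F V = 1 := by simpa using hV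
    obtain ⟨x, hx⟩ : ∃ x : V, x ≠ 0 := by
      have : 0 < Module.finrank F V := by omega
      exact Module.finrank_pos_iff_exists_ne_zero.1 this
    have hxx : polar Q x x ≠ 0 := by
      intro h
      apply hx
      apply hB.1
      intro y
      obtain ⟨c, rfl⟩ := exists_smul_eq_of_finrank_eq_one hV1 hx y
      show polar Q x (c • x) = 0
      rw [polar_smul_right, h, smul_zero]
    refine ⟨x, Fin.elim0, Fin.elim0, ?_, hxx, fun i => i.elim0, fun i => i.elim0,
      fun i => i.elim0, fun i => i.elim0⟩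
    intro h
    apply hxx
    rw [polar_self, h, smul_zero]
  | succ m ih =>
    intro V _ _ _ Q hV hB
    obtain ⟨v, hv0, hv⟩ := exists_isotropic Q (by omega)
    obtain ⟨w, hw, hvw⟩ := exists_hyp_partner Q hB v hv0 hv
    obtain ⟨hfr, hnd⟩ := hyp_split Q hB v w hv hw hvw (k := 2 * m + 1) (by omega)
    obtain ⟨x', e', f', hx', hxx', horth', hfam'⟩ := ih _ _ hfr hnd
    have hmem : ∀ z : LinearMap.BilinForm.orthogonal (polarBilin Q)
        (Submodule.span F (Set.range ![v, w])), polar Q v (z : V) = 0 ∧ polar Q w (z : V) = 0 :=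
      fun z => (hyp_orth_mem Q v w z).1 z.2
    have hfam : HypFam Q (fun i => (e' i : V)) (fun i => (f' i : V)) := hfam'
    refine ⟨(x' : V), Fin.cons v (fun i => (e' i : V)), Fin.cons w (fun i => (f' i : V)),
      hx', hxx', ?_, hfam.cons Q v w hv hw hvw
        fun i => ⟨(hmem _).1, (hmem _).2, (hmem _).1, (hmem _).2⟩⟩
    intro i
    refine Fin.cases ?_ (fun i' => ?_) i
    · simp only [Fin.cons_zero]
      exact ⟨by rw [polar_comm]; exact (hmem x').1, by rw [polar_comm]; exact (hmem x').2⟩
    · simp only [Fin.cons_succ]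
      exact horth' i'

theorem quad_odd_basis {F : Type u} [Field F] [Fintype F] {V : Type v} [AddCommGroup V]
    [Module F V] [FiniteDimensional F V] {m : ℕ} (hV : Module.finrank F V = 2 * m + 1)
    (Q : QuadraticForm F V) (hQ : (polarBilin Q).Nondegenerate) :
    ∃ b : Module.Basis (Unit ⊕ (Fin m ⊕ Fin m)) F V, Q (b (Sum.inl ())) ≠ 0 ∧
      (∀ i, polar ⇑Q (b (Sum.inl ())) (b (Sum.inr (Sum.inl i))) = 0 ∧
        polar ⇑Q (b (Sum.inl ())) (b (Sum.inr (Sum.inr i))) = 0) ∧
      (∀ i, Q (b (Sum.inr (Sum.inl i))) = 0 ∧ Q (b (Sum.inr (Sum.inr i))) = 0) ∧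
      (∀ i j, polar ⇑Q (b (Sum.inr (Sum.inl i))) (b (Sum.inr (Sum.inr j))) =
        if i = j then 1 else 0) ∧
      (∀ i j, polar ⇑Q (b (Sum.inr (Sum.inl i))) (b (Sum.inr (Sum.inl j))) = 0 ∧
        polar ⇑Q (b (Sum.inr (Sum.inr i))) (b (Sum.inr (Sum.inr j))) = 0) := by
  classical
  obtain ⟨x, e, f, hx, hxx, horth, h1, h2, h3⟩ := quad_odd_struct F m V Q hV hQ
  have hef : ∀ k l, k ≠ l → polar Q (e k) (f l) = 0 := fun k l hkl => by
    rw [h2 k l, if_neg hkl]
  have hef1 : ∀ k, polar Q (e k) (f k) = 1 := fun k => by rw [h2 k k, if_pos rfl]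
  have hli : LinearIndependent F (Sum.elim (fun _ : Unit => x) (Sum.elim e f)) := by
    refine linearIndependent_of_dual Q _ (Sum.elim (fun _ : Unit => x) (Sum.elim f e)) ?_ ?_
    · rintro (⟨⟩ | k | k) (⟨⟩ | l | l) hne
      · exact absurd rfl hne
      · simp only [Sum.elim_inl, Sum.elim_inr]
        rw [polar_comm]; exact (horth l).2
      · simp only [Sum.elim_inl, Sum.elim_inr]
        rw [polar_comm]; exact (horth l).1
      · simp only [Sum.elim_inl, Sum.elim_inr]
        exact (horth k).1
      · simp only [Sum.elim_inl, Sum.elim_inr]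
        rw [polar_comm]
        exact hef k l (fun h => hne (by rw [h]))
      · simp only [Sum.elim_inl, Sum.elim_inr]
        exact (h3 l k).1
      · simp only [Sum.elim_inl, Sum.elim_inr]
        exact (horth k).2
      · simp only [Sum.elim_inl, Sum.elim_inr]
        exact (h3 l k).2
      · simp only [Sum.elim_inl, Sum.elim_inr]
        exact hef l k (fun h => hne (by rw [h]))
    · rintro (⟨⟩ | k | k)
      · simpa using hxx
      · simp only [Sum.elim_inl, Sum.elim_inr]
        rw [polar_comm, hef1]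
        exact one_ne_zero
      · simp only [Sum.elim_inl, Sum.elim_inr]
        rw [hef1]
        exact one_ne_zero
  have hcard : Fintype.card (Unit ⊕ (Fin m ⊕ Fin m)) = Module.finrank F V := by
    rw [hV]
    simp
    omega
  refine ⟨basisOfLinearIndependentOfCardEqFinrank hli hcard, ?_⟩
  rw [coe_basisOfLinearIndependentOfCardEqFinrank]
  refine ⟨hx, horth, h1, h2, h3⟩

end Cfsg.Agent.Lib.Helper4
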