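import Mathlib
import Cfsg.Agent.Lib.Helper4.QuadStd

set_option autoImplicit false

namespace Cfsg.Agent.Lib.Helper4

open QuadraticMap

universe u v

theorem quad_even_struct (F : Type u) [Field F] [Fintype F] :
    ∀ (m : ℕ) (V : Type v) [AddCommGroup V] [Module F V] [FiniteDimensional F V]
      (Q : QuadraticForm F V), Module.finrank F V = 2 * m + 2 →
      (polarBilin Q).Nondegenerate →
      (∃ e f : Fin (m + 1) → V, HypFam Q e f) ∨
      (∃ (e f : Fin m → V) (x y : V) (ζ : F), (∀ t : F, t ^ 2 + t + ζ ≠ 0) ∧ HypFam Q e f ∧
        (∀ i, polar Q (e i) x = 0 ∧ polar Q (f i) x = 0 ∧ polar Q (e i) y = 0 ∧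
          polar Q (f i) y = 0) ∧ Q x = 1 ∧ polar Q x y = 1 ∧ Q y = ζ) := by
  intro m
  induction m with
  | zero =>
    intro V _ _ _ Q hV hB
    have hV2 : Module.finrank F V = 2 := by simpa using hV
    by_cases hiso : ∃ v : V, v ≠ 0 ∧ Q v = 0
    · obtain ⟨v, hv0, hv⟩ := hiso
      obtain ⟨w, hw, hvw⟩ := exists_hyp_partner Q hB v hv0 hv
      left
      refine ⟨fun _ => v, fun _ => w, fun _ => ⟨hv, hw⟩, fun i j => ?_, fun i j => ?_⟩
      · have hij : i = j := by
          apply Fin.ext
          have hi := i.2
          have hj := j.2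
          omega
        rw [hvw, if_pos hij]
      · exact ⟨by rw [polar_self, hv, smul_zero], by rw [polar_self, hw, smul_zero]⟩
    · push Not at hiso
      right
      let b := Module.finBasisOfFinrankEq F V hV2
      have hbli := b.linearIndependent
      have han : ∀ a c : F, Q (a • b 0 + c • b 1) = 0 → a = 0 ∧ c = 0 := by
        intro a c h
        have h0 : a • b 0 + c • b 1 = 0 := by
          by_contra hne
          exact hiso _ hne h
        have := Fintype.linearIndependent_iff.1 hbli ![a, c]
          (by simpa [Fin.sum_univ_two] using h0)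
        exact ⟨this 0, this 1⟩
      obtain ⟨a, c, hx⟩ := exists_repr_of_anisotropic Q (b 0) (b 1) han 1
      obtain ⟨x, hxdef⟩ : ∃ x : V, x = a • b 0 + c • b 1 := ⟨_, rfl⟩
      rw [← hxdef] at hx
      have hx0 : x ≠ 0 := by
        intro h
        rw [h, QuadraticMap.map_zero] at hx
        exact zero_ne_one hx
      have hlt : Submodule.span F {x} < ⊤ := by
        rw [lt_top_iff_ne_top]
        intro h
        have h1 := finrank_span_singleton (K := F) hx0
        rw [h, finrank_top, hV2] at h1
        omega
      obtain ⟨z, -, hz⟩ := SetLike.exists_of_lt hlt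
      obtain ⟨y, hxy, hy⟩ : ∃ y : V, polar Q x y = 1 ∧ y ∉ Submodule.span F {x} := by
        obtain ⟨u, hu⟩ : ∃ u, polar Q x u ≠ 0 := by
          by_contra hcon
          push Not at hcon
          exact hx0 (hB.1 x hcon)
        by_cases hux : u ∈ Submodule.span F {x}
        · obtain ⟨c', rfl⟩ := Submodule.mem_span_singleton.1 hux
          have hxx : polar Q x x ≠ 0 := by
            intro h
            apply hu
            rw [polar_smul_right, h, smul_zero]
          refine ⟨z + ((1 - polar Q x z) / polar Q x x) • x, ?_, ?_⟩
          · rw [polar_add_right, polar_smul_right, smul_eq_mul, div_mul_cancel₀ _ hxx]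
            ring
          · intro hmem
            apply hz
            have h5 : z = (z + ((1 - polar Q x z) / polar Q x x) • x) -
                ((1 - polar Q x z) / polar Q x x) • x := by abel
            rw [h5]
            exact Submodule.sub_mem _ hmem
              (Submodule.smul_mem _ _ (Submodule.mem_span_singleton_self x))
        · refine ⟨(polar Q x u)⁻¹ • u, ?_, ?_⟩
          · rw [polar_smul_right, smul_eq_mul, inv_mul_cancel₀ hu]
          · intro hmem
            apply hux
            have h5 : u = (polar Q x u) • ((polar Q x u)⁻¹ • u) := by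
              rw [smul_smul, mul_inv_cancel₀ hu, one_smul]
            rw [h5]
            exact Submodule.smul_mem _ _ hmem
      refine ⟨Fin.elim0, Fin.elim0, x, y, Q y, ?_,
        ⟨fun i => i.elim0, fun i => i.elim0, fun i => i.elim0⟩, fun i => i.elim0, hx, hxy, rfl⟩
      intro t h
      have h1 : Q (t • x + y) = t ^ 2 + t + Q y := by
        rw [quad_add2, QuadraticMap.map_smul, hx, polar_smul_left, hxy]
        simp only [smul_eq_mul, mul_one]
        ring
      have h2 : t • x + y ≠ 0 := by
        intro h0
        apply hy
        have h5 : y = (-t) • x := by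
          rw [neg_smul]
          exact eq_neg_of_add_eq_zero_right h0
        rw [h5]
        exact Submodule.smul_mem _ _ (Submodule.mem_span_singleton_self x)
      exact hiso _ h2 (by rw [h1, h])
  | succ m ih =>
    intro V _ _ _ Q hV hB
    obtain ⟨v, hv0, hv⟩ := exists_isotropic Q (by omega)
    obtain ⟨w, hw, hvw⟩ := exists_hyp_partner Q hB v hv0 hv
    obtain ⟨hfr, hnd⟩ := hyp_split Q hB v w hv hw hvw (k := 2 * m + 2) (by omega)
    have hmem : ∀ z : LinearMap.BilinForm.orthogonal (polarBilin Q)
        (Submodule.span F (Set.range ![v, w])), polar Q v (z : V) = 0 ∧ polar Q w (z : V) = 0 :=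
      fun z => (hyp_orth_mem Q v w z).1 z.2
    rcases ih _ _ hfr hnd with ⟨e', f', hfam'⟩ | ⟨e', f', x', y', ζ, hζ, hfam', horth', hx', hxy', hy'⟩
    · left
      have hfam : HypFam Q (fun i => (e' i : V)) (fun i => (f' i : V)) := hfam'
      exact ⟨_, _, hfam.cons Q v w hv hw hvw
        fun i => ⟨(hmem _).1, (hmem _).2, (hmem _).1, (hmem _).2⟩⟩
    · right
      have hfam : HypFam Q (fun i => (e' i : V)) (fun i => (f' i : V)) := hfam'
      refine ⟨_, _, (x' : V), (y' : V), ζ, hζ, hfam.cons Q v w hv hw hvw
        fun i => ⟨(hmem _).1, (hmem _).2, (hmem _).1, (hmem _).2⟩, ?_, hx', hxy', hy'⟩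
      intro i
      refine Fin.cases ?_ (fun i' => ?_) i
      · simp only [Fin.cons_zero]
        exact ⟨(hmem x').1, (hmem x').2, (hmem y').1, (hmem y').2⟩
      · simp only [Fin.cons_succ]
        exact horth' i'

section bases

variable {F : Type u} [Field F] {V : Type v} [AddCommGroup V] [Module F V]
  [FiniteDimensional F V]

theorem hyp_basis (Q : QuadraticForm F V) {k : ℕ} (hV : Module.finrank F V = 2 * k)
    (e f : Fin k → V) (h : HypFam Q e f) :
    ∃ b : Module.Basis (Fin k ⊕ Fin k) F V, ⇑b = Sum.elim e f := by
  classical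
  obtain ⟨h1, h2, h3⟩ := h
  have hef : ∀ a c, a ≠ c → polar Q (e a) (f c) = 0 := fun a c hac => by
    rw [h2 a c, if_neg hac]
  have hef1 : ∀ a, polar Q (e a) (f a) = 1 := fun a => by rw [h2 a a, if_pos rfl]
  have hli : LinearIndependent F (Sum.elim e f) := by
    refine linearIndependent_of_dual Q _ (Sum.elim f e) ?_ ?_
    · rintro (a | a) (c | c) hne
      · simp only [Sum.elim_inl]
        rw [polar_comm]
        exact hef a c (fun h => hne (by rw [h]))
      · simp only [Sum.elim_inl, Sum.elim_inr]
        exact (h3 c a).1
      · simp only [Sum.elim_inl, Sum.elim_inr]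
        exact (h3 c a).2
      · simp only [Sum.elim_inr]
        exact hef c a (fun h => hne (by rw [h]))
    · rintro (a | a)
      · simp only [Sum.elim_inl]
        rw [polar_comm, hef1]
        exact one_ne_zero
      · simp only [Sum.elim_inr]
        rw [hef1]
        exact one_ne_zero
  have hcard : Fintype.card (Fin k ⊕ Fin k) = Module.finrank F V := by
    rw [hV]
    simp
    omega
  exact ⟨basisOfLinearIndependentOfCardEqFinrank' _ hli hcard, Module.Basis.coe_mk _ _⟩

theorem ell_basis (Q : QuadraticForm F V) {k : ℕ} (hV : Module.finrank F V = 2 * k + 2)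
    (e f : Fin k → V) (x y : V) (ζ : F) (hζ : ∀ t : F, t ^ 2 + t + ζ ≠ 0) (h : HypFam Q e f)
    (horth : ∀ i, polar Q (e i) x = 0 ∧ polar Q (f i) x = 0 ∧ polar Q (e i) y = 0 ∧
      polar Q (f i) y = 0) (hx : Q x = 1) (hxy : polar Q x y = 1) (hy : Q y = ζ) :
    ∃ b : Module.Basis ((Fin k ⊕ Fin k) ⊕ Fin 2) F V, ⇑b = Sum.elim (Sum.elim e f) ![x, y] := by
  classical
  obtain ⟨h1, h2, h3⟩ := h
  have hef : ∀ a c, a ≠ c → polar Q (e a) (f c) = 0 := fun a c hac => by
    rw [h2 a c, if_neg hac]
  have hef1 : ∀ a, polar Q (e a) (f a) = 1 := fun a => by rw [h2 a a, if_pos rfl]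
  have hdisc : (1 : F) - 4 * ζ ≠ 0 := by
    intro hd
    apply hζ (-(2 * ζ))
    linear_combination (-ζ) * hd
  have hxx : polar Q x x = 2 := by
    rw [polar_self, hx]
    simp
  have hyy : polar Q y y = 2 * ζ := by
    rw [polar_self, hy]
    simp
  have hyx : polar Q y x = 1 := by rw [polar_comm, hxy]
  have hxe : ∀ a, polar Q x (e a) = 0 := fun a => by rw [polar_comm]; exact (horth a).1
  have hxf : ∀ a, polar Q x (f a) = 0 := fun a => by rw [polar_comm]; exact (horth a).2.1
  have hye : ∀ a, polar Q y (e a) = 0 := fun a => by rw [polar_comm]; exact (horth a).2.2.1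
  have hyf : ∀ a, polar Q y (f a) = 0 := fun a => by rw [polar_comm]; exact (horth a).2.2.2
  have hli : LinearIndependent F (Sum.elim (Sum.elim e f) ![x, y]) := by
    refine linearIndependent_of_dual Q _
      (Sum.elim (Sum.elim f e) ![y - (2 * ζ) • x, x - (2 : F) • y]) ?_ ?_
    · rintro ((a | a) | a) ((c | c) | c) hne
      · simp only [Sum.elim_inl]
        rw [polar_comm]
        exact hef a c (fun h => hne (by rw [h]))
      · simp only [Sum.elim_inl, Sum.elim_inr]
        exact (h3 c a).1
      · fin_cases c
        · simp only [Sum.elim_inl, Sum.elim_inr, Fin.zero_eta, Matrix.cons_val_zero]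
          rw [polar_sub_left, polar_smul_left, hye, hxe]
          simp
        · simp only [Sum.elim_inl, Sum.elim_inr, Fin.mk_one, Matrix.cons_val_one,
            Matrix.cons_val_zero]
          rw [polar_sub_left, polar_smul_left, hye, hxe]
          simp
      · simp only [Sum.elim_inl, Sum.elim_inr]
        exact (h3 c a).2
      · simp only [Sum.elim_inl, Sum.elim_inr]
        exact hef c a (fun h => hne (by rw [h]))
      · fin_cases c
        · simp only [Sum.elim_inl, Sum.elim_inr, Fin.zero_eta, Matrix.cons_val_zero]
          rw [polar_sub_left, polar_smul_left, hyf, hxf]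
          simp
        · simp only [Sum.elim_inl, Sum.elim_inr, Fin.mk_one, Matrix.cons_val_one,
            Matrix.cons_val_zero]
          rw [polar_sub_left, polar_smul_left, hyf, hxf]
          simp
      · fin_cases a
        · simp only [Sum.elim_inl, Sum.elim_inr, Fin.zero_eta, Matrix.cons_val_zero]
          exact (horth c).2.1
        · simp only [Sum.elim_inl, Sum.elim_inr, Fin.mk_one, Matrix.cons_val_one,
            Matrix.cons_val_zero]
          exact (horth c).2.2.2
      · fin_cases a
        · simp only [Sum.elim_inl, Sum.elim_inr, Fin.zero_eta, Matrix.cons_val_zero]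
          exact (horth c).1
        · simp only [Sum.elim_inl, Sum.elim_inr, Fin.mk_one, Matrix.cons_val_one,
            Matrix.cons_val_zero]
          exact (horth c).2.2.1
      · fin_cases a <;> fin_cases c
        · exact absurd rfl hne
        · simp only [Sum.elim_inr, Fin.zero_eta, Fin.mk_one, Matrix.cons_val_one,
            Matrix.cons_val_zero]
          rw [polar_sub_left, polar_smul_left, hxx, hyx]
          simp
        · simp only [Sum.elim_inr, Fin.zero_eta, Fin.mk_one, Matrix.cons_val_one,
            Matrix.cons_val_zero]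
          rw [polar_sub_left, polar_smul_left, hyy, hxy]
          simp
        · exact absurd rfl hne
    · rintro ((a | a) | a)
      · simp only [Sum.elim_inl]
        rw [polar_comm, hef1]
        exact one_ne_zero
      · simp only [Sum.elim_inl, Sum.elim_inr]
        rw [hef1]
        exact one_ne_zero
      · fin_cases a
        · simp only [Sum.elim_inr, Fin.zero_eta, Matrix.cons_val_zero]
          rw [polar_sub_left, polar_smul_left, hxx, hyx]
          intro h0
          apply hdisc
          rw [← h0]
          simp only [smul_eq_mul]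
          ring
        · simp only [Sum.elim_inr, Fin.mk_one, Matrix.cons_val_one, Matrix.cons_val_zero]
          rw [polar_sub_left, polar_smul_left, hyy, hxy]
          intro h0
          apply hdisc
          rw [← h0]
          simp only [smul_eq_mul]
          ring
  have hcard : Fintype.card ((Fin k ⊕ Fin k) ⊕ Fin 2) = Module.finrank F V := by
    rw [hV]
    simp
    omega
  exact ⟨basisOfLinearIndependentOfCardEqFinrank' _ hli hcard, Module.Basis.coe_mk _ _⟩

end bases

end Cfsg.Agent.Lib.Helper4
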