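import Mathlib
import Cfsg.Agent.Lib.Helper4.QuadStd2

set_option autoImplicit false

namespace Cfsg.Agent.Lib.Helper4

open QuadraticMap

universe u v

section

variable {F : Type u} [Field F] {V : Type v} [AddCommGroup V] [Module F V]

theorem quad_ext_basis {ι : Type*} [Fintype ι] (b : Module.Basis ι F V)
    (Q₁ Q₂ : QuadraticForm F V) (h1 : ∀ i, Q₁ (b i) = Q₂ (b i))
    (h2 : ∀ i j, polar Q₁ (b i) (b j) = polar Q₂ (b i) (b j)) : ∀ v, Q₁ v = Q₂ v := by
  classical
  have hB : polarBilin Q₁ = polarBilin Q₂ :=
    b.ext fun i => b.ext fun j => h2 i j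
  have hpol : ∀ u w, polar Q₁ u w = polar Q₂ u w := fun u w => by
    have := congrArg (fun B : LinearMap.BilinForm F V => B u w) hB
    exact this
  have key : ∀ (s : Finset ι) (c : ι → F),
      Q₁ (∑ i ∈ s, c i • b i) = Q₂ (∑ i ∈ s, c i • b i) := by
    intro s c
    induction s using Finset.induction_on with
    | empty => simp
    | insert a s ha ih =>
      rw [Finset.sum_insert ha, quad_add2, quad_add2, ih, hpol, QuadraticMap.map_smul,
        QuadraticMap.map_smul, h1]
  intro v
  rw [← b.sum_repr v]
  exact key _ _

theorem polar_comp_apply (Q : QuadraticForm F V) (g : V →ₗ[F] V) (u w : V) :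
    polar (Q.comp g) u w = polar Q (g u) (g w) := by
  simp only [polar, QuadraticMap.comp_apply, map_add]

theorem sim_of_basis {ι : Type*} [Fintype ι] (b : Module.Basis ι F V) (Q : QuadraticForm F V)
    (G : ι → V) (c : F)
    (h1 : ∀ i, Q (G i) = c * Q (b i))
    (h2 : ∀ i j, polar Q (G i) (G j) = c * polar Q (b i) (b j)) :
    ∀ v, Q (b.constr F G v) = c * Q v := by
  intro v
  have := quad_ext_basis b (Q.comp (b.constr F G)) (c • Q)
    (fun i => by
      rw [QuadraticMap.comp_apply, Module.Basis.constr_basis, h1]
      rfl)
    (fun i j => by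
      rw [polar_comp_apply, Module.Basis.constr_basis, Module.Basis.constr_basis, h2]
      simp only [polar, QuadraticMap.smul_apply, smul_eq_mul]
      ring) v
  exact this

theorem equiv_of_sim [FiniteDimensional F V] (Q : QuadraticForm F V)
    (hQ : (polarBilin Q).Nondegenerate) (g : V →ₗ[F] V) (c : F) (hc : c ≠ 0)
    (h : ∀ v, Q (g v) = c * Q v) :
    ∃ g' : V ≃ₗ[F] V, ∀ v, Q (g' v) = c * Q v := by
  have hinj : Function.Injective g := by
    rw [← LinearMap.ker_eq_bot, LinearMap.ker_eq_bot']
    intro u hu
    apply hQ.1
    intro w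
    have h3 : polar Q (g u) (g w) = c * polar Q u w := by
      simp only [polar, ← map_add, h]
      ring
    rw [hu, polar_zero_left] at h3
    show polar Q u w = 0
    exact (mul_eq_zero.1 h3.symm).resolve_left hc
  exact ⟨LinearEquiv.ofInjectiveEndo g hinj, fun v => h v⟩

end

theorem quad_sim_exists {F : Type u} [Field F] [Fintype F] {V : Type v} [AddCommGroup V]
    [Module F V] [FiniteDimensional F V] (Q : QuadraticForm F V)
    (hQ : (polarBilin Q).Nondegenerate) {k : ℕ} (hV : Module.finrank F V = 2 * k + 2)
    (c : F) (hc : c ≠ 0) : ∃ g : V ≃ₗ[F] V, ∀ v, Q (g v) = c * Q v := by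
  classical
  rcases quad_even_struct F k V Q hV hQ with
    ⟨e, f, hfam⟩ | ⟨e, f, x, y, ζ, hζ, hfam, horth, hx, hxy, hy⟩
  · obtain ⟨b, hb⟩ := hyp_basis Q (by omega : Module.finrank F V = 2 * (k + 1)) e f hfam
    obtain ⟨h1, h2, h3⟩ := hfam
    have hfe : ∀ i j, polar Q (f i) (e j) = if j = i then 1 else 0 := fun i j => by
      rw [polar_comm, h2]
    refine equiv_of_sim Q hQ (b.constr F (Sum.elim (fun i => c • e i) f)) c hc
      (sim_of_basis b Q _ c ?_ ?_)
    · rintro (i | i)
      · simp only [hb, Sum.elim_inl, QuadraticMap.map_smul, (h1 i).1, smul_zero, mul_zero]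
      · simp only [hb, Sum.elim_inr, (h1 i).2, mul_zero]
    · rintro (i | i) (j | j)
      · simp only [hb, Sum.elim_inl, polar_smul_left, polar_smul_right, (h3 i j).1, smul_zero,
          mul_zero]
      · simp only [hb, Sum.elim_inl, Sum.elim_inr, polar_smul_left, smul_eq_mul]
      · simp only [hb, Sum.elim_inl, Sum.elim_inr, polar_smul_right, smul_eq_mul]
      · simp only [hb, Sum.elim_inr, (h3 i j).2, mul_zero]
  · obtain ⟨b, hb⟩ := ell_basis Q hV e f x y ζ hζ hfam horth hx hxy hy
    obtain ⟨h1, h2, h3⟩ := hfam
    have han : ∀ a d : F, Q (a • x + d • y) = 0 → a = 0 ∧ d = 0 := by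
      intro a d h
      have hexp : Q (a • x + d • y) = a ^ 2 + a * d + ζ * d ^ 2 := by
        rw [quad_add2, QuadraticMap.map_smul, QuadraticMap.map_smul, polar_smul_left,
          polar_smul_right, hx, hy, hxy]
        simp only [smul_eq_mul]
        ring
      rw [hexp] at h
      by_cases hd : d = 0
      · rw [hd] at h
        simp only [mul_zero, add_zero, ne_eq, OfNat.ofNat_ne_zero, not_false_eq_true,
          zero_pow] at h
        exact ⟨pow_eq_zero_iff (two_ne_zero) |>.1 h, hd⟩
      · exfalso
        apply hζ (a / d)
        field_simp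
        linear_combination h
    obtain ⟨a, d, had⟩ := exists_repr_of_anisotropic Q x y han c
    have hc' : a ^ 2 + a * d + ζ * d ^ 2 = c := by
      rw [← had, quad_add2, QuadraticMap.map_smul, QuadraticMap.map_smul, polar_smul_left,
        polar_smul_right, hx, hy, hxy]
      simp only [smul_eq_mul]
      ring
    have hxx : polar Q x x = 2 := by
      rw [polar_self, hx]
      simp
    have hyy : polar Q y y = 2 * ζ := by
      rw [polar_self, hy]
      simp
    have hyx : polar Q y x = 1 := by rw [polar_comm, hxy]
    have hex : ∀ i, polar Q (e i) x = 0 := fun i => (horth i).1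
    have hfx : ∀ i, polar Q (f i) x = 0 := fun i => (horth i).2.1
    have hey : ∀ i, polar Q (e i) y = 0 := fun i => (horth i).2.2.1
    have hfy : ∀ i, polar Q (f i) y = 0 := fun i => (horth i).2.2.2
    have hxe : ∀ i, polar Q x (e i) = 0 := fun i => by rw [polar_comm]; exact hex i
    have hxf : ∀ i, polar Q x (f i) = 0 := fun i => by rw [polar_comm]; exact hfx i
    have hye : ∀ i, polar Q y (e i) = 0 := fun i => by rw [polar_comm]; exact hey i
    have hyf : ∀ i, polar Q y (f i) = 0 := fun i => by rw [polar_comm]; exact hfy i
    have hee : ∀ i j, polar Q (e i) (e j) = 0 := fun i j => (h3 i j).1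
    have hff : ∀ i j, polar Q (f i) (f j) = 0 := fun i j => (h3 i j).2
    have hQe : ∀ i, Q (e i) = 0 := fun i => (h1 i).1
    have hQf : ∀ i, Q (f i) = 0 := fun i => (h1 i).2
    refine equiv_of_sim Q hQ (b.constr F (Sum.elim (Sum.elim (fun i => c • e i) f)
      ![a • x + d • y, (-(ζ * d)) • x + (a + d) • y])) c hc (sim_of_basis b Q _ c ?_ ?_)
    · rintro ((i | i) | i)
      · simp only [hb, Sum.elim_inl, QuadraticMap.map_smul, hQe, smul_zero, mul_zero]
      · simp only [hb, Sum.elim_inl, Sum.elim_inr, hQf, mul_zero]
      · fin_cases i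
        · simp only [hb, Sum.elim_inr, Fin.zero_eta, Matrix.cons_val_zero]
          rw [had, hx, mul_one]
        · simp only [hb, Sum.elim_inr, Fin.mk_one, Matrix.cons_val_one, Matrix.cons_val_zero]
          rw [quad_add2, QuadraticMap.map_smul, QuadraticMap.map_smul, polar_smul_left,
            polar_smul_right, hx, hy, hxy]
          simp only [smul_eq_mul]
          linear_combination ζ * hc'
    · rintro ((i | i) | i) ((j | j) | j)
      · simp only [hb, Sum.elim_inl, polar_smul_left, polar_smul_right, hee, smul_zero,
          mul_zero]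
      · simp only [hb, Sum.elim_inl, Sum.elim_inr, polar_smul_left, smul_eq_mul]
      · fin_cases j
        · simp only [hb, Sum.elim_inl, Sum.elim_inr, Fin.zero_eta, Matrix.cons_val_zero,
            polar_smul_left, polar_smul_right, polar_add_right, hex, hey, smul_zero, add_zero,
            mul_zero]
        · simp only [hb, Sum.elim_inl, Sum.elim_inr, Fin.mk_one, Matrix.cons_val_one,
            Matrix.cons_val_zero,
            polar_smul_left, polar_smul_right, polar_add_right, hex, hey, smul_zero, add_zero,
            mul_zero]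
      · simp only [hb, Sum.elim_inl, Sum.elim_inr, polar_smul_right, smul_eq_mul]
      · simp only [hb, Sum.elim_inl, Sum.elim_inr, hff, mul_zero]
      · fin_cases j
        · simp only [hb, Sum.elim_inl, Sum.elim_inr, Fin.zero_eta, Matrix.cons_val_zero,
            polar_smul_right, polar_add_right, hfx, hfy, smul_zero, add_zero, mul_zero]
        · simp only [hb, Sum.elim_inl, Sum.elim_inr, Fin.mk_one, Matrix.cons_val_one,
            Matrix.cons_val_zero,
            polar_smul_right, polar_add_right, hfx, hfy, smul_zero, add_zero, mul_zero]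
      · fin_cases i
        · simp only [hb, Sum.elim_inl, Sum.elim_inr, Fin.zero_eta, Matrix.cons_val_zero,
            polar_smul_left, polar_smul_right, polar_add_left, hxe, hye, smul_zero, add_zero,
            mul_zero]
        · simp only [hb, Sum.elim_inl, Sum.elim_inr, Fin.mk_one, Matrix.cons_val_one,
            Matrix.cons_val_zero,
            polar_smul_left, polar_smul_right, polar_add_left, hxe, hye, smul_zero, add_zero,
            mul_zero]
      · fin_cases i
        · simp only [hb, Sum.elim_inl, Sum.elim_inr, Fin.zero_eta, Matrix.cons_val_zero,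
            polar_smul_left, polar_add_left, hxf, hyf, smul_zero, add_zero, mul_zero]
        · simp only [hb, Sum.elim_inl, Sum.elim_inr, Fin.mk_one, Matrix.cons_val_one,
            Matrix.cons_val_zero,
            polar_smul_left, polar_add_left, hxf, hyf, smul_zero, add_zero, mul_zero]
      · fin_cases i <;> fin_cases j
        · simp only [hb, Sum.elim_inr, Fin.zero_eta, Matrix.cons_val_zero,
            polar_smul_left, polar_smul_right, polar_add_left, polar_add_right, hxx, hyy, hxy,
            hyx, smul_eq_mul]
          linear_combination 2 * hc'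
        · simp only [hb, Sum.elim_inr, Fin.zero_eta, Fin.mk_one, Matrix.cons_val_one,
            Matrix.cons_val_zero,
            polar_smul_left, polar_smul_right, polar_add_left, polar_add_right, hxx, hyy, hxy,
            hyx, smul_eq_mul]
          linear_combination hc'
        · simp only [hb, Sum.elim_inr, Fin.zero_eta, Fin.mk_one, Matrix.cons_val_one,
            Matrix.cons_val_zero,
            polar_smul_left, polar_smul_right, polar_add_left, polar_add_right, hxx, hyy, hxy,
            hyx, smul_eq_mul]
          linear_combination hc'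
        · simp only [hb, Sum.elim_inr, Fin.mk_one, Matrix.cons_val_one, Matrix.cons_val_zero,
            polar_smul_left, polar_smul_right, polar_add_left, polar_add_right, hxx, hyy, hxy,
            hyx, smul_eq_mul]
          linear_combination (2 * ζ) * hc'

end Cfsg.Agent.Lib.Helper4
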