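import Mathlib
import Cfsg.Prelude.Def_Classical
import Cfsg.Agent.Lib.Helper4.QuadSim
import Cfsg.Agent.Lib.Helper4.GUEmb

set_option autoImplicit false

namespace Cfsg.Agent.Lib.Helper4

open QuadraticMap

/-- An injective action by isometries of `Q`, together with a basis in which `Q` is `Q₀`, gives an
embedding in the isometry group of `Q₀`. -/
theorem exists_isometry_embedding {F : Type*} [Field F] {V : Type*} [AddCommGroup V] [Module F V]
    {ι : Type} [Fintype ι] [DecidableEq ι] (b : Module.Basis ι F V) (Q : V → F)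
    (Q₀ : (ι → F) → F) (hb : ∀ v, Q₀ (b.equivFun v) = Q v)
    {G : Type*} [Group G] (ψ : G →* (V →ₗ[F] V)) (hψ : Function.Injective ψ)
    (hiso : ∀ g v, Q (ψ g v) = Q v) :
    ∃ φ : G →* ↥(Cfsg.isometryGroup F Q₀), Function.Injective φ := by
  classical
  let Θ : G →* Matrix ι ι F :=
    { toFun := fun g => LinearMap.toMatrix b b (ψ g)
      map_one' := by
        rw [map_one]
        exact LinearMap.toMatrix_one b
      map_mul' := fun g h => by
        rw [map_mul]
        exact LinearMap.toMatrix_mul b _ _ }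
  have hΘ : ∀ g, ((Θ.toHomUnits g : (Matrix ι ι F)ˣ) : Matrix ι ι F) =
      LinearMap.toMatrix b b (ψ g) := fun g => rfl
  have hmem : ∀ g, Θ.toHomUnits g ∈ Cfsg.isometryGroup F Q₀ := by
    intro g u v
    show Q₀ (Matrix.mulVec (Units.coeHom _ (Θ.toHomUnits g)) u) = Q₀ u
    rw [Units.coeHom_apply, hΘ]
    obtain ⟨w, rfl⟩ : ∃ w, b.equivFun w = u := ⟨b.equivFun.symm u, b.equivFun.apply_symm_apply u⟩
    have h2 : Matrix.mulVec (LinearMap.toMatrix b b (ψ g)) (b.equivFun w) = b.equivFun (ψ g w) := by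
      have := LinearMap.toMatrix_mulVec_repr b b (ψ g) w
      simpa [Module.Basis.equivFun_apply] using this
    rw [h2, hb, hb, hiso]
  refine ⟨(Θ.toHomUnits).codRestrict (Cfsg.isometryGroup F Q₀) hmem, ?_⟩
  intro g h hgh
  apply hψ
  have h3 : Θ.toHomUnits g = Θ.toHomUnits h := congrArg Subtype.val hgh
  have h4 : LinearMap.toMatrix b b (ψ g) = LinearMap.toMatrix b b (ψ h) := by
    rw [← hΘ, ← hΘ, h3]
  exact (LinearMap.toMatrix b b).injective h4

/-- The quadratic form `Σ x_i y_i + z₁² + a z₁ z₂ + b z₂²`. -/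
noncomputable def minusQuad (k : ℕ) (F : Type*) [Field F] (a b : F) :
    QuadraticForm F ((Fin k ⊕ Fin k) ⊕ Fin 2 → F) :=
  (∑ i : Fin k, QuadraticMap.linMulLin (LinearMap.proj (Sum.inl (Sum.inl i)))
      (LinearMap.proj (Sum.inl (Sum.inr i)))) +
    (QuadraticMap.linMulLin (LinearMap.proj (Sum.inr 0)) (LinearMap.proj (Sum.inr 0)) +
      a • QuadraticMap.linMulLin (LinearMap.proj (Sum.inr 0)) (LinearMap.proj (Sum.inr 1)) +
      b • QuadraticMap.linMulLin (LinearMap.proj (Sum.inr 1)) (LinearMap.proj (Sum.inr 1)))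

theorem minusQuad_apply (k : ℕ) (F : Type*) [Field F] (a b : F)
    (x : (Fin k ⊕ Fin k) ⊕ Fin 2 → F) :
    minusQuad k F a b x = Cfsg.quadFormMinus k F a b x := by
  unfold minusQuad Cfsg.quadFormMinus
  rw [QuadraticMap.add_apply, QuadraticMap.sum_apply, QuadraticMap.add_apply,
    QuadraticMap.add_apply, QuadraticMap.smul_apply, QuadraticMap.smul_apply]
  simp only [QuadraticMap.linMulLin_apply, LinearMap.proj_apply, smul_eq_mul]
  ring

theorem stdQuad_apply' (m : ℕ) (F : Type*) [Field F] (x : Fin m ⊕ Fin m → F) :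
    stdQuad m F x = Cfsg.quadFormPlus m F x := by
  rw [stdQuad_apply]
  rfl

/-- Extension of scalars of an isometry. -/
theorem isometry_map {F K : Type*} [Field F] [Field K] (ι : F →+* K) {n : Type*} [Fintype n]
    [DecidableEq n] (QF : (n → F) → F) (QK : QuadraticForm K (n → K))
    (hcompat : ∀ u : n → F, QK (fun j => ι (u j)) = ι (QF u))
    (g : Matrix n n F) (hg : ∀ u, QF (g.mulVec u) = QF u) (v : n → K) :
    QK ((g.map ι).mulVec v) = QK v := by
  have hmap : ∀ u : n → F, (g.map ι).mulVec (fun j => ι (u j)) = fun j => ι ((g.mulVec u) j) := by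
    intro u
    funext i
    exact (RingHom.map_mulVec ι g u i).symm
  have hsingle : ∀ j : n, (Pi.single j (1 : K) : n → K) = fun i => ι ((Pi.single j (1 : F) : n → F) i) := by
    intro j
    funext i
    by_cases hij : i = j
    · subst hij
      simp
    · simp [Pi.single_eq_of_ne hij]
  have hpolF : ∀ u w : n → F, polar QF (g.mulVec u) (g.mulVec w) = polar QF u w := by
    intro u w
    simp only [polar, ← Matrix.mulVec_add, hg]
  have hpolK : ∀ u w : n → F, polar QK (fun j => ι (u j)) (fun j => ι (w j)) = ι (polar QF u w) := by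
    intro u w
    have h1 : (fun j => ι (u j)) + (fun j => ι (w j)) = fun j => ι ((u + w) j) := by
      funext j
      simp
    simp only [polar, h1, hcompat, map_sub]
  have key := quad_ext_basis (Pi.basisFun K n) (QK.comp (Matrix.toLin' (g.map ι))) QK
    (fun j => by
      rw [QuadraticMap.comp_apply, Pi.basisFun_apply, Matrix.toLin'_apply, hsingle, hmap, hcompat,
        hcompat, hg])
    (fun i j => by
      rw [polar_comp_apply, Pi.basisFun_apply, Pi.basisFun_apply, Matrix.toLin'_apply,
        Matrix.toLin'_apply, hsingle i, hsingle j, hmap, hmap, hpolK, hpolK, hpolF]) v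
  rw [QuadraticMap.comp_apply, Matrix.toLin'_apply] at key
  exact key

end Cfsg.Agent.Lib.Helper4
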