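import Mathlib
import Cfsg.Prelude.Def_Classical
import Cfsg.Agent.Lib.Helper4.QuadEmb

set_option autoImplicit false

namespace Cfsg.Agent.Lib.Helper4

open QuadraticMap

universe u v

theorem hyp_of_totally_singular (F : Type u) [Field F] :
    ∀ (m : ℕ) (V : Type v) [AddCommGroup V] [Module F V] [FiniteDimensional F V]
      (Q : QuadraticForm F V), Module.finrank F V = 2 * m → (polarBilin Q).Nondegenerate →
      ∀ U : Submodule F V, (∀ u ∈ U, Q u = 0) → m ≤ Module.finrank F U →
      ∃ e f : Fin m → V, HypFam Q e f := by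
  intro m
  induction m with
  | zero =>
    intro V _ _ _ Q hV hB U hU hdim
    exact ⟨Fin.elim0, Fin.elim0, fun i => i.elim0, fun i => i.elim0, fun i => i.elim0⟩
  | succ m ih =>
    intro V _ _ _ Q hV hB U hU hdim
    obtain ⟨v', hv'⟩ : ∃ x : U, x ≠ 0 := by
      have : 0 < Module.finrank F U := by omega
      exact Module.finrank_pos_iff_exists_ne_zero.1 this
    obtain ⟨v, hvU, hv0⟩ : ∃ v ∈ U, v ≠ 0 := ⟨v'.1, v'.2, fun h => hv' (Subtype.ext h)⟩
    have hv : Q v = 0 := hU v hvU
    obtain ⟨w, hw, hvw⟩ := exists_hyp_partner Q hB v hv0 hv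
    obtain ⟨hfr, hnd⟩ := hyp_split Q hB v w hv hw hvw (k := 2 * m) (by omega)
    obtain ⟨W, hW⟩ : ∃ W : Submodule F V, W = LinearMap.BilinForm.orthogonal (polarBilin Q)
        (Submodule.span F (Set.range ![v, w])) := ⟨_, rfl⟩
    rw [← hW] at hfr hnd
    obtain ⟨φ, hφ⟩ : ∃ φ : V →ₗ[F] F, φ = polarBilin Q w := ⟨_, rfl⟩
    have hφapp : ∀ u, φ u = polar Q w u := fun u => by rw [hφ]; rfl
    have hker : 2 * m + 1 ≤ Module.finrank F (LinearMap.ker φ) := by
      have h1 := LinearMap.finrank_range_add_finrank_ker φ
      have h2 : Module.finrank F (LinearMap.range φ) ≤ 1 := by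
        have := Submodule.finrank_le (LinearMap.range φ)
        simpa using this
      omega
    have hinf : m ≤ Module.finrank F ↥(U ⊓ LinearMap.ker φ) := by
      have h1 := Submodule.finrank_sup_add_finrank_inf_eq U (LinearMap.ker φ)
      have h2 := Submodule.finrank_le (U ⊔ LinearMap.ker φ)
      omega
    have hle : U ⊓ LinearMap.ker φ ≤ W := by
      intro u hu
      rw [hW, hyp_orth_mem]
      obtain ⟨hu1, hu2⟩ := hu
      refine ⟨?_, ?_⟩
      · have h3 : Q (v + u) = 0 := hU _ (U.add_mem hvU hu1)
        rw [polar, h3, hv, hU u hu1]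
        simp
      · rw [← hφapp]
        exact hu2
    obtain ⟨U', hU'⟩ : ∃ U' : Submodule F W,
        U' = Submodule.comap W.subtype (U ⊓ LinearMap.ker φ) := ⟨_, rfl⟩
    have hU'dim : m ≤ Module.finrank F U' := by
      have h1 : Submodule.map W.subtype U' = U ⊓ LinearMap.ker φ := by
        rw [hU', Submodule.map_comap_subtype]
        exact inf_eq_right.2 hle
      have h2 : Module.finrank F (Submodule.map W.subtype U') = Module.finrank F U' :=
        Submodule.finrank_map_subtype_eq W U'
      rw [← h2, h1]
      exact hinf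
    have hU's : ∀ u ∈ U', (Q.restrict W) u = 0 := by
      intro u hu
      rw [hU'] at hu
      exact hU _ hu.1
    obtain ⟨e', f', hfam'⟩ := ih W (Q.restrict W) hfr hnd U' hU's hU'dim
    have hmem : ∀ z : W, polar Q v (z : V) = 0 ∧ polar Q w (z : V) = 0 := by
      intro z
      have hz : (z : V) ∈ LinearMap.BilinForm.orthogonal (polarBilin Q)
          (Submodule.span F (Set.range ![v, w])) := by
        rw [← hW]
        exact z.2
      exact (hyp_orth_mem Q v w z).1 hz
    have hfam : HypFam Q (fun i => (e' i : V)) (fun i => (f' i : V)) := hfam'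
    exact ⟨Fin.cons v (fun i => (e' i : V)), Fin.cons w (fun i => (f' i : V)),
      hfam.cons Q v w hv hw hvw fun i => ⟨(hmem _).1, (hmem _).2, (hmem _).1, (hmem _).2⟩⟩

section coord

variable {F : Type u} [Field F] {V : Type v} [AddCommGroup V] [Module F V]

theorem stdQuad_polar' (m : ℕ) (x y : Fin m ⊕ Fin m → F) :
    polar (stdQuad m F) x y =
      ∑ i : Fin m, (x (Sum.inl i) * y (Sum.inr i) + y (Sum.inl i) * x (Sum.inr i)) := by
  rw [polar, stdQuad_apply, stdQuad_apply, stdQuad_apply, ← Finset.sum_sub_distrib,
    ← Finset.sum_sub_distrib]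
  refine Finset.sum_congr rfl fun i _ => ?_
  simp only [Pi.add_apply]
  ring

theorem basis_equivFun_self {ι : Type*} [Fintype ι] [DecidableEq ι] (b : Module.Basis ι F V)
    (j : ι) : b.equivFun (b j) = Pi.single j 1 := by
  funext i
  rw [Module.Basis.equivFun_self, Pi.single_apply]
  simp [eq_comm]

theorem hyp_coord (Q : QuadraticForm F V) {m : ℕ} (b : Module.Basis (Fin m ⊕ Fin m) F V)
    (e f : Fin m → V) (hb : ⇑b = Sum.elim e f) (h : HypFam Q e f) (v : V) :
    Cfsg.quadFormPlus m F (b.equivFun v) = Q v := by
  classical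
  rw [← stdQuad_apply']
  obtain ⟨h1, h2, h3⟩ := h
  have key := quad_ext_basis b ((stdQuad m F).comp b.equivFun.toLinearMap) Q ?_ ?_ v
  · exact key
  · intro j
    rw [QuadraticMap.comp_apply, LinearEquiv.coe_coe, basis_equivFun_self, stdQuad_apply, hb]
    rcases j with a | a
    · simp [Pi.single_apply, (h1 a).1]
    · simp [Pi.single_apply, (h1 a).2]
  · intro i j
    have h4 : polar ((stdQuad m F).comp b.equivFun.toLinearMap) (b i) (b j) =
        polar (stdQuad m F) (Pi.single i 1) (Pi.single j 1) := by
      simp only [polar, QuadraticMap.comp_apply, LinearEquiv.coe_coe, map_add,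
        basis_equivFun_self]
    rw [h4, stdQuad_polar', hb]
    rcases i with a | a <;> rcases j with c | c
    · simp [Pi.single_apply, (h3 a c).1]
    · simp [Pi.single_apply, h2 a c, eq_comm]
    · simp only [Sum.elim_inl, Sum.elim_inr]
      rw [polar_comm, h2 c a]
      simp [Pi.single_apply, eq_comm]
    · simp [Pi.single_apply, (h3 a c).2]

theorem minusQuad_polar (k : ℕ) (a c : F) (x y : (Fin k ⊕ Fin k) ⊕ Fin 2 → F) :
    polar (minusQuad k F a c) x y =
      ∑ i : Fin k, (x (Sum.inl (Sum.inl i)) * y (Sum.inl (Sum.inr i)) +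
        y (Sum.inl (Sum.inl i)) * x (Sum.inl (Sum.inr i))) +
      (2 * x (Sum.inr 0) * y (Sum.inr 0) +
        a * (x (Sum.inr 0) * y (Sum.inr 1) + y (Sum.inr 0) * x (Sum.inr 1)) +
        2 * c * x (Sum.inr 1) * y (Sum.inr 1)) := by
  have hs : ∑ i : Fin k, (x + y) (Sum.inl (Sum.inl i)) * (x + y) (Sum.inl (Sum.inr i)) =
      (∑ i : Fin k, x (Sum.inl (Sum.inl i)) * x (Sum.inl (Sum.inr i))) +
      (∑ i : Fin k, y (Sum.inl (Sum.inl i)) * y (Sum.inl (Sum.inr i))) +
      ∑ i : Fin k, (x (Sum.inl (Sum.inl i)) * y (Sum.inl (Sum.inr i)) +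
        y (Sum.inl (Sum.inl i)) * x (Sum.inl (Sum.inr i))) := by
    rw [← Finset.sum_add_distrib, ← Finset.sum_add_distrib]
    refine Finset.sum_congr rfl fun i _ => ?_
    simp only [Pi.add_apply]
    ring
  rw [polar, minusQuad_apply, minusQuad_apply, minusQuad_apply]
  unfold Cfsg.quadFormMinus
  rw [hs]
  simp only [Pi.add_apply]
  ring

theorem ell_basis' [FiniteDimensional F V] (Q : QuadraticForm F V) {k : ℕ}
    (hV : Module.finrank F V = 2 * k + 2)
    (e f : Fin k → V) (x y : V) (a c : F) (hdisc : a ^ 2 - 4 * c ≠ 0) (h : HypFam Q e f)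
    (horth : ∀ i, polar Q (e i) x = 0 ∧ polar Q (f i) x = 0 ∧ polar Q (e i) y = 0 ∧
      polar Q (f i) y = 0) (hx : Q x = 1) (hxy : polar Q x y = a) (hy : Q y = c) :
    ∃ b : Module.Basis ((Fin k ⊕ Fin k) ⊕ Fin 2) F V, ⇑b = Sum.elim (Sum.elim e f) ![x, y] := by
  classical
  obtain ⟨h1, h2, h3⟩ := h
  have hef : ∀ i j, i ≠ j → polar Q (e i) (f j) = 0 := fun i j hij => by
    rw [h2 i j, if_neg hij]
  have hef1 : ∀ i, polar Q (e i) (f i) = 1 := fun i => by rw [h2 i i, if_pos rfl]
  have hxx : polar Q x x = 2 := by
    rw [polar_self, hx]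
    simp
  have hyy : polar Q y y = 2 * c := by
    rw [polar_self, hy]
    simp
  have hyx : polar Q y x = a := by rw [polar_comm, hxy]
  have hxe : ∀ i, polar Q x (e i) = 0 := fun i => by rw [polar_comm]; exact (horth i).1
  have hxf : ∀ i, polar Q x (f i) = 0 := fun i => by rw [polar_comm]; exact (horth i).2.1
  have hye : ∀ i, polar Q y (e i) = 0 := fun i => by rw [polar_comm]; exact (horth i).2.2.1
  have hyf : ∀ i, polar Q y (f i) = 0 := fun i => by rw [polar_comm]; exact (horth i).2.2.2
  have hli : LinearIndependent F (Sum.elim (Sum.elim e f) ![x, y]) := by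
    refine linearIndependent_of_dual Q _
      (Sum.elim (Sum.elim f e) ![a • y - (2 * c) • x, a • x - (2 : F) • y]) ?_ ?_
    · rintro ((i | i) | i) ((j | j) | j) hne
      · simp only [Sum.elim_inl]
        rw [polar_comm]
        exact hef i j (fun h => hne (by rw [h]))
      · simp only [Sum.elim_inl, Sum.elim_inr]
        exact (h3 j i).1
      · fin_cases j
        · simp only [Sum.elim_inl, Sum.elim_inr, Fin.zero_eta, Matrix.cons_val_zero]
          rw [polar_sub_left, polar_smul_left, polar_smul_left, hye, hxe]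
          simp
        · simp only [Sum.elim_inl, Sum.elim_inr, Fin.mk_one, Matrix.cons_val_one,
            Matrix.cons_val_zero]
          rw [polar_sub_left, polar_smul_left, polar_smul_left, hye, hxe]
          simp
      · simp only [Sum.elim_inl, Sum.elim_inr]
        exact (h3 j i).2
      · simp only [Sum.elim_inl, Sum.elim_inr]
        exact hef j i (fun h => hne (by rw [h]))
      · fin_cases j
        · simp only [Sum.elim_inl, Sum.elim_inr, Fin.zero_eta, Matrix.cons_val_zero]
          rw [polar_sub_left, polar_smul_left, polar_smul_left, hyf, hxf]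
          simp
        · simp only [Sum.elim_inl, Sum.elim_inr, Fin.mk_one, Matrix.cons_val_one,
            Matrix.cons_val_zero]
          rw [polar_sub_left, polar_smul_left, polar_smul_left, hyf, hxf]
          simp
      · fin_cases i
        · simp only [Sum.elim_inl, Sum.elim_inr, Fin.zero_eta, Matrix.cons_val_zero]
          exact (horth j).2.1
        · simp only [Sum.elim_inl, Sum.elim_inr, Fin.mk_one, Matrix.cons_val_one,
            Matrix.cons_val_zero]
          exact (horth j).2.2.2
      · fin_cases i
        · simp only [Sum.elim_inl, Sum.elim_inr, Fin.zero_eta, Matrix.cons_val_zero]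
          exact (horth j).1
        · simp only [Sum.elim_inl, Sum.elim_inr, Fin.mk_one, Matrix.cons_val_one,
            Matrix.cons_val_zero]
          exact (horth j).2.2.1
      · fin_cases i <;> fin_cases j
        · exact absurd rfl hne
        · simp only [Sum.elim_inr, Fin.zero_eta, Fin.mk_one, Matrix.cons_val_one,
            Matrix.cons_val_zero]
          rw [polar_sub_left, polar_smul_left, polar_smul_left, hxx, hyx]
          simp only [smul_eq_mul]
          ring
        · simp only [Sum.elim_inr, Fin.zero_eta, Fin.mk_one, Matrix.cons_val_one,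
            Matrix.cons_val_zero]
          rw [polar_sub_left, polar_smul_left, polar_smul_left, hyy, hxy]
          simp only [smul_eq_mul]
          ring
        · exact absurd rfl hne
    · rintro ((i | i) | i)
      · simp only [Sum.elim_inl]
        rw [polar_comm, hef1]
        exact one_ne_zero
      · simp only [Sum.elim_inl, Sum.elim_inr]
        rw [hef1]
        exact one_ne_zero
      · fin_cases i
        · simp only [Sum.elim_inr, Fin.zero_eta, Matrix.cons_val_zero]
          rw [polar_sub_left, polar_smul_left, polar_smul_left, hxx, hyx]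
          intro h0
          apply hdisc
          rw [← h0]
          simp only [smul_eq_mul]
          ring
        · simp only [Sum.elim_inr, Fin.mk_one, Matrix.cons_val_one, Matrix.cons_val_zero]
          rw [polar_sub_left, polar_smul_left, polar_smul_left, hyy, hxy]
          intro h0
          apply hdisc
          rw [← h0]
          simp only [smul_eq_mul]
          ring
  have hcard : Fintype.card ((Fin k ⊕ Fin k) ⊕ Fin 2) = Module.finrank F V := by
    rw [hV]
    simp
    omega
  exact ⟨basisOfLinearIndependentOfCardEqFinrank' _ hli hcard, Module.Basis.coe_mk _ _⟩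

theorem ell_coord (Q : QuadraticForm F V) {k : ℕ}
    (b : Module.Basis ((Fin k ⊕ Fin k) ⊕ Fin 2) F V)
    (e f : Fin k → V) (x y : V) (a c : F) (hb : ⇑b = Sum.elim (Sum.elim e f) ![x, y])
    (h : HypFam Q e f)
    (horth : ∀ i, polar Q (e i) x = 0 ∧ polar Q (f i) x = 0 ∧ polar Q (e i) y = 0 ∧
      polar Q (f i) y = 0) (hx : Q x = 1) (hxy : polar Q x y = a) (hy : Q y = c) (v : V) :
    Cfsg.quadFormMinus k F a c (b.equivFun v) = Q v := by
  classical
  rw [← minusQuad_apply]
  obtain ⟨h1, h2, h3⟩ := h
  have hxx : polar Q x x = 2 := by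
    rw [polar_self, hx]
    simp
  have hyy : polar Q y y = 2 * c := by
    rw [polar_self, hy]
    simp
  have hyx : polar Q y x = a := by rw [polar_comm, hxy]
  have hxe : ∀ i, polar Q x (e i) = 0 := fun i => by rw [polar_comm]; exact (horth i).1
  have hxf : ∀ i, polar Q x (f i) = 0 := fun i => by rw [polar_comm]; exact (horth i).2.1
  have hye : ∀ i, polar Q y (e i) = 0 := fun i => by rw [polar_comm]; exact (horth i).2.2.1
  have hyf : ∀ i, polar Q y (f i) = 0 := fun i => by rw [polar_comm]; exact (horth i).2.2.2
  have hfe : ∀ i j, polar Q (f i) (e j) = if i = j then 1 else 0 := by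
    intro i j
    rw [polar_comm, h2 j i]
    simp [eq_comm]
  have key := quad_ext_basis b ((minusQuad k F a c).comp b.equivFun.toLinearMap) Q ?_ ?_ v
  · exact key
  · intro j
    rw [QuadraticMap.comp_apply, LinearEquiv.coe_coe, basis_equivFun_self, minusQuad_apply, hb]
    unfold Cfsg.quadFormMinus
    rcases j with (i | i) | i
    · simp [Pi.single_apply, (h1 i).1]
    · simp [Pi.single_apply, (h1 i).2]
    · fin_cases i
      · simp [Pi.single_apply, hx]
      · simp [Pi.single_apply, hy]
  · intro i j
    have h4 : polar ((minusQuad k F a c).comp b.equivFun.toLinearMap) (b i) (b j) =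
        polar (minusQuad k F a c) (Pi.single i 1) (Pi.single j 1) := by
      simp only [polar, QuadraticMap.comp_apply, LinearEquiv.coe_coe, map_add,
        basis_equivFun_self]
    rw [h4, minusQuad_polar, hb]
    rcases i with (i | i) | i <;> rcases j with (j | j) | j
    · simp [Pi.single_apply, (h3 i j).1]
    · simp [Pi.single_apply, h2 i j, eq_comm]
    · fin_cases j
      · simp [Pi.single_apply, (horth i).1]
      · simp [Pi.single_apply, (horth i).2.2.1]
    · simp [Pi.single_apply, hfe i j, eq_comm]
    · simp [Pi.single_apply, (h3 i j).2]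
    · fin_cases j
      · simp [Pi.single_apply, (horth i).2.1]
      · simp [Pi.single_apply, (horth i).2.2.2]
    · fin_cases i
      · simp [Pi.single_apply, hxe j]
      · simp [Pi.single_apply, hye j]
    · fin_cases i
      · simp [Pi.single_apply, hxf j]
      · simp [Pi.single_apply, hyf j]
    · fin_cases i <;> fin_cases j
      · simp [Pi.single_apply, hxx]
      · simp [Pi.single_apply, hxy]
      · simp [Pi.single_apply, hyx]
      · simp [Pi.single_apply, hyy]

end coord

end Cfsg.Agent.Lib.Helper4
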