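import Mathlib
import Cfsg.Agent.S2617
import Cfsg.Agent.Lib.Helper4.QuadWitt

set_option autoImplicit false

namespace Cfsg.Agent.Lib.Helper4

open QuadraticMap

section

variable {F : Type*} [Field F]

theorem stdQuad_nondeg (m : ℕ) : (polarBilin (stdQuad m F)).Nondegenerate := by
  classical
  have key : ∀ x : Fin m ⊕ Fin m → F, (∀ y, polar (stdQuad m F) x y = 0) → x = 0 := by
    intro x hx
    funext j
    rcases j with i | i
    · have := hx (Pi.single (Sum.inr i) 1)
      rw [stdQuad_polar'] at this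
      simpa [Pi.single_apply] using this
    · have := hx (Pi.single (Sum.inl i) 1)
      rw [stdQuad_polar'] at this
      simpa [Pi.single_apply] using this
  refine ⟨fun x hx => key x (fun y => hx y), fun y hy => key y (fun x => ?_)⟩
  rw [polar_comm]
  exact hy x

theorem minusQuad_nondeg (k : ℕ) (a c : F) (hdisc : a ^ 2 - 4 * c ≠ 0) :
    (polarBilin (minusQuad k F a c)).Nondegenerate := by
  classical
  have key : ∀ x : (Fin k ⊕ Fin k) ⊕ Fin 2 → F,
      (∀ y, polar (minusQuad k F a c) x y = 0) → x = 0 := by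
    intro x hx
    have h0 := hx (Pi.single (Sum.inr 0) 1)
    have h1 := hx (Pi.single (Sum.inr 1) 1)
    rw [minusQuad_polar] at h0 h1
    simp [Pi.single_apply] at h0 h1
    have hx0 : x (Sum.inr 0) = 0 := by
      have : x (Sum.inr 0) * (a ^ 2 - 4 * c) = 0 := by
        linear_combination a * h1 - 2 * c * h0
      exact (mul_eq_zero.1 this).resolve_right hdisc
    have hx1 : x (Sum.inr 1) = 0 := by
      have : x (Sum.inr 1) * (a ^ 2 - 4 * c) = 0 := by
        linear_combination a * h0 - 2 * h1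
      exact (mul_eq_zero.1 this).resolve_right hdisc
    funext j
    rcases j with (i | i) | i
    · have := hx (Pi.single (Sum.inl (Sum.inr i)) 1)
      rw [minusQuad_polar] at this
      simpa [Pi.single_apply] using this
    · have := hx (Pi.single (Sum.inl (Sum.inl i)) 1)
      rw [minusQuad_polar] at this
      simpa [Pi.single_apply] using this
    · fin_cases i
      · exact hx0
      · exact hx1
  refine ⟨fun x hx => key x (fun y => hx y), fun y hy => key y (fun x => ?_)⟩
  rw [polar_comm]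
  exact hy x

theorem totally_singular_le {V : Type*} [AddCommGroup V] [Module F V] [FiniteDimensional F V]
    (Q : QuadraticForm F V) (hB : (polarBilin Q).Nondegenerate) {m : ℕ}
    (hV : Module.finrank F V = 2 * m) (U : Submodule F V) (hU : ∀ u ∈ U, Q u = 0) :
    Module.finrank F U ≤ m := by
  have h1 := LinearMap.BilinForm.finrank_orthogonal hB U
  have h2 : U ≤ LinearMap.BilinForm.orthogonal (polarBilin Q) U := by
    intro u hu
    rw [LinearMap.BilinForm.mem_orthogonal_iff]
    intro n hn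
    show polar Q n u = 0
    rw [polar, hU _ (U.add_mem hn hu), hU n hn, hU u hu]
    simp
  have h3 := Submodule.finrank_mono h2
  have h4 := Submodule.finrank_le U
  omega

theorem disc_of_irred (ζ : F) (hζ : ∀ t : F, t ^ 2 + t + ζ ≠ 0) : (1 : F) ^ 2 - 4 * ζ ≠ 0 := by
  intro hd
  apply hζ (-(2 * ζ))
  linear_combination (-ζ) * hd

theorem minus_witt [Finite F] (k : ℕ) (ζ : F) (hζ : ∀ t : F, t ^ 2 + t + ζ ≠ 0)
    (U : Submodule F ((Fin k ⊕ Fin k) ⊕ Fin 2 → F))
    (hU : ∀ u ∈ U, Cfsg.quadFormMinus k F 1 ζ u = 0) : Module.finrank F U ≤ k := by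
  classical
  by_contra hcon
  push Not at hcon
  have hnd := minusQuad_nondeg k (1 : F) ζ (disc_of_irred ζ hζ)
  have hV : Module.finrank F ((Fin k ⊕ Fin k) ⊕ Fin 2 → F) = 2 * (k + 1) := by
    simp
    omega
  obtain ⟨e, f, hfam⟩ := hyp_of_totally_singular F (k + 1) _ (minusQuad k F 1 ζ) hV hnd U
    (fun u hu => by rw [minusQuad_apply]; exact hU u hu) (by omega)
  obtain ⟨b, hb⟩ := hyp_basis (minusQuad k F 1 ζ) hV e f hfam
  have hc := hyp_coord (minusQuad k F 1 ζ) b e f hb hfam
  refine Cfsg.Agent.S2617.result (m := k + 1) (by omega) ζ hζ b.equivFun.symm ?_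
  intro v
  have := hc (b.equivFun.symm v)
  rw [LinearEquiv.apply_symm_apply, minusQuad_apply] at this
  exact this.symm

theorem plus_singular_exists (m : ℕ) :
    ∃ U : Submodule F (Fin m ⊕ Fin m → F),
      (∀ u ∈ U, Cfsg.quadFormPlus m F u = 0) ∧ Module.finrank F ↥U = m := by
  classical
  let J : (Fin m → F) →ₗ[F] (Fin m ⊕ Fin m → F) :=
    LinearMap.pi (Sum.elim (fun i => LinearMap.proj i) (fun _ => 0))
  have hJ1 : ∀ w i, J w (Sum.inl i) = w i := fun w i => rfl
  have hJ2 : ∀ w i, J w (Sum.inr i) = 0 := fun w i => rfl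
  have hJinj : Function.Injective J := by
    rw [← LinearMap.ker_eq_bot, LinearMap.ker_eq_bot']
    intro w hw
    funext i
    rw [← hJ1 w i, hw]
    rfl
  refine ⟨LinearMap.range J, ?_, ?_⟩
  · rintro u ⟨w, rfl⟩
    unfold Cfsg.quadFormPlus
    refine Finset.sum_eq_zero fun i _ => ?_
    rw [hJ2, mul_zero]
  · rw [LinearMap.finrank_range_of_inj hJinj]
    simp

theorem minus_singular_exists (k : ℕ) (a c : F) :
    ∃ U : Submodule F ((Fin k ⊕ Fin k) ⊕ Fin 2 → F),
      (∀ u ∈ U, Cfsg.quadFormMinus k F a c u = 0) ∧ Module.finrank F ↥U = k := by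
  classical
  let J : (Fin k → F) →ₗ[F] ((Fin k ⊕ Fin k) ⊕ Fin 2 → F) :=
    LinearMap.pi (Sum.elim (Sum.elim (fun i => LinearMap.proj i) (fun _ => 0)) (fun _ => 0))
  have hJ1 : ∀ w i, J w (Sum.inl (Sum.inl i)) = w i := fun w i => rfl
  have hJ2 : ∀ w i, J w (Sum.inl (Sum.inr i)) = 0 := fun w i => rfl
  have hJ3 : ∀ w i, J w (Sum.inr i) = 0 := fun w i => rfl
  have hJinj : Function.Injective J := by
    rw [← LinearMap.ker_eq_bot, LinearMap.ker_eq_bot']
    intro w hw
    funext i
    rw [← hJ1 w i, hw]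
    rfl
  refine ⟨LinearMap.range J, ?_, ?_⟩
  · rintro u ⟨w, rfl⟩
    unfold Cfsg.quadFormMinus
    rw [hJ3, hJ3]
    have : ∑ i : Fin k, J w (Sum.inl (Sum.inl i)) * J w (Sum.inl (Sum.inr i)) = 0 :=
      Finset.sum_eq_zero fun i _ => by rw [hJ2, mul_zero]
    rw [this]
    ring
  · rw [LinearMap.finrank_range_of_inj hJinj]
    simp

theorem plus_witt (m : ℕ) (U : Submodule F (Fin m ⊕ Fin m → F))
    (hU : ∀ u ∈ U, Cfsg.quadFormPlus m F u = 0) : Module.finrank F U ≤ m := by
  have hV : Module.finrank F (Fin m ⊕ Fin m → F) = 2 * m := by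
    simp
    omega
  exact totally_singular_le (stdQuad m F) (stdQuad_nondeg m) hV U
    (fun u hu => by rw [stdQuad_apply']; exact hU u hu)

end

end Cfsg.Agent.Lib.Helper4
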