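import Mathlib

set_option autoImplicit false

namespace Cfsg.Agent.Lib.Helper4

section

variable {F : Type*} [Field F] {V : Type*} [AddCommGroup V] [Module F V]

theorem ts_le_orth (Q : QuadraticForm F V) (W : Submodule F V) (h : ∀ w ∈ W, Q w = 0) :
    W ≤ LinearMap.BilinForm.orthogonal (QuadraticMap.polarBilin Q) W := by
  intro m hm
  rw [LinearMap.BilinForm.mem_orthogonal_iff]
  intro n hn
  rw [QuadraticMap.polarBilin_apply_apply, QuadraticMap.polar, h _ (W.add_mem hn hm), h n hn,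
    h m hm]
  simp

theorem ts_max_inf (Q : QuadraticForm F V) (W₁ W₂ : Submodule F V) (h₁ : ∀ w ∈ W₁, Q w = 0)
    (h₂ : ∀ w ∈ W₂, Q w = 0)
    (hmax₁ : ∀ W : Submodule F V, W₁ ≤ W → (∀ w ∈ W, Q w = 0) → W = W₁) :
    W₂ ⊓ LinearMap.BilinForm.orthogonal (QuadraticMap.polarBilin Q) W₁ = W₁ ⊓ W₂ := by
  apply le_antisymm
  · have hU : ∀ u ∈ W₁ ⊔ (W₂ ⊓ LinearMap.BilinForm.orthogonal (QuadraticMap.polarBilin Q) W₁),
        Q u = 0 := by
      intro u hu
      obtain ⟨x, hx, y, hy, rfl⟩ := Submodule.mem_sup.mp hu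
      have hxy : QuadraticMap.polar Q x y = 0 := by
        rw [← QuadraticMap.polarBilin_apply_apply]
        exact (LinearMap.BilinForm.mem_orthogonal_iff.mp hy.2) x hx
      have e : Q (x + y) = Q x + Q y + QuadraticMap.polar Q x y := by
        rw [QuadraticMap.polar]; ring
      rw [e, h₁ x hx, h₂ y hy.1, hxy]
      simp
    have hUW := hmax₁ _ le_sup_left hU
    have h3 : W₂ ⊓ LinearMap.BilinForm.orthogonal (QuadraticMap.polarBilin Q) W₁ ≤ W₁ := by
      calc W₂ ⊓ LinearMap.BilinForm.orthogonal (QuadraticMap.polarBilin Q) W₁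
          ≤ W₁ ⊔ (W₂ ⊓ LinearMap.BilinForm.orthogonal (QuadraticMap.polarBilin Q) W₁) :=
            le_sup_right
        _ = W₁ := hUW
    exact le_inf h3 inf_le_left
  · exact le_inf inf_le_right (inf_le_left.trans (ts_le_orth Q W₁ h₁))

theorem orth_sup (B : LinearMap.BilinForm F V) (A C : Submodule F V) :
    B.orthogonal (A ⊔ C) = B.orthogonal A ⊓ B.orthogonal C := by
  ext z
  simp only [LinearMap.BilinForm.mem_orthogonal_iff, Submodule.mem_inf]
  constructor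
  · intro h
    exact ⟨fun n hn => h n (Submodule.mem_sup_left hn),
      fun n hn => h n (Submodule.mem_sup_right hn)⟩
  · rintro ⟨h1, h2⟩ n hn
    obtain ⟨x, hx, y, hy, rfl⟩ := Submodule.mem_sup.mp hn
    rw [map_add, LinearMap.add_apply, h1 x hx, h2 y hy, add_zero]

theorem witt_index_eq [FiniteDimensional F V] (Q : QuadraticForm F V)
    (hQ : (QuadraticMap.polarBilin Q).Nondegenerate) (W₁ W₂ : Submodule F V)
    (h₁ : ∀ w ∈ W₁, Q w = 0) (h₂ : ∀ w ∈ W₂, Q w = 0)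
    (hmax₁ : ∀ W : Submodule F V, W₁ ≤ W → (∀ w ∈ W, Q w = 0) → W = W₁)
    (hmax₂ : ∀ W : Submodule F V, W₂ ≤ W → (∀ w ∈ W, Q w = 0) → W = W₂) :
    Module.finrank F W₁ = Module.finrank F W₂ ∧ 2 * Module.finrank F W₁ ≤ Module.finrank F V := by
  obtain ⟨B, hBdef⟩ : ∃ B : LinearMap.BilinForm F V, B = QuadraticMap.polarBilin Q := ⟨_, rfl⟩
  have hBnd : B.Nondegenerate := by rw [hBdef]; exact hQ
  have hsymm : B.IsSymm := ⟨fun x y => by
    rw [hBdef, QuadraticMap.polarBilin_apply_apply, QuadraticMap.polarBilin_apply_apply,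
      QuadraticMap.polar_comm]⟩
  have hrefl : B.IsRefl := hsymm.isRefl
  have e1 : W₂ ⊓ B.orthogonal W₁ = W₁ ⊓ W₂ := by
    rw [hBdef]; exact ts_max_inf Q W₁ W₂ h₁ h₂ hmax₁
  have e2 : W₁ ⊓ B.orthogonal W₂ = W₁ ⊓ W₂ := by
    rw [hBdef, ts_max_inf Q W₂ W₁ h₂ h₁ hmax₂, inf_comm]
  have f1 := LinearMap.BilinForm.finrank_orthogonal hBnd W₁
  have f2 := LinearMap.BilinForm.finrank_orthogonal hBnd W₂
  have f3 := LinearMap.BilinForm.finrank_orthogonal hBnd (W₁ ⊔ B.orthogonal W₂)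
  rw [orth_sup, LinearMap.BilinForm.orthogonal_orthogonal hBnd hrefl, inf_comm, e1] at f3
  have f4 := Submodule.finrank_sup_add_finrank_inf_eq W₁ (B.orthogonal W₂)
  rw [e2] at f4
  have l1 := Submodule.finrank_le W₁
  have l2 := Submodule.finrank_le W₂
  have l3 := Submodule.finrank_le (W₁ ⊔ B.orthogonal W₂)
  have l4 : Module.finrank F W₁ ≤ Module.finrank F (B.orthogonal W₁) :=
    Submodule.finrank_mono (by rw [hBdef]; exact ts_le_orth Q W₁ h₁)
  constructor <;> omega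

end

end Cfsg.Agent.Lib.Helper4
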