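import Mathlib
import Cfsg.Agent.Lib.Helper4.QuadWittIndex
import Cfsg.Agent.Lib.Helper4.QuadF2
import Cfsg.Agent.Lib.Helper4.QuadEmb

set_option autoImplicit false

namespace Cfsg.Agent.Lib.Helper4

open QuadraticMap

section

variable {F : Type*} [Field F] {V : Type*} [AddCommGroup V] [Module F V]

theorem finrank_sup_span_singleton [FiniteDimensional F V] (U : Submodule F V) (x : V)
    (hx : x ∉ U) :
    Module.finrank F ↥(U ⊔ Submodule.span F {x}) = Module.finrank F U + 1 := by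
  have hx0 : x ≠ 0 := by rintro rfl; exact hx U.zero_mem
  have h1 := Submodule.finrank_sup_add_finrank_inf_eq U (Submodule.span F {x})
  have h2 : U ⊓ Submodule.span F {x} = ⊥ := by
    rw [eq_bot_iff]
    rintro v ⟨hvU, hvx⟩
    obtain ⟨a, rfl⟩ := Submodule.mem_span_singleton.mp hvx
    by_cases ha : a = 0
    · rw [ha, zero_smul]; exact Submodule.zero_mem _
    · exfalso
      apply hx
      have h3 := U.smul_mem a⁻¹ hvU
      rwa [smul_smul, inv_mul_cancel₀ ha, one_smul] at h3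
  rw [h2, finrank_bot, add_zero, finrank_span_singleton hx0] at h1
  exact h1

theorem exists_max_ts [FiniteDimensional F V] (Q : QuadraticForm F V) :
    ∀ (k : ℕ) (U : Submodule F V), Module.finrank F V - Module.finrank F U = k →
      (∀ u ∈ U, Q u = 0) →
      ∃ M : Submodule F V, U ≤ M ∧ (∀ w ∈ M, Q w = 0) ∧
        ∀ W : Submodule F V, M ≤ W → (∀ w ∈ W, Q w = 0) → W = M := by
  intro k
  induction k using Nat.strong_induction_on with
  | _ k ih =>
    intro U hk hU
    by_cases hmax : ∀ W : Submodule F V, U ≤ W → (∀ w ∈ W, Q w = 0) → W = U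
    · exact ⟨U, le_rfl, hU, hmax⟩
    · push Not at hmax
      obtain ⟨W, hUW, hW, hne⟩ := hmax
      have hlt : U < W := lt_of_le_of_ne hUW (Ne.symm hne)
      have h1 := Submodule.finrank_lt_finrank_of_lt hlt
      have h2 := Submodule.finrank_le W
      obtain ⟨M, hWM, hM, hMmax⟩ :=
        ih (Module.finrank F V - Module.finrank F W) (by omega) W rfl hW
      exact ⟨M, hUW.trans hWM, hM, hMmax⟩

theorem two_max_ts [FiniteDimensional F V] (Q : QuadraticForm F V)
    (hQ : (polarBilin Q).Nondegenerate) (m : ℕ) (hV : Module.finrank F V = 2 * m)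
    (L : Submodule F V) (hL : ∀ w ∈ L, Q w = 0) (hLm : m ≤ Module.finrank F L)
    (U : Submodule F V) (hUm : Module.finrank F U + 1 = m) (hU : ∀ u ∈ U, Q u = 0) :
    Nat.card {W : Submodule F V // Module.finrank F W = m ∧ (∀ w ∈ W, Q w = 0) ∧ U ≤ W} = 2 := by
  classical
  obtain ⟨B, hBdef⟩ : ∃ B : LinearMap.BilinForm F V, B = polarBilin Q := ⟨_, rfl⟩
  have hBnd : B.Nondegenerate := by rw [hBdef]; exact hQ
  have hBapp : ∀ a b, B a b = polar Q a b := by intro a b; rw [hBdef]; rfl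
  have hsymm : ∀ a b, B a b = B b a := by intro a b; rw [hBapp, hBapp, polar_comm]
  have hrefl : B.IsRefl := fun a b h => by rw [hsymm]; exact h
  have hQadd : ∀ a b, Q (a + b) = Q a + Q b + B a b := by
    intro a b; rw [hBapp, polar]; ring
  have hQsmul : ∀ (c : F) a, Q (c • a) = c * c * Q a := by
    intro c a; rw [QuadraticMap.map_smul, smul_eq_mul]
  have hts : ∀ (W : Submodule F V), (∀ w ∈ W, Q w = 0) → ∀ a ∈ W, ∀ b ∈ W, B a b = 0 := by
    intro W hW a ha b hb
    have h1 := hQadd a b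
    rw [hW _ (W.add_mem ha hb), hW a ha, hW b hb, zero_add, zero_add] at h1
    exact h1.symm
  obtain ⟨M, hUM, hM, hMmax⟩ := exists_max_ts Q _ U rfl hU
  obtain ⟨M₀, hLM₀, hM₀, hM₀max⟩ := exists_max_ts Q _ L rfl hL
  have hw := witt_index_eq Q hQ M M₀ hM hM₀ hMmax hM₀max
  have hMm : Module.finrank F M = m := by
    have h1 := Submodule.finrank_mono hLM₀
    omega
  obtain ⟨x, hxM, hxU⟩ : ∃ x ∈ M, x ∉ U := by
    by_contra hcon
    push Not at hcon
    have h1 := Submodule.finrank_mono (show M ≤ U from hcon)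
    omega
  have hQx : Q x = 0 := hM x hxM
  have hUx : ∀ u ∈ U, B u x = 0 := fun u hu => hts M hM u (hUM hu) x hxM
  obtain ⟨Up, hUp⟩ : ∃ Up : Submodule F V, Up = B.orthogonal U := ⟨_, rfl⟩
  have hUpmem : ∀ v, v ∈ Up ↔ ∀ u ∈ U, B u v = 0 := by intro v; rw [hUp]; rfl
  have hUpk : Module.finrank F Up = m + 1 := by
    rw [hUp, LinearMap.BilinForm.finrank_orthogonal hBnd, hV]; omega
  obtain ⟨y₀, hy₀, hxy₀⟩ : ∃ y₀ ∈ Up, B x y₀ ≠ 0 := by
    by_contra hcon
    push Not at hcon
    apply hxU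
    rw [← LinearMap.BilinForm.orthogonal_orthogonal hBnd hrefl U, ← hUp,
      LinearMap.BilinForm.mem_orthogonal_iff]
    intro n hn
    show B n x = 0
    rw [hsymm]; exact hcon n hn
  obtain ⟨y₁, hy₁⟩ : ∃ y₁ : V, y₁ = (B x y₀)⁻¹ • y₀ := ⟨_, rfl⟩
  have hxy₁ : B x y₁ = 1 := by rw [hy₁, map_smul, smul_eq_mul, inv_mul_cancel₀ hxy₀]
  obtain ⟨y, hy⟩ : ∃ y : V, y = y₁ + (-(Q y₁)) • x := ⟨_, rfl⟩
  have hBxx : B x x = 0 := hts M hM x hxM x hxM
  have hxy : B x y = 1 := by
    rw [hy, map_add, map_smul, smul_eq_mul, hBxx, mul_zero, add_zero, hxy₁]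
  have hQy : Q y = 0 := by
    rw [hy, hQadd, hQsmul, hQx, mul_zero, add_zero, map_smul, smul_eq_mul, hsymm, hxy₁]; ring
  have hyUp : y ∈ Up := by
    rw [hUpmem]
    intro u hu
    rw [hy, map_add, map_smul, smul_eq_mul, hUx u hu, mul_zero, add_zero, hy₁, map_smul,
      smul_eq_mul, (hUpmem y₀).mp hy₀ u hu, mul_zero]
  have hUy : ∀ u ∈ U, B u y = 0 := (hUpmem y).mp hyUp
  have hQform : ∀ u ∈ U, ∀ a b : F, Q (u + a • x + b • y) = a * b := by
    intro u hu a b
    have e1 : B (u + a • x) (b • y) = a * b := by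
      simp only [map_add, map_smul, LinearMap.add_apply, LinearMap.smul_apply, smul_eq_mul,
        hUy u hu, hxy]
      ring
    have e2 : B u (a • x) = 0 := by
      simp only [map_smul, smul_eq_mul, hUx u hu, mul_zero]
    rw [hQadd, hQadd, hQsmul, hQsmul, hU u hu, hQx, hQy, e1, e2]; ring
  have hyU : y ∉ U := by
    intro h
    have h1 := hUx y h
    rw [hsymm, hxy] at h1
    exact one_ne_zero h1
  obtain ⟨W₁, hW₁⟩ : ∃ W₁ : Submodule F V, W₁ = U ⊔ Submodule.span F {x} := ⟨_, rfl⟩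
  obtain ⟨W₂, hW₂⟩ : ∃ W₂ : Submodule F V, W₂ = U ⊔ Submodule.span F {y} := ⟨_, rfl⟩
  have hW₁mem : ∀ v, v ∈ W₁ ↔ ∃ u ∈ U, ∃ a : F, v = u + a • x := by
    intro v
    rw [hW₁, Submodule.mem_sup]
    constructor
    · rintro ⟨u, hu, z, hz, rfl⟩
      obtain ⟨a, rfl⟩ := Submodule.mem_span_singleton.mp hz
      exact ⟨u, hu, a, rfl⟩
    · rintro ⟨u, hu, a, rfl⟩
      exact ⟨u, hu, a • x, Submodule.mem_span_singleton.mpr ⟨a, rfl⟩, rfl⟩
  have hW₂mem : ∀ v, v ∈ W₂ ↔ ∃ u ∈ U, ∃ a : F, v = u + a • y := by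
    intro v
    rw [hW₂, Submodule.mem_sup]
    constructor
    · rintro ⟨u, hu, z, hz, rfl⟩
      obtain ⟨a, rfl⟩ := Submodule.mem_span_singleton.mp hz
      exact ⟨u, hu, a, rfl⟩
    · rintro ⟨u, hu, a, rfl⟩
      exact ⟨u, hu, a • y, Submodule.mem_span_singleton.mpr ⟨a, rfl⟩, rfl⟩
  have hW₁k : Module.finrank F W₁ = m := by
    rw [hW₁, finrank_sup_span_singleton U x hxU]; exact hUm
  have hW₂k : Module.finrank F W₂ = m := by
    rw [hW₂, finrank_sup_span_singleton U y hyU]; exact hUm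
  have hW₁ts : ∀ w ∈ W₁, Q w = 0 := by
    intro w hw
    obtain ⟨u, hu, a, rfl⟩ := (hW₁mem w).mp hw
    have h1 := hQform u hu a 0
    rw [zero_smul, add_zero, mul_zero] at h1
    exact h1
  have hW₂ts : ∀ w ∈ W₂, Q w = 0 := by
    intro w hw
    obtain ⟨u, hu, b, rfl⟩ := (hW₂mem w).mp hw
    have h1 := hQform u hu 0 b
    rw [zero_smul, add_zero, zero_mul] at h1
    exact h1
  have hUW₁ : U ≤ W₁ := by rw [hW₁]; exact le_sup_left
  have hUW₂ : U ≤ W₂ := by rw [hW₂]; exact le_sup_left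
  have hyW₁ : y ∉ W₁ := by
    intro h
    obtain ⟨u, hu, a, h1⟩ := (hW₁mem y).mp h
    have h2 : B x y = 0 := by
      rw [h1, map_add, map_smul, smul_eq_mul, hBxx, mul_zero, add_zero, hsymm, hUx u hu]
    rw [hxy] at h2
    exact one_ne_zero h2
  have hUpeq : W₁ ⊔ Submodule.span F {y} = Up := by
    apply Submodule.eq_of_le_of_finrank_le
    · apply sup_le
      · intro v hv
        obtain ⟨u, hu, a, rfl⟩ := (hW₁mem v).mp hv
        rw [hUpmem]
        intro u' hu'
        rw [map_add, map_smul, smul_eq_mul, hUx u' hu', mul_zero, add_zero]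
        exact hts U hU u' hu' u hu
      · rw [Submodule.span_singleton_le_iff_mem]; exact hyUp
    · rw [finrank_sup_span_singleton W₁ y hyW₁, hW₁k, hUpk]
  have hUpdecomp : ∀ w ∈ Up, ∃ u ∈ U, ∃ a b : F, w = u + a • x + b • y := by
    intro w hw
    rw [← hUpeq, Submodule.mem_sup] at hw
    obtain ⟨v, hv, z, hz, rfl⟩ := hw
    obtain ⟨u, hu, a, rfl⟩ := (hW₁mem v).mp hv
    obtain ⟨b, rfl⟩ := Submodule.mem_span_singleton.mp hz
    exact ⟨u, hu, a, b, rfl⟩
  rw [Nat.card_eq_two_iff]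
  refine ⟨⟨W₁, hW₁k, hW₁ts, hUW₁⟩, ⟨W₂, hW₂k, hW₂ts, hUW₂⟩, ?_, ?_⟩
  · intro h
    have h1 : W₁ = W₂ := congrArg Subtype.val h
    apply hyW₁
    rw [h1, hW₂]
    exact Submodule.mem_sup_right (Submodule.mem_span_singleton_self y)
  · rw [Set.eq_univ_iff_forall]
    rintro ⟨W, hWk, hWts, hUW⟩
    obtain ⟨w, hwW, hwU⟩ : ∃ w ∈ W, w ∉ U := by
      by_contra hcon
      push Not at hcon
      have h1 := Submodule.finrank_mono (show W ≤ U from hcon)
      omega
    have hwUp : w ∈ Up := by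
      rw [hUpmem]
      intro u hu
      exact hts W hWts u (hUW hu) w hwW
    obtain ⟨u, hu, a, b, hwdec⟩ := hUpdecomp w hwUp
    have hab : a * b = 0 := by
      rw [← hQform u hu a b, ← hwdec]; exact hWts w hwW
    rcases mul_eq_zero.mp hab with ha | hb
    · right
      rw [Set.mem_singleton_iff]
      apply Subtype.ext
      show W = W₂
      have hb0 : b ≠ 0 := by
        intro hb0
        apply hwU
        rw [hwdec, ha, hb0, zero_smul, zero_smul, add_zero, add_zero]
        exact hu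
      have hyW : y ∈ W := by
        have h1 : b • y = w - u := by
          rw [hwdec, ha, zero_smul, add_zero, add_sub_cancel_left]
        have h2 := W.smul_mem b⁻¹ (W.sub_mem hwW (hUW hu))
        rwa [← h1, smul_smul, inv_mul_cancel₀ hb0, one_smul] at h2
      symm
      apply Submodule.eq_of_le_of_finrank_le
      · rw [hW₂]
        exact sup_le hUW ((Submodule.span_singleton_le_iff_mem y W).mpr hyW)
      · rw [hWk, hW₂k]
    · left
      apply Subtype.ext
      show W = W₁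
      have ha0 : a ≠ 0 := by
        intro ha0
        apply hwU
        rw [hwdec, hb, ha0, zero_smul, zero_smul, add_zero, add_zero]
        exact hu
      have hxW : x ∈ W := by
        have h1 : a • x = w - u := by
          rw [hwdec, hb, zero_smul, add_zero, add_sub_cancel_left]
        have h2 := W.smul_mem a⁻¹ (W.sub_mem hwW (hUW hu))
        rwa [← h1, smul_smul, inv_mul_cancel₀ ha0, one_smul] at h2
      symm
      apply Submodule.eq_of_le_of_finrank_le
      · rw [hW₁]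
        exact sup_le hUW ((Submodule.span_singleton_le_iff_mem x W).mpr hxW)
      · rw [hWk, hW₁k]

end

theorem plus_two_max {F : Type*} [Field F] (m : ℕ)
    (U : Submodule F (Fin m ⊕ Fin m → F))
    (hU : Module.finrank F U + 1 = m ∧ ∀ u ∈ U, Cfsg.quadFormPlus m F u = 0) :
    Nat.card {W : Submodule F (Fin m ⊕ Fin m → F) // Module.finrank F W = m ∧
      (∀ w ∈ W, Cfsg.quadFormPlus m F w = 0) ∧ U ≤ W} = 2 := by
  classical
  obtain ⟨π, hπ⟩ : ∃ π : (Fin m ⊕ Fin m → F) →ₗ[F] (Fin m → F),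
      ∀ v i, π v i = v (Sum.inr i) :=
    ⟨LinearMap.funLeft F F (Sum.inr : Fin m → Fin m ⊕ Fin m), fun v i => rfl⟩
  have hL : ∀ w ∈ LinearMap.ker π, stdQuad m F w = 0 := by
    intro w hw
    rw [stdQuad_apply']
    unfold Cfsg.quadFormPlus
    apply Finset.sum_eq_zero
    intro i _
    have h1 : π w i = 0 := by rw [LinearMap.mem_ker.mp hw]; rfl
    rw [hπ] at h1
    rw [h1, mul_zero]
  have hVdim : Module.finrank F (Fin m ⊕ Fin m → F) = 2 * m := by
    rw [Module.finrank_fintype_fun_eq_card]; simp; omega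
  have hLm : m ≤ Module.finrank F (LinearMap.ker π) := by
    have h1 := LinearMap.finrank_range_add_finrank_ker π
    have h2 := Submodule.finrank_le (LinearMap.range π)
    rw [Module.finrank_fin_fun] at h2
    omega
  have h := two_max_ts (stdQuad m F) (stdQuad_nondeg m) m hVdim (LinearMap.ker π) hL hLm U hU.1
    (fun u hu => by rw [stdQuad_apply']; exact hU.2 u hu)
  simp only [stdQuad_apply'] at h
  exact h

end Cfsg.Agent.Lib.Helper4
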