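import Mathlib
import Cfsg.Prelude.Def_LieClassical
import Cfsg.Agent.Lib.Helper4.HermCount
import Cfsg.Agent.Lib.Helper4.HermForm
import Cfsg.Agent.Lib.Helper4.HermStabDecomp
import Cfsg.Agent.Lib.Helper4.QuadTwoMax

set_option autoImplicit false

namespace Cfsg.Agent.Lib.Helper4

/-- Double counting. -/
theorem double_count {X Y : Type*} [Finite X] [Finite Y] (R : X → Y → Prop) (a b : ℕ)
    (hx : ∀ x, Nat.card {y // R x y} = a) (hy : ∀ y, Nat.card {x // R x y} = b) :
    Nat.card X * a = Nat.card Y * b := by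
  classical
  haveI := Fintype.ofFinite X
  haveI := Fintype.ofFinite Y
  have h1 : Nat.card {p : X × Y // R p.1 p.2} = Nat.card X * a := by
    rw [Nat.card_congr (Equiv.subtypeProdEquivSigmaSubtype R), Nat.card_sigma]
    simp only [hx, Finset.sum_const, Finset.card_univ, smul_eq_mul, Nat.card_eq_fintype_card]
  have h2 : Nat.card {p : X × Y // R p.1 p.2} = Nat.card Y * b := by
    have e : {p : X × Y // R p.1 p.2} ≃ {p : Y × X // R p.2 p.1} :=
      (Equiv.prodComm X Y).subtypeEquiv (fun p => Iff.rfl)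
    rw [Nat.card_congr e,
      Nat.card_congr (Equiv.subtypeProdEquivSigmaSubtype (fun y x => R x y)), Nat.card_sigma]
    simp only [hy, Finset.sum_const, Finset.card_univ, smul_eq_mul, Nat.card_eq_fintype_card]
  rw [← h1, h2]

section

variable {F : Type*} [Field F] [Fintype F] {q : ℕ}

theorem herm_zero_left' (n : ℕ) (v : Fin n → F) : Cfsg.hermForm n F q 0 v = 0 := by
  unfold Cfsg.hermForm
  simp

theorem herm_sym_zero (hF : Fintype.card F = q ^ 2) (n : ℕ) (x y : Fin n → F)
    (h : Cfsg.hermForm n F q x y = 0) : Cfsg.hermForm n F q y x = 0 := by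
  have hq := card_sq_two_le hF
  rw [herm_symm hF n x y, h, zero_pow (by omega)]

/-- `w ↦ h(w, v)` as a linear map. -/
noncomputable def hermL (n : ℕ) (F : Type*) [Field F] (q : ℕ) (v : Fin n → F) :
    (Fin n → F) →ₗ[F] F where
  toFun w := Cfsg.hermForm n F q w v
  map_add' a b := herm_add_left n a b v
  map_smul' c a := by simp [herm_smul_left]

theorem hermL_apply (n : ℕ) (v w : Fin n → F) : hermL n F q v w = Cfsg.hermForm n F q w v := rfl

theorem herm_nondeg_std (hF : Fintype.card F = q ^ 2) (n : ℕ) (z : Fin n → F)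
    (hz : ∀ x, Cfsg.hermForm n F q z x = 0) : z = 0 := by
  classical
  have hq := card_sq_two_le hF
  obtain ⟨φ, hφ⟩ := exists_frobQ hF
  funext j
  have h1 := herm_sym_zero hF n _ _ (hz (Pi.single j 1))
  rw [herm_single_left' φ hφ] at h1
  exact (pow_eq_zero_iff (by omega)).1 h1

/-- Isotropic vectors of a nondegenerate subspace. -/
theorem herm_sub_iso_count (hF : Fintype.card F = q ^ 2) (n : ℕ) (W : Submodule F (Fin n → F))
    (hW : ∀ u ∈ W, (∀ v ∈ W, Cfsg.hermForm n F q u v = 0) → u = 0) :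
    Nat.card {z : W // Cfsg.hermForm n F q (z : Fin n → F) (z : Fin n → F) = 0} =
      (hermZU q (Module.finrank F W)).1 := by
  classical
  obtain ⟨b, hb⟩ := herm_sub_onb hF n W hW
  rw [← (herm_count hF (Module.finrank F W)).1]
  apply Nat.card_congr
  refine Equiv.subtypeEquiv b.equivFun.toEquiv ?_
  intro z
  have hz : (z : Fin n → F) = ∑ i, b.equivFun z i • (b i : Fin n → F) := by
    conv_lhs => rw [← b.sum_equivFun z]
    rw [Submodule.coe_sum]
    rfl
  have h1 : ∀ i, Cfsg.hermForm n F q (z : Fin n → F) (b i : Fin n → F) = b.equivFun z i := by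
    intro i
    conv_lhs => rw [hz]
    rw [herm_sum_left]
    simp only [herm_smul_left, hb, mul_ite, mul_one, mul_zero, Finset.sum_ite_eq',
      Finset.mem_univ, if_true]
  have h2 : Cfsg.hermForm n F q (z : Fin n → F) (z : Fin n → F) =
      Cfsg.hermForm (Module.finrank F W) F q (b.equivFun z) (b.equivFun z) := by
    conv_lhs => rw [hz]
    rw [herm_sum_left]
    rw [← hz]
    simp only [herm_smul_left]
    have h3 : ∀ i, Cfsg.hermForm n F q (b i : Fin n → F) (z : Fin n → F) = b.equivFun z i ^ q := by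
      intro i
      rw [herm_symm hF n (z : Fin n → F) (b i : Fin n → F), h1]
    simp only [h3]
    rfl
  show _ ↔ Cfsg.hermForm (Module.finrank F W) F q (b.equivFun z) (b.equivFun z) = 0
  rw [h2]


/-- Isotropic vectors orthogonal to a nonzero isotropic vector. -/
theorem herm_perp_iso_count (hF : Fintype.card F = q ^ 2) (n : ℕ) (v : Fin n → F) (hv0 : v ≠ 0)
    (hv : Cfsg.hermForm n F q v v = 0) :
    Nat.card {w : Fin n → F // Cfsg.hermForm n F q v w = 0 ∧ Cfsg.hermForm n F q w w = 0} =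
      q ^ 2 * (hermZU q (n - 2)).1 := by
  classical
  have hq := card_sq_two_le hF
  obtain ⟨i, hi⟩ : ∃ i, v i ≠ 0 := by
    by_contra hcon
    push Not at hcon
    exact hv0 (funext hcon)
  obtain ⟨u, hu⟩ : ∃ u : Fin n → F, Cfsg.hermForm n F q v u = 1 := by
    refine ⟨Pi.single i (((v i)⁻¹) ^ q), ?_⟩
    unfold Cfsg.hermForm
    rw [Finset.sum_eq_single i]
    · rw [Pi.single_eq_same, pow_card_sq hF, mul_inv_cancel₀ hi]
    · intro j _ hj
      rw [Pi.single_eq_of_ne hj, zero_pow (by omega), mul_zero]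
    · intro h
      exact absurd (Finset.mem_univ i) h
  have huv : Cfsg.hermForm n F q u v = 1 := by
    rw [herm_symm hF n v u, hu, one_pow]
  obtain ⟨f, hf⟩ : ∃ f : (Fin n → F) →ₗ[F] F × F, f = (hermL n F q v).prod (hermL n F q u) :=
    ⟨_, rfl⟩
  have hfapp : ∀ x, f x = (Cfsg.hermForm n F q x v, Cfsg.hermForm n F q x u) := by
    intro x
    rw [hf]
    rfl
  have hmem : ∀ z, z ∈ LinearMap.ker f ↔
      Cfsg.hermForm n F q z v = 0 ∧ Cfsg.hermForm n F q z u = 0 := by
    intro z
    rw [LinearMap.mem_ker, hfapp, Prod.mk_eq_zero]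
  have hsurj : Function.Surjective f := by
    rintro ⟨a, b⟩
    refine ⟨(b - a * Cfsg.hermForm n F q u u) • v + a • u, ?_⟩
    rw [hfapp]
    refine Prod.ext ?_ ?_
    · show Cfsg.hermForm n F q ((b - a * Cfsg.hermForm n F q u u) • v + a • u) v = a
      rw [herm_add_left, herm_smul_left, herm_smul_left, hv, huv]
      ring
    · show Cfsg.hermForm n F q ((b - a * Cfsg.hermForm n F q u u) • v + a • u) u = b
      rw [herm_add_left, herm_smul_left, herm_smul_left, hu]
      ring
  have hrank : Module.finrank F (LinearMap.ker f) = n - 2 := by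
    have h1 := LinearMap.finrank_range_add_finrank_ker f
    rw [LinearMap.range_eq_top.2 hsurj, finrank_top, Module.finrank_prod, Module.finrank_self,
      Module.finrank_fin_fun] at h1
    omega
  have hnd : ∀ z ∈ LinearMap.ker f,
      (∀ z' ∈ LinearMap.ker f, Cfsg.hermForm n F q z z' = 0) → z = 0 := by
    intro z hz hzz
    obtain ⟨hz1, hz2⟩ := (hmem z).1 hz
    apply herm_nondeg_std hF n z
    intro x
    apply herm_sym_zero hF
    obtain ⟨b, hb⟩ : ∃ b : F, b = Cfsg.hermForm n F q x v := ⟨_, rfl⟩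
    obtain ⟨a, ha⟩ : ∃ a : F, a = Cfsg.hermForm n F q x u - b * Cfsg.hermForm n F q u u :=
      ⟨_, rfl⟩
    have hz' : x - a • v - b • u ∈ LinearMap.ker f := by
      rw [hmem]
      constructor
      · rw [herm_sub_left, herm_sub_left, herm_smul_left, herm_smul_left, hv, huv, ← hb]
        ring
      · rw [herm_sub_left, herm_sub_left, herm_smul_left, herm_smul_left, hu, ha]
        ring
    have hx : x = a • v + b • u + (x - a • v - b • u) := by abel
    rw [hx, herm_add_left, herm_add_left, herm_smul_left, herm_smul_left,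
      herm_sym_zero hF n _ _ hz1, herm_sym_zero hF n _ _ hz2, herm_sym_zero hF n _ _ (hzz _ hz')]
    ring
  have hA1 : ∀ w : Fin n → F, Cfsg.hermForm n F q v w = 0 → Cfsg.hermForm n F q w w = 0 →
      w - Cfsg.hermForm n F q w u • v ∈ LinearMap.ker f := by
    intro w h1 h2
    rw [hmem]
    constructor
    · rw [herm_sub_left, herm_smul_left, hv, herm_sym_zero hF n _ _ h1]
      ring
    · rw [herm_sub_left, herm_smul_left, hu]
      ring
  have hA2 : ∀ w : Fin n → F, Cfsg.hermForm n F q v w = 0 → Cfsg.hermForm n F q w w = 0 →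
      Cfsg.hermForm n F q (w - Cfsg.hermForm n F q w u • v)
        (w - Cfsg.hermForm n F q w u • v) = 0 := by
    intro w h1 h2
    have e := herm_sub_left (q := q) n w (Cfsg.hermForm n F q w u • v)
      (w - Cfsg.hermForm n F q w u • v)
    obtain ⟨z, hz⟩ : ∃ z, z = w - Cfsg.hermForm n F q w u • v := ⟨_, rfl⟩
    rw [← hz] at e ⊢
    have hzv : Cfsg.hermForm n F q z v = 0 := by
      rw [hz, herm_sub_left, herm_smul_left, hv, herm_sym_zero hF n _ _ h1]
      ring
    have hzw : Cfsg.hermForm n F q z w = 0 := by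
      rw [hz, herm_sub_left, herm_smul_left, h1, h2]
      ring
    rw [e, herm_smul_left, herm_sym_zero hF n _ _ hzv, herm_sym_zero hF n _ _ hzw]
    ring
  have hB1 : ∀ (a : F) (z : Fin n → F), z ∈ LinearMap.ker f → Cfsg.hermForm n F q z z = 0 →
      Cfsg.hermForm n F q v (a • v + z) = 0 ∧
        Cfsg.hermForm n F q (a • v + z) (a • v + z) = 0 := by
    intro a z hz hzz
    obtain ⟨hz1, hz2⟩ := (hmem z).1 hz
    have hwv : Cfsg.hermForm n F q (a • v + z) v = 0 := by
      rw [herm_add_left, herm_smul_left, hv, hz1]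
      ring
    have hwz : Cfsg.hermForm n F q (a • v + z) z = 0 := by
      rw [herm_add_left, herm_smul_left, herm_sym_zero hF n _ _ hz1, hzz]
      ring
    refine ⟨herm_sym_zero hF n _ _ hwv, ?_⟩
    have e := herm_add_left (q := q) n (a • v) z (a • v + z)
    rw [e, herm_smul_left, herm_sym_zero hF n _ _ hwv, herm_sym_zero hF n _ _ hwz]
    ring
  have hB2 : ∀ (a : F) (z : Fin n → F), z ∈ LinearMap.ker f →
      Cfsg.hermForm n F q (a • v + z) u = a := by
    intro a z hz
    rw [herm_add_left, herm_smul_left, hu, ((hmem z).1 hz).2]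
    ring
  have hcard : Nat.card {w : Fin n → F //
        Cfsg.hermForm n F q v w = 0 ∧ Cfsg.hermForm n F q w w = 0} =
      Nat.card (F × {z : LinearMap.ker f //
        Cfsg.hermForm n F q (z : Fin n → F) (z : Fin n → F) = 0}) := by
    apply Nat.card_congr
    exact
      { toFun := fun w => (Cfsg.hermForm n F q w.1 u,
            ⟨⟨w.1 - Cfsg.hermForm n F q w.1 u • v, hA1 w.1 w.2.1 w.2.2⟩, hA2 w.1 w.2.1 w.2.2⟩)
        invFun := fun p => ⟨p.1 • v + (p.2.1 : Fin n → F), hB1 p.1 _ p.2.1.2 p.2.2⟩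
        left_inv := by
          intro w
          apply Subtype.ext
          show Cfsg.hermForm n F q w.1 u • v + (w.1 - Cfsg.hermForm n F q w.1 u • v) = w.1
          abel
        right_inv := by
          rintro ⟨a, ⟨⟨z, hz⟩, hzz⟩⟩
          have e1 := hB2 a z hz
          refine Prod.ext e1 ?_
          apply Subtype.ext
          apply Subtype.ext
          show a • v + z - Cfsg.hermForm n F q (a • v + z) u • v = z
          rw [e1]
          abel }
  rw [hcard, Nat.card_prod, Nat.card_eq_fintype_card, hF, herm_sub_iso_count hF n _ hnd, hrank]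

theorem card_sub_split {V : Type*} [AddCommGroup V] [Module F V] [Finite V]
    (W K : Submodule F V) (hKW : K ≤ W) :
    Nat.card {w : W // (w : V) ∉ K} + Nat.card K = Nat.card W := by
  classical
  have e := Equiv.sumCompl (fun w : W => (w : V) ∈ K)
  have h1 := Nat.card_congr e
  rw [Nat.card_sum] at h1
  have e2 : {w : W // (w : V) ∈ K} ≃ K :=
    Equiv.subtypeSubtypeEquivSubtype (fun {x} hx => hKW hx)
  rw [Nat.card_congr e2] at h1
  omega

theorem herm_pair_ti (hF : Fintype.card F = q ^ 2) (n : ℕ) (v w : Fin n → F)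
    (hvv : Cfsg.hermForm n F q v v = 0) (hvw : Cfsg.hermForm n F q v w = 0)
    (hww : Cfsg.hermForm n F q w w = 0) :
    ∀ x ∈ Submodule.span F {v} ⊔ Submodule.span F {w},
      ∀ y ∈ Submodule.span F {v} ⊔ Submodule.span F {w}, Cfsg.hermForm n F q x y = 0 := by
  have hwv := herm_sym_zero hF n _ _ hvw
  have key : ∀ y ∈ Submodule.span F {v} ⊔ Submodule.span F {w},
      Cfsg.hermForm n F q y v = 0 ∧ Cfsg.hermForm n F q y w = 0 := by
    intro y hy
    obtain ⟨k, hk, z, hz, rfl⟩ := Submodule.mem_sup.1 hy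
    obtain ⟨c, rfl⟩ := Submodule.mem_span_singleton.1 hk
    obtain ⟨d, rfl⟩ := Submodule.mem_span_singleton.1 hz
    constructor
    · rw [herm_add_left, herm_smul_left, herm_smul_left, hvv, hwv]
      ring
    · rw [herm_add_left, herm_smul_left, herm_smul_left, hvw, hww]
      ring
  intro x hx y hy
  obtain ⟨k, hk, z, hz, rfl⟩ := Submodule.mem_sup.1 hx
  obtain ⟨a, rfl⟩ := Submodule.mem_span_singleton.1 hk
  obtain ⟨b, rfl⟩ := Submodule.mem_span_singleton.1 hz
  obtain ⟨h1, h2⟩ := key y hy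
  rw [herm_add_left, herm_smul_left, herm_smul_left, herm_sym_zero hF n _ _ h1,
    herm_sym_zero hF n _ _ h2]
  ring

/-- Totally isotropic 2-subspaces of the Hermitian `n`-space. -/
abbrev HermTI2 (n : ℕ) (F : Type*) [Field F] (q : ℕ) : Type _ :=
  {W : Submodule F (Fin n → F) // Module.finrank F W = 2 ∧
    ∀ u ∈ W, ∀ v ∈ W, Cfsg.hermForm n F q u v = 0}

/-- Isotropic vectors orthogonal to `v`. -/
abbrev HermPerpIso (n : ℕ) (F : Type*) [Field F] (q : ℕ) (v : Fin n → F) : Type _ :=
  {w : Fin n → F // Cfsg.hermForm n F q v w = 0 ∧ Cfsg.hermForm n F q w w = 0}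

theorem herm_card_two (hF : Fintype.card F = q ^ 2) (n : ℕ) (W : Submodule F (Fin n → F))
    (hW : Module.finrank F W = 2) : Nat.card W = q ^ 4 := by
  rw [Module.natCard_eq_pow_finrank (K := F), hW, Nat.card_eq_fintype_card, hF, ← pow_mul]

theorem herm_pencil_count (hF : Fintype.card F = q ^ 2) (n : ℕ) (v : Fin n → F) (hv0 : v ≠ 0)
    (hv : Cfsg.hermForm n F q v v = 0) :
    Nat.card {W : HermTI2 n F q // v ∈ W.1} * (q ^ 4 - q ^ 2) + q ^ 2 =
      q ^ 2 * (hermZU q (n - 2)).1 := by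
  classical
  have hq := card_sq_two_le hF
  rw [← herm_perp_iso_count hF n v hv0 hv]
  obtain ⟨K, hK⟩ : ∃ K : Submodule F (Fin n → F), K = Submodule.span F {v} := ⟨_, rfl⟩
  have hK1 : Module.finrank F K = 1 := by rw [hK, finrank_span_singleton hv0]
  have hKcard : Nat.card K = q ^ 2 := by
    rw [Module.natCard_eq_pow_finrank (K := F), hK1, pow_one, Nat.card_eq_fintype_card, hF]
  have hKiso : ∀ w ∈ K, Cfsg.hermForm n F q v w = 0 ∧ Cfsg.hermForm n F q w w = 0 := by
    intro w hw
    rw [hK] at hw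
    obtain ⟨a, rfl⟩ := Submodule.mem_span_singleton.1 hw
    have h1 : Cfsg.hermForm n F q (a • v) v = 0 := by rw [herm_smul_left, hv, mul_zero]
    refine ⟨herm_sym_zero hF n _ _ h1, ?_⟩
    rw [herm_smul_left, herm_sym_zero hF n _ _ h1, mul_zero]
  have hsplit : Nat.card {a : HermPerpIso n F q v // a.1 ∉ K} + q ^ 2 =
      Nat.card (HermPerpIso n F q v) := by
    have e := Equiv.sumCompl (fun a : HermPerpIso n F q v => a.1 ∈ K)
    have h1 := Nat.card_congr e
    rw [Nat.card_sum] at h1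
    have e2 : {a : HermPerpIso n F q v // a.1 ∈ K} ≃ K :=
      Equiv.subtypeSubtypeEquivSubtype (fun {x} hx => hKiso x hx)
    rw [Nat.card_congr e2, hKcard] at h1
    omega
  rw [← hsplit]
  congr 1
  have hx : ∀ s : {a : HermPerpIso n F q v // a.1 ∉ K},
      Nat.card {W : {W : HermTI2 n F q // v ∈ W.1} // s.1.1 ∈ W.1.1} = 1 := by
    intro s
    obtain ⟨W0, hW0⟩ : ∃ W0 : Submodule F (Fin n → F),
      W0 = K ⊔ Submodule.span F {s.1.1} := ⟨_, rfl⟩
    have hfin : Module.finrank F W0 = 2 := by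
      rw [hW0, finrank_sup_span_singleton K s.1.1 s.2, hK1]
    have hW0' : W0 = Submodule.span F {v} ⊔ Submodule.span F {s.1.1} :=
      hW0.trans (congrArg (· ⊔ Submodule.span F {s.1.1}) hK)
    have hTI : ∀ x ∈ W0, ∀ y ∈ W0, Cfsg.hermForm n F q x y = 0 := by
      rw [hW0']
      exact herm_pair_ti hF n v s.1.1 hv s.1.2.1 s.1.2.2
    have hvW0 : v ∈ W0 := by
      rw [hW0']
      exact Submodule.mem_sup_left (Submodule.mem_span_singleton_self v)
    have hsW0 : s.1.1 ∈ W0 := by
      rw [hW0]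
      exact Submodule.mem_sup_right (Submodule.mem_span_singleton_self _)
    have huniq : ∀ W : {W : {W : HermTI2 n F q // v ∈ W.1} // s.1.1 ∈ W.1.1},
        W.1.1.1 = W0 := by
      intro W
      symm
      apply Submodule.eq_of_le_of_finrank_eq
      · rw [hW0']
        exact sup_le ((Submodule.span_singleton_le_iff_mem _ _).2 W.1.2)
          ((Submodule.span_singleton_le_iff_mem _ _).2 W.2)
      · rw [hfin, W.1.1.2.1]
    rw [Nat.card_eq_one_iff_unique]
    refine ⟨⟨fun W1 W2 => ?_⟩, ⟨⟨⟨⟨W0, hfin, hTI⟩, hvW0⟩, hsW0⟩⟩⟩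
    exact Subtype.ext (Subtype.ext (Subtype.ext ((huniq W1).trans (huniq W2).symm)))
  have hy : ∀ W : {W : HermTI2 n F q // v ∈ W.1},
      Nat.card {s : {a : HermPerpIso n F q v // a.1 ∉ K} // s.1.1 ∈ W.1.1} =
        q ^ 4 - q ^ 2 := by
    intro W
    have hKW : K ≤ W.1.1 := by
      rw [hK]
      exact (Submodule.span_singleton_le_iff_mem _ _).2 W.2
    have h1 := card_sub_split W.1.1 K hKW
    rw [hKcard, herm_card_two hF n W.1.1 W.1.2.1] at h1
    have e : {s : {a : HermPerpIso n F q v // a.1 ∉ K} // s.1.1 ∈ W.1.1} ≃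
        {w : W.1.1 // (w : Fin n → F) ∉ K} :=
      { toFun := fun s => ⟨⟨s.1.1.1, s.2⟩, s.1.2⟩
        invFun := fun w => ⟨⟨⟨w.1.1, W.1.2.2 v W.2 w.1.1 w.1.2,
          W.1.2.2 w.1.1 w.1.2 w.1.1 w.1.2⟩, w.2⟩, w.1.2⟩
        left_inv := fun _ => rfl
        right_inv := fun _ => rfl }
    rw [Nat.card_congr e]
    omega
  have hdc := double_count
    (fun (s : {a : HermPerpIso n F q v // a.1 ∉ K}) (W : {W : HermTI2 n F q // v ∈ W.1}) =>
      s.1.1 ∈ W.1.1) 1 (q ^ 4 - q ^ 2) hx hy
  rw [mul_one] at hdc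
  exact hdc.symm

theorem herm_ti2_total (hF : Fintype.card F = q ^ 2) (n : ℕ) (t : ℕ)
    (ht : t * (q ^ 4 - q ^ 2) + q ^ 2 = q ^ 2 * (hermZU q (n - 2)).1) :
    Nat.card (HermTI2 n F q) * (q ^ 4 - 1) + t = (hermZU q n).1 * t := by
  classical
  have hq := card_sq_two_le hF
  have hx : ∀ x : {a : {v : Fin n → F // Cfsg.hermForm n F q v v = 0} // a.1 ≠ 0},
      Nat.card {W : HermTI2 n F q // x.1.1 ∈ W.1} = t := by
    intro x
    have h1 := herm_pencil_count hF n x.1.1 x.2 x.1.2
    rw [← ht] at h1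
    have hpos : 0 < q ^ 4 - q ^ 2 := by
      have : q ^ 2 < q ^ 4 := Nat.pow_lt_pow_right (by omega) (by norm_num)
      omega
    exact Nat.eq_of_mul_eq_mul_right hpos (by omega)
  have hy : ∀ W : HermTI2 n F q,
      Nat.card {x : {a : {v : Fin n → F // Cfsg.hermForm n F q v v = 0} // a.1 ≠ 0} //
        x.1.1 ∈ W.1} = q ^ 4 - 1 := by
    intro W
    have h1 := card_sub_split W.1 ⊥ bot_le
    have h2 : Nat.card (⊥ : Submodule F (Fin n → F)) = 1 := by
      rw [Nat.card_eq_one_iff_unique]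
      exact ⟨inferInstance, inferInstance⟩
    rw [h2, herm_card_two hF n W.1 W.2.1] at h1
    have e : {x : {a : {v : Fin n → F // Cfsg.hermForm n F q v v = 0} // a.1 ≠ 0} //
          x.1.1 ∈ W.1} ≃
        {w : W.1 // (w : Fin n → F) ∉ (⊥ : Submodule F (Fin n → F))} :=
      { toFun := fun x => ⟨⟨x.1.1.1, x.2⟩, fun h => x.1.2 ((Submodule.mem_bot F).1 h)⟩
        invFun := fun w => ⟨⟨⟨w.1.1, W.2.2 _ w.1.2 _ w.1.2⟩,
          fun h => w.2 ((Submodule.mem_bot F).2 h)⟩, w.1.2⟩
        left_inv := fun _ => rfl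
        right_inv := fun _ => rfl }
    rw [Nat.card_congr e]
    omega
  have hdc := double_count
    (fun (x : {a : {v : Fin n → F // Cfsg.hermForm n F q v v = 0} // a.1 ≠ 0})
      (W : HermTI2 n F q) => x.1.1 ∈ W.1) t (q ^ 4 - 1) hx hy
  have hX : Nat.card {a : {v : Fin n → F // Cfsg.hermForm n F q v v = 0} // a.1 ≠ 0} + 1 =
      (hermZU q n).1 := by
    rw [← (herm_count hF n).1]
    have e := Equiv.sumCompl (fun a : {v : Fin n → F // Cfsg.hermForm n F q v v = 0} => a.1 = 0)
    have h1 := Nat.card_congr e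
    rw [Nat.card_sum] at h1
    have h2 : Nat.card {a : {v : Fin n → F // Cfsg.hermForm n F q v v = 0} // a.1 = 0} = 1 := by
      rw [Nat.card_eq_one_iff_unique]
      exact ⟨⟨fun a b => Subtype.ext (Subtype.ext (a.2.trans b.2.symm))⟩,
        ⟨⟨⟨0, herm_zero_left' n 0⟩, rfl⟩⟩⟩
    have h3 : Nat.card {a : {v : Fin n → F // Cfsg.hermForm n F q v v = 0} // ¬ a.1 = 0} =
        Nat.card {a : {v : Fin n → F // Cfsg.hermForm n F q v v = 0} // a.1 ≠ 0} := rfl
    rw [h3] at h1
    omega
  rw [← hX, add_mul, one_mul, hdc]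

end

end Cfsg.Agent.Lib.Helper4
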