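import Mathlib

set_option autoImplicit false

namespace Cfsg.Agent.Lib.Helper4

section

variable {F : Type*} [Field F] {V : Type*} [AddCommGroup V] [Module F V]

/-- `x ↦ x + c B(w, x) w`. -/
def hermReflLin (σ : F →+* F) (B : V →ₛₗ[σ] V →ₗ[F] F) (w : V) (c : F) : V →ₗ[F] V where
  toFun x := x + (c * B w x) • w
  map_add' x y := by
    simp only [map_add, mul_add, add_smul]
    abel
  map_smul' k x := by
    simp only [map_smul, smul_eq_mul, RingHom.id_apply, smul_add, smul_smul]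
    congr 2
    ring

theorem hermReflLin_apply (σ : F →+* F) (B : V →ₛₗ[σ] V →ₗ[F] F) (w : V) (c : F) (x : V) :
    hermReflLin σ B w c x = x + (c * B w x) • w := rfl

theorem hermRefl_isom (σ : F →+* F) (B : V →ₛₗ[σ] V →ₗ[F] F) (hS : B.IsSymm) (w : V) (c : F)
    (hc : c + σ c + σ c * c * B w w = 0) (x y : V) :
    B (hermReflLin σ B w c x) (hermReflLin σ B w c y) = B x y := by
  rw [hermReflLin_apply, hermReflLin_apply]
  have e1 : B (x + (c * B w x) • w) = B x + σ (c * B w x) • B w := by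
    rw [map_add, map_smulₛₗ]
  rw [e1]
  simp only [LinearMap.add_apply, LinearMap.smul_apply, map_add, map_smul, map_mul, smul_eq_mul]
  rw [hS.eq w x]
  linear_combination (B x w * B w y) * hc

theorem hermRefl_inj (σ : F →+* F) (B : V →ₛₗ[σ] V →ₗ[F] F) (hS : B.IsSymm)
    (hB : B.Nondegenerate) (w : V) (c : F)
    (hc : c + σ c + σ c * c * B w w = 0) : Function.Injective (hermReflLin σ B w c) := by
  rw [← LinearMap.ker_eq_bot, LinearMap.ker_eq_bot']
  intro x hx
  apply hB.1 x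
  intro y
  rw [← hermRefl_isom σ B hS w c hc x y, hx, map_zero, LinearMap.zero_apply]

theorem herm_move1 [FiniteDimensional F V] (σ : F →+* F)
    (B : V →ₛₗ[σ] V →ₗ[F] F) (hS : B.IsSymm) (hB : B.Nondegenerate) (a b : V)
    (hab : B a a = B b b) (ht : B (a - b) a ≠ 0) :
    ∃ g : V ≃ₗ[F] V, (∀ u v, B (g u) (g v) = B u v) ∧ g a = b ∧
      ∀ s, B s a = B s b → g s = s := by
  obtain ⟨t, htdef⟩ : ∃ t, t = B (a - b) a := ⟨_, rfl⟩
  have ht0 : t ≠ 0 := by rw [htdef]; exact ht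
  have hσt : σ t = B a a - B a b := by
    rw [htdef, hS.eq, map_sub]
  have hσt0 : σ t ≠ 0 := by
    rw [Ne, map_eq_zero]; exact ht0
  have hww : B (a - b) (a - b) = t + σ t := by
    rw [hσt, htdef]
    simp only [map_sub, LinearMap.sub_apply]
    rw [← hab]
    ring
  have hc : (-t⁻¹) + σ (-t⁻¹) + σ (-t⁻¹) * (-t⁻¹) * B (a - b) (a - b) = 0 := by
    rw [hww, map_neg, map_inv₀]
    field_simp
    ring
  refine ⟨LinearEquiv.ofInjectiveEndo (hermReflLin σ B (a - b) (-t⁻¹))
    (hermRefl_inj σ B hS hB _ _ hc), ?_, ?_, ?_⟩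
  · intro u v
    rw [LinearEquiv.coe_ofInjectiveEndo]
    exact hermRefl_isom σ B hS _ _ hc u v
  · rw [LinearEquiv.coe_ofInjectiveEndo, hermReflLin_apply, ← htdef, neg_mul,
      inv_mul_cancel₀ ht0, neg_smul, one_smul]
    abel
  · intro s hs
    rw [LinearEquiv.coe_ofInjectiveEndo, hermReflLin_apply]
    have h1 : B (a - b) s = 0 := by
      rw [← hS.eq s (a - b), map_sub, hs, sub_self, map_zero]
    rw [h1, mul_zero, zero_smul, add_zero]

theorem herm_exists_perp [FiniteDimensional F V] (σ : F →+* F) (hσ2 : ∀ a : F, σ (σ a) = a)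
    (B : V →ₛₗ[σ] V →ₗ[F] F) (hB : B.Nondegenerate) {ι : Type*} [Fintype ι] [DecidableEq ι]
    (s : ι → V) (a : V)
    (ha : a ∉ Submodule.span F (Set.range s)) : ∃ z, (∀ j, B (s j) z = 0) ∧ B a z ≠ 0 := by
  by_contra hcon
  push Not at hcon
  let L : V →ₗ[F] (ι → F) := LinearMap.pi (fun j => B (s j))
  have hker : B a ∈ (LinearMap.ker L).dualAnnihilator := by
    rw [Submodule.mem_dualAnnihilator]
    intro z hz
    apply hcon z
    intro j
    have h3 := congrFun (LinearMap.mem_ker.mp hz) j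
    exact h3
  rw [← LinearMap.range_dualMap_eq_dualAnnihilator_ker] at hker
  obtain ⟨μ, hμ⟩ := hker
  have hμz : ∀ z, B a z = ∑ j, B (s j) z * μ (Pi.single j 1) := by
    intro z
    rw [← hμ, LinearMap.dualMap_apply, LinearMap.pi_apply_eq_sum_univ μ (L z)]
    refine Finset.sum_congr rfl fun j _ => ?_
    rw [smul_eq_mul]
    congr 2
    funext j'
    rw [Pi.single_apply]
    simp only [eq_comm]
  apply ha
  have h1 : a = ∑ j, σ (μ (Pi.single j 1)) • s j := by
    rw [← sub_eq_zero]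
    apply hB.1
    intro z
    rw [map_sub, LinearMap.sub_apply, map_sum, LinearMap.sum_apply, hμz z, sub_eq_zero]
    refine Finset.sum_congr rfl fun j _ => ?_
    rw [map_smulₛₗ, LinearMap.smul_apply, hσ2, smul_eq_mul, mul_comm]
  rw [h1]
  exact Submodule.sum_mem _ (fun j _ => Submodule.smul_mem _ _ (Submodule.subset_span ⟨j, rfl⟩))

theorem exists_trace_eq (σ : F →+* F) (hσ : σ ≠ RingHom.id F) (hσ2 : ∀ a : F, σ (σ a) = a)
    (κ : F) (hκ : σ κ = κ) : ∃ θ : F, θ ≠ 0 ∧ θ + σ θ = κ := by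
  obtain ⟨c₀, hc₀⟩ : ∃ c₀, σ c₀ ≠ c₀ := by
    by_contra hcon
    push Not at hcon
    exact hσ (RingHom.ext hcon)
  by_cases hκ0 : κ = 0
  · refine ⟨c₀ - σ c₀, sub_ne_zero.mpr (Ne.symm hc₀), ?_⟩
    rw [map_sub, hσ2, hκ0]; ring
  · obtain ⟨e, he⟩ : ∃ e : F, e + σ e ≠ 0 := by
      by_cases h2 : (2 : F) = 0
      · refine ⟨c₀, fun h => hc₀ ?_⟩
        linear_combination h - c₀ * h2
      · refine ⟨1, ?_⟩
        rw [map_one]
        intro h
        apply h2
        linear_combination h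
    have hτ : σ (e + σ e) = e + σ e := by rw [map_add, hσ2, add_comm]
    have he0 : e ≠ 0 := by
      rintro rfl
      apply he
      rw [map_zero, add_zero]
    refine ⟨κ * (e + σ e)⁻¹ * e, mul_ne_zero (mul_ne_zero hκ0 (inv_ne_zero he)) he0, ?_⟩
    rw [map_mul, map_mul, map_inv₀, hκ, hτ, ← mul_add, inv_mul_cancel_right₀ he]

theorem herm_move [FiniteDimensional F V] (σ : F →+* F) (hσ : σ ≠ RingHom.id F)
    (hσ2 : ∀ a : F, σ (σ a) = a)
    (B : V →ₛₗ[σ] V →ₗ[F] F) (hS : B.IsSymm) (hB : B.Nondegenerate)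
    {ι : Type*} [Fintype ι] [DecidableEq ι] (s : ι → V) (a b : V)
    (ha : a ∉ Submodule.span F (Set.range s)) (hb : b ∉ Submodule.span F (Set.range s))
    (hs : ∀ j, B (s j) a = B (s j) b) (hab : B a a = B b b) :
    ∃ g : V ≃ₗ[F] V, (∀ u v, B (g u) (g v) = B u v) ∧ g a = b ∧ ∀ j, g (s j) = s j := by
  by_cases ht : B (a - b) a = 0
  · obtain ⟨z₁, hz₁s, hz₁⟩ := herm_exists_perp σ hσ2 B hB s a ha
    obtain ⟨z₂, hz₂s, hz₂⟩ := herm_exists_perp σ hσ2 B hB s b hb
    obtain ⟨z₀, hz₀s, hz₀a, hz₀b⟩ : ∃ z, (∀ j, B (s j) z = 0) ∧ B a z ≠ 0 ∧ B b z ≠ 0 := by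
      by_cases h1 : B b z₁ = 0
      · by_cases h2 : B a z₂ = 0
        · refine ⟨z₁ + z₂, fun j => by rw [map_add, hz₁s j, hz₂s j, add_zero], ?_, ?_⟩
          · rw [map_add, h2, add_zero]; exact hz₁
          · rw [map_add, h1, zero_add]; exact hz₂
        · exact ⟨z₂, hz₂s, h2, hz₂⟩
      · exact ⟨z₁, hz₁s, hz₁, h1⟩
    obtain ⟨β, hβ⟩ : ∃ β, β = B a z₀ := ⟨_, rfl⟩
    obtain ⟨n₀, hn₀⟩ : ∃ n₀, n₀ = B z₀ z₀ := ⟨_, rfl⟩
    have hβ0 : β ≠ 0 := by rw [hβ]; exact hz₀a
    have hσβ0 : σ β ≠ 0 := by rw [Ne, map_eq_zero]; exact hβ0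
    have hσn : σ n₀ = n₀ := by rw [hn₀]; exact hS.eq z₀ z₀
    obtain ⟨θ, hθ0, hθ⟩ := exists_trace_eq σ hσ hσ2 (-(n₀ / (β * σ β))) (by
      rw [map_neg, map_div₀, map_mul, hσ2, hσn, mul_comm])
    have hσθ0 : σ θ ≠ 0 := by rw [Ne, map_eq_zero]; exact hθ0
    obtain ⟨lam, hlam⟩ : ∃ lam, lam = (θ * β)⁻¹ := ⟨_, rfl⟩
    have hlam0 : lam ≠ 0 := by rw [hlam]; exact inv_ne_zero (mul_ne_zero hθ0 hβ0)
    have hσlam0 : σ lam ≠ 0 := by rw [Ne, map_eq_zero]; exact hlam0
    obtain ⟨z, hz⟩ : ∃ z, z = lam • z₀ := ⟨_, rfl⟩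
    have hzs : ∀ j, B (s j) z = 0 := by
      intro j; rw [hz, map_smul, hz₀s j, smul_zero]
    have haz : B a z = lam * β := by rw [hz, map_smul, smul_eq_mul, hβ]
    have hza : B z a = σ lam * σ β := by rw [← hS.eq a z, haz, map_mul]
    have hbz : B b z ≠ 0 := by
      rw [hz, map_smul, smul_eq_mul]; exact mul_ne_zero hlam0 hz₀b
    have hzz : B z z = σ lam * lam * n₀ := by
      have e1 : B (lam • z₀) = σ lam • B z₀ := map_smulₛₗ B lam z₀
      rw [hz, e1, LinearMap.smul_apply, map_smul, smul_eq_mul, smul_eq_mul, hn₀]; ring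
    have hnorm : B z z + B a z + B z a = 0 := by
      rw [hzz, haz, hza, hlam, map_inv₀, map_mul]
      have hθ' : (θ + σ θ) * (β * σ β) = -n₀ := by rw [hθ]; field_simp
      field_simp
      linear_combination hθ'
    have hm_norm : B (a + z) (a + z) = B a a := by
      simp only [map_add, LinearMap.add_apply]
      linear_combination hnorm
    obtain ⟨g₁, hg₁, hg₁a, hg₁s⟩ := herm_move1 σ B hS hB a (a + z) hm_norm.symm (by
      have h5 : a - (a + z) = -z := by abel
      rw [h5, map_neg, LinearMap.neg_apply, hza]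
      exact neg_ne_zero.mpr (mul_ne_zero hσlam0 hσβ0))
    obtain ⟨g₂, hg₂, hg₂a, hg₂s⟩ := herm_move1 σ B hS hB (a + z) b (hm_norm.trans hab) (by
      have e : B (a + z - b) (a + z) = - B b z := by
        simp only [map_add, map_sub, LinearMap.add_apply, LinearMap.sub_apply] at ht ⊢
        linear_combination ht + hnorm
      rw [e]; exact neg_ne_zero.mpr hbz)
    refine ⟨g₁.trans g₂, fun u v => ?_, ?_, ?_⟩
    · rw [LinearEquiv.trans_apply, LinearEquiv.trans_apply, hg₂, hg₁]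
    · rw [LinearEquiv.trans_apply, hg₁a, hg₂a]
    · intro j
      rw [LinearEquiv.trans_apply, hg₁s (s j) (by rw [map_add, hzs j, add_zero]),
        hg₂s (s j) (by rw [map_add, hzs j, add_zero]; exact hs j)]
  · obtain ⟨g, hg, hga, hgs⟩ := herm_move1 σ B hS hB a b hab ht
    exact ⟨g, hg, hga, fun j => hgs _ (hs j)⟩

theorem herm_witt [FiniteDimensional F V] (σ : F →+* F) (hσ : σ ≠ RingHom.id F)
    (hσ2 : ∀ a : F, σ (σ a) = a) (B : V →ₛₗ[σ] V →ₗ[F] F) (hS : B.IsSymm)
    (hB : B.Nondegenerate) (X Y : Submodule F V) (φ : X ≃ₗ[F] Y)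
    (hφ : ∀ x x' : X, B (φ x : V) (φ x' : V) = B (x : V) (x' : V)) :
    ∃ g : V ≃ₗ[F] V, (∀ u v : V, B (g u) (g v) = B u v) ∧ ∀ x : X, g (x : V) = (φ x : V) := by
  classical
  obtain ⟨k, ⟨bX⟩⟩ : ∃ k, Nonempty (Module.Basis (Fin k) F X) := ⟨_, ⟨Module.finBasis F X⟩⟩
  have hliX : LinearIndependent F (fun j : Fin k => (bX j : V)) :=
    bX.linearIndependent.map' X.subtype (Submodule.ker_subtype X)
  have hliY : LinearIndependent F (fun j : Fin k => (φ (bX j) : V)) :=
    bX.linearIndependent.map' (Y.subtype.comp φ.toLinearMap)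
      (LinearMap.ker_eq_bot.mpr ((Submodule.injective_subtype Y).comp φ.injective))
  have key : ∀ i ≤ k, ∃ g : V ≃ₗ[F] V, (∀ u v : V, B (g u) (g v) = B u v) ∧
      ∀ j : Fin k, (j : ℕ) < i → g (bX j : V) = (φ (bX j) : V) := by
    intro i
    induction i with
    | zero =>
      intro _
      exact ⟨LinearEquiv.refl F V, fun u v => rfl, fun j hj => absurd hj (Nat.not_lt_zero _)⟩
    | succ i ih =>
      intro hi
      obtain ⟨g, hg, hgj⟩ := ih (by omega)
      obtain ⟨W, hWdef⟩ : ∃ W : Submodule F V, W = Submodule.span F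
          ((fun j : Fin k => (bX j : V)) '' {j | (j : ℕ) < i}) := ⟨_, rfl⟩
      obtain ⟨ii, hii⟩ : ∃ ii : Fin k, (ii : ℕ) = i := ⟨⟨i, by omega⟩, rfl⟩
      obtain ⟨a, ha⟩ : ∃ a : V, a = (bX ii : V) := ⟨_, rfl⟩
      obtain ⟨b, hb⟩ : ∃ b : V, b = g.symm (φ (bX ii) : V) := ⟨_, rfl⟩
      have hgb : g b = (φ (bX ii) : V) := by rw [hb, LinearEquiv.apply_symm_apply]
      have hii_not : ii ∉ {j : Fin k | (j : ℕ) < i} := by
        intro h
        rw [Set.mem_setOf_eq, hii] at h
        omega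
      have haW : a ∉ W := by
        rw [ha, hWdef]
        exact hliX.notMem_span_image hii_not
      have hbW : b ∉ W := by
        intro hbW
        have h1 : g b ∈ Submodule.span F
            ((fun j : Fin k => (φ (bX j) : V)) '' {j | (j : ℕ) < i}) := by
          rw [hWdef] at hbW
          refine Submodule.span_induction (p := fun s _ => g s ∈ Submodule.span F
            ((fun j : Fin k => (φ (bX j) : V)) '' {j | (j : ℕ) < i})) ?_ ?_ ?_ ?_ hbW
          · rintro _ ⟨j, hj, rfl⟩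
            rw [hgj j hj]
            exact Submodule.subset_span ⟨j, hj, rfl⟩
          · rw [map_zero]; exact Submodule.zero_mem _
          · intro x y _ _ hx hy
            rw [map_add]; exact Submodule.add_mem _ hx hy
          · intro c x _ hx
            rw [map_smul]; exact Submodule.smul_mem _ c hx
        rw [hgb] at h1
        exact hliY.notMem_span_image hii_not h1
      obtain ⟨s, hsdef⟩ : ∃ s : Fin k → V,
          s = fun j : Fin k => if (j : ℕ) < i then (bX j : V) else 0 := ⟨_, rfl⟩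
      have hsW : Submodule.span F (Set.range s) ≤ W := by
        rw [Submodule.span_le]
        rintro _ ⟨j, rfl⟩
        rw [hsdef]
        dsimp only
        split_ifs with hj
        · rw [hWdef]; exact Submodule.subset_span ⟨j, hj, rfl⟩
        · exact Submodule.zero_mem _
      have hsfix : ∀ j, B (s j) a = B (s j) b := by
        intro j
        rw [hsdef]
        dsimp only
        split_ifs with hj
        · rw [← hg (bX j : V) b, hgj j hj, hgb, hφ, ha]
        · rw [map_zero, LinearMap.zero_apply, LinearMap.zero_apply]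
      have hnorm : B a a = B b b := by
        rw [← hg b b, hgb, hφ, ha]
      obtain ⟨h, hh, hha, hhs⟩ := herm_move σ hσ hσ2 B hS hB s a b
        (fun h' => haW (hsW h')) (fun h' => hbW (hsW h')) hsfix hnorm
      refine ⟨h.trans g, fun u v => by
        rw [LinearEquiv.trans_apply, LinearEquiv.trans_apply, hg, hh], ?_⟩
      intro j hj
      rw [LinearEquiv.trans_apply]
      by_cases hji : (j : ℕ) < i
      · have h6 := hhs j
        rw [hsdef] at h6
        simp only [if_pos hji] at h6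
        rw [h6, hgj j hji]
      · have hjii : j = ii := Fin.ext (by rw [hii]; omega)
        rw [hjii, ← ha, hha, hgb]
  obtain ⟨g, hg, hgj⟩ := key k le_rfl
  refine ⟨g, hg, ?_⟩
  have hlin : (g : V →ₗ[F] V).comp X.subtype = Y.subtype.comp (φ : X →ₗ[F] Y) := by
    apply bX.ext
    intro j
    simp only [LinearMap.comp_apply, Submodule.subtype_apply, LinearEquiv.coe_coe]
    exact hgj j j.2
  intro x
  have h5 := congrArg (fun f : X →ₗ[F] V => f x) hlin
  simpa using h5

end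

end Cfsg.Agent.Lib.Helper4
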