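import Mathlib

namespace Cfsg.Agent.Lib.Helper4

open Polynomial

/-- Auxiliary polynomials for the fixed vector argument. -/
noncomputable def langPoly {K : Type*} [Field K] (q : ℕ) (a : ℕ → K) : ℕ → K[X]
  | 0 => C (a 0) * X
  | (i+1) => (langPoly q a i) ^ q + C (a (i+1)) * X

theorem X_dvd_langPoly {K : Type*} [Field K] (q : ℕ) (hq : 1 ≤ q) (a : ℕ → K) (i : ℕ) :
    X ∣ langPoly q a i := by
  induction i with
  | zero => exact Dvd.intro_left _ rfl
  | succ i ih =>
    show X ∣ (langPoly q a i) ^ q + C (a (i+1)) * X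
    exact dvd_add (dvd_pow ih (by omega)) (Dvd.intro_left _ rfl)

theorem langPoly_eq_zero {K : Type*} [Field K] (q : ℕ) (hq : 2 ≤ q) (a : ℕ → K) (i : ℕ)
    (h : langPoly q a i = 0) : ∀ j ≤ i, a j = 0 := by
  induction i with
  | zero =>
    intro j hj
    have h1 : C (a 0) * X = 0 := h
    have h2 := congrArg (fun P => P.coeff 1) h1
    simp only [coeff_C_mul, coeff_X_one, mul_one, coeff_zero] at h2
    have : j = 0 := by omega
    rw [this]; exact h2
  | succ i ih =>
    have h1 : (langPoly q a i) ^ q + C (a (i+1)) * X = 0 := h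
    obtain ⟨R, hR⟩ := X_dvd_langPoly q (by omega) a i
    have h3 : ((langPoly q a i) ^ q).coeff 1 = 0 := by
      rw [hR, mul_pow]
      obtain ⟨q', rfl⟩ : ∃ q', q = q' + 2 := ⟨q - 2, by omega⟩
      rw [pow_add, mul_assoc, mul_comm (X ^ q'), mul_assoc, coeff_X_pow_mul']
      simp
    have h2 : a (i+1) = 0 := by
      have h4 := congrArg (fun P => P.coeff 1) h1
      simp only [coeff_add, coeff_C_mul, coeff_X_one, mul_one, coeff_zero, h3, zero_add] at h4
      exact h4
    have h5 : langPoly q a i = 0 := by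
      rw [h2] at h1
      simp only [map_zero, zero_mul, add_zero] at h1
      exact pow_eq_zero_iff (by omega) |>.mp h1
    intro j hj
    rcases Nat.lt_or_ge j (i+1) with h6 | h6
    · exact ih h5 j (by omega)
    · have : j = i + 1 := by omega
      rw [this]; exact h2

theorem langPoly_exists_root {K : Type*} [Field K] [IsAlgClosed K] (q : ℕ) (hq : 2 ≤ q)
    (P : K[X]) (hP : P ≠ 0) (hX : X ∣ P) : ∃ t : K, t ≠ 0 ∧ (P.eval t) ^ q = t := by
  obtain ⟨R, rfl⟩ := hX
  have hR : R ≠ 0 := by
    rintro rfl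
    simp at hP
  obtain ⟨q', rfl⟩ : ∃ q', q = q' + 1 := ⟨q - 1, by omega⟩
  have hq' : 1 ≤ q' := by omega
  have hdeg : (1 : K[X]).degree < (X ^ q' * R ^ (q' + 1)).degree := by
    rw [degree_one, degree_mul, degree_X_pow, degree_pow]
    have h1 : (0 : WithBot ℕ) ≤ R.degree := zero_le_degree_iff.mpr hR
    have h2 : (0 : WithBot ℕ) ≤ (q' + 1) • R.degree := by
      exact nsmul_nonneg h1 _
    have h3 : (0 : WithBot ℕ) < (q' : WithBot ℕ) := by
      exact_mod_cast hq'
    calc (0 : WithBot ℕ) < (q' : WithBot ℕ) := h3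
      _ = (q' : WithBot ℕ) + 0 := by simp
      _ ≤ (q' : WithBot ℕ) + (q' + 1) • R.degree := by gcongr
  have hS : (X ^ q' * R ^ (q' + 1) - 1 : K[X]).degree ≠ 0 := by
    rw [degree_sub_eq_left_of_degree_lt hdeg]
    rw [degree_one] at hdeg
    exact ne_of_gt hdeg
  obtain ⟨t, ht⟩ := IsAlgClosed.exists_root _ hS
  have ht' : t ^ q' * (R.eval t) ^ (q' + 1) = 1 := by
    have := ht
    simp only [IsRoot.def, eval_sub, eval_mul, eval_pow, eval_X, eval_one] at this
    exact sub_eq_zero.mp this
  refine ⟨t, ?_, ?_⟩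
  · rintro rfl
    rw [zero_pow (by omega), zero_mul] at ht'
    exact zero_ne_one ht'
  · simp only [eval_mul, eval_X]
    rw [mul_pow, pow_succ t q']
    linear_combination t * ht'

/-- An injective Frobenius-semilinear endomorphism of a nonzero finite-dimensional space over an
algebraically closed field has a nonzero fixed vector. -/
theorem semilinear_fixed_vector {K : Type*} [Field K] [IsAlgClosed K] (q : ℕ) (hq : 2 ≤ q)
    (φ : K →+* K) (hφ : ∀ x, φ x = x ^ q)
    {V : Type*} [AddCommGroup V] [Module K V] [FiniteDimensional K V] [Nontrivial V]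
    (T : V →ₛₗ[φ] V) (hT : Function.Injective T) : ∃ v : V, v ≠ 0 ∧ T v = v := by
  classical
  obtain ⟨w, hw⟩ := exists_ne (0 : V)
  have hex : ∃ m, ¬ LinearIndependent K (fun i : Fin (m+1) => (⇑T)^[(i : ℕ)] w) := by
    refine ⟨Module.finrank K V, fun h => ?_⟩
    have := h.fintype_card_le_finrank
    simp at this
  obtain ⟨m, hm, hmin⟩ : ∃ m, ¬ LinearIndependent K (fun i : Fin (m+1) => (⇑T)^[(i : ℕ)] w) ∧
      ∀ k < m, LinearIndependent K (fun i : Fin (k+1) => (⇑T)^[(i : ℕ)] w) :=
    ⟨Nat.find hex, Nat.find_spec hex, fun k hk => not_not.mp (Nat.find_min hex hk)⟩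
  have hLI : LinearIndependent K (fun i : Fin m => (⇑T)^[(i : ℕ)] w) := by
    rcases m with _ | k
    · exact linearIndependent_empty_type
    · exact hmin k (by omega)
  have hmem : (⇑T)^[m] w ∈ Submodule.span K (Set.range (fun i : Fin m => (⇑T)^[(i : ℕ)] w)) := by
    by_contra h
    apply hm
    have h1 : (fun i : Fin (m+1) => (⇑T)^[(i : ℕ)] w)
        = Fin.snoc (fun i : Fin m => (⇑T)^[(i : ℕ)] w) ((⇑T)^[m] w) := by
      ext i
      refine Fin.lastCases ?_ (fun j => ?_) i
      · simp
      · simp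
    rw [h1]
    exact linearIndependent_finSnoc.mpr ⟨hLI, h⟩
  obtain ⟨a, ha⟩ := (Submodule.mem_span_range_iff_exists_fun K).mp hmem
  have hT0 : ∀ k, (⇑T)^[k] w ≠ 0 := by
    intro k h
    have h1 : (⇑T)^[k] w = (⇑T)^[k] 0 := by
      rw [h, Function.iterate_fixed (map_zero T) k]
    exact hw (hT.iterate k h1)
  obtain ⟨m', rfl⟩ : ∃ m', m = m' + 1 := by
    rcases m with _ | k
    · exfalso
      simp at ha
      exact hw ha.symm
    · exact ⟨k, rfl⟩
  obtain ⟨a', ha'⟩ : ∃ a' : ℕ → K, a' = fun i => if h : i < m' + 1 then a ⟨i, h⟩ else 0 := ⟨_, rfl⟩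
  have hsum : ∑ i ∈ Finset.range (m' + 1), a' i • (⇑T)^[i] w = (⇑T)^[m' + 1] w := by
    rw [Finset.sum_range, ← ha]
    refine Finset.sum_congr rfl (fun i _ => ?_)
    rw [ha']
    simp only [dif_pos i.2, Fin.eta]
  have hP : langPoly q a' m' ≠ 0 := by
    intro h
    have h1 := langPoly_eq_zero q hq a' m' h
    apply hT0 (m' + 1)
    rw [← hsum]
    refine Finset.sum_eq_zero (fun i hi => ?_)
    rw [h1 i (by simpa [Nat.lt_succ_iff] using hi), zero_smul]
  obtain ⟨t, ht0, ht⟩ := langPoly_exists_root q hq _ hP (X_dvd_langPoly q (by omega) a' m')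
  obtain ⟨c, hc⟩ : ∃ c : ℕ → K, c = fun i => (langPoly q a' i).eval t := ⟨_, rfl⟩
  have hc0 : c 0 = a' 0 * t := by
    rw [hc]; simp [langPoly]
  have hcs : ∀ i, c (i+1) = (c i) ^ q + a' (i+1) * t := by
    intro i
    rw [hc]; simp [langPoly]
  have hcm : (c m') ^ q = t := by
    rw [hc]; exact ht
  refine ⟨∑ i ∈ Finset.range (m' + 1), c i • (⇑T)^[i] w, ?_, ?_⟩
  · intro h0
    rw [Finset.sum_range] at h0
    have h1 := Fintype.linearIndependent_iff.mp hLI (fun i => c i) h0 ⟨m', by omega⟩
    simp only at h1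
    rw [h1, zero_pow (by omega)] at hcm
    exact ht0 hcm.symm
  · rw [map_sum]
    have h1 : ∀ i ∈ Finset.range (m' + 1), T (c i • (⇑T)^[i] w) = (c i) ^ q • (⇑T)^[i+1] w := by
      intro i _
      rw [map_smulₛₗ, hφ, Function.iterate_succ_apply']
    rw [Finset.sum_congr rfl h1, Finset.sum_range_succ, hcm, ← hsum, Finset.sum_range_succ' _ m',
      Finset.sum_range_succ' _ m', hc0]
    simp only [hcs, add_smul, Finset.sum_add_distrib, Finset.smul_sum, smul_add, smul_smul,
      Function.iterate_zero, id_eq]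
    have h2 : ∀ i, t * a' (i + 1) = a' (i + 1) * t := fun i => mul_comm _ _
    simp only [h2, mul_comm t (a' 0)]
    abel

/-- The fixed vectors of an injective Frobenius-semilinear endomorphism span the space. -/
theorem semilinear_fixed_span {K : Type*} [Field K] [IsAlgClosed K] (q : ℕ) (hq : 2 ≤ q)
    (φ : K →+* K) (hφ : ∀ x, φ x = x ^ q)
    {V : Type*} [AddCommGroup V] [Module K V] [FiniteDimensional K V]
    (T : V →ₛₗ[φ] V) (hT : Function.Injective T) :
    Submodule.span K {v : V | T v = v} = ⊤ := by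
  classical
  obtain ⟨U, hU⟩ : ∃ U : Submodule K V, U = Submodule.span K {v : V | T v = v} := ⟨_, rfl⟩
  rw [← hU]
  have hfix : ∀ v : V, T v = v → v ∈ U := by
    intro v hv
    rw [hU]
    exact Submodule.subset_span hv
  have hTU : ∀ u ∈ U, T u ∈ U := by
    intro u hu
    rw [hU] at hu
    induction hu using Submodule.span_induction with
    | mem x hx =>
      have hx' : T x = x := hx
      rw [hx']; exact hfix x hx
    | zero => rw [map_zero]; exact U.zero_mem
    | add x y _ _ ihx ihy => rw [map_add]; exact U.add_mem ihx ihy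
    | smul c x _ ihx => rw [map_smulₛₗ]; exact U.smul_mem _ ihx
  have hsurj : ∀ b ∈ U, ∃ u ∈ U, T u = b := by
    intro b hb
    rw [hU] at hb
    induction hb using Submodule.span_induction with
    | mem x hx => exact ⟨x, hfix x hx, hx⟩
    | zero => exact ⟨0, U.zero_mem, map_zero T⟩
    | add x y _ _ ihx ihy =>
      obtain ⟨u, hu, hu'⟩ := ihx
      obtain ⟨u2, hu2, hu2'⟩ := ihy
      exact ⟨u + u2, U.add_mem hu hu2, by rw [map_add, hu', hu2']⟩
    | smul c x _ ihx =>
      obtain ⟨u, hu, hu'⟩ := ihx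
      obtain ⟨d, hd⟩ := IsAlgClosed.exists_pow_nat_eq c (n := q) (by omega)
      exact ⟨d • u, U.smul_mem _ hu, by rw [map_smulₛₗ, hφ, hd, hu']⟩
  have hAS : ∀ b ∈ U, ∀ c : K, ∃ u ∈ U, T u - u = c • b := by
    intro b hb
    rw [hU] at hb
    induction hb using Submodule.span_induction with
    | mem x hx =>
      intro c
      have hx' : T x = x := hx
      have hdeg : (X ^ q - X - C c : K[X]).degree ≠ 0 := by
        have h1 : (X ^ q - X - C c : K[X]).degree = q := by
          rw [sub_sub]
          rw [degree_sub_eq_left_of_degree_lt, degree_X_pow]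
          rw [degree_X_pow]
          refine lt_of_le_of_lt (degree_add_le _ _) ?_
          rw [max_lt_iff]
          refine ⟨?_, ?_⟩
          · rw [degree_X]; exact_mod_cast (by omega : 1 < q)
          · refine lt_of_le_of_lt degree_C_le ?_
            exact_mod_cast (by omega : 0 < q)
        rw [h1]
        exact_mod_cast (by omega : q ≠ 0)
      obtain ⟨d, hd⟩ := IsAlgClosed.exists_root _ hdeg
      have hd' : d ^ q - d = c := by
        have := hd
        simp only [IsRoot.def, eval_sub, eval_pow, eval_X, eval_C] at this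
        exact sub_eq_zero.mp this
      refine ⟨d • x, U.smul_mem _ (hfix x hx), ?_⟩
      rw [map_smulₛₗ, hφ, hx', ← sub_smul, hd']
    | zero => intro c; exact ⟨0, U.zero_mem, by simp⟩
    | add x y _ _ ihx ihy =>
      intro c
      obtain ⟨u, hu, hu'⟩ := ihx c
      obtain ⟨u2, hu2, hu2'⟩ := ihy c
      refine ⟨u + u2, U.add_mem hu hu2, ?_⟩
      rw [map_add, smul_add, ← hu', ← hu2']
      abel
    | smul a x _ ihx =>
      intro c
      obtain ⟨u, hu, hu'⟩ := ihx (c * a)
      exact ⟨u, hu, by rw [hu', mul_smul]⟩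
  by_contra hne
  haveI : Nontrivial (V ⧸ U) := Submodule.Quotient.nontrivial_iff.mpr hne
  have hle : U ≤ Submodule.comap T U := fun u hu => hTU u hu
  have hinj : Function.Injective (U.mapQ U T hle) := by
    rw [injective_iff_map_eq_zero]
    intro x hx
    induction x using Submodule.Quotient.induction_on with
    | H v =>
      rw [Submodule.mapQ_apply, Submodule.Quotient.mk_eq_zero] at hx
      obtain ⟨u, hu, hu'⟩ := hsurj _ hx
      have : u = v := hT hu'
      rw [Submodule.Quotient.mk_eq_zero, ← this]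
      exact hu
  obtain ⟨x, hx0, hx⟩ := semilinear_fixed_vector q hq φ hφ (U.mapQ U T hle) hinj
  induction x using Submodule.Quotient.induction_on with
  | H v =>
    rw [Submodule.mapQ_apply, Submodule.Quotient.eq] at hx
    obtain ⟨u, hu, hu'⟩ := hAS _ hx (-1)
    apply hx0
    rw [Submodule.Quotient.mk_eq_zero]
    have h1 : T (v + u) = v + u := by
      rw [map_add]
      have : T u = u + (-1 : K) • (T v - v) := by rw [← hu']; abel
      rw [this, neg_one_smul]
      abel
    have h2 := U.sub_mem (hfix _ h1) hu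
    simpa using h2

/-- Lang–Steinberg for `GL_n` over an algebraically closed field, for a ring endomorphism that is
the `q`-power map with `q ≥ 2`. -/
theorem lang_steinberg_gl {K : Type*} [Field K] [IsAlgClosed K] (q : ℕ) (hq : 2 ≤ q)
    (φ : K →+* K) (hφ : ∀ x, φ x = x ^ q) (n : ℕ) (g : GL (Fin n) K) :
    ∃ x : GL (Fin n) K, g = x * (Matrix.GeneralLinearGroup.map φ x)⁻¹ := by
  classical
  obtain ⟨T, hTdef⟩ : ∃ T : (Fin n → K) →ₛₗ[φ] (Fin n → K),
      ∀ v, T v = g.1.mulVec (fun i => φ (v i)) := by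
    refine ⟨{ toFun := fun v => g.1.mulVec (fun i => φ (v i)), map_add' := ?_, map_smul' := ?_ },
      fun v => rfl⟩
    · intro v w
      have : (fun i => φ ((v + w) i)) = (fun i => φ (v i)) + (fun i => φ (w i)) := by
        funext i; simp
      rw [this, Matrix.mulVec_add]
    · intro c v
      have : (fun i => φ ((c • v) i)) = φ c • (fun i => φ (v i)) := by
        funext i; simp
      rw [this, Matrix.mulVec_smul]
  have hT : Function.Injective T := by
    intro v w hvw
    rw [hTdef, hTdef] at hvw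
    have h1 := congrArg (fun u => (g⁻¹).1.mulVec u) hvw
    simp only [Matrix.mulVec_mulVec] at h1
    have h2 : (g⁻¹).1 * g.1 = 1 := by
      rw [← Units.val_mul, inv_mul_cancel, Units.val_one]
    rw [h2, Matrix.one_mulVec, Matrix.one_mulVec] at h1
    funext i
    exact φ.injective (congrFun h1 i)
  have hspan := semilinear_fixed_span q hq φ hφ T hT
  obtain ⟨b, hbs, hb, hli⟩ := exists_linearIndependent K {v : Fin n → K | T v = v}
  have htop : ⊤ ≤ Submodule.span K (Set.range (Subtype.val : b → (Fin n → K))) := by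
    rw [Subtype.range_coe, hb, hspan]
  obtain ⟨e⟩ : Nonempty (b ≃ Fin n) :=
    ⟨(Module.Basis.mk hli htop).indexEquiv (Pi.basisFun K (Fin n))⟩
  obtain ⟨x₀, hx₀⟩ : ∃ x₀ : Matrix (Fin n) (Fin n) K,
      x₀ = Matrix.of (fun i j => (e.symm j : Fin n → K) i) := ⟨_, rfl⟩
  have hunit : IsUnit x₀ := by
    rw [← Matrix.linearIndependent_cols_iff_isUnit]
    have h1 : x₀.col = fun j => (e.symm j : Fin n → K) := by
      funext j i
      rw [hx₀]
      rfl
    rw [h1]
    exact hli.comp _ e.symm.injective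
  have hfix : g.1 * x₀.map φ = x₀ := by
    ext i j
    have h1 : T (e.symm j : Fin n → K) = (e.symm j : Fin n → K) := hbs (e.symm j).2
    have h2 := congrFun h1 i
    rw [hTdef] at h2
    rw [Matrix.mul_apply]
    rw [hx₀]
    simp only [Matrix.map_apply, Matrix.of_apply]
    exact h2
  refine ⟨hunit.unit, ?_⟩
  rw [eq_mul_inv_iff_mul_eq]
  apply Units.ext
  rw [Units.val_mul]
  have h3 : (Matrix.GeneralLinearGroup.map φ hunit.unit).1 = x₀.map φ := by
    ext i j
    rw [Matrix.GeneralLinearGroup.map_apply]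
    rfl
  rw [h3, hfix]
  rfl

end Cfsg.Agent.Lib.Helper4
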