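import Mathlib
import Cfsg.Agent.Lib.Lead.SLGen

set_option autoImplicit false

namespace Cfsg.Agent.Lib.Helper4

open Matrix Matrix.SpecialLinearGroup

section

variable {K : Type*} [Field K] {n : ℕ}

/-- The monomial matrix of the `(n+1)`-cycle, with last entry `(-1)^n`. -/
def cycW (n : ℕ) (K : Type*) [Field K] : Matrix (Fin (n + 1)) (Fin (n + 1)) K :=
  Matrix.of (fun i j => if j.val = i.val + 1 then 1 else
    if i.val = n ∧ j.val = 0 then (-1) ^ n else 0)

theorem cycW_apply (i j : Fin (n + 1)) :
    cycW n K i j = if j.val = i.val + 1 then 1 else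
      if i.val = n ∧ j.val = 0 then (-1) ^ n else 0 := rfl

theorem cycW_conjA (i j i' j' : Fin (n + 1)) (hi : i.val = i'.val + 1)
    (hj : j.val = j'.val + 1) (c : K) :
    cycW n K * (1 + Matrix.single i j c) = (1 + Matrix.single i' j' c) * cycW n K := by
  rw [mul_add, add_mul, mul_one, one_mul]
  congr 1
  ext a b
  by_cases hb : b = j
  · subst hb
    rw [Matrix.mul_single_apply_same]
    by_cases ha : a = i'
    · subst ha
      rw [Matrix.single_mul_apply_same]
      have h1 : cycW n K a i = 1 := by rw [cycW_apply, if_pos hi]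
      have h2 : cycW n K j' b = 1 := by rw [cycW_apply, if_pos hj]
      rw [h1, h2, one_mul, mul_one]
    · rw [Matrix.single_mul_apply_of_ne _ _ _ _ _ ha]
      have h1 : cycW n K a i = 0 := by
        have h3 : ¬ (i.val = a.val + 1) := fun h => ha (Fin.ext (by omega))
        have h4 : ¬ (a.val = n ∧ i.val = 0) := fun h => by omega
        rw [cycW_apply, if_neg h3, if_neg h4]
      rw [h1, zero_mul]
  · rw [Matrix.mul_single_apply_of_ne _ _ _ _ _ hb]
    by_cases ha : a = i'
    · subst ha
      rw [Matrix.single_mul_apply_same]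
      have h2 : cycW n K j' b = 0 := by
        have h3 : ¬ (b.val = j'.val + 1) := fun h => hb (Fin.ext (by omega))
        have h4 : ¬ (j'.val = n ∧ b.val = 0) := fun h => by have := j.isLt; omega
        rw [cycW_apply, if_neg h3, if_neg h4]
      rw [h2, mul_zero]
    · rw [Matrix.single_mul_apply_of_ne _ _ _ _ _ ha]

theorem cycW_conjB (i j i' j' : Fin (n + 1)) (hi : i.val = 0) (hi' : i'.val = n)
    (hj : j.val = j'.val + 1) (c : K) :
    cycW n K * (1 + Matrix.single i j c)
      = (1 + Matrix.single i' j' ((-1) ^ n * c)) * cycW n K := by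
  rw [mul_add, add_mul, mul_one, one_mul]
  congr 1
  ext a b
  by_cases hb : b = j
  · subst hb
    rw [Matrix.mul_single_apply_same]
    by_cases ha : a = i'
    · subst ha
      rw [Matrix.single_mul_apply_same]
      have h1 : cycW n K a i = (-1) ^ n := by
        have h3 : ¬ (i.val = a.val + 1) := fun h => by omega
        rw [cycW_apply, if_neg h3, if_pos ⟨hi', hi⟩]
      have h2 : cycW n K j' b = 1 := by rw [cycW_apply, if_pos hj]
      rw [h1, h2, mul_one]
    · rw [Matrix.single_mul_apply_of_ne _ _ _ _ _ ha]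
      have h1 : cycW n K a i = 0 := by
        have h3 : ¬ (i.val = a.val + 1) := fun h => by omega
        have h4 : ¬ (a.val = n ∧ i.val = 0) := fun h => ha (Fin.ext (by omega))
        rw [cycW_apply, if_neg h3, if_neg h4]
      rw [h1, zero_mul]
  · rw [Matrix.mul_single_apply_of_ne _ _ _ _ _ hb]
    by_cases ha : a = i'
    · subst ha
      rw [Matrix.single_mul_apply_same]
      have h2 : cycW n K j' b = 0 := by
        have h3 : ¬ (b.val = j'.val + 1) := fun h => hb (Fin.ext (by omega))
        have h4 : ¬ (j'.val = n ∧ b.val = 0) := fun h => by have := j.isLt; omega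
        rw [cycW_apply, if_neg h3, if_neg h4]
      rw [h2, mul_zero]
    · rw [Matrix.single_mul_apply_of_ne _ _ _ _ _ ha]

theorem sl_conjA (w : SpecialLinearGroup (Fin (n + 1)) K) (hw : w.1 = cycW n K)
    (i j i' j' : Fin (n + 1)) (hij : i ≠ j) (hij' : i' ≠ j') (hi : i.val = i'.val + 1)
    (hj : j.val = j'.val + 1) (c : K) :
    w * transvection hij c = transvection hij' c * w := by
  apply Subtype.ext
  show w.1 * (transvection hij c).1 = (transvection hij' c).1 * w.1
  rw [hw]
  exact cycW_conjA i j i' j' hi hj c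

theorem sl_conjB (w : SpecialLinearGroup (Fin (n + 1)) K) (hw : w.1 = cycW n K)
    (i j i' j' : Fin (n + 1)) (hij : i ≠ j) (hij' : i' ≠ j') (hi : i.val = 0)
    (hi' : i'.val = n) (hj : j.val = j'.val + 1) (c : K) :
    w * transvection hij c = transvection hij' ((-1) ^ n * c) * w := by
  apply Subtype.ext
  show w.1 * (transvection hij c).1 = (transvection hij' ((-1) ^ n * c)).1 * w.1
  rw [hw]
  exact cycW_conjB i j i' j' hi hi' hj c

theorem small_field_cases [Fintype K] (hK : Fintype.card K ≤ 3) (c : K) :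
    c = 0 ∨ c = 1 ∨ c = -1 := by
  by_cases hc : c = 0
  · exact Or.inl hc
  right
  have h1 := FiniteField.pow_card_sub_one_eq_one c hc
  have h2 : 1 < Fintype.card K := Fintype.one_lt_card
  have h3 : Fintype.card K = 2 ∨ Fintype.card K = 3 := by omega
  rcases h3 with h3 | h3
  · rw [h3] at h1
    left
    simpa using h1
  · rw [h3] at h1
    have h5 : c ^ 2 = 1 := by simpa using h1
    have h4 : (c - 1) * (c + 1) = 0 := by linear_combination h5
    rcases mul_eq_zero.1 h4 with h | h
    · exact Or.inl (sub_eq_zero.1 h)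
    · exact Or.inr (eq_neg_of_add_eq_zero_left h)

/-- All transvections in position `(i, j)` lie in `H`. -/
def GoodPair (H : Subgroup (SpecialLinearGroup (Fin (n + 1)) K)) (i j : Fin (n + 1)) : Prop :=
  ∀ (h : i ≠ j) (c : K), transvection h c ∈ H

theorem good_of_one [Fintype K] (hK : Fintype.card K ≤ 3)
    (H : Subgroup (SpecialLinearGroup (Fin (n + 1)) K)) (i j : Fin (n + 1)) (hij : i ≠ j)
    (h1 : transvection hij (1 : K) ∈ H) : GoodPair H i j := by
  intro h c
  rcases small_field_cases hK c with hc | hc | hc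
  · rw [hc, transvection_coeff_zero]
    exact one_mem _
  · rw [hc]
    exact h1
  · rw [hc, ← transvection_inv]
    exact inv_mem h1

theorem good_shift (H : Subgroup (SpecialLinearGroup (Fin (n + 1)) K))
    (w : SpecialLinearGroup (Fin (n + 1)) K) (hwH : w ∈ H) (hw : w.1 = cycW n K)
    (i j i' j' : Fin (n + 1)) (hi : i.val = i'.val + 1) (hj : j.val = j'.val + 1)
    (hg : GoodPair H i' j') : GoodPair H i j := by
  intro h c
  have hij' : i' ≠ j' := fun e => h (Fin.ext (by rw [hi, hj, e]))
  have h1 := sl_conjA w hw i j i' j' h hij' hi hj c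
  have h2 : transvection h c = w⁻¹ * (transvection hij' c * w) := by
    rw [← h1, inv_mul_cancel_left]
  rw [h2]
  exact mul_mem (inv_mem hwH) (mul_mem (hg hij' c) hwH)

theorem good_wrap (H : Subgroup (SpecialLinearGroup (Fin (n + 1)) K))
    (w : SpecialLinearGroup (Fin (n + 1)) K) (hwH : w ∈ H) (hw : w.1 = cycW n K)
    (i j i' j' : Fin (n + 1)) (hi : i.val = 0) (hi' : i'.val = n) (hj : j.val = j'.val + 1)
    (hg : GoodPair H i j) : GoodPair H i' j' := by
  intro h c
  have hij : i ≠ j := fun e => by rw [e] at hi; omega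
  have h1 := sl_conjB w hw i j i' j' hij h hi hi' hj ((-1) ^ n * c)
  have h3 : (-1 : K) ^ n * ((-1) ^ n * c) = c := by
    rw [← mul_assoc, ← mul_pow]
    simp
  rw [h3] at h1
  have h2 : transvection h c = w * transvection hij ((-1) ^ n * c) * w⁻¹ := by
    rw [h1, mul_inv_cancel_right]
  rw [h2]
  exact mul_mem (mul_mem hwH (hg hij _)) (inv_mem hwH)

theorem good_trans (H : Subgroup (SpecialLinearGroup (Fin (n + 1)) K))
    (i k j : Fin (n + 1)) (hik : i ≠ k) (hkj : k ≠ j) (h1 : GoodPair H i k)
    (h2 : GoodPair H k j) : GoodPair H i j := by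
  intro h c
  rw [Cfsg.Agent.Lib.Lead.transvection_eq_commutator h hik hkj c, commutatorElement_def]
  exact mul_mem (mul_mem (mul_mem (h1 hik c) (h2 hkj 1)) (inv_mem (h1 hik c)))
    (inv_mem (h2 hkj 1))

theorem sl_two_gen [Fintype K] (hK : Fintype.card K ≤ 3) (n : ℕ) (hn : 1 ≤ n)
    (x w : SpecialLinearGroup (Fin (n + 1)) K)
    (hx : x.1 = Matrix.transvection (0 : Fin (n + 1)) (1 : Fin (n + 1)) 1)
    (hw : w.1 = cycW n K) :
    Subgroup.closure ({x, w} : Set (SpecialLinearGroup (Fin (n + 1)) K)) = ⊤ := by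
  obtain ⟨H, hH⟩ : ∃ H, H = Subgroup.closure
    ({x, w} : Set (SpecialLinearGroup (Fin (n + 1)) K)) := ⟨_, rfl⟩
  rw [← hH]
  have hxH : x ∈ H := by rw [hH]; exact Subgroup.subset_closure (by simp)
  have hwH : w ∈ H := by rw [hH]; exact Subgroup.subset_closure (by simp)
  have z0 : (0 : Fin (n + 1)) = ⟨0, by omega⟩ := rfl
  have z1 : (1 : Fin (n + 1)) = ⟨1, by omega⟩ :=
    Fin.ext (by rw [Fin.val_one']; exact Nat.mod_eq_of_lt (by omega))
  rw [z0, z1] at hx
  have h01 : (⟨0, by omega⟩ : Fin (n + 1)) ≠ ⟨1, by omega⟩ := by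
    intro h
    have := congrArg Fin.val h
    simp at this
  have hx' : x = transvection h01 1 := Subtype.ext hx
  have g01 : GoodPair H ⟨0, by omega⟩ ⟨1, by omega⟩ :=
    good_of_one hK H _ _ h01 (hx' ▸ hxH)
  have hcons : ∀ k (hk : k + 1 < n + 1), GoodPair H ⟨k, by omega⟩ ⟨k + 1, hk⟩ := by
    intro k
    induction k with
    | zero => intro hk; exact g01
    | succ k ih =>
      intro hk
      exact good_shift H w hwH hw _ _ ⟨k, by omega⟩ ⟨k + 1, by omega⟩ rfl rfl (ih (by omega))
  have hwrap : GoodPair H ⟨n, by omega⟩ ⟨0, by omega⟩ :=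
    good_wrap H w hwH hw ⟨0, by omega⟩ ⟨1, by omega⟩ ⟨n, by omega⟩ ⟨0, by omega⟩ rfl rfl rfl
      g01
  have hlt : ∀ d i (h : i + d + 1 < n + 1), GoodPair H ⟨i, by omega⟩ ⟨i + d + 1, h⟩ := by
    intro d
    induction d with
    | zero => intro i h; exact hcons i h
    | succ d ih =>
      intro i h
      refine good_trans H ⟨i, by omega⟩ ⟨i + d + 1, by omega⟩ ⟨i + (d + 1) + 1, h⟩ ?_ ?_
        (ih i (by omega)) (hcons (i + d + 1) (by omega))
      · intro e
        have h9 : i = i + d + 1 := congrArg Fin.val e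
        omega
      · intro e
        have h9 : i + d + 1 = i + (d + 1) + 1 := congrArg Fin.val e
        omega
  have hlt' : ∀ i j : Fin (n + 1), i.val < j.val → GoodPair H i j := by
    intro i j hij
    have e : j = ⟨i.val + (j.val - i.val - 1) + 1, by omega⟩ :=
      Fin.ext (by show j.val = i.val + (j.val - i.val - 1) + 1; omega)
    rw [e]
    exact hlt _ i.val _
  have hgt : ∀ i j : Fin (n + 1), j.val < i.val → GoodPair H i j := by
    intro i j hji
    have hi0 : GoodPair H i ⟨0, by omega⟩ := by
      by_cases hin : i.val = n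
      · have e : i = ⟨n, by omega⟩ := Fin.ext hin
        rw [e]
        exact hwrap
      · refine good_trans H i ⟨n, by omega⟩ ⟨0, by omega⟩ ?_ ?_
          (hlt' i ⟨n, by omega⟩ (by have := i.isLt; show i.val < n; omega)) hwrap
        · intro e
          exact hin (congrArg Fin.val e)
        · intro e
          have h9 : n = 0 := congrArg Fin.val e
          omega
    by_cases hj0 : j.val = 0
    · have e : j = ⟨0, by omega⟩ := Fin.ext hj0
      rw [e]
      exact hi0
    · refine good_trans H i ⟨0, by omega⟩ j ?_ ?_ hi0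
        (hlt' ⟨0, by omega⟩ j (by show 0 < j.val; omega))
      · intro e
        have h9 : i.val = 0 := congrArg Fin.val e
        omega
      · intro e
        have h9 : 0 = j.val := congrArg Fin.val e
        omega
  rw [eq_top_iff]
  intro M _
  haveI : Nontrivial (Fin (n + 1)) :=
    Cfsg.Agent.Lib.Lead.fin_nontrivial_of_two_le (n + 1) (by omega)
  refine Cfsg.Agent.Lib.Lead.transvection_induction_gen (fun M => M ∈ H) ?_ ?_ M
  · intro i j hij a
    rcases Nat.lt_or_gt_of_ne (fun e => hij (Fin.ext e)) with h | h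
    · exact hlt' i j h hij a
    · exact hgt i j h hij a
  · intro A B hA hB
    exact mul_mem hA hB

end

end Cfsg.Agent.Lib.Helper4
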