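import Mathlib
import Cfsg.Agent.Lib.Helper4.SLTwoGen

set_option autoImplicit false

namespace Cfsg.Agent.Lib.Helper4

open Matrix Matrix.SpecialLinearGroup

section

variable {K : Type*} [Field K] {n : ℕ}

theorem sl_gen_of_good (n : ℕ) (hn : 1 ≤ n) (H : Subgroup (SpecialLinearGroup (Fin (n + 1)) K))
    (w : SpecialLinearGroup (Fin (n + 1)) K) (hwH : w ∈ H) (hw : w.1 = cycW n K)
    (g01 : GoodPair H ⟨0, by omega⟩ ⟨1, by omega⟩) : H = ⊤ := by
  have hcons : ∀ k (hk : k + 1 < n + 1), GoodPair H ⟨k, by omega⟩ ⟨k + 1, hk⟩ := by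
    intro k
    induction k with
    | zero => intro hk; exact g01
    | succ k ih =>
      intro hk
      exact good_shift H w hwH hw _ _ ⟨k, by omega⟩ ⟨k + 1, by omega⟩ rfl rfl (ih (by omega))
  have hwrap : GoodPair H ⟨n, by omega⟩ ⟨0, by omega⟩ :=
    good_wrap H w hwH hw ⟨0, by omega⟩ ⟨1, by omega⟩ ⟨n, by omega⟩ ⟨0, by omega⟩ rfl rfl rfl
      g01
  have hlt : ∀ d i (h : i + d + 1 < n + 1), GoodPair H ⟨i, by omega⟩ ⟨i + d + 1, h⟩ := by
    intro d
    induction d with
    | zero => intro i h; exact hcons i h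
    | succ d ih =>
      intro i h
      refine good_trans H ⟨i, by omega⟩ ⟨i + d + 1, by omega⟩ ⟨i + (d + 1) + 1, h⟩ ?_ ?_
        (ih i (by omega)) (hcons (i + d + 1) (by omega))
      · intro e
        have h9 : i = i + d + 1 := congrArg Fin.val e
        omega
      · intro e
        have h9 : i + d + 1 = i + (d + 1) + 1 := congrArg Fin.val e
        omega
  have hlt' : ∀ i j : Fin (n + 1), i.val < j.val → GoodPair H i j := by
    intro i j hij
    have e : j = ⟨i.val + (j.val - i.val - 1) + 1, by omega⟩ :=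
      Fin.ext (by show j.val = i.val + (j.val - i.val - 1) + 1; omega)
    rw [e]
    exact hlt _ i.val _
  have hgt : ∀ i j : Fin (n + 1), j.val < i.val → GoodPair H i j := by
    intro i j hji
    have hi0 : GoodPair H i ⟨0, by omega⟩ := by
      by_cases hin : i.val = n
      · have e : i = ⟨n, by omega⟩ := Fin.ext hin
        rw [e]
        exact hwrap
      · refine good_trans H i ⟨n, by omega⟩ ⟨0, by omega⟩ ?_ ?_
          (hlt' i ⟨n, by omega⟩ (by have := i.isLt; show i.val < n; omega)) hwrap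
        · intro e
          exact hin (congrArg Fin.val e)
        · intro e
          have h9 : n = 0 := congrArg Fin.val e
          omega
    by_cases hj0 : j.val = 0
    · have e : j = ⟨0, by omega⟩ := Fin.ext hj0
      rw [e]
      exact hi0
    · refine good_trans H i ⟨0, by omega⟩ j ?_ ?_ hi0
        (hlt' ⟨0, by omega⟩ j (by show 0 < j.val; omega))
      · intro e
        have h9 : i.val = 0 := congrArg Fin.val e
        omega
      · intro e
        have h9 : 0 = j.val := congrArg Fin.val e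
        omega
  rw [eq_top_iff]
  intro M _
  haveI : Nontrivial (Fin (n + 1)) :=
    Cfsg.Agent.Lib.Lead.fin_nontrivial_of_two_le (n + 1) (by omega)
  refine Cfsg.Agent.Lib.Lead.transvection_induction_gen (fun M => M ∈ H) ?_ ?_ M
  · intro i j hij a
    rcases Nat.lt_or_gt_of_ne (fun e => hij (Fin.ext e)) with h | h
    · exact hlt' i j h hij a
    · exact hgt i j h hij a
  · intro A B hA hB
    exact mul_mem hA hB

theorem diag_single_comm {N : Type*} [Fintype N] [DecidableEq N] (d : N → K) (i j : N)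
    (c c' : K) (hc : d i * c = c' * d j) :
    Matrix.diagonal d * (1 + Matrix.single i j c)
      = (1 + Matrix.single i j c') * Matrix.diagonal d := by
  rw [mul_add, add_mul, mul_one, one_mul]
  congr 1
  ext a b
  rw [Matrix.diagonal_mul, Matrix.mul_diagonal, Matrix.single_apply, Matrix.single_apply]
  by_cases h : i = a ∧ j = b
  · obtain ⟨rfl, rfl⟩ := h
    rw [if_pos ⟨rfl, rfl⟩, if_pos ⟨rfl, rfl⟩]
    exact hc
  · rw [if_neg h, if_neg h, mul_zero, zero_mul]

theorem sl_diag_conj (δ : SpecialLinearGroup (Fin (n + 1)) K) (d : Fin (n + 1) → K)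
    (hδ : δ.1 = Matrix.diagonal d) (i j : Fin (n + 1)) (hij : i ≠ j) (c c' : K)
    (hc : d i * c = c' * d j) :
    δ * transvection hij c = transvection hij c' * δ := by
  apply Subtype.ext
  show δ.1 * (transvection hij c).1 = (transvection hij c').1 * δ.1
  rw [hδ]
  exact diag_single_comm d i j c c' hc

/-- The diagonal of `h = diag(k, k⁻¹, 1, …, 1)`. -/
def hVec (n : ℕ) (k : Kˣ) : Fin (n + 1) → K :=
  fun i => if i.val = 0 then (k : K) else if i.val = 1 then ((k⁻¹ : Kˣ) : K) else 1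

/-- The diagonal of `w h w⁻¹`. -/
def dVec (n : ℕ) (k : Kˣ) : Fin (n + 1) → K :=
  fun i => if i.val = n then (k : K) else if i.val = 0 then ((k⁻¹ : Kˣ) : K) else 1

theorem cycW_diag (hn : 1 ≤ n) (k : Kˣ) :
    cycW n K * Matrix.diagonal (hVec n k) = Matrix.diagonal (dVec n k) * cycW n K := by
  ext a b
  rw [Matrix.mul_diagonal, Matrix.diagonal_mul, cycW_apply]
  by_cases h1 : b.val = a.val + 1
  · rw [if_pos h1, one_mul, mul_one]
    unfold hVec dVec
    have hb0 : ¬ b.val = 0 := by omega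
    have han : ¬ a.val = n := by have := b.isLt; omega
    rw [if_neg hb0, if_neg han]
    by_cases ha0 : a.val = 0
    · rw [if_pos ha0, if_pos (by omega)]
    · rw [if_neg ha0, if_neg (by omega)]
  · rw [if_neg h1]
    by_cases h2 : a.val = n ∧ b.val = 0
    · rw [if_pos h2]
      unfold hVec dVec
      rw [if_pos h2.2, if_pos h2.1, mul_comm]
    · rw [if_neg h2, zero_mul, mul_zero]

theorem sum_two_sq [Fintype K] (x : K) : ∃ a b : K, a ^ 2 + b ^ 2 = x := by
  classical
  by_cases hodd : Fintype.card K % 2 = 1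
  · obtain ⟨a, b, hab⟩ := FiniteField.exists_root_sum_quadratic
      (f := (Polynomial.X : Polynomial K) ^ 2) (g := Polynomial.X ^ 2 - Polynomial.C x)
      (Polynomial.degree_X_pow 2) (Polynomial.degree_X_pow_sub_C (by norm_num) _) hodd
    refine ⟨a, b, ?_⟩
    simp only [Polynomial.eval_pow, Polynomial.eval_X, Polynomial.eval_sub,
      Polynomial.eval_C] at hab
    linear_combination hab
  · have h2 : ringChar K = 2 := FiniteField.even_card_iff_char_two.2 (by omega)
    obtain ⟨a, ha⟩ := FiniteField.isSquare_of_char_two h2 x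
    exact ⟨a, 0, by rw [ha]; ring⟩

theorem sl_two_gen_big [Fintype K] (hK : 3 < Fintype.card K) (n : ℕ) (hn : 1 ≤ n)
    (k : Kˣ) (hk : ∀ u : Kˣ, u ∈ Subgroup.zpowers k)
    (h x w : SpecialLinearGroup (Fin (n + 1)) K)
    (hh : h.1 = Matrix.diagonal (hVec n k))
    (hx : x.1 = Matrix.transvection (0 : Fin (n + 1)) (1 : Fin (n + 1)) 1)
    (hw : w.1 = cycW n K) :
    Subgroup.closure ({h, x * w} : Set (SpecialLinearGroup (Fin (n + 1)) K)) = ⊤ := by
  classical
  obtain ⟨H, hH⟩ : ∃ H, H = Subgroup.closure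
    ({h, x * w} : Set (SpecialLinearGroup (Fin (n + 1)) K)) := ⟨_, rfl⟩
  rw [← hH]
  have hhH : h ∈ H := by rw [hH]; exact Subgroup.subset_closure (by simp)
  have hgH : x * w ∈ H := by rw [hH]; exact Subgroup.subset_closure (by simp)
  have z0 : (0 : Fin (n + 1)) = ⟨0, by omega⟩ := rfl
  have z1 : (1 : Fin (n + 1)) = ⟨1, by omega⟩ :=
    Fin.ext (by rw [Fin.val_one']; exact Nat.mod_eq_of_lt (by omega))
  rw [z0, z1] at hx
  have h01 : (⟨0, by omega⟩ : Fin (n + 1)) ≠ ⟨1, by omega⟩ := by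
    intro h
    have := congrArg Fin.val h
    simp at this
  have hx' : x = transvection h01 1 := Subtype.ext hx
  -- facts on k
  have hord : orderOf k = Fintype.card K - 1 := by
    rw [orderOf_eq_card_of_forall_mem_zpowers hk, Nat.card_eq_fintype_card, Fintype.card_units]
  have hk0 : (k : K) ≠ 0 := k.ne_zero
  have hk1 : (k : K) ≠ 1 := by
    intro h1
    have h2 : k = 1 := Units.ext h1
    rw [h2, orderOf_one] at hord
    omega
  have hk2 : (k : K) ^ 2 ≠ 1 := by
    intro h1
    have h2 : k ^ 2 = 1 := Units.ext (by rw [Units.val_pow_eq_pow_val, h1]; rfl)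
    have h3 := orderOf_dvd_of_pow_eq_one h2
    have h4 := Nat.le_of_dvd (by norm_num) h3
    omega
  -- D = w h w⁻¹
  obtain ⟨D, hD⟩ : ∃ D, D = w * h * w⁻¹ := ⟨_, rfl⟩
  have hDm : D.1 = Matrix.diagonal (dVec n k) := by
    have h1 : D * w = w * h := by rw [hD, inv_mul_cancel_right]
    have h2 : D.1 * w.1 = w.1 * h.1 := congrArg Subtype.val h1
    have h2' : D.1 * w.1 = Matrix.diagonal (dVec n k) * w.1 := by
      rw [h2, hh, hw, cycW_diag hn k]
    have h3 : w.1 * (w⁻¹).1 = 1 := congrArg Subtype.val (mul_inv_cancel w)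
    calc D.1 = D.1 * (w.1 * (w⁻¹).1) := by rw [h3, mul_one]
      _ = (D.1 * w.1) * (w⁻¹).1 := by rw [mul_assoc]
      _ = Matrix.diagonal (dVec n k) * w.1 * (w⁻¹).1 := by rw [h2']
      _ = Matrix.diagonal (dVec n k) := by rw [mul_assoc, h3, mul_one]
  have hDh : D * h = h * D := by
    apply Subtype.ext
    show D.1 * h.1 = h.1 * D.1
    rw [hDm, hh, Matrix.diagonal_mul_diagonal, Matrix.diagonal_mul_diagonal]
    congr 1
    funext i
    exact mul_comm _ _
  have hE : x * w * h * (x * w)⁻¹ = x * D * x⁻¹ := by rw [hD]; group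
  have hEH : x * D * x⁻¹ ∈ H := by
    rw [← hE]
    exact mul_mem (mul_mem hgH hhH) (inv_mem hgH)
  have hv0 : hVec n k ⟨0, by omega⟩ = (k : K) := by
    show (if (0 : ℕ) = 0 then (k : K) else if (0 : ℕ) = 1 then ((k⁻¹ : Kˣ) : K) else 1) = _
    rw [if_pos rfl]
  have hv1 : hVec n k ⟨1, by omega⟩ = (k : K)⁻¹ := by
    show (if (1 : ℕ) = 0 then (k : K) else if (1 : ℕ) = 1 then ((k⁻¹ : Kˣ) : K) else 1) = _
    rw [if_neg (by norm_num), if_pos rfl, Units.val_inv_eq_inv_val]
  have hd0 : dVec n k ⟨0, by omega⟩ = (k : K)⁻¹ := by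
    show (if (0 : ℕ) = n then (k : K) else if (0 : ℕ) = 0 then ((k⁻¹ : Kˣ) : K) else 1) = _
    rw [if_neg (by omega), if_pos rfl, Units.val_inv_eq_inv_val]
  obtain ⟨μ, hμ⟩ : ∃ μ, μ = dVec n k ⟨1, by omega⟩ := ⟨_, rfl⟩
  have hμ' : μ = (k : K) ∨ μ = 1 := by
    have h1 : dVec n k ⟨1, by omega⟩
        = (if (1 : ℕ) = n then (k : K) else if (1 : ℕ) = 0 then ((k⁻¹ : Kˣ) : K) else 1) := rfl
    rw [hμ, h1]
    by_cases hn1 : (1 : ℕ) = n
    · rw [if_pos hn1]
      exact Or.inl rfl
    · rw [if_neg hn1, if_neg (by norm_num)]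
      exact Or.inr rfl
  have hμ0 : μ ≠ 0 := by
    rcases hμ' with h1 | h1
    · rw [h1]; exact hk0
    · rw [h1]; exact one_ne_zero
  have hkμ : (k : K) * μ ≠ 1 := by
    rcases hμ' with h1 | h1
    · rw [h1, ← sq]; exact hk2
    · rw [h1, mul_one]; exact hk1
  have hconj_h : ∀ c : K, h * transvection h01 c = transvection h01 ((k : K) ^ 2 * c) * h := by
    intro c
    apply sl_diag_conj h (hVec n k) hh
    rw [hv0, hv1]
    field_simp
  have hconj_D : ∀ c : K, D * transvection h01 c = transvection h01 (c / ((k : K) * μ)) * D := by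
    intro c
    apply sl_diag_conj D (dVec n k) hDm
    rw [hd0, ← hμ]
    field_simp
  obtain ⟨β, hβ⟩ : ∃ β : K, β = 1 - 1 / ((k : K) * μ) := ⟨_, rfl⟩
  have hβ0 : β ≠ 0 := by
    rw [hβ]
    intro h1
    have h2 : (1 : K) = 1 / ((k : K) * μ) := sub_eq_zero.1 h1
    have h3 : (k : K) * μ ≠ 0 := mul_ne_zero hk0 hμ0
    rw [eq_div_iff h3, one_mul] at h2
    exact hkμ h2
  have hE2 : x * D * x⁻¹ = transvection h01 β * D := by
    rw [hx', transvection_inv, mul_assoc, hconj_D, ← mul_assoc, ← transvection_add]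
    congr 2
    rw [hβ]
    ring
  rw [hE2] at hEH
  have hc0 : transvection h01 (((k : K) ^ 2 - 1) * β) ∈ H := by
    have e1 : h * (transvection h01 β * D) = transvection h01 ((k : K) ^ 2 * β) * D * h := by
      rw [← mul_assoc, hconj_h, mul_assoc, ← hDh, ← mul_assoc]
    have e2 : transvection h01 (((k : K) ^ 2 - 1) * β)
        = h * (transvection h01 β * D) * h⁻¹ * (transvection h01 β * D)⁻¹ := by
      rw [e1, mul_inv_cancel_right, _root_.mul_inv_rev, ← mul_assoc, mul_inv_cancel_right,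
        transvection_inv, ← transvection_add]
      congr 1
      ring
    rw [e2]
    exact mul_mem (mul_mem (mul_mem hhH hEH) (inv_mem hhH)) (inv_mem hEH)
  obtain ⟨c₀, hc₀⟩ : ∃ c₀ : K, c₀ = ((k : K) ^ 2 - 1) * β := ⟨_, rfl⟩
  rw [← hc₀] at hc0
  have hc₀0 : c₀ ≠ 0 := by
    rw [hc₀]
    exact mul_ne_zero (sub_ne_zero.2 hk2) hβ0
  have hQ : ∀ (m : ℤ) (c : K), transvection h01 c ∈ H →
      transvection h01 (((k ^ m : Kˣ) : K) ^ 2 * c) ∈ H := by
    intro m
    induction m using Int.induction_on with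
    | zero =>
      intro c hc
      simpa using hc
    | succ i ih =>
      intro c hc
      have h1 := ih c hc
      have h2 : transvection h01 ((k : K) ^ 2 * (((k ^ (i : ℤ) : Kˣ) : K) ^ 2 * c))
          = h * transvection h01 (((k ^ (i : ℤ) : Kˣ) : K) ^ 2 * c) * h⁻¹ := by
        rw [hconj_h, mul_inv_cancel_right]
      have h3 : ((k ^ ((i : ℤ) + 1) : Kˣ) : K) ^ 2 * c
          = (k : K) ^ 2 * (((k ^ (i : ℤ) : Kˣ) : K) ^ 2 * c) := by
        rw [_root_.zpow_add_one, Units.val_mul]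
        ring
      rw [h3, h2]
      exact mul_mem (mul_mem hhH h1) (inv_mem hhH)
    | pred i ih =>
      intro c hc
      have h1 := ih c hc
      have h2 : transvection h01 (((k ^ (-(i : ℤ)) : Kˣ) : K) ^ 2 * c)
          = h * transvection h01 (((k ^ (-(i : ℤ) - 1) : Kˣ) : K) ^ 2 * c) * h⁻¹ := by
        rw [hconj_h, mul_inv_cancel_right]
        congr 1
        rw [_root_.zpow_sub_one, Units.val_mul, Units.val_inv_eq_inv_val]
        field_simp
      have h4 : transvection h01 (((k ^ (-(i : ℤ) - 1) : Kˣ) : K) ^ 2 * c)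
          = h⁻¹ * transvection h01 (((k ^ (-(i : ℤ)) : Kˣ) : K) ^ 2 * c) * h := by
        rw [h2]
        group
      rw [h4]
      exact mul_mem (mul_mem (inv_mem hhH) h1) hhH
  have hsq : ∀ a : K, transvection h01 (c₀ * a ^ 2) ∈ H := by
    intro a
    by_cases ha : a = 0
    · rw [ha]
      have : c₀ * (0 : K) ^ 2 = 0 := by ring
      rw [this, transvection_coeff_zero]
      exact one_mem _
    · obtain ⟨m, hm⟩ := Subgroup.mem_zpowers_iff.1 (hk (Units.mk0 a ha))
      have h1 := hQ m c₀ hc0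
      rw [hm, Units.val_mk0, mul_comm] at h1
      exact h1
  have g01 : GoodPair H ⟨0, by omega⟩ ⟨1, by omega⟩ := by
    intro hne c
    obtain ⟨a, b, hab⟩ := sum_two_sq (c / c₀)
    have h1 : c = c₀ * a ^ 2 + c₀ * b ^ 2 := by
      rw [← mul_add, hab]
      field_simp
    rw [h1, transvection_add]
    exact mul_mem (hsq a) (hsq b)
  have hxH : x ∈ H := by
    rw [hx']
    exact g01 h01 1
  have hwH : w ∈ H := by
    have h1 : w = x⁻¹ * (x * w) := by group
    rw [h1]
    exact mul_mem (inv_mem hxH) hgH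
  exact sl_gen_of_good n hn H w hwH hw g01

end

end Cfsg.Agent.Lib.Helper4
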