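import Mathlib
import Cfsg.Prelude.Def_RootSubgroups
import Cfsg.Agent.Lib.Lead.SLGen
import Cfsg.Agent.Lib.Helper4.SLTwoGen2

set_option autoImplicit false

namespace Cfsg.Agent.Lib.Helper4

open Matrix

section

variable {F : Type*} [Field F] {ι : Type*} [Fintype ι] [DecidableEq ι]

/-- The nilpotent-like part of the product of two transvections. -/
def riN (u v φ ψ : ι → F) : Matrix ι ι F :=
  vecMulVec u φ + vecMulVec v ψ + (φ ⬝ᵥ v) • vecMulVec u ψ

theorem ri_prod (u v φ ψ : ι → F) :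
    (1 + vecMulVec u φ) * (1 + vecMulVec v ψ) = 1 + riN u v φ ψ := by
  unfold riN
  simp only [mul_add, add_mul, mul_one, one_mul, vecMulVec_mul_vecMulVec]
  ext i j
  simp only [Matrix.add_apply, Matrix.smul_apply, vecMulVec_apply, Pi.smul_apply, smul_eq_mul]
  ring

theorem ri_sq (u v φ ψ : ι → F) (hφu : φ ⬝ᵥ u = 0) (hψv : ψ ⬝ᵥ v = 0) :
    riN u v φ ψ * riN u v φ ψ
      = ((φ ⬝ᵥ v) * (ψ ⬝ᵥ u)) • vecMulVec u φ
        + ((φ ⬝ᵥ v) + (φ ⬝ᵥ v) ^ 2 * (ψ ⬝ᵥ u)) • vecMulVec u ψ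
        + (ψ ⬝ᵥ u) • vecMulVec v φ + ((φ ⬝ᵥ v) * (ψ ⬝ᵥ u)) • vecMulVec v ψ := by
  unfold riN
  simp only [mul_add, add_mul, Matrix.smul_mul, Matrix.mul_smul, vecMulVec_mul_vecMulVec, hφu,
    hψv, zero_smul]
  ext i j
  simp only [Matrix.add_apply, Matrix.smul_apply, vecMulVec_apply, Pi.smul_apply, smul_eq_mul,
    Pi.zero_apply]
  ring

theorem ri_cube (u v φ ψ : ι → F) (hφu : φ ⬝ᵥ u = 0) (hψv : ψ ⬝ᵥ v = 0) :
    riN u v φ ψ * riN u v φ ψ * riN u v φ ψ
      = ((φ ⬝ᵥ v) * (ψ ⬝ᵥ u)) • (riN u v φ ψ * riN u v φ ψ)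
        + ((φ ⬝ᵥ v) * (ψ ⬝ᵥ u)) • riN u v φ ψ := by
  rw [ri_sq u v φ ψ hφu hψv]
  unfold riN
  simp only [mul_add, add_mul, Matrix.smul_mul, Matrix.mul_smul, vecMulVec_mul_vecMulVec, hφu,
    hψv, zero_smul]
  ext i j
  simp only [Matrix.add_apply, Matrix.smul_apply, vecMulVec_apply, Pi.smul_apply, smul_eq_mul,
    Pi.zero_apply]
  ring

open Polynomial in
theorem ri_separable (h2 : (2 : F) = 0) (τ : F) (hτ : τ ≠ 0) :
    (X ^ 3 + C τ * X ^ 2 + C τ * X : F[X]).Separable := by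
  have hcd : C τ * C τ⁻¹ = (1 : F[X]) := by
    rw [← C_mul, mul_inv_cancel₀ hτ, C_1]
  rw [separable_def]
  refine ⟨-C τ⁻¹ ^ 2, C τ⁻¹ ^ 2 * (X + C τ), ?_⟩
  have hder : derivative (X ^ 3 + C τ * X ^ 2 + C τ * X : F[X]) = X ^ 2 + C τ := by
    simp only [derivative_add, derivative_mul, derivative_X_pow, derivative_C, derivative_X,
      zero_mul, zero_add, mul_one]
    have h3 : ((3 : ℕ) : F) = 1 := by
      have : ((3 : ℕ) : F) = 2 + 1 := by norm_num
      rw [this, h2, zero_add]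
    have h2' : ((2 : ℕ) : F) = 0 := by
      have : ((2 : ℕ) : F) = 2 := by norm_num
      rw [this, h2]
    rw [h3, h2']
    simp
  rw [hder]
  linear_combination (C τ * C τ⁻¹ + 1) * hcd

open Polynomial in
theorem ri_sq_one (h2 : (2 : F) = 0)
    (N : Matrix ι ι F) (τ : F) (hτ : τ ≠ 0)
    (hN : N * N * N = τ • (N * N) + τ • N) (j : ℕ) (hj : ((1 + N) ^ j) * ((1 + N) ^ j) = 1) :
    (1 + N) ^ j = 1 := by
  have hA : ∀ A : Matrix ι ι F, A + A = 0 := fun A => by rw [← two_smul F A, h2, zero_smul]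
  have hP : aeval N (X ^ 3 + C τ * X ^ 2 + C τ * X : F[X]) = 0 := by
    simp only [map_add, map_mul, map_pow, aeval_X, aeval_C, Algebra.algebraMap_eq_smul_one,
      Matrix.smul_mul, one_mul]
    have h3 : N ^ 3 = N * N * N := by rw [pow_succ, pow_two]
    rw [h3, hN, pow_two]
    have := hA (τ • (N * N) + τ • N)
    rw [← add_assoc] at this
    exact this
  have hsq := (ri_separable h2 τ hτ).squarefree
  have hmin : minpoly F N ∣ (X ^ 3 + C τ * X ^ 2 + C τ * X : F[X]) := minpoly.dvd F N hP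
  have hminsq : Squarefree (minpoly F N) := hsq.squarefree_of_dvd hmin
  have hg : aeval N (((1 + X) ^ j - 1 : F[X]) ^ 2) = 0 := by
    simp only [map_pow, map_sub, map_add, map_one, aeval_X]
    rw [pow_two, sub_mul, mul_sub, mul_one, one_mul, hj]
    have h7 : (1 : Matrix ι ι F) - (1 + N) ^ j - ((1 + N) ^ j - 1)
        = (1 + 1) - ((1 + N) ^ j + (1 + N) ^ j) := by abel
    rw [h7, hA, hA, sub_zero]
  have hdvd : minpoly F N ∣ ((1 + X) ^ j - 1 : F[X]) :=
    (hminsq.dvd_pow_iff_dvd (by norm_num)).1 (minpoly.dvd F N hg)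
  obtain ⟨r, hr⟩ := hdvd
  have h5 : aeval N ((1 + X) ^ j - 1 : F[X]) = 0 := by
    rw [hr, map_mul, minpoly.aeval, zero_mul]
  simp only [map_pow, map_sub, map_add, map_one, aeval_X] at h5
  exact sub_eq_zero.1 h5

theorem sl_coe_pow (A : SpecialLinearGroup ι F) (k : ℕ) : (A ^ k).1 = A.1 ^ k := by
  induction k with
  | zero => rfl
  | succ k ih =>
    rw [pow_succ, pow_succ]
    show (A ^ k).1 * A.1 = _
    rw [ih]

/-- Transvection form. -/
def IsTv (t : SpecialLinearGroup ι F) : Prop :=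
  ∃ u φ : ι → F, u ≠ 0 ∧ φ ≠ 0 ∧ φ ⬝ᵥ u = 0 ∧ t.1 = 1 + vecMulVec u φ

theorem ri_comm (a b : SpecialLinearGroup ι F) (u φ v ψ : ι → F)
    (ha : a.1 = 1 + vecMulVec u φ) (hb : b.1 = 1 + vecMulVec v ψ)
    (hs : φ ⬝ᵥ v = 0) (ht : ψ ⬝ᵥ u = 0) : a * b = b * a := by
  apply Subtype.ext
  show a.1 * b.1 = b.1 * a.1
  rw [ha, hb, ri_prod, ri_prod]
  unfold riN
  rw [hs, ht, zero_smul, zero_smul, add_zero, add_zero, add_comm (vecMulVec u φ)]

theorem ri_odd [Finite F] (h2 : (2 : F) = 0) (a b : SpecialLinearGroup ι F) (u φ v ψ : ι → F)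
    (ha : a.1 = 1 + vecMulVec u φ) (hb : b.1 = 1 + vecMulVec v ψ)
    (hφu : φ ⬝ᵥ u = 0) (hψv : ψ ⬝ᵥ v = 0)
    (hs : φ ⬝ᵥ v ≠ 0) (ht : ψ ⬝ᵥ u ≠ 0) : Odd (orderOf (a * b)) := by
  haveI : Finite (SpecialLinearGroup ι F) :=
    Finite.of_injective (fun A : SpecialLinearGroup ι F => A.1) Subtype.val_injective
  have hpos := orderOf_pos (a * b)
  rw [← Nat.not_even_iff_odd]
  rintro ⟨j, hj⟩
  have hM : (a * b).1 = 1 + riN u v φ ψ := by
    show a.1 * b.1 = _
    rw [ha, hb, ri_prod]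
  have h1 : ((a * b) ^ j).1 * ((a * b) ^ j).1 = 1 := by
    have h0 : (a * b) ^ j * (a * b) ^ j = 1 := by rw [← pow_add, ← hj, pow_orderOf_eq_one]
    exact congrArg Subtype.val h0
  have h3 : ((a * b) ^ j).1 = (1 + riN u v φ ψ) ^ j := by
    rw [sl_coe_pow, hM]
  rw [h3] at h1
  have h4 := ri_sq_one h2 (riN u v φ ψ) _ (mul_ne_zero hs ht) (ri_cube u v φ ψ hφu hψv) j h1
  have h5 : (a * b) ^ j = 1 := Subtype.ext (by rw [h3, h4]; rfl)
  have h6 := orderOf_dvd_of_pow_eq_one h5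
  have h7 := Nat.le_of_dvd (by omega) h6
  omega

theorem exists_functional (u v φ : ι → F) (hφu : φ ⬝ᵥ u = 0) (hs : φ ⬝ᵥ v ≠ 0) (hu : u ≠ 0)
    (r : F) : ∃ χ : ι → F, χ ⬝ᵥ v = 0 ∧ χ ⬝ᵥ u = r := by
  obtain ⟨i, j, hij⟩ : ∃ i j, u i * v j - u j * v i ≠ 0 := by
    by_contra hcon
    push Not at hcon
    have hv : v ≠ 0 := by
      intro h
      rw [h, dotProduct_zero] at hs
      exact hs rfl
    obtain ⟨j, hj⟩ := Function.ne_iff.1 hv
    have hj' : v j ≠ 0 := hj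
    have hu' : u = (u j / v j) • v := by
      funext i
      have := hcon i j
      rw [Pi.smul_apply, smul_eq_mul]
      field_simp
      linear_combination this
    rw [hu', dotProduct_smul, smul_eq_mul] at hφu
    rcases mul_eq_zero.1 hφu with h | h
    · rw [div_eq_zero_iff] at h
      rcases h with h | h
      · apply hu
        rw [hu', h, zero_div, zero_smul]
      · exact hj' h
    · exact hs h
  refine ⟨(r / (u i * v j - u j * v i)) • (v j • Pi.single i 1 - v i • Pi.single j 1), ?_, ?_⟩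
  · rw [smul_dotProduct, sub_dotProduct, smul_dotProduct, smul_dotProduct, single_dotProduct,
      single_dotProduct]
    simp only [smul_eq_mul, one_mul]
    ring
  · rw [smul_dotProduct, sub_dotProduct, smul_dotProduct, smul_dotProduct, single_dotProduct,
      single_dotProduct]
    simp only [smul_eq_mul, one_mul]
    field_simp

theorem ri_four (h2 : (2 : F) = 0) (a b : SpecialLinearGroup ι F) (u φ v ψ : ι → F)
    (ha : a.1 = 1 + vecMulVec u φ) (hb : b.1 = 1 + vecMulVec v ψ)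
    (hφu : φ ⬝ᵥ u = 0) (hψv : ψ ⬝ᵥ v = 0) (hu : u ≠ 0) (hψ : ψ ≠ 0)
    (hs : φ ⬝ᵥ v ≠ 0) (ht : ψ ⬝ᵥ u = 0) :
    orderOf (a * b) = 4 ∧ ∃ x : SpecialLinearGroup ι F, x * b * x⁻¹ = (a * b) ^ 2 := by
  have hA : ∀ A : Matrix ι ι F, A + A = 0 := fun A => by rw [← two_smul F A, h2, zero_smul]
  have hM : (a * b).1 = 1 + riN u v φ ψ := by
    show a.1 * b.1 = _
    rw [ha, hb, ri_prod]
  have hNN : riN u v φ ψ * riN u v φ ψ = (φ ⬝ᵥ v) • vecMulVec u ψ := by
    rw [ri_sq u v φ ψ hφu hψv, ht]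
    simp
  have hsq : ((a * b) ^ 2).1 = 1 + (φ ⬝ᵥ v) • vecMulVec u ψ := by
    rw [sl_coe_pow, hM, pow_two, mul_add, add_mul, add_mul, one_mul, mul_one,
      one_mul, hNN]
    have h7 : (1 : Matrix ι ι F) + riN u v φ ψ + (riN u v φ ψ + (φ ⬝ᵥ v) • vecMulVec u ψ)
        = 1 + (riN u v φ ψ + riN u v φ ψ) + (φ ⬝ᵥ v) • vecMulVec u ψ := by abel
    rw [h7, hA, add_zero]
  have hne : (a * b) ^ 2 ≠ 1 := by
    intro h
    have h1 : ((a * b) ^ 2).1 = 1 := by rw [h]; rfl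
    rw [hsq] at h1
    have h3 : (φ ⬝ᵥ v) • vecMulVec u ψ = 0 := by
      have := h1
      rwa [add_eq_left] at this
    obtain ⟨i, hi⟩ := Function.ne_iff.1 hu
    obtain ⟨j, hj⟩ := Function.ne_iff.1 hψ
    have h4 := congrFun (congrFun h3 i) j
    rw [Matrix.smul_apply, vecMulVec_apply, smul_eq_mul] at h4
    exact mul_ne_zero hs (mul_ne_zero hi hj) h4
  have hfour : (a * b) ^ 4 = 1 := by
    have h1 : (a * b) ^ 4 = (a * b) ^ 2 * (a * b) ^ 2 := by rw [← pow_add]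
    rw [h1]
    apply Subtype.ext
    show ((a * b) ^ 2).1 * ((a * b) ^ 2).1 = 1
    rw [hsq, mul_add, add_mul, add_mul, one_mul, mul_one, one_mul, Matrix.smul_mul,
      Matrix.mul_smul, vecMulVec_mul_vecMulVec, ht, zero_smul]
    have h7 : (1 : Matrix ι ι F) + (φ ⬝ᵥ v) • vecMulVec u ψ
        + ((φ ⬝ᵥ v) • vecMulVec u ψ + (φ ⬝ᵥ v) • (φ ⬝ᵥ v) • vecMulVec u (0 : ι → F))
        = 1 + ((φ ⬝ᵥ v) • vecMulVec u ψ + (φ ⬝ᵥ v) • vecMulVec u ψ)
          + (φ ⬝ᵥ v) • (φ ⬝ᵥ v) • vecMulVec u (0 : ι → F) := by abel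
    rw [h7, hA, add_zero]
    simp
  refine ⟨?_, ?_⟩
  · haveI : Fact (Nat.Prime 2) := ⟨Nat.prime_two⟩
    exact orderOf_eq_prime_pow (p := 2) (n := 1) (by simpa using hne) (by simpa using hfour)
  · obtain ⟨χ, hχv, hχu⟩ := exists_functional u v φ hφu hs hu (φ ⬝ᵥ v)⁻¹
    have hdet : (1 + vecMulVec v χ).det = 1 := by
      rw [Matrix.vecMulVec_eq (ι := Unit), Matrix.det_one_add_replicateCol_mul_replicateRow,
        hχv, add_zero]
    refine ⟨⟨1 + vecMulVec v χ, hdet⟩ * a, ?_⟩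
    rw [mul_inv_eq_iff_eq_mul]
    apply Subtype.ext
    show (1 + vecMulVec v χ) * a.1 * b.1 = ((a * b) ^ 2).1 * ((1 + vecMulVec v χ) * a.1)
    rw [hsq, ha, hb]
    have hrs : (φ ⬝ᵥ v)⁻¹ * (φ ⬝ᵥ v) = 1 := inv_mul_cancel₀ hs
    simp only [mul_add, add_mul, mul_one, one_mul, Matrix.smul_mul, Matrix.mul_smul,
      vecMulVec_mul_vecMulVec, smul_dotProduct, dotProduct_smul, hχv, hχu, hφu, hψv, ht,
      zero_smul]
    ext i j
    simp only [Matrix.add_apply, Matrix.smul_apply, vecMulVec_apply, Pi.smul_apply, smul_eq_mul,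
      Pi.zero_apply, Matrix.one_apply]
    linear_combination (v i * ψ j) * h2 + (v i * ψ j) * hrs

theorem ri_three (h2 : (2 : F) = 0) (a b : SpecialLinearGroup ι F) (u φ v ψ : ι → F)
    (ha : a.1 = 1 + vecMulVec u φ) (hb : b.1 = 1 + vecMulVec v ψ)
    (hφu : φ ⬝ᵥ u = 0) (hψv : ψ ⬝ᵥ v = 0)
    (hs : φ ⬝ᵥ v = 1) (ht : ψ ⬝ᵥ u = 1) : (a * b) ^ 3 = 1 := by
  have hA : ∀ A : Matrix ι ι F, A + A = 0 := fun A => by rw [← two_smul F A, h2, zero_smul]
  have hM : (a * b).1 = 1 + riN u v φ ψ := by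
    show a.1 * b.1 = _
    rw [ha, hb, ri_prod]
  have hcube := ri_cube u v φ ψ hφu hψv
  rw [hs, ht, one_mul, one_smul, one_smul] at hcube
  apply Subtype.ext
  rw [sl_coe_pow, hM]
  obtain ⟨N, hN⟩ : ∃ N, N = riN u v φ ψ := ⟨_, rfl⟩
  rw [← hN] at hcube ⊢
  have h7 : (1 + N) ^ 3 = 1 + N * N * N + (N * N + N) + ((N * N + N) + (N * N + N)) := by
    noncomm_ring
  rw [h7, hcube, hA, add_zero, add_assoc, hA, add_zero]
  rfl

theorem single_eq_vmv (i j : ι) (c : F) :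
    Matrix.single i j c = vecMulVec (Pi.single i c) (Pi.single j 1) := by
  ext a b
  rw [Matrix.single_apply, vecMulVec_apply, Pi.single_apply, Pi.single_apply]
  by_cases h1 : a = i
  · by_cases h2 : b = j
    · rw [if_pos ⟨h1.symm, h2.symm⟩, if_pos h1, if_pos h2, mul_one]
    · rw [if_neg (fun h => h2 h.2.symm), if_neg h2, mul_zero]
  · rw [if_neg (fun h => h1 h.1.symm), if_neg h1, zero_mul]

theorem tv_conj_form (g : SpecialLinearGroup ι F) (i j : ι) (hij : i ≠ j) (c : F) (hc : c ≠ 0) :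
    IsTv (g * SpecialLinearGroup.transvection hij c * g⁻¹) := by
  have h1 : (g⁻¹).1 * g.1 = 1 := congrArg Subtype.val (inv_mul_cancel g)
  have h2 : g.1 * (g⁻¹).1 = 1 := congrArg Subtype.val (mul_inv_cancel g)
  refine ⟨g.1 *ᵥ Pi.single i c, Pi.single j 1 ᵥ* (g⁻¹).1, ?_, ?_, ?_, ?_⟩
  · intro h0
    have h3 : ((g⁻¹).1 * g.1) *ᵥ Pi.single i c = 0 := by
      rw [← mulVec_mulVec, h0, mulVec_zero]
    rw [h1, one_mulVec] at h3
    have h4 := congrFun h3 i
    rw [Pi.single_eq_same] at h4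
    exact hc h4
  · intro h0
    have h3 : (Pi.single j (1 : F)) ᵥ* ((g⁻¹).1 * g.1) = 0 := by
      rw [← vecMul_vecMul, h0, zero_vecMul]
    rw [h1, vecMul_one] at h3
    have h4 := congrFun h3 j
    rw [Pi.single_eq_same] at h4
    exact one_ne_zero h4
  · rw [← dotProduct_mulVec, mulVec_mulVec, h1, one_mulVec, single_dotProduct, one_mul,
      Pi.single_eq_of_ne hij.symm]
  · show g.1 * (SpecialLinearGroup.transvection hij c).1 * (g⁻¹).1 = _
    rw [SpecialLinearGroup.transvection_coe, mul_add, add_mul, mul_one, h2, single_eq_vmv,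
      mul_vecMulVec, vecMulVec_mul]

end

section

variable {F : Type*} [Field F] {n : ℕ}

/-- The set of transvections of `SL_{n+3}(F)`. -/
def tvSet (n : ℕ) (F : Type*) [Field F] : Set (Matrix.SpecialLinearGroup (Fin (n + 3)) F) :=
  {t | ∃ c : F, c ≠ 0 ∧ ∃ g : Matrix.SpecialLinearGroup (Fin (n + 3)) F,
    ((g⁻¹ * t * g : Matrix.SpecialLinearGroup (Fin (n + 3)) F) :
      Matrix (Fin (n + 3)) (Fin (n + 3)) F) = Matrix.transvection 0 1 c}

theorem f01 : (0 : Fin (n + 3)) ≠ 1 := by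
  intro h
  have := congrArg Fin.val h
  simp at this

theorem f02 : (0 : Fin (n + 3)) ≠ 2 := by
  intro h
  have h9 : ((0 : Fin (n + 3)) : ℕ) = ((2 : Fin (n + 3)) : ℕ) := congrArg Fin.val h
  rw [Fin.val_zero, Fin.val_two] at h9
  omega

theorem f12 : (1 : Fin (n + 3)) ≠ 2 := by
  intro h
  have h9 : ((1 : Fin (n + 3)) : ℕ) = ((2 : Fin (n + 3)) : ℕ) := congrArg Fin.val h
  rw [Fin.val_one, Fin.val_two] at h9
  omega

theorem mem_tvSet_iff (t : Matrix.SpecialLinearGroup (Fin (n + 3)) F) :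
    t ∈ tvSet n F ↔ ∃ c : F, c ≠ 0 ∧ ∃ g : Matrix.SpecialLinearGroup (Fin (n + 3)) F,
      t = g * SpecialLinearGroup.transvection f01 c * g⁻¹ := by
  constructor
  · rintro ⟨c, hc, g, hg⟩
    refine ⟨c, hc, g, ?_⟩
    have h1 : g⁻¹ * t * g = SpecialLinearGroup.transvection f01 c := Subtype.ext hg
    rw [← h1]
    group
  · rintro ⟨c, hc, g, rfl⟩
    refine ⟨c, hc, g, ?_⟩
    have h1 : g⁻¹ * (g * SpecialLinearGroup.transvection f01 c * g⁻¹) * g
        = SpecialLinearGroup.transvection f01 c := by group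
    rw [h1]
    rfl

theorem tvSet_conj (t : Matrix.SpecialLinearGroup (Fin (n + 3)) F) (ht : t ∈ tvSet n F)
    (x : Matrix.SpecialLinearGroup (Fin (n + 3)) F) : x * t * x⁻¹ ∈ tvSet n F := by
  rw [mem_tvSet_iff] at ht ⊢
  obtain ⟨c, hc, g, rfl⟩ := ht
  exact ⟨c, hc, x * g, by group⟩

theorem tvSet_isTv (t : Matrix.SpecialLinearGroup (Fin (n + 3)) F) (ht : t ∈ tvSet n F) :
    IsTv t := by
  rw [mem_tvSet_iff] at ht
  obtain ⟨c, hc, g, rfl⟩ := ht
  exact tv_conj_form g 0 1 f01 c hc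

theorem tvSet_order (h2 : (2 : F) = 0) (t : Matrix.SpecialLinearGroup (Fin (n + 3)) F)
    (ht : t ∈ tvSet n F) : orderOf t = 2 := by
  rw [mem_tvSet_iff] at ht
  obtain ⟨c, hc, g, rfl⟩ := ht
  obtain ⟨T, hT⟩ : ∃ T, T = SpecialLinearGroup.transvection f01 c := ⟨_, rfl⟩
  rw [← hT]
  have hTT : T * T = 1 := by
    rw [hT, ← SpecialLinearGroup.transvection_add]
    have h3 : c + c = 0 := by linear_combination c * h2
    rw [h3, SpecialLinearGroup.transvection_coeff_zero]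
  apply orderOf_eq_prime
  · rw [pow_two]
    have h3 : g * T * g⁻¹ * (g * T * g⁻¹) = g * (T * T) * g⁻¹ := by group
    rw [h3, hTT]
    group
  · intro h
    have h1 : T = 1 := by
      have h3 : T = g⁻¹ * (g * T * g⁻¹) * g := by group
      rw [h3, h]
      group
    have h3 : T.1 0 1 = (1 : Matrix.SpecialLinearGroup (Fin (n + 3)) F).1 0 1 := by rw [h1]
    rw [hT, SpecialLinearGroup.transvection_coe] at h3
    have h4 : (1 : Matrix.SpecialLinearGroup (Fin (n + 3)) F).1 = 1 := rfl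
    rw [h4, Matrix.add_apply, Matrix.one_apply_ne f01, Matrix.single_apply_same, zero_add] at h3
    exact hc h3

theorem tvSet_class (a b : Matrix.SpecialLinearGroup (Fin (n + 3)) F) (ha : a ∈ tvSet n F)
    (hb : b ∈ tvSet n F) :
    ∃ g : Matrix.SpecialLinearGroup (Fin (n + 3)) F, b = g * a * g⁻¹ := by
  rw [mem_tvSet_iff] at ha hb
  obtain ⟨c₁, hc₁, g₁, rfl⟩ := ha
  obtain ⟨c₂, hc₂, g₂, rfl⟩ := hb
  obtain ⟨d, hd⟩ : ∃ d : Fin (n + 3) → F,
      d = fun i => if i = 0 then c₂ / c₁ else if i = 2 then c₁ / c₂ else 1 := ⟨_, rfl⟩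
  have hd0 : d 0 = c₂ / c₁ := by rw [hd]; simp
  have hd1 : d 1 = 1 := by
    rw [hd]
    simp only
    rw [if_neg (Ne.symm f01), if_neg f12]
  have hd2 : d 2 = c₁ / c₂ := by
    rw [hd]
    simp only
    rw [if_neg (Ne.symm f02)]
    simp
  have hdet : (Matrix.diagonal d).det = 1 := by
    rw [Matrix.det_diagonal, Finset.prod_eq_mul (0 : Fin (n + 3)) 2 f02]
    · rw [hd0, hd2]
      field_simp
    · intro i _ hi
      rw [hd]
      simp only
      rw [if_neg hi.1, if_neg hi.2]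
    · intro h
      exact absurd (Finset.mem_univ _) h
    · intro h
      exact absurd (Finset.mem_univ _) h
  have hconj := sl_diag_conj (n := n + 2) ⟨Matrix.diagonal d, hdet⟩ d rfl 0 1 f01 c₁ c₂
    (by rw [hd0, hd1]; field_simp)
  obtain ⟨δ, hδ⟩ : ∃ δ : Matrix.SpecialLinearGroup (Fin (n + 3)) F,
      δ = ⟨Matrix.diagonal d, hdet⟩ := ⟨_, rfl⟩
  rw [← hδ] at hconj
  refine ⟨g₂ * δ * g₁⁻¹, ?_⟩
  have h3 : SpecialLinearGroup.transvection f01 c₂
      = δ * SpecialLinearGroup.transvection f01 c₁ * δ⁻¹ := by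
    rw [hconj, mul_inv_cancel_right]
  rw [h3]
  group

theorem tvSet_gen (n : ℕ) (F : Type*) [Field F] : Subgroup.closure (tvSet n F) = ⊤ := by
  classical
  obtain ⟨N, hN⟩ : ∃ N, N = Subgroup.closure (tvSet n F) := ⟨_, rfl⟩
  rw [← hN]
  have hnorm : ∀ x ∈ N, ∀ g : Matrix.SpecialLinearGroup (Fin (n + 3)) F, g * x * g⁻¹ ∈ N := by
    intro x hx
    rw [hN] at hx
    refine Subgroup.closure_induction
      (p := fun x _ => ∀ g : Matrix.SpecialLinearGroup (Fin (n + 3)) F, g * x * g⁻¹ ∈ N)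
      ?_ ?_ ?_ ?_ hx
    · intro y hy g
      rw [hN]
      exact Subgroup.subset_closure (tvSet_conj y hy g)
    · intro g
      rw [mul_one, mul_inv_cancel]
      exact one_mem _
    · intro y z _ _ hy hz g
      have h3 : g * (y * z) * g⁻¹ = (g * y * g⁻¹) * (g * z * g⁻¹) := by group
      rw [h3]
      exact mul_mem (hy g) (hz g)
    · intro y _ hy g
      have h3 : g * y⁻¹ * g⁻¹ = (g * y * g⁻¹)⁻¹ := by group
      rw [h3]
      exact inv_mem (hy g)
  have hc1 : ∀ x ∈ N, ∀ g : Matrix.SpecialLinearGroup (Fin (n + 3)) F,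
      x * g * x⁻¹ * g⁻¹ ∈ N := by
    intro x hx g
    have h3 : x * g * x⁻¹ * g⁻¹ = x * (g * x⁻¹ * g⁻¹) := by group
    rw [h3]
    exact mul_mem hx (hnorm _ (inv_mem hx) g)
  have hc2 : ∀ x ∈ N, ∀ g : Matrix.SpecialLinearGroup (Fin (n + 3)) F,
      g * x * g⁻¹ * x⁻¹ ∈ N := by
    intro x hx g
    exact mul_mem (hnorm x hx g) (inv_mem hx)
  have g01 : ∀ (h : (0 : Fin (n + 3)) ≠ 1) (c : F),
      SpecialLinearGroup.transvection h c ∈ N := by
    intro h c
    by_cases hc : c = 0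
    · rw [hc, SpecialLinearGroup.transvection_coeff_zero]
      exact one_mem _
    · rw [hN]
      apply Subgroup.subset_closure
      rw [mem_tvSet_iff]
      exact ⟨c, hc, 1, by group⟩
  have r1 : ∀ i k j : Fin (n + 3), i ≠ k → k ≠ j →
      (∀ (h : i ≠ k) (c : F), SpecialLinearGroup.transvection h c ∈ N) →
      ∀ (h : i ≠ j) (c : F), SpecialLinearGroup.transvection h c ∈ N := by
    intro i k j hik hkj hg h c
    rw [Cfsg.Agent.Lib.Lead.transvection_eq_commutator h hik hkj c, commutatorElement_def]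
    exact hc1 _ (hg hik c) _
  have r2 : ∀ i k j : Fin (n + 3), i ≠ k → k ≠ j →
      (∀ (h : k ≠ j) (c : F), SpecialLinearGroup.transvection h c ∈ N) →
      ∀ (h : i ≠ j) (c : F), SpecialLinearGroup.transvection h c ∈ N := by
    intro i k j hik hkj hg h c
    rw [Cfsg.Agent.Lib.Lead.transvection_eq_commutator h hik hkj c, commutatorElement_def]
    exact hc2 _ (hg hkj 1) _
  have hrow0 : ∀ j : Fin (n + 3), ∀ (h : (0 : Fin (n + 3)) ≠ j) (c : F),
      SpecialLinearGroup.transvection h c ∈ N := by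
    intro j h c
    by_cases hj : j = 1
    · subst hj
      exact g01 h c
    · exact r1 0 1 j f01 (Ne.symm hj) g01 h c
  have hcol : ∀ i j : Fin (n + 3), j ≠ 0 → ∀ (h : i ≠ j) (c : F),
      SpecialLinearGroup.transvection h c ∈ N := by
    intro i j hj0 h c
    by_cases hi : i = 0
    · subst hi
      exact hrow0 j h c
    · exact r2 i 0 j hi (Ne.symm hj0) (hrow0 j) h c
  have hall : ∀ (i j : Fin (n + 3)) (h : i ≠ j) (c : F),
      SpecialLinearGroup.transvection h c ∈ N := by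
    intro i j h c
    by_cases hj0 : j = 0
    · subst hj0
      obtain ⟨k, hk1, hk2⟩ := Cfsg.Agent.Lib.Lead.exists_third (n + 3) (by omega) i 0
      exact r1 i k 0 (Ne.symm hk1) hk2 (hcol i k hk2) h c
    · exact hcol i j hj0 h c
  rw [eq_top_iff]
  intro M _
  haveI : Nontrivial (Fin (n + 3)) :=
    Cfsg.Agent.Lib.Lead.fin_nontrivial_of_two_le (n + 3) (by omega)
  exact Cfsg.Agent.Lib.Lead.transvection_induction_gen (fun M => M ∈ N)
    (fun i j hij a => hall i j hij a) (fun A B hA hB => mul_mem hA hB) M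

theorem sl_root_inv [Fintype F] [CharP F 2] (n : ℕ) :
    Cfsg.IsRootInvolutionClass (tvSet n F) ∧
      (Fintype.card F = 2 → Cfsg.IsThreeFourPlusTranspositionSet (tvSet n F)) := by
  have h2 : (2 : F) = 0 := CharTwo.two_eq_zero
  have hpair : ∀ a ∈ tvSet n F, ∀ b ∈ tvSet n F, a * b = b * a ∨
      (Odd (orderOf (a * b)) ∧ ((∀ x : F, x ≠ 0 → x = 1) → (a * b) ^ 3 = 1)) ∨
      (orderOf (a * b) = 4 ∧ (a * b) ^ 2 ∈ tvSet n F) := by
    intro a ha b hb
    obtain ⟨u, φ, hu, hφ, hφu, hau⟩ := tvSet_isTv a ha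
    obtain ⟨v, ψ, hv, hψ, hψv, hbv⟩ := tvSet_isTv b hb
    by_cases hs : φ ⬝ᵥ v = 0
    · by_cases ht : ψ ⬝ᵥ u = 0
      · exact Or.inl (ri_comm a b u φ v ψ hau hbv hs ht)
      · right
        right
        obtain ⟨h4, x, hx⟩ := ri_four h2 b a v ψ u φ hbv hau hψv hφu hv hφ ht hs
        have hconj : a * b = a * (b * a) * a⁻¹ := by group
        refine ⟨?_, ?_⟩
        · have h6 := (MulAut.conj a).orderOf_eq (b * a)
          rw [MulAut.conj_apply] at h6
          rw [hconj, h6, h4]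
        · have h5 : (a * b) ^ 2 = a * (b * a) ^ 2 * a⁻¹ := by
            rw [hconj, conj_pow]
          rw [h5, ← hx]
          exact tvSet_conj _ (tvSet_conj a ha x) a
    · by_cases ht : ψ ⬝ᵥ u = 0
      · right
        right
        obtain ⟨h4, x, hx⟩ := ri_four h2 a b u φ v ψ hau hbv hφu hψv hu hψ hs ht
        refine ⟨h4, ?_⟩
        rw [← hx]
        exact tvSet_conj b hb x
      · right
        left
        refine ⟨ri_odd h2 a b u φ v ψ hau hbv hφu hψv hs ht, fun h1 => ?_⟩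
        exact ri_three h2 a b u φ v ψ hau hbv hφu hψv (h1 _ hs) (h1 _ ht)
  have hset : Cfsg.IsRootInvolutionSet (tvSet n F) := by
    refine ⟨fun d hd => tvSet_order h2 d hd, tvSet_gen n F, fun d hd g => tvSet_conj d hd g, ?_⟩
    intro a ha b hb
    rcases hpair a ha b hb with h | h | h
    · exact Or.inl h
    · exact Or.inr (Or.inl h.1)
    · exact Or.inr (Or.inr h)
  refine ⟨⟨hset, ?_, fun a ha b hb => tvSet_class a b ha hb⟩, ?_⟩
  · exact ⟨SpecialLinearGroup.transvection f01 1,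
      (mem_tvSet_iff _).2 ⟨1, one_ne_zero, 1, by group⟩⟩
  · intro hcard
    refine ⟨hset, ?_⟩
    intro a ha b hb hodd
    have hF1 : ∀ x : F, x ≠ 0 → x = 1 := by
      intro x hx
      have h3 := FiniteField.pow_card_sub_one_eq_one x hx
      rw [hcard] at h3
      simpa using h3
    rcases hpair a ha b hb with h | h | h
    · left
      have ha2 : a ^ 2 = 1 := by
        rw [← tvSet_order h2 a ha]
        exact pow_orderOf_eq_one a
      have hb2 : b ^ 2 = 1 := by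
        rw [← tvSet_order h2 b hb]
        exact pow_orderOf_eq_one b
      have h3 : (a * b) ^ 2 = 1 := by
        have hcm : Commute a b := h
        rw [hcm.mul_pow, ha2, hb2, one_mul]
      have h4 := orderOf_dvd_of_pow_eq_one h3
      have h5 := Nat.le_of_dvd (by norm_num) h4
      obtain ⟨k, hk⟩ := hodd
      rcases (Nat.dvd_prime Nat.prime_two).1 h4 with h6 | h6
      · exact h6
      · omega
    · have h3 := orderOf_dvd_of_pow_eq_one (h.2 hF1)
      rcases (Nat.dvd_prime Nat.prime_three).1 h3 with h4 | h4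
      · exact Or.inl h4
      · exact Or.inr h4
    · exfalso
      rw [h.1] at hodd
      exact absurd hodd (by decide)

end

end Cfsg.Agent.Lib.Helper4
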