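import Mathlib
import Cfsg.Agent.Lib.Helper4.SpOrder

set_option autoImplicit false

namespace Cfsg.Agent.Lib.Helper4

universe u

/-- Every non-zero vector is a column of a symplectic matrix. -/
theorem sp_exists_col {F : Type u} [Field F] (k : ℕ) (v : Fin (k + 1) ⊕ Fin (k + 1) → F)
    (hv : v ≠ 0) :
    ∃ A : Matrix.symplecticGroup (Fin (k + 1)) F, ∀ r, A.1 r (Sum.inr 0) = v r := by
  classical
  have halt : ∀ x, stdSymp (k + 1) F x x = 0 := stdSymp_alt
  have hnd := stdSymp_nondeg (F := F) (k + 1)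
  obtain ⟨w, hw⟩ : ∃ w, stdSymp (k + 1) F v w ≠ 0 := by
    by_contra hcon
    push Not at hcon
    apply hv
    apply sympForm_nondeg
    intro y
    rw [← stdSymp_apply]
    exact hcon y
  obtain ⟨w', hw'⟩ : ∃ w', stdSymp (k + 1) F v w' = 1 := by
    refine ⟨(stdSymp (k + 1) F v w)⁻¹ • w, ?_⟩
    rw [map_smul, smul_eq_mul, inv_mul_cancel₀ hw]
  have hV : Module.finrank F (Fin (k + 1) ⊕ Fin (k + 1) → F) = 2 * k + 2 := by
    simp
    omega
  obtain ⟨hfr, hnd'⟩ := alt_split (stdSymp (k + 1) F) halt hnd v w' hw' (k := 2 * k) hV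
  obtain ⟨e, f, h1, h2, h3⟩ := alt_struct F k _ _ hfr (fun x => halt (x : _)) hnd'
  obtain ⟨x, hx⟩ : ∃ x : {x : SympSet (stdSymp (k + 1) F) (k + 1) // x.1.1 0 = v ∧ x.1.2 0 = w'},
      True := ⟨(sympFiberEquiv (stdSymp (k + 1) F) halt k v w' hw').symm ⟨(e, f), ⟨h1, h2, h3⟩⟩,
        trivial⟩
  refine ⟨(spEquivSympSet (k + 1) F).symm x.1, fun r => ?_⟩
  have h4 := congrFun x.2.1 r
  exact h4

/-- `Sp_{2m}(F)` is transitive on non-zero vectors. -/
theorem sp_transitive_nonzero {F : Type u} [Field F] (m : ℕ) (v w : Fin m ⊕ Fin m → F)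
    (hv : v ≠ 0) (hw : w ≠ 0) :
    ∃ g : Matrix.symplecticGroup (Fin m) F,
      (g : Matrix (Fin m ⊕ Fin m) (Fin m ⊕ Fin m) F).mulVec v = w := by
  classical
  rcases m with _ | k
  · exfalso
    apply hv
    funext i
    rcases i with i | i <;> exact i.elim0
  · obtain ⟨A, hA⟩ := sp_exists_col k v hv
    obtain ⟨A', hA'⟩ := sp_exists_col k w hw
    have hAv : A.1.mulVec (Pi.single (Sum.inr 0) 1) = v := by
      funext r
      rw [Matrix.mulVec_single_one]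
      exact hA r
    have hAw : A'.1.mulVec (Pi.single (Sum.inr 0) 1) = w := by
      funext r
      rw [Matrix.mulVec_single_one]
      exact hA' r
    refine ⟨A' * A⁻¹, ?_⟩
    have h1 : ((A' * A⁻¹ : Matrix.symplecticGroup (Fin (k + 1)) F) :
        Matrix (Fin (k + 1) ⊕ Fin (k + 1)) (Fin (k + 1) ⊕ Fin (k + 1)) F) = A'.1 * (A⁻¹).1 := rfl
    have h2 : (A⁻¹).1 * A.1 = 1 := by
      have : ((A⁻¹ * A : Matrix.symplecticGroup (Fin (k + 1)) F) :
        Matrix (Fin (k + 1) ⊕ Fin (k + 1)) (Fin (k + 1) ⊕ Fin (k + 1)) F) = (A⁻¹).1 * A.1 := rfl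
      rw [← this, inv_mul_cancel]
      rfl
    rw [h1, ← Matrix.mulVec_mulVec]
    nth_rewrite 1 [← hAv]
    rw [Matrix.mulVec_mulVec (Pi.single (Sum.inr 0) 1) (A⁻¹).1 A.1, h2, Matrix.one_mulVec, hAw]

end Cfsg.Agent.Lib.Helper4
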