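import Mathlib
import Cfsg.Agent.Lib.Helper4.SpOrder

set_option autoImplicit false

namespace Cfsg.Agent.Lib.Helper4

universe u v

open Matrix

theorem affine_hyp_card {F : Type u} [Field F] [Fintype F] {V : Type v} [AddCommGroup V]
    [Module F V] [FiniteDimensional F V] (B : LinearMap.BilinForm F V) (hB : B.Nondegenerate)
    {n : ℕ} (hV : Module.finrank F V = n + 1) (v : V) (hv : v ≠ 0) :
    Nat.card {w : V // B v w = 1} = Fintype.card F ^ n := by
  classical
  haveI : Finite V := Module.finite_of_finite F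
  obtain ⟨y, hy⟩ : ∃ y, B v y ≠ 0 := by
    by_contra hcon
    push Not at hcon
    exact hv (hB.1 v hcon)
  obtain ⟨w₀, hw₀⟩ : ∃ w₀, B v w₀ = 1 :=
    ⟨(B v y)⁻¹ • y, by rw [map_smul, smul_eq_mul, inv_mul_cancel₀ hy]⟩
  have e : {w : V // B v w = 1} ≃ LinearMap.ker (B v) :=
    { toFun := fun w => ⟨w.1 - w₀, by
        rw [LinearMap.mem_ker, map_sub, w.2, hw₀, sub_self]⟩
      invFun := fun z => ⟨z.1 + w₀, by
        have := z.2
        rw [LinearMap.mem_ker] at this
        rw [map_add, this, hw₀, zero_add]⟩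
      left_inv := fun w => by
        apply Subtype.ext
        simp
      right_inv := fun z => by
        apply Subtype.ext
        simp }
  rw [Nat.card_congr e, Module.natCard_eq_pow_finrank (K := F), Nat.card_eq_fintype_card]
  congr 1
  have h1 := LinearMap.finrank_range_add_finrank_ker (B v)
  have h2 : LinearMap.range (B v) = ⊤ := by
    rw [LinearMap.range_eq_top]
    intro c
    exact ⟨c • w₀, by rw [map_smul, hw₀, smul_eq_mul, mul_one]⟩
  rw [h2, finrank_top, Module.finrank_self, hV] at h1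
  omega

theorem sp_stab_card {F : Type u} [Field F] [Fintype F] (k : ℕ)
    (a : Fin (k + 1) ⊕ Fin (k + 1) → F) (ha : a ≠ 0) :
    Nat.card {g : ↥(Matrix.symplecticGroup (Fin (k + 1)) F) // (g.1).mulVec a = a} =
      Fintype.card F ^ (2 * k + 1) * ∏ i ∈ Finset.range k,
        ((Fintype.card F ^ (2 * (i + 1)) - 1) * Fintype.card F ^ (2 * i + 1)) := by
  classical
  have halt : ∀ x, stdSymp (k + 1) F x x = 0 := stdSymp_alt
  have hnd := stdSymp_nondeg (F := F) (k + 1)
  have hV : Module.finrank F (Fin (k + 1) ⊕ Fin (k + 1) → F) = 2 * k + 2 := by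
    simp
    omega
  obtain ⟨y, hy⟩ : ∃ y, stdSymp (k + 1) F a y ≠ 0 := by
    by_contra hcon
    push Not at hcon
    exact ha (hnd.1 a hcon)
  obtain ⟨w₀, hw₀⟩ : ∃ w₀, stdSymp (k + 1) F a w₀ = 1 :=
    ⟨(stdSymp (k + 1) F a y)⁻¹ • y, by rw [map_smul, smul_eq_mul, inv_mul_cancel₀ hy]⟩
  obtain ⟨hfr, hndW⟩ := alt_split (stdSymp (k + 1) F) halt hnd a w₀ hw₀ (k := 2 * k) hV
  obtain ⟨e', f', h1, h2, h3⟩ := alt_struct F k _ _ hfr (fun x => halt (x : _)) hndW
  obtain ⟨x₀, hx₀⟩ : ∃ x₀ : SympSet (stdSymp (k + 1) F) (k + 1), x₀.1.1 0 = a :=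
    ⟨((sympFiberEquiv (stdSymp (k + 1) F) halt k a w₀ hw₀).symm ⟨(e', f'), ⟨h1, h2, h3⟩⟩).1,
      ((sympFiberEquiv (stdSymp (k + 1) F) halt k a w₀ hw₀).symm ⟨(e', f'), ⟨h1, h2, h3⟩⟩).2.1⟩
  obtain ⟨P, hPdef⟩ : ∃ P : ↥(Matrix.symplecticGroup (Fin (k + 1)) F),
      P = (spEquivSympSet (k + 1) F).symm x₀ := ⟨_, rfl⟩
  have hP : ∀ r, P.1 r (Sum.inr 0) = a r := by
    intro r
    have h5 := (spEquivSympSet (k + 1) F).apply_symm_apply x₀
    rw [← hPdef] at h5
    have h6 : ((spEquivSympSet (k + 1) F) P).1.1 0 r = P.1 r (Sum.inr 0) := rfl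
    rw [← h6, h5, hx₀]
  have e1 : {g : ↥(Matrix.symplecticGroup (Fin (k + 1)) F) // (g.1).mulVec a = a} ≃
      {x : SympSet (stdSymp (k + 1) F) (k + 1) // x.1.1 0 = a} :=
    Equiv.subtypeEquiv ((Equiv.mulRight P).trans (spEquivSympSet (k + 1) F)) (fun g => by
      have h5 : ((spEquivSympSet (k + 1) F) (g * P)).1.1 0 = (g.1).mulVec a := by
        funext r
        show (g.1 * P.1) r (Sum.inr 0) = _
        rw [Matrix.mul_apply]
        simp only [hP]
        rfl
      show _ ↔ ((spEquivSympSet (k + 1) F) (g * P)).1.1 0 = a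
      rw [h5])
  rw [Nat.card_congr e1]
  haveI : Finite (Fin (k + 1) ⊕ Fin (k + 1) → F) := inferInstance
  let ρ : {x : SympSet (stdSymp (k + 1) F) (k + 1) // x.1.1 0 = a} →
      {w : Fin (k + 1) ⊕ Fin (k + 1) → F // stdSymp (k + 1) F a w = 1} := fun x =>
    ⟨x.1.1.2 0, by
      have := x.1.2.1 0 0
      rw [if_pos rfl, x.2] at this
      exact this⟩
  haveI : Fintype {w : Fin (k + 1) ⊕ Fin (k + 1) → F // stdSymp (k + 1) F a w = 1} :=
    Fintype.ofFinite _
  rw [← Nat.card_congr (Equiv.sigmaFiberEquiv ρ), Nat.card_sigma]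
  have hfib : ∀ w : {w : Fin (k + 1) ⊕ Fin (k + 1) → F // stdSymp (k + 1) F a w = 1},
      Nat.card {x // ρ x = w} = ∏ i ∈ Finset.range k,
        ((Fintype.card F ^ (2 * (i + 1)) - 1) * Fintype.card F ^ (2 * i + 1)) := by
    rintro ⟨w, hw⟩
    have e2 : {x // ρ x = ⟨w, hw⟩} ≃
        {x : SympSet (stdSymp (k + 1) F) (k + 1) // x.1.1 0 = a ∧ x.1.2 0 = w} :=
      (Equiv.subtypeEquivRight (fun x => by
        simp only [ρ, Subtype.mk.injEq])).trans
        (Equiv.subtypeSubtypeEquivSubtypeInter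
          (fun x : SympSet (stdSymp (k + 1) F) (k + 1) => x.1.1 0 = a)
          (fun x => x.1.2 0 = w))
    rw [Nat.card_congr e2, Nat.card_congr (sympFiberEquiv (stdSymp (k + 1) F) halt k a w hw)]
    obtain ⟨hfr', hnd'⟩ := alt_split (stdSymp (k + 1) F) halt hnd a w hw (k := 2 * k) hV
    exact sympSet_card F k _ _ hfr' (fun x => halt (x : _)) hnd'
  simp only [hfib]
  rw [Finset.sum_const, Finset.card_univ, smul_eq_mul, ← Nat.card_eq_fintype_card,
    affine_hyp_card (stdSymp (k + 1) F) hnd (n := 2 * k + 1) hV a ha]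

theorem stdSymp_mulVec {F : Type u} [Field F] {m : ℕ}
    (A : Matrix (Fin m ⊕ Fin m) (Fin m ⊕ Fin m) F)
    (hA : A ∈ Matrix.symplecticGroup (Fin m) F) (x y : Fin m ⊕ Fin m → F) :
    stdSymp m F (A.mulVec x) (A.mulVec y) = stdSymp m F x y := by
  rw [stdSymp_apply, stdSymp_apply, sympForm_mulVec A hA]

theorem symp_transv_vector {F : Type u} [Field F] [Finite F] [CharP F 2] {m : ℕ}
    (t : Matrix (Fin m ⊕ Fin m) (Fin m ⊕ Fin m) F) (ht : t ∈ Matrix.symplecticGroup (Fin m) F)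
    (hrk : (t - 1).rank = 1) :
    ∃ u : Fin m ⊕ Fin m → F, u ≠ 0 ∧ ∀ x, t.mulVec x = x + stdSymp m F x u • u := by
  classical
  have h1 : Module.finrank F (LinearMap.range (Matrix.mulVecLin (t - 1))) = 1 := hrk
  obtain ⟨a, ha0, ha⟩ := finrank_eq_one_iff'.1 h1
  have hφ : ∀ x, ∃ c : F, (t - 1).mulVec x = c • a.1 := by
    intro x
    obtain ⟨c, hc⟩ := ha ⟨(t - 1).mulVec x, ⟨x, rfl⟩⟩
    exact ⟨c, (congrArg Subtype.val hc).symm⟩
  choose φ hφ using hφ
  have ha0' : a.1 ≠ 0 := fun h => ha0 (Subtype.ext h)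
  have htx : ∀ x, t.mulVec x = x + φ x • a.1 := by
    intro x
    have := hφ x
    rw [Matrix.sub_mulVec, Matrix.one_mulVec] at this
    rw [← this]
    abel
  have key : ∀ x y, φ y * stdSymp m F x a.1 = φ x * stdSymp m F y a.1 := by
    intro x y
    have h2 := stdSymp_mulVec t ht x y
    rw [htx x, htx y] at h2
    simp only [map_add, map_smul, LinearMap.add_apply, LinearMap.smul_apply, smul_eq_mul,
      stdSymp_alt] at h2
    have h3 := alt_swap (stdSymp m F) stdSymp_alt a.1 y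
    rw [h3] at h2
    linear_combination h2
  obtain ⟨x₀, hx₀⟩ := a.2
  have hφx₀ : φ x₀ ≠ 0 := by
    intro h0
    apply ha0'
    rw [← hx₀]
    show (t - 1).mulVec x₀ = 0
    rw [hφ x₀, h0, zero_smul]
  obtain ⟨y₀, hy₀⟩ : ∃ y₀, stdSymp m F y₀ a.1 ≠ 0 := by
    by_contra hcon
    push Not at hcon
    exact ha0' ((stdSymp_nondeg m).2 a.1 hcon)
  have hφy₀ : φ y₀ ≠ 0 := by
    intro h0
    have := key x₀ y₀
    rw [h0, zero_mul] at this
    exact mul_ne_zero hφx₀ hy₀ this.symm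
  haveI : ExpChar F 2 := ExpChar.prime Nat.prime_two
  obtain ⟨d, hd⟩ := (Finite.injective_iff_surjective.1 (frobenius_inj F 2))
    (φ y₀ / stdSymp m F y₀ a.1)
  rw [frobenius_def] at hd
  have hd0 : d ≠ 0 := by
    intro h0
    rw [h0] at hd
    have : φ y₀ / stdSymp m F y₀ a.1 ≠ 0 := div_ne_zero hφy₀ hy₀
    exact this (by rw [← hd]; ring)
  refine ⟨d • a.1, smul_ne_zero hd0 ha0', ?_⟩
  intro x
  rw [htx, map_smul, smul_eq_mul, smul_smul]
  congr 2
  have h4 := key x y₀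
  have h5 : d * stdSymp m F x a.1 * d = d ^ 2 * stdSymp m F x a.1 := by ring
  rw [h5, hd]
  field_simp
  linear_combination -h4

theorem symp_transv_centralizer_iff {F : Type u} [Field F] [CharP F 2] {m : ℕ}
    (t g : Matrix (Fin m ⊕ Fin m) (Fin m ⊕ Fin m) F)
    (hg : g ∈ Matrix.symplecticGroup (Fin m) F)
    (u : Fin m ⊕ Fin m → F) (hu : u ≠ 0)
    (htu : ∀ x, t.mulVec x = x + stdSymp m F x u • u) :
    t * g = g * t ↔ g.mulVec u = u := by
  constructor
  · intro h
    have h1 : ∀ x, stdSymp m F (g.mulVec x) u • u = stdSymp m F x u • g.mulVec u := by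
      intro x
      have h2 := congrArg (fun M => M.mulVec x) h
      simp only [← Matrix.mulVec_mulVec] at h2
      rw [htu, htu, Matrix.mulVec_add, Matrix.mulVec_smul] at h2
      exact add_left_cancel h2
    obtain ⟨y, hy⟩ : ∃ y, stdSymp m F y u ≠ 0 := by
      by_contra hcon
      push Not at hcon
      exact hu ((stdSymp_nondeg m).2 u hcon)
    obtain ⟨x₁, hx₁⟩ : ∃ x₁, stdSymp m F x₁ u = 1 :=
      ⟨(stdSymp m F y u)⁻¹ • y, by
        rw [map_smul, LinearMap.smul_apply, smul_eq_mul, inv_mul_cancel₀ hy]⟩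
    have h3 := h1 x₁
    rw [hx₁, one_smul] at h3
    obtain ⟨l, hl⟩ : ∃ l, l = stdSymp m F (g.mulVec x₁) u := ⟨_, rfl⟩
    rw [← hl] at h3
    have h4 := stdSymp_mulVec g hg x₁ u
    rw [← h3, map_smul, smul_eq_mul, ← hl, hx₁] at h4
    have h5 : (l - 1) ^ 2 = 0 := by
      have h6 : (2 : F) = 0 := CharP.ofNat_eq_zero F 2
      linear_combination h4 - l * h6 + h6
    have h7 : l = 1 := by
      have := pow_eq_zero_iff (n := 2) (by norm_num) |>.1 h5
      exact sub_eq_zero.1 this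
    rw [← h3, h7, one_smul]
  · intro h
    apply Matrix.toLin'.injective
    apply LinearMap.ext
    intro x
    rw [Matrix.toLin'_apply, Matrix.toLin'_apply, ← Matrix.mulVec_mulVec, ← Matrix.mulVec_mulVec,
      htu, htu, Matrix.mulVec_add, Matrix.mulVec_smul, h]
    congr 2
    have := stdSymp_mulVec g hg x u
    rw [h] at this
    exact this

theorem symp_transv_centralizer_card {F : Type u} [Field F] [Fintype F] [CharP F 2] (k : ℕ)
    (t : ↥(Matrix.symplecticGroup (Fin (k + 1)) F)) (ht : (t.1 - 1).rank = 1) :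
    Nat.card ↥(Subgroup.centralizer ({t} : Set ↥(Matrix.symplecticGroup (Fin (k + 1)) F))) =
      Fintype.card F ^ (2 * k + 1) * ∏ i ∈ Finset.range k,
        ((Fintype.card F ^ (2 * (i + 1)) - 1) * Fintype.card F ^ (2 * i + 1)) := by
  obtain ⟨u, hu, htu⟩ := symp_transv_vector t.1 t.2 ht
  rw [← sp_stab_card k u hu]
  apply Nat.card_congr
  exact Equiv.subtypeEquivRight (fun g => by
    rw [Subgroup.mem_centralizer_iff]
    simp only [Set.mem_singleton_iff, forall_eq]
    rw [← symp_transv_centralizer_iff t.1 g.1 g.2 u hu htu]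
    constructor
    · intro h
      exact congrArg Subtype.val h
    · intro h
      exact Subtype.ext h)

end Cfsg.Agent.Lib.Helper4
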