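import Mathlib
import Cfsg.Agent.Lib.Helper4.SpOrder

set_option autoImplicit false

namespace Cfsg.Agent.Lib.Helper4

open Matrix

universe u

theorem spc_J_mulVec_inl {F : Type*} [CommRing F] (m : ℕ) (v : Fin m ⊕ Fin m → F) (i : Fin m) :
    (J (Fin m) F *ᵥ v) (Sum.inl i) = - v (Sum.inr i) := by
  simp [J, Matrix.fromBlocks_mulVec, Matrix.neg_mulVec]

theorem spc_J_mulVec_inr {F : Type*} [CommRing F] (m : ℕ) (v : Fin m ⊕ Fin m → F) (i : Fin m) :
    (J (Fin m) F *ᵥ v) (Sum.inr i) = v (Sum.inl i) := by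
  simp [J, Matrix.fromBlocks_mulVec]

theorem spc_dot_J_self {F : Type*} [CommRing F] (m : ℕ) (v : Fin m ⊕ Fin m → F) :
    v ⬝ᵥ (J (Fin m) F *ᵥ v) = 0 := by
  rw [dotProduct, Fintype.sum_sum_type]
  simp only [spc_J_mulVec_inl, spc_J_mulVec_inr]
  rw [← Finset.sum_add_distrib]
  apply Finset.sum_eq_zero
  intro i _
  ring

theorem spc_J_mulVec_J_mulVec {F : Type*} [CommRing F] (m : ℕ) (v : Fin m ⊕ Fin m → F) :
    J (Fin m) F *ᵥ (J (Fin m) F *ᵥ v) = -v := by
  rw [Matrix.mulVec_mulVec, J_squared, Matrix.neg_mulVec, Matrix.one_mulVec]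

theorem spc_J_mulVec_vecMul_J {F : Type*} [CommRing F] (m : ℕ) (v : Fin m ⊕ Fin m → F) :
    (J (Fin m) F *ᵥ v) ᵥ* J (Fin m) F = v := by
  have h1 : J (Fin m) F *ᵥ v = v ᵥ* (-J (Fin m) F) := by
    rw [← J_transpose, Matrix.vecMul_transpose]
  rw [h1, Matrix.vecMul_vecMul, Matrix.neg_mul, J_squared, neg_neg, Matrix.vecMul_one]

/-- Symplectic transvections lie in the symplectic group. -/
theorem sympTransv_mem {F : Type*} [Field F] (m : ℕ) (v : Fin m ⊕ Fin m → F) (c : F) :
    Cfsg.sympTransvection m v c ∈ Matrix.symplecticGroup (Fin m) F := by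
  rw [SymplecticGroup.mem_iff]
  unfold Cfsg.sympTransvection
  rw [Matrix.transpose_add, Matrix.transpose_one, Matrix.transpose_smul, Matrix.transpose_vecMulVec]
  simp only [add_mul, mul_add, one_mul, mul_one, Matrix.smul_mul, Matrix.mul_smul]
  rw [Matrix.vecMulVec_mul, spc_J_mulVec_vecMul_J, Matrix.mul_vecMulVec, spc_J_mulVec_J_mulVec,
    Matrix.vecMulVec_mul_vecMulVec, spc_dot_J_self, zero_smul, Matrix.vecMulVec_zero, smul_zero,
    smul_zero, add_zero, Matrix.neg_vecMulVec, smul_neg]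
  abel

theorem sympTransv_mulVec {F : Type*} [Field F] (m : ℕ) (v x : Fin m ⊕ Fin m → F) (c : F) :
    (Cfsg.sympTransvection m v c).mulVec x = x + (c * Cfsg.sympForm m F x v) • v := by
  unfold Cfsg.sympTransvection Cfsg.sympForm
  rw [Matrix.add_mulVec, Matrix.one_mulVec, Matrix.smul_mulVec, Matrix.vecMulVec_mulVec,
    op_smul_eq_smul, smul_smul, dotProduct_comm]

/-- A matrix for which every vector is an eigenvector is scalar. -/
theorem matrix_scalar_of_eigen {F : Type*} [Field F] {ι : Type*} [Fintype ι] [DecidableEq ι]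
    (A : Matrix ι ι F) (h : ∀ v : ι → F, ∃ c : F, A.mulVec v = c • v) (i₀ : ι) :
    A = (A i₀ i₀) • (1 : Matrix ι ι F) := by
  have hd : ∀ i j, i ≠ j → A i j = 0 := by
    intro i j hij
    obtain ⟨c, hc⟩ := h (Pi.single j 1)
    have h1 := congrFun hc i
    rw [Matrix.mulVec_single_one] at h1
    simpa [Pi.single_apply, hij] using h1
  have he : ∀ i j, A i i = A j j := by
    intro i j
    by_cases hij : i = j
    · rw [hij]
    obtain ⟨c, hc⟩ := h (Pi.single i 1 + Pi.single j 1)
    have h1 := congrFun hc i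
    have h2 := congrFun hc j
    rw [Matrix.mulVec_add, Matrix.mulVec_single_one, Matrix.mulVec_single_one] at h1 h2
    have hji : j ≠ i := fun h => hij h.symm
    simp [Pi.single_apply, hij, hji, hd i j hij, hd j i hji] at h1 h2
    rw [h1, h2]
  ext i j
  by_cases hij : i = j
  · subst hij
    simp [he i i₀]
  · simp [hd i j hij, Matrix.one_apply, hij]

theorem sp_center_eigen {F : Type u} [Field F] (m : ℕ) (z : Matrix.symplecticGroup (Fin m) F)
    (hz : z ∈ Subgroup.center (Matrix.symplecticGroup (Fin m) F)) (v : Fin m ⊕ Fin m → F) :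
    ∃ c : F, z.1.mulVec v = c • v := by
  by_cases hv : v = 0
  · exact ⟨1, by rw [hv]; simp⟩
  obtain ⟨x, hx⟩ : ∃ x, Cfsg.sympForm m F x v ≠ 0 := by
    by_contra hcon
    push Not at hcon
    apply hv
    apply sympForm_nondeg
    intro y
    rw [← stdSymp_apply, alt_swap (stdSymp m F) stdSymp_alt, stdSymp_apply, hcon y, neg_zero]
  obtain ⟨x', hx'⟩ : ∃ x', Cfsg.sympForm m F x' v = 1 := by
    refine ⟨(Cfsg.sympForm m F x v)⁻¹ • x, ?_⟩
    rw [← stdSymp_apply, map_smul, LinearMap.smul_apply, smul_eq_mul, stdSymp_apply,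
      inv_mul_cancel₀ hx]
  obtain ⟨T, hT⟩ : ∃ T : Matrix.symplecticGroup (Fin m) F, T.1 = Cfsg.sympTransvection m v 1 :=
    ⟨⟨_, sympTransv_mem m v 1⟩, rfl⟩
  have hcomm : T * z = z * T := Subgroup.mem_center_iff.mp hz T
  have hcomm' : T.1 * z.1 = z.1 * T.1 := congrArg Subtype.val hcomm
  have h1 := congrArg (fun M => M.mulVec x') hcomm'
  simp only [← Matrix.mulVec_mulVec] at h1
  rw [hT, sympTransv_mulVec, sympTransv_mulVec, hx', Matrix.mulVec_add, Matrix.mulVec_smul] at h1
  refine ⟨Cfsg.sympForm m F (z.1.mulVec x') v, ?_⟩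
  have h2 := add_left_cancel h1
  simp only [one_mul, one_smul] at h2
  exact h2.symm

theorem sp_center_iff {F : Type u} [Field F] (m : ℕ) (hm : 1 ≤ m)
    (z : Matrix.symplecticGroup (Fin m) F) :
    z ∈ Subgroup.center (Matrix.symplecticGroup (Fin m) F) ↔ (z.1 = 1 ∨ z.1 = -1) := by
  classical
  constructor
  · intro hz
    obtain ⟨c, hc⟩ : ∃ c : F, z.1 = c • (1 : Matrix (Fin m ⊕ Fin m) (Fin m ⊕ Fin m) F) :=
      ⟨_, matrix_scalar_of_eigen z.1 (sp_center_eigen m z hz) (Sum.inl ⟨0, hm⟩)⟩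
    have h1 := SymplecticGroup.mem_iff'.mp z.2
    rw [hc] at h1
    have h2 := congrFun (congrFun h1 (Sum.inl ⟨0, hm⟩)) (Sum.inr ⟨0, hm⟩)
    simp [Matrix.J, Matrix.transpose_smul] at h2
    have h3 : c * c = 1 := h2
    rcases mul_self_eq_one_iff.mp h3 with h | h
    · left
      rw [hc, h, one_smul]
    · right
      rw [hc, h, neg_one_smul]
  · rintro (h | h)
    · have : z = 1 := Subtype.ext h
      rw [this]
      exact Subgroup.one_mem _
    · rw [Subgroup.mem_center_iff]
      intro g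
      apply Subtype.ext
      show g.1 * z.1 = z.1 * g.1
      rw [h]
      simp

theorem sp_center_card {F : Type u} [Field F] [Fintype F] (m : ℕ) (hm : 1 ≤ m) :
    Nat.card (Subgroup.center (Matrix.symplecticGroup (Fin m) F)) =
      Nat.gcd 2 (Fintype.card F - 1) := by
  classical
  obtain ⟨n1, hn1⟩ : ∃ n1 : Matrix.symplecticGroup (Fin m) F, n1.1 = -1 :=
    ⟨⟨-1, SymplecticGroup.neg_mem (one_mem _)⟩, rfl⟩
  have hset : ((Subgroup.center (Matrix.symplecticGroup (Fin m) F) : Subgroup _) :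
      Set (Matrix.symplecticGroup (Fin m) F)) = {1, n1} := by
    ext z
    rw [SetLike.mem_coe, sp_center_iff m hm z, Set.mem_insert_iff, Set.mem_singleton_iff]
    constructor
    · rintro (h | h)
      · left; exact Subtype.ext h
      · right; exact Subtype.ext (h.trans hn1.symm)
    · rintro (h | h)
      · left; rw [h]; rfl
      · right; rw [h]; exact hn1
  have hcard : Nat.card (Subgroup.center (Matrix.symplecticGroup (Fin m) F)) =
      Set.ncard ({1, n1} : Set (Matrix.symplecticGroup (Fin m) F)) := by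
    rw [← hset]
    exact Nat.card_coe_set_eq _
  rw [hcard]
  have hq2 : 2 ≤ Fintype.card F := Fintype.one_lt_card
  by_cases hch : ringChar F = 2
  · have h1 : (1 : Matrix.symplecticGroup (Fin m) F) = n1 := by
      apply Subtype.ext
      rw [hn1]
      have h2 : (1 : F) = -1 := by
        have h3 : ((2 : ℕ) : F) = 0 := (ringChar.spec F 2).mpr (by rw [hch])
        have h4 : (2 : F) = 0 := by exact_mod_cast h3
        linear_combination h4
      ext i j
      by_cases hij : i = j
      · subst hij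
        simpa using h2
      · simp [Matrix.one_apply, hij]
    rw [← h1, Set.pair_eq_singleton, Set.ncard_singleton]
    have h5 := FiniteField.even_card_iff_char_two.mp hch
    have h6 : (Fintype.card F - 1) % 2 = 1 := by omega
    rw [Nat.gcd_rec, h6]
    rfl
  · have h1 : (1 : Matrix.symplecticGroup (Fin m) F) ≠ n1 := by
      intro h
      have h2 := congrArg Subtype.val h
      rw [hn1] at h2
      have h3 := congrFun (congrFun h2 (Sum.inl ⟨0, hm⟩)) (Sum.inl ⟨0, hm⟩)
      simp at h3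
      have h4 : (2 : F) = 0 := by linear_combination h3
      have h5 : ((2 : ℕ) : F) = 0 := by exact_mod_cast h4
      have h6 := (ringChar.spec F 2).mp h5
      rcases (Nat.dvd_prime Nat.prime_two).mp h6 with h7 | h7
      · exact CharP.ringChar_ne_one h7
      · exact hch h7
    rw [Set.ncard_pair h1]
    have h5 := FiniteField.odd_card_of_char_ne_two hch
    have h6 : (Fintype.card F - 1) % 2 = 0 := by omega
    rw [Nat.gcd_rec, h6]
    rfl

end Cfsg.Agent.Lib.Helper4
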