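import Mathlib
import Cfsg.Agent.Lib.Helper4.SpCenter

set_option autoImplicit false

namespace Cfsg.Agent.Lib.Helper4

open Matrix

universe u

section

variable {F : Type u} [Field F] {m : ℕ}

theorem sf_add_left (a b c : Fin m ⊕ Fin m → F) :
    Cfsg.sympForm m F (a + b) c = Cfsg.sympForm m F a c + Cfsg.sympForm m F b c := by
  rw [← stdSymp_apply, ← stdSymp_apply, ← stdSymp_apply, map_add, LinearMap.add_apply]

theorem sf_add_right (a b c : Fin m ⊕ Fin m → F) :
    Cfsg.sympForm m F a (b + c) = Cfsg.sympForm m F a b + Cfsg.sympForm m F a c := by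
  rw [← stdSymp_apply, ← stdSymp_apply, ← stdSymp_apply, map_add]

theorem sf_sub_right (a b c : Fin m ⊕ Fin m → F) :
    Cfsg.sympForm m F a (b - c) = Cfsg.sympForm m F a b - Cfsg.sympForm m F a c := by
  rw [← stdSymp_apply, ← stdSymp_apply, ← stdSymp_apply, map_sub]

theorem sf_swap (a b : Fin m ⊕ Fin m → F) :
    Cfsg.sympForm m F a b = - Cfsg.sympForm m F b a := by
  rw [← stdSymp_apply, ← stdSymp_apply]
  exact alt_swap (stdSymp m F) stdSymp_alt a b

/-- The subgroup generated by the transvections `t_{w,c}` with `w` orthogonal to `S`. -/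
def transvGrp (m : ℕ) (F : Type u) [Field F] (S : Set (Fin m ⊕ Fin m → F)) :
    Subgroup (Matrix.symplecticGroup (Fin m) F) :=
  Subgroup.closure {A | ∃ (w : Fin m ⊕ Fin m → F) (c : F),
    (∀ s ∈ S, Cfsg.sympForm m F s w = 0) ∧
      (A : Matrix (Fin m ⊕ Fin m) (Fin m ⊕ Fin m) F) = Cfsg.sympTransvection m w c}

theorem transvGrp_mono {S S' : Set (Fin m ⊕ Fin m → F)} (h : S ⊆ S') :
    transvGrp m F S' ≤ transvGrp m F S := by
  apply Subgroup.closure_mono
  rintro A ⟨w, c, hw, hA⟩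
  exact ⟨w, c, fun s hs => hw s (h hs), hA⟩

theorem transvGrp_le_all (S : Set (Fin m ⊕ Fin m → F)) :
    transvGrp m F S ≤ Subgroup.closure {A : Matrix.symplecticGroup (Fin m) F |
      ∃ (w : Fin m ⊕ Fin m → F) (c : F),
        (A : Matrix (Fin m ⊕ Fin m) (Fin m ⊕ Fin m) F) = Cfsg.sympTransvection m w c} := by
  apply Subgroup.closure_mono
  rintro A ⟨w, c, -, hA⟩
  exact ⟨w, c, hA⟩

theorem transvGrp_fix (S : Set (Fin m ⊕ Fin m → F)) (A : Matrix.symplecticGroup (Fin m) F)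
    (hA : A ∈ transvGrp m F S) : ∀ s ∈ S, A.1 *ᵥ s = s := by
  refine Subgroup.closure_induction (p := fun A _ => ∀ s ∈ S, A.1 *ᵥ s = s) ?_ ?_ ?_ ?_ hA
  · rintro A ⟨w, c, hw, hA⟩ s hs
    rw [hA, sympTransv_mulVec, hw s hs, mul_zero, zero_smul, add_zero]
  · intro s hs
    exact Matrix.one_mulVec s
  · intro A B _ _ ihA ihB s hs
    show (A.1 * B.1) *ᵥ s = s
    rw [← Matrix.mulVec_mulVec, ihB s hs, ihA s hs]
  · intro A _ ih s hs
    have h1 := ih s hs
    have h2 : (A⁻¹).1 *ᵥ (A.1 *ᵥ s) = s := by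
      rw [Matrix.mulVec_mulVec]
      have h3 : (A⁻¹).1 * A.1 = 1 := congrArg Subtype.val (inv_mul_cancel A)
      rw [h3, Matrix.one_mulVec]
    rw [h1] at h2
    exact h2

theorem transv_move (S : Set (Fin m ⊕ Fin m → F)) (a b : Fin m ⊕ Fin m → F)
    (hS : ∀ s ∈ S, Cfsg.sympForm m F s a = Cfsg.sympForm m F s b)
    (hab : Cfsg.sympForm m F a b ≠ 0) :
    ∃ A ∈ transvGrp m F S, A.1 *ᵥ a = b := by
  refine ⟨⟨Cfsg.sympTransvection m (a - b) (Cfsg.sympForm m F a b)⁻¹, sympTransv_mem m _ _⟩,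
    Subgroup.subset_closure ⟨a - b, _, fun s hs => ?_, rfl⟩, ?_⟩
  · rw [sf_sub_right, hS s hs, sub_self]
  · show Cfsg.sympTransvection m (a - b) _ *ᵥ a = b
    rw [sympTransv_mulVec, sf_sub_right, sympForm_self, zero_sub, mul_neg, inv_mul_cancel₀ hab,
      neg_smul, one_smul]
    abel

theorem transv_move2 (S : Set (Fin m ⊕ Fin m → F)) (a b w : Fin m ⊕ Fin m → F)
    (hS : ∀ s ∈ S, Cfsg.sympForm m F s a = Cfsg.sympForm m F s b)
    (hSw : ∀ s ∈ S, Cfsg.sympForm m F s a = Cfsg.sympForm m F s w)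
    (haw : Cfsg.sympForm m F a w ≠ 0) (hwb : Cfsg.sympForm m F w b ≠ 0) :
    ∃ A ∈ transvGrp m F S, A.1 *ᵥ a = b := by
  obtain ⟨A₁, hA₁, h1⟩ := transv_move S a w hSw haw
  obtain ⟨A₂, hA₂, h2⟩ := transv_move S w b (fun s hs => (hSw s hs).symm.trans (hS s hs)) hwb
  refine ⟨A₂ * A₁, mul_mem hA₂ hA₁, ?_⟩
  show (A₂.1 * A₁.1) *ᵥ a = b
  rw [← Matrix.mulVec_mulVec, h1, h2]

theorem transv_pair (S : Set (Fin m ⊕ Fin m → F)) (u v u' v' : Fin m ⊕ Fin m → F)
    (huv : Cfsg.sympForm m F u v = 1) (hu'v' : Cfsg.sympForm m F u' v' = 1)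
    (hu : ∀ s ∈ S, Cfsg.sympForm m F s u = 0) (hv : ∀ s ∈ S, Cfsg.sympForm m F s v = 0)
    (hu' : ∀ s ∈ S, Cfsg.sympForm m F s u' = 0) (hv' : ∀ s ∈ S, Cfsg.sympForm m F s v' = 0) :
    ∃ A ∈ transvGrp m F S, A.1 *ᵥ u = u' ∧ A.1 *ᵥ v = v' := by
  obtain ⟨A₁, hA₁, h1⟩ : ∃ A ∈ transvGrp m F S, A.1 *ᵥ u = u' := by
    have hS : ∀ s ∈ S, Cfsg.sympForm m F s u = Cfsg.sympForm m F s u' :=
      fun s hs => (hu s hs).trans (hu' s hs).symm
    by_cases h : Cfsg.sympForm m F u u' = 0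
    · by_cases h2 : Cfsg.sympForm m F v u' = 0
      · by_cases h3 : Cfsg.sympForm m F u v' = 0
        · refine transv_move2 S u u' (v + v') hS
            (fun s hs => by rw [sf_add_right, hu s hs, hv s hs, hv' s hs, add_zero]) ?_ ?_
          · rw [sf_add_right, huv, h3, add_zero]; exact one_ne_zero
          · rw [sf_add_left, h2, zero_add, sf_swap, hu'v']; exact neg_ne_zero.mpr one_ne_zero
        · refine transv_move2 S u u' v' hS (fun s hs => by rw [hu s hs, hv' s hs]) h3 ?_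
          rw [sf_swap, hu'v']; exact neg_ne_zero.mpr one_ne_zero
      · refine transv_move2 S u u' v hS (fun s hs => by rw [hu s hs, hv s hs]) ?_ h2
        rw [huv]; exact one_ne_zero
    · exact transv_move S u u' hS h
  have hfix := transvGrp_fix S A₁ hA₁
  obtain ⟨v₁, hv₁⟩ : ∃ v₁, v₁ = A₁.1 *ᵥ v := ⟨_, rfl⟩
  have hu'v₁ : Cfsg.sympForm m F u' v₁ = 1 := by
    rw [hv₁, ← h1, sympForm_mulVec A₁.1 A₁.2, huv]
  have hv₁S : ∀ s ∈ S, Cfsg.sympForm m F s v₁ = 0 := by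
    intro s hs
    have h3 := sympForm_mulVec A₁.1 A₁.2 s v
    rw [hfix s hs, ← hv₁] at h3
    rw [h3, hv s hs]
  have hS' : ∀ s ∈ insert u' S, Cfsg.sympForm m F s v₁ = Cfsg.sympForm m F s v' := by
    intro s hs
    rcases hs with hs | hs
    · rw [hs, hu'v₁, hu'v']
    · rw [hv₁S s hs, hv' s hs]
  obtain ⟨A₂, hA₂, h2⟩ : ∃ A ∈ transvGrp m F (insert u' S), A.1 *ᵥ v₁ = v' := by
    by_cases h : Cfsg.sympForm m F v₁ v' = 0
    · refine transv_move2 (insert u' S) v₁ v' (u' + v₁) hS' ?_ ?_ ?_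
      · intro s hs
        rcases hs with hs | hs
        · rw [hs, sf_add_right, sympForm_self, zero_add]
        · rw [sf_add_right, hu' s hs, zero_add]
      · rw [sf_add_right, sympForm_self, add_zero, sf_swap, hu'v₁]
        exact neg_ne_zero.mpr one_ne_zero
      · rw [sf_add_left, hu'v', h, add_zero]; exact one_ne_zero
    · exact transv_move (insert u' S) v₁ v' hS' h
  have hfix2 := transvGrp_fix (insert u' S) A₂ hA₂ u' (Set.mem_insert _ _)
  refine ⟨A₂ * A₁, mul_mem (transvGrp_mono (Set.subset_insert _ _) hA₂) hA₁, ?_, ?_⟩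
  · show (A₂.1 * A₁.1) *ᵥ u = u'
    rw [← Matrix.mulVec_mulVec, h1, hfix2]
  · show (A₂.1 * A₁.1) *ᵥ v = v'
    rw [← Matrix.mulVec_mulVec, ← hv₁, h2]

theorem transv_pair_all (u v u' v' : Fin m ⊕ Fin m → F)
    (h : Cfsg.sympForm m F u v = 1) (h' : Cfsg.sympForm m F u' v' = 1) :
    ∃ A ∈ Subgroup.closure {A : Matrix.symplecticGroup (Fin m) F |
      ∃ (w : Fin m ⊕ Fin m → F) (c : F),
        (A : Matrix (Fin m ⊕ Fin m) (Fin m ⊕ Fin m) F) = Cfsg.sympTransvection m w c},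
      (A : Matrix (Fin m ⊕ Fin m) (Fin m ⊕ Fin m) F).mulVec u = u' ∧
        (A : Matrix (Fin m ⊕ Fin m) (Fin m ⊕ Fin m) F).mulVec v = v' := by
  obtain ⟨A, hA, h1, h2⟩ := transv_pair (∅ : Set (Fin m ⊕ Fin m → F)) u v u' v' h h'
    (fun s hs => absurd hs (Set.notMem_empty s)) (fun s hs => absurd hs (Set.notMem_empty s))
    (fun s hs => absurd hs (Set.notMem_empty s)) (fun s hs => absurd hs (Set.notMem_empty s))
  exact ⟨A, transvGrp_le_all ∅ hA, h1, h2⟩

theorem sp_gen_transv (m : ℕ) (F : Type u) [Field F] :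
    Subgroup.closure {A : Matrix.symplecticGroup (Fin m) F |
      ∃ (w : Fin m ⊕ Fin m → F) (c : F),
        (A : Matrix (Fin m ⊕ Fin m) (Fin m ⊕ Fin m) F) = Cfsg.sympTransvection m w c} = ⊤ := by
  classical
  rw [eq_top_iff]
  intro A _
  have key : ∀ k ≤ m, ∃ T ∈ transvGrp m F ∅, ∀ i : Fin m, (i : ℕ) < k →
      (T.1 * A.1) *ᵥ (Pi.single (Sum.inr i) 1) = Pi.single (Sum.inr i) 1 ∧
      (T.1 * A.1) *ᵥ (Pi.single (Sum.inl i) 1) = Pi.single (Sum.inl i) 1 := by
    intro k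
    induction k with
    | zero => intro _; exact ⟨1, one_mem _, fun i hi => absurd hi (Nat.not_lt_zero _)⟩
    | succ k ih =>
      intro hk
      obtain ⟨T, hT, hfix⟩ := ih (by omega)
      obtain ⟨S, hSdef⟩ : ∃ S : Set (Fin m ⊕ Fin m → F), S = {s | ∃ i : Fin m, (i : ℕ) < k ∧
          (s = Pi.single (Sum.inr i) 1 ∨ s = Pi.single (Sum.inl i) 1)} := ⟨_, rfl⟩
      obtain ⟨B, hB⟩ : ∃ B : Matrix.symplecticGroup (Fin m) F, B = T * A := ⟨_, rfl⟩
      have hB1 : B.1 = T.1 * A.1 := by rw [hB]; rfl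
      have hBfix : ∀ s ∈ S, B.1 *ᵥ s = s := by
        intro s hs
        rw [hSdef] at hs
        obtain ⟨i, hi, rfl | rfl⟩ := hs
        · rw [hB1]; exact (hfix i hi).1
        · rw [hB1]; exact (hfix i hi).2
      obtain ⟨kk, hkk⟩ : ∃ kk : Fin m, (kk : ℕ) = k := ⟨⟨k, by omega⟩, rfl⟩
      have hbasis : Cfsg.sympForm m F (Pi.single (Sum.inr kk) 1) (Pi.single (Sum.inl kk) 1) = 1 := by
        rw [sympForm_eq_sum]
        simp [Pi.single_apply]
      have horth : ∀ s ∈ S, Cfsg.sympForm m F s (Pi.single (Sum.inr kk) 1) = 0 ∧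
          Cfsg.sympForm m F s (Pi.single (Sum.inl kk) 1) = 0 := by
        intro s hs
        rw [hSdef] at hs
        obtain ⟨i, hi, rfl | rfl⟩ := hs
        · have hne : i ≠ kk := fun h => by rw [h, hkk] at hi; omega
          constructor
          · rw [sympForm_eq_sum]; simp [Pi.single_apply]
          · rw [sympForm_eq_sum]; simp [Pi.single_apply, hne, hne.symm]
        · have hne : i ≠ kk := fun h => by rw [h, hkk] at hi; omega
          constructor
          · rw [sympForm_eq_sum]; simp [Pi.single_apply, hne, hne.symm]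
          · rw [sympForm_eq_sum]; simp [Pi.single_apply]
      obtain ⟨T', hT', h1, h2⟩ := transv_pair S (B.1 *ᵥ Pi.single (Sum.inr kk) 1)
        (B.1 *ᵥ Pi.single (Sum.inl kk) 1) (Pi.single (Sum.inr kk) 1) (Pi.single (Sum.inl kk) 1)
        (by rw [sympForm_mulVec B.1 B.2, hbasis]) hbasis
        (fun s hs => by
          have h3 := sympForm_mulVec B.1 B.2 s (Pi.single (Sum.inr kk) 1)
          rw [hBfix s hs] at h3
          rw [h3]; exact (horth s hs).1)
        (fun s hs => by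
          have h3 := sympForm_mulVec B.1 B.2 s (Pi.single (Sum.inl kk) 1)
          rw [hBfix s hs] at h3
          rw [h3]; exact (horth s hs).2)
        (fun s hs => (horth s hs).1) (fun s hs => (horth s hs).2)
      have hT'fix := transvGrp_fix S T' hT'
      refine ⟨T' * T, mul_mem (transvGrp_mono (Set.empty_subset _) hT') hT, ?_⟩
      intro i hi
      have e : (T' * T).1 * A.1 = T'.1 * B.1 := by
        rw [hB1]
        show T'.1 * T.1 * A.1 = T'.1 * (T.1 * A.1)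
        rw [Matrix.mul_assoc]
      rw [e]
      by_cases hik : (i : ℕ) < k
      · have hs1 : (Pi.single (Sum.inr i) 1 : Fin m ⊕ Fin m → F) ∈ S := by
          rw [hSdef]; exact ⟨i, hik, Or.inl rfl⟩
        have hs2 : (Pi.single (Sum.inl i) 1 : Fin m ⊕ Fin m → F) ∈ S := by
          rw [hSdef]; exact ⟨i, hik, Or.inr rfl⟩
        constructor
        · rw [← Matrix.mulVec_mulVec, hBfix _ hs1, hT'fix _ hs1]
        · rw [← Matrix.mulVec_mulVec, hBfix _ hs2, hT'fix _ hs2]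
      · have hik' : i = kk := Fin.ext (by rw [hkk]; omega)
        rw [hik']
        constructor
        · rw [← Matrix.mulVec_mulVec, h1]
        · rw [← Matrix.mulVec_mulVec, h2]
  obtain ⟨T, hT, hfix⟩ := key m le_rfl
  have hone : T.1 * A.1 = 1 := by
    ext x y
    have h3 : ((T.1 * A.1) *ᵥ Pi.single y 1) x = (Pi.single y (1 : F) : Fin m ⊕ Fin m → F) x := by
      rcases y with j | j
      · rw [(hfix j j.2).2]
      · rw [(hfix j j.2).1]
    rw [Matrix.mulVec_single_one, Matrix.col_apply] at h3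
    rw [h3, Matrix.one_apply, Pi.single_apply]
  have hTA : T * A = 1 := Subtype.ext hone
  have hA : A = T⁻¹ := eq_inv_of_mul_eq_one_right hTA
  rw [hA]
  exact inv_mem (transvGrp_le_all ∅ hT)

end

end Cfsg.Agent.Lib.Helper4
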