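import Mathlib
import Cfsg.Agent.Lib.Helper4.SpTransv
import Cfsg.Agent.Lib.Helper4.SpTransvGen
import Cfsg.Agent.Lib.Helper4.SpTransitive
import Cfsg.Agent.Lib.Helper4.SpQuadCharTwo
import Cfsg.Agent.Lib.Helper4.SLCard

set_option autoImplicit false

namespace Cfsg.Agent.Lib.Helper4

open Matrix

universe u

section

variable {F : Type u} [Field F] {m : ℕ}

/-- The symplectic transvection as a group element. -/
def tvS (m : ℕ) (w : Fin m ⊕ Fin m → F) (c : F) : Matrix.symplecticGroup (Fin m) F :=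
  ⟨Cfsg.sympTransvection m w c, sympTransv_mem m w c⟩

theorem tvS_val (w : Fin m ⊕ Fin m → F) (c : F) :
    (tvS m w c : Matrix (Fin m ⊕ Fin m) (Fin m ⊕ Fin m) F) = Cfsg.sympTransvection m w c := rfl

theorem tv_apply (w x : Fin m ⊕ Fin m → F) (c : F) :
    (Cfsg.sympTransvection m w c).mulVec x = x + (c * stdSymp m F x w) • w := by
  rw [sympTransv_mulVec, stdSymp_apply]

theorem tv_conj (g : Matrix (Fin m ⊕ Fin m) (Fin m ⊕ Fin m) F)
    (hg : g ∈ Matrix.symplecticGroup (Fin m) F) (u : Fin m ⊕ Fin m → F) (c : F) :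
    g * Cfsg.sympTransvection m u c = Cfsg.sympTransvection m (g.mulVec u) c * g := by
  apply Matrix.mulVec_injective
  funext x
  rw [← Matrix.mulVec_mulVec, ← Matrix.mulVec_mulVec, tv_apply, tv_apply, Matrix.mulVec_add,
    Matrix.mulVec_smul, stdSymp_mulVec g hg]

theorem tv_swap0 (a b : Fin m ⊕ Fin m → F) (h : stdSymp m F a b = 0) : stdSymp m F b a = 0 := by
  rw [alt_swap (stdSymp m F) stdSymp_alt b a, h, neg_zero]

theorem tvS_inv (u : Fin m ⊕ Fin m → F) (c : F) : (tvS m u c)⁻¹ = tvS m u (-c) := by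
  apply inv_eq_of_mul_eq_one_right
  apply Subtype.ext
  show Cfsg.sympTransvection m u c * Cfsg.sympTransvection m u (-c) = 1
  apply Matrix.mulVec_injective
  funext x
  rw [← Matrix.mulVec_mulVec, Matrix.one_mulVec]
  simp only [tv_apply, map_add, map_smul, LinearMap.add_apply, LinearMap.smul_apply, stdSymp_alt,
    smul_eq_mul, mul_zero, add_zero]
  funext i
  simp only [Pi.add_apply, Pi.smul_apply, smul_eq_mul]
  ring

theorem tvS_zero_left (c : F) : tvS m (0 : Fin m ⊕ Fin m → F) c = 1 := by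
  apply Subtype.ext
  show Cfsg.sympTransvection m 0 c = 1
  simp [Cfsg.sympTransvection]

theorem tvS_zero_right (w : Fin m ⊕ Fin m → F) : tvS m w (0 : F) = 1 := by
  apply Subtype.ext
  show Cfsg.sympTransvection m w 0 = 1
  simp [Cfsg.sympTransvection]

theorem tvS_conj (g : Matrix.symplecticGroup (Fin m) F) (u : Fin m ⊕ Fin m → F) (c : F) :
    g * tvS m u c * g⁻¹ = tvS m (g.1.mulVec u) c := by
  rw [mul_inv_eq_iff_eq_mul]
  apply Subtype.ext
  exact tv_conj g.1 g.2 u c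

theorem tv_comm_mem (a b : Fin m ⊕ Fin m → F) (ha : a ≠ 0) (hb : b ≠ 0) (c : F) :
    tvS m a c * tvS m b (-c) ∈ commutator (Matrix.symplecticGroup (Fin m) F) := by
  obtain ⟨g, hg⟩ := sp_transitive_nonzero m b a hb ha
  have h0 := Subgroup.commutator_mem_commutator
    (Subgroup.mem_top g) (Subgroup.mem_top (tvS m b c))
  rw [commutatorElement_def, tvS_conj, hg, tvS_inv, ← commutator_def] at h0
  exact h0

theorem tv_scale (w : Fin m ⊕ Fin m → F) (a c : F) :
    tvS m (a • w) c * tvS m w (-c) = tvS m w ((a ^ 2 - 1) * c) := by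
  apply Subtype.ext
  show Cfsg.sympTransvection m (a • w) c * Cfsg.sympTransvection m w (-c)
    = Cfsg.sympTransvection m w ((a ^ 2 - 1) * c)
  apply Matrix.mulVec_injective
  funext x
  rw [← Matrix.mulVec_mulVec]
  simp only [tv_apply, map_add, map_smul, LinearMap.add_apply, LinearMap.smul_apply, stdSymp_alt,
    smul_eq_mul, mul_zero, add_zero]
  funext i
  simp only [Pi.add_apply, Pi.smul_apply, smul_eq_mul]
  ring

theorem tv_mem_of_card [Fintype F] (hF : 4 ≤ Fintype.card F) (w : Fin m ⊕ Fin m → F) (c : F) :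
    tvS m w c ∈ commutator (Matrix.symplecticGroup (Fin m) F) := by
  classical
  by_cases hw : w = 0
  · rw [hw, tvS_zero_left]
    exact one_mem _
  obtain ⟨a, ha0, ha1, ha2⟩ : ∃ a : F, a ≠ 0 ∧ a ≠ 1 ∧ a ≠ -1 := by
    by_contra hcon
    push Not at hcon
    have hsub : (Finset.univ : Finset F) ⊆ {0, 1, -1} := by
      intro a _
      simp only [Finset.mem_insert, Finset.mem_singleton]
      by_cases h0 : a = 0
      · exact Or.inl h0
      by_cases h1 : a = 1
      · exact Or.inr (Or.inl h1)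
      exact Or.inr (Or.inr (hcon a h0 h1))
    have h5 := Finset.card_le_card hsub
    have h3 : ({0, 1, -1} : Finset F).card ≤ 3 := Finset.card_le_three
    rw [Finset.card_univ] at h5
    omega
  have ha : a ^ 2 - 1 ≠ 0 := by
    intro h
    have h6 : (a - 1) * (a + 1) = 0 := by linear_combination h
    rcases mul_eq_zero.1 h6 with h | h
    · exact ha1 (sub_eq_zero.1 h)
    · exact ha2 (eq_neg_of_add_eq_zero_left h)
  have h1 := tv_comm_mem (a • w) w (smul_ne_zero ha0 hw) hw (c / (a ^ 2 - 1))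
  have h7 : (a ^ 2 - 1) * (c / (a ^ 2 - 1)) = c := by field_simp
  rw [tv_scale, h7] at h1
  exact h1

theorem tv_odd_rel (u v : Fin m ⊕ Fin m → F) (huv : stdSymp m F u v = 0) (c : F) :
    tvS m (u + v) c * tvS m u (-c) * (tvS m (u - v) c * tvS m u (-c)) = tvS m v (2 * c) := by
  have hvu := tv_swap0 u v huv
  apply Subtype.ext
  simp only [Submonoid.coe_mul, tvS_val]
  apply Matrix.mulVec_injective
  funext x
  simp only [← Matrix.mulVec_mulVec]
  simp only [tv_apply, map_add, map_sub, map_smul, LinearMap.add_apply, LinearMap.sub_apply,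
    LinearMap.smul_apply, stdSymp_alt, huv, hvu, smul_eq_mul, mul_zero, add_zero, sub_zero,
    zero_add]
  funext i
  simp only [Pi.add_apply, Pi.sub_apply, Pi.smul_apply, smul_eq_mul]
  ring

theorem stdSymp_inl_inl (x y : Fin m ⊕ Fin m → F) (hx : ∀ i, x (Sum.inr i) = 0)
    (hy : ∀ i, y (Sum.inr i) = 0) : stdSymp m F x y = 0 := by
  rw [stdSymp_apply, sympForm_eq_sum]
  apply Finset.sum_eq_zero
  intro i _
  rw [hx, hy]
  ring

theorem eL_inl (i j : Fin m) :
    (Pi.single (Sum.inl i) (1 : F) : Fin m ⊕ Fin m → F) (Sum.inl j) = if j = i then 1 else 0 := by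
  simp [Pi.single_apply]

theorem eL_inr (i j : Fin m) :
    (Pi.single (Sum.inl i) (1 : F) : Fin m ⊕ Fin m → F) (Sum.inr j) = 0 := by
  simp [Pi.single_apply]

theorem tv_mem_of_odd (hm : 2 ≤ m) (h2 : (2 : F) ≠ 0) (w : Fin m ⊕ Fin m → F) (c : F) :
    tvS m w c ∈ commutator (Matrix.symplecticGroup (Fin m) F) := by
  classical
  by_cases hw : w = 0
  · rw [hw, tvS_zero_left]
    exact one_mem _
  obtain ⟨u, hu⟩ : ∃ u : Fin m ⊕ Fin m → F, u = Pi.single (Sum.inl ⟨1, by omega⟩) 1 := ⟨_, rfl⟩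
  obtain ⟨v, hv⟩ : ∃ v : Fin m ⊕ Fin m → F, v = Pi.single (Sum.inl ⟨0, by omega⟩) 1 := ⟨_, rfl⟩
  have hu1 : u (Sum.inl ⟨1, by omega⟩) = 1 := by rw [hu, eL_inl]; simp
  have hv1 : v (Sum.inl ⟨1, by omega⟩) = 0 := by rw [hv, eL_inl]; simp
  have hv0 : v (Sum.inl ⟨0, by omega⟩) = 1 := by rw [hv, eL_inl]; simp
  have huv : stdSymp m F u v = 0 :=
    stdSymp_inl_inl u v (by intro i; rw [hu, eL_inr]) (by intro i; rw [hv, eL_inr])
  have hune : u ≠ 0 := fun h => by rw [h] at hu1; simp at hu1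
  have hvne : v ≠ 0 := fun h => by rw [h] at hv0; simp at hv0
  have hp : u + v ≠ 0 := fun h => by
    have h3 := congrFun h (Sum.inl ⟨1, by omega⟩)
    simp [hu1, hv1] at h3
  have hq : u - v ≠ 0 := fun h => by
    have h3 := congrFun h (Sum.inl ⟨1, by omega⟩)
    simp [hu1, hv1] at h3
  have key : ∀ d : F, tvS m v d ∈ commutator (Matrix.symplecticGroup (Fin m) F) := by
    intro d
    have h1 := tv_comm_mem (u + v) u hp hune (d / 2)
    have h2' := tv_comm_mem (u - v) u hq hune (d / 2)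
    have h3 := mul_mem h1 h2'
    have h7 : 2 * (d / 2) = d := by field_simp
    rw [tv_odd_rel u v huv, h7] at h3
    exact h3
  obtain ⟨g, hg⟩ := sp_transitive_nonzero m v w hvne hw
  have h8 := (inferInstance : (commutator (Matrix.symplecticGroup (Fin m) F)).Normal).conj_mem _
    (key c) g
  rw [tvS_conj, hg] at h8
  exact h8

theorem tv_seven_rel (h2 : (2 : F) = 0) (u v w : Fin m ⊕ Fin m → F)
    (huv : stdSymp m F u v = 0) (huw : stdSymp m F u w = 0) (hvw : stdSymp m F v w = 0) :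
    tvS m u 1 * ((tvS m v 1 * tvS m w (-1)) * (tvS m (u + v) 1 * tvS m (u + w) (-1))
      * (tvS m (v + w) 1 * tvS m (u + v + w) (-1))) = 1 := by
  have hvu := tv_swap0 u v huv
  have hwu := tv_swap0 u w huw
  have hwv := tv_swap0 v w hvw
  have hneg : (-1 : F) = 1 := by linear_combination -h2
  apply Subtype.ext
  simp only [Submonoid.coe_mul, tvS_val, Submonoid.coe_one]
  apply Matrix.mulVec_injective
  funext x
  simp only [← Matrix.mulVec_mulVec, Matrix.one_mulVec]
  simp only [hneg, tv_apply, map_add, map_smul, LinearMap.add_apply, LinearMap.smul_apply,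
    stdSymp_alt, huv, huw, hvw, hvu, hwu, hwv, smul_eq_mul, mul_zero, add_zero, zero_add, one_mul]
  obtain ⟨α, hα⟩ : ∃ α, α = stdSymp m F x u := ⟨_, rfl⟩
  obtain ⟨β, hβ⟩ : ∃ β, β = stdSymp m F x v := ⟨_, rfl⟩
  obtain ⟨γ, hγ⟩ : ∃ γ, γ = stdSymp m F x w := ⟨_, rfl⟩
  rw [← hα, ← hβ, ← hγ]
  funext i
  simp only [Pi.add_apply, Pi.smul_apply, smul_eq_mul]
  linear_combination ((2 * α + β + γ) * u i + (α + 2 * β + γ) * v i + (α + β + 2 * γ) * w i) * h2

theorem tv_mem_of_two [Fintype F] (hm : 3 ≤ m) (hF : Fintype.card F = 2)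
    (w : Fin m ⊕ Fin m → F) (c : F) :
    tvS m w c ∈ commutator (Matrix.symplecticGroup (Fin m) F) := by
  classical
  have h2 : (2 : F) = 0 := two_eq_zero_of_card_two hF
  have hneg : (-1 : F) = 1 := by linear_combination -h2
  by_cases hw : w = 0
  · rw [hw, tvS_zero_left]
    exact one_mem _
  by_cases hc : c = 0
  · rw [hc, tvS_zero_right]
    exact one_mem _
  have hc1 : c = 1 := by
    have h3 := FiniteField.pow_card_sub_one_eq_one c hc
    rw [hF] at h3
    simpa using h3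
  obtain ⟨u, hu⟩ : ∃ u : Fin m ⊕ Fin m → F, u = Pi.single (Sum.inl ⟨0, by omega⟩) 1 := ⟨_, rfl⟩
  obtain ⟨v, hv⟩ : ∃ v : Fin m ⊕ Fin m → F, v = Pi.single (Sum.inl ⟨1, by omega⟩) 1 := ⟨_, rfl⟩
  obtain ⟨z, hz⟩ : ∃ z : Fin m ⊕ Fin m → F, z = Pi.single (Sum.inl ⟨2, by omega⟩) 1 := ⟨_, rfl⟩
  have hu0 : u (Sum.inl ⟨0, by omega⟩) = 1 := by rw [hu, eL_inl]; simp
  have hv0 : v (Sum.inl ⟨0, by omega⟩) = 0 := by rw [hv, eL_inl]; simp
  have hz0 : z (Sum.inl ⟨0, by omega⟩) = 0 := by rw [hz, eL_inl]; simp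
  have hv1 : v (Sum.inl ⟨1, by omega⟩) = 1 := by rw [hv, eL_inl]; simp
  have hz1 : z (Sum.inl ⟨1, by omega⟩) = 0 := by rw [hz, eL_inl]; simp
  have hz2 : z (Sum.inl ⟨2, by omega⟩) = 1 := by rw [hz, eL_inl]; simp
  have hur : ∀ i, u (Sum.inr i) = 0 := by intro i; rw [hu, eL_inr]
  have hvr : ∀ i, v (Sum.inr i) = 0 := by intro i; rw [hv, eL_inr]
  have hzr : ∀ i, z (Sum.inr i) = 0 := by intro i; rw [hz, eL_inr]
  have huv : stdSymp m F u v = 0 := stdSymp_inl_inl u v hur hvr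
  have huz : stdSymp m F u z = 0 := stdSymp_inl_inl u z hur hzr
  have hvz : stdSymp m F v z = 0 := stdSymp_inl_inl v z hvr hzr
  have hune : u ≠ 0 := fun h => by rw [h] at hu0; simp at hu0
  have hvne : v ≠ 0 := fun h => by rw [h] at hv1; simp at hv1
  have hzne : z ≠ 0 := fun h => by rw [h] at hz2; simp at hz2
  have n1 : u + v ≠ 0 := fun h => by
    have h3 := congrFun h (Sum.inl ⟨0, by omega⟩)
    simp [hu0, hv0] at h3
  have n2 : u + z ≠ 0 := fun h => by
    have h3 := congrFun h (Sum.inl ⟨0, by omega⟩)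
    simp [hu0, hz0] at h3
  have n3 : v + z ≠ 0 := fun h => by
    have h3 := congrFun h (Sum.inl ⟨1, by omega⟩)
    simp [hv1, hz1] at h3
  have n4 : u + v + z ≠ 0 := fun h => by
    have h3 := congrFun h (Sum.inl ⟨0, by omega⟩)
    simp [hu0, hv0, hz0] at h3
  have m1 := tv_comm_mem v z hvne hzne 1
  have m2 := tv_comm_mem (u + v) (u + z) n1 n2 1
  have m3 := tv_comm_mem (v + z) (u + v + z) n3 n4 1
  have m4 := mul_mem (mul_mem m1 m2) m3
  have hrel := tv_seven_rel h2 u v z huv huz hvz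
  have key : tvS m u 1 ∈ commutator (Matrix.symplecticGroup (Fin m) F) := by
    rw [eq_inv_of_mul_eq_one_left hrel]
    exact inv_mem m4
  obtain ⟨g, hg⟩ := sp_transitive_nonzero m u w hune hw
  have h8 := (inferInstance : (commutator (Matrix.symplecticGroup (Fin m) F)).Normal).conj_mem _
    key g
  rw [tvS_conj, hg] at h8
  rw [hc1]
  exact h8

/-- `Sp_{2m}(q)` is perfect except for `Sp_2(2)`, `Sp_2(3)` and `Sp_4(2)`. -/
theorem sp_perfect [Fintype F] (m : ℕ)
    (h : 3 ≤ m ∨ (m = 2 ∧ 3 ≤ Fintype.card F) ∨ 4 ≤ Fintype.card F) :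
    commutator (Matrix.symplecticGroup (Fin m) F) = ⊤ := by
  rw [eq_top_iff, ← sp_gen_transv m F, Subgroup.closure_le]
  rintro A ⟨w, c, hA⟩
  have hA' : A = tvS m w c := Subtype.ext hA
  rw [hA']
  show tvS m w c ∈ commutator (Matrix.symplecticGroup (Fin m) F)
  by_cases h4 : 4 ≤ Fintype.card F
  · exact tv_mem_of_card h4 w c
  have hm2 : 2 ≤ m := by rcases h with h | ⟨h, _⟩ | h <;> omega
  by_cases h2 : (2 : F) = 0
  · have h1 : 1 < Fintype.card F := Fintype.one_lt_card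
    have hc2 : Fintype.card F = 2 := by
      by_contra hne
      have h3 : Fintype.card F = 3 := by omega
      have h5 : ((Fintype.card F : ℕ) : F) = 0 := Nat.cast_card_eq_zero F
      rw [h3] at h5
      have h6 : (1 : F) = 0 := by
        have h7 : ((3 : ℕ) : F) = 2 + 1 := by norm_num
        rw [h7, h2, zero_add] at h5
        exact h5
      exact one_ne_zero h6
    have hm3 : 3 ≤ m := by rcases h with h | ⟨_, h⟩ | h <;> omega
    exact tv_mem_of_two hm3 hc2 w c
  · exact tv_mem_of_odd hm2 h2 w c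

end

end Cfsg.Agent.Lib.Helper4
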