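import Mathlib
import Cfsg.Prelude.Def_RootSubgroups
import Cfsg.Agent.Lib.Lead.SLGen
import Cfsg.Agent.Lib.Helper4.SpPerfect

set_option autoImplicit false

namespace Cfsg.Agent.Lib.Helper4

open Matrix

universe u

section

variable {F : Type u} [Field F] {k : ℕ}

/-- The symplectic transvection group `T(p)`. -/
def spTG (k : ℕ) (F : Type u) [Field F] (p : Fin k ⊕ Fin k → F) :
    Subgroup ↥(Matrix.symplecticGroup (Fin k) F) :=
  Subgroup.closure {g : ↥(Matrix.symplecticGroup (Fin k) F) | ∃ c : F,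
    ∀ v : Fin k ⊕ Fin k → F,
      (g : Matrix (Fin k ⊕ Fin k) (Fin k ⊕ Fin k) F) *ᵥ v =
        v + (c * (v ⬝ᵥ (Matrix.J (Fin k) F *ᵥ p))) • p}

/-- The set of all `T(p)`, `p ≠ 0`. -/
def spRootSet (k : ℕ) (F : Type u) [Field F] :
    Set (Subgroup ↥(Matrix.symplecticGroup (Fin k) F)) :=
  {A | ∃ p : Fin k ⊕ Fin k → F, p ≠ 0 ∧ A = spTG k F p}

theorem tvS_mulVec (p x : Fin k ⊕ Fin k → F) (c : F) :
    (tvS k p c).1 *ᵥ x = x + (c * stdSymp k F x p) • p := tv_apply p x c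

theorem tvS_mul (p : Fin k ⊕ Fin k → F) (c c' : F) :
    tvS k p c * tvS k p c' = tvS k p (c + c') := by
  apply Subtype.ext
  show Cfsg.sympTransvection k p c * Cfsg.sympTransvection k p c'
    = Cfsg.sympTransvection k p (c + c')
  apply Matrix.mulVec_injective
  funext x
  rw [← Matrix.mulVec_mulVec]
  simp only [tv_apply, map_add, map_smul, LinearMap.add_apply, LinearMap.smul_apply, stdSymp_alt,
    smul_eq_mul, mul_zero, add_zero]
  funext i
  simp only [Pi.add_apply, Pi.smul_apply, smul_eq_mul]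
  ring

theorem tvS_smul (a : F) (p : Fin k ⊕ Fin k → F) (c : F) :
    tvS k (a • p) c = tvS k p (a ^ 2 * c) := by
  apply Subtype.ext
  show Cfsg.sympTransvection k (a • p) c = Cfsg.sympTransvection k p (a ^ 2 * c)
  apply Matrix.mulVec_injective
  funext x
  simp only [tv_apply, map_smul, smul_eq_mul]
  funext i
  simp only [Pi.add_apply, Pi.smul_apply, smul_eq_mul]
  ring

theorem tvS_comm (p r : Fin k ⊕ Fin k → F) (h : stdSymp k F p r = 0) (c c' : F) :
    tvS k p c * tvS k r c' = tvS k r c' * tvS k p c := by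
  have h' : stdSymp k F r p = 0 := tv_swap0 p r h
  apply Subtype.ext
  show Cfsg.sympTransvection k p c * Cfsg.sympTransvection k r c'
    = Cfsg.sympTransvection k r c' * Cfsg.sympTransvection k p c
  apply Matrix.mulVec_injective
  funext x
  rw [← Matrix.mulVec_mulVec, ← Matrix.mulVec_mulVec]
  simp only [tv_apply, map_add, map_smul, LinearMap.add_apply, LinearMap.smul_apply, h, h',
    smul_eq_mul, mul_zero, add_zero]
  funext i
  simp only [Pi.add_apply, Pi.smul_apply, smul_eq_mul]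
  ring

theorem exists_symp_ne (p : Fin k ⊕ Fin k → F) (hp : p ≠ 0) : ∃ x, stdSymp k F x p ≠ 0 := by
  by_contra hcon
  push Not at hcon
  apply hp
  apply sympForm_nondeg
  intro y
  rw [← stdSymp_apply, alt_swap (stdSymp k F) stdSymp_alt p y, hcon y, neg_zero]

theorem tvS_eq_one_iff (p : Fin k ⊕ Fin k → F) (hp : p ≠ 0) (c : F) :
    tvS k p c = 1 ↔ c = 0 := by
  constructor
  · intro h
    obtain ⟨x, hx⟩ := exists_symp_ne p hp
    have h1 : (tvS k p c).1 *ᵥ x = x := by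
      rw [h]
      exact Matrix.one_mulVec x
    rw [tvS_mulVec] at h1
    have h2 : (c * stdSymp k F x p) • p = 0 := by
      have h9 := congrArg (fun y => y - x) h1
      simpa using h9
    rcases smul_eq_zero.1 h2 with h3 | h3
    · rcases mul_eq_zero.1 h3 with h4 | h4
      · exact h4
      · exact absurd h4 hx
    · exact absurd h3 hp
  · rintro rfl
    exact tvS_zero_right p

theorem gen_iff (p : Fin k ⊕ Fin k → F) (g : ↥(Matrix.symplecticGroup (Fin k) F)) :
    (∃ c : F, ∀ v : Fin k ⊕ Fin k → F,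
      (g : Matrix (Fin k ⊕ Fin k) (Fin k ⊕ Fin k) F) *ᵥ v =
        v + (c * (v ⬝ᵥ (Matrix.J (Fin k) F *ᵥ p))) • p) ↔ ∃ c : F, g = tvS k p c := by
  constructor
  · rintro ⟨c, h⟩
    refine ⟨c, Subtype.ext ?_⟩
    apply Matrix.mulVec_injective
    funext v
    rw [h v, tvS_val, sympTransv_mulVec]
    rfl
  · rintro ⟨c, rfl⟩
    refine ⟨c, fun v => ?_⟩
    rw [tvS_val, sympTransv_mulVec]
    rfl

theorem mem_spTG_iff (p : Fin k ⊕ Fin k → F) (x : ↥(Matrix.symplecticGroup (Fin k) F)) :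
    x ∈ spTG k F p ↔ ∃ c : F, x = tvS k p c := by
  constructor
  · intro hx
    refine Subgroup.closure_induction (p := fun x _ => ∃ c : F, x = tvS k p c) ?_ ?_ ?_ ?_ hx
    · intro y hy
      exact (gen_iff p y).1 hy
    · exact ⟨0, (tvS_zero_right p).symm⟩
    · rintro y z _ _ ⟨c, rfl⟩ ⟨c', rfl⟩
      exact ⟨c + c', tvS_mul p c c'⟩
    · rintro y _ ⟨c, rfl⟩
      exact ⟨-c, tvS_inv p c⟩
  · rintro ⟨c, rfl⟩
    exact Subgroup.subset_closure ((gen_iff p _).2 ⟨c, rfl⟩)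

theorem spTG_conj (g : ↥(Matrix.symplecticGroup (Fin k) F)) (p : Fin k ⊕ Fin k → F) :
    Cfsg.conjBy (spTG k F p) g = spTG k F (g.1 *ᵥ p) := by
  ext x
  rw [mem_spTG_iff]
  constructor
  · intro hx
    obtain ⟨y, hy, rfl⟩ := Subgroup.mem_map.1 hx
    obtain ⟨c, rfl⟩ := (mem_spTG_iff p y).1 hy
    exact ⟨c, tvS_conj g p c⟩
  · rintro ⟨c, rfl⟩
    exact Subgroup.mem_map.2 ⟨tvS k p c, (mem_spTG_iff p _).2 ⟨c, rfl⟩, tvS_conj g p c⟩

theorem spTG_smul (a : F) (ha : a ≠ 0) (p : Fin k ⊕ Fin k → F) :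
    spTG k F (a • p) = spTG k F p := by
  ext x
  rw [mem_spTG_iff, mem_spTG_iff]
  constructor
  · rintro ⟨c, rfl⟩
    exact ⟨a ^ 2 * c, tvS_smul a p c⟩
  · rintro ⟨c, rfl⟩
    refine ⟨c / a ^ 2, ?_⟩
    rw [tvS_smul]
    congr 1
    field_simp

theorem spTG_comm (p r : Fin k ⊕ Fin k → F) (h : stdSymp k F p r = 0) :
    ⁅spTG k F p, spTG k F r⁆ = ⊥ := by
  rw [Subgroup.commutator_eq_bot_iff_le_centralizer]
  intro x hx
  obtain ⟨c, rfl⟩ := (mem_spTG_iff p x).1 hx
  rw [Subgroup.mem_centralizer_iff]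
  intro y hy
  obtain ⟨c', rfl⟩ := (mem_spTG_iff r y).1 hy
  exact (tvS_comm p r h c c').symm

theorem spTG_ne (p r : Fin k ⊕ Fin k → F) (hp : p ≠ 0) (hr : r ≠ 0)
    (h : stdSymp k F p r ≠ 0) : spTG k F p ≠ spTG k F r := by
  intro heq
  have h1 : tvS k p 1 ∈ spTG k F r := by
    rw [← heq]
    exact (mem_spTG_iff p _).2 ⟨1, rfl⟩
  obtain ⟨c, hc⟩ := (mem_spTG_iff r _).1 h1
  have h2 : (tvS k p 1).1 *ᵥ p = (tvS k r c).1 *ᵥ p := by rw [hc]
  rw [tvS_mulVec, tvS_mulVec, stdSymp_alt, mul_zero, zero_smul, add_zero] at h2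
  have h3 : (c * stdSymp k F p r) • r = 0 := by
    have h9 := congrArg (fun y => y - p) h2
    simpa using h9.symm
  rcases smul_eq_zero.1 h3 with h4 | h4
  · rcases mul_eq_zero.1 h4 with h5 | h5
    · rw [h5, tvS_zero_right] at hc
      exact absurd ((tvS_eq_one_iff p hp 1).1 hc) one_ne_zero
    · exact h h5
  · exact hr h4

theorem spTG_rankOne (p r : Fin k ⊕ Fin k → F) (hp : p ≠ 0) (hr : r ≠ 0)
    (h : stdSymp k F p r ≠ 0) : Cfsg.RankOneCondition (spTG k F p) (spTG k F r) := by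
  intro a ha ha1
  obtain ⟨c, rfl⟩ := (mem_spTG_iff p a).1 ha
  have hc : c ≠ 0 := by
    intro h0
    rw [h0, tvS_zero_right] at ha1
    exact ha1 rfl
  obtain ⟨α, hα⟩ : ∃ α, α = stdSymp k F p r := ⟨_, rfl⟩
  have hα0 : α ≠ 0 := by
    rw [hα]
    exact h
  have hrp : stdSymp k F r p = -α := by
    rw [hα]
    exact alt_swap (stdSymp k F) stdSymp_alt r p
  refine ⟨tvS k r (-(c * α ^ 2)⁻¹), (mem_spTG_iff r _).2 ⟨_, rfl⟩, ?_, ?_⟩
  · intro h1
    have h2 := (tvS_eq_one_iff r hr _).1 h1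
    have h3 : (c * α ^ 2)⁻¹ = 0 := neg_eq_zero.1 h2
    exact (inv_ne_zero (mul_ne_zero hc (pow_ne_zero 2 hα0))) h3
  · rw [spTG_conj, spTG_conj, tvS_inv, tvS_inv, tvS_mulVec, tvS_mulVec, ← hα, hrp]
    have e1 : -(-(c * α ^ 2)⁻¹) * α = (c * α)⁻¹ := by
      field_simp
    have e2 : (c * α)⁻¹ * (-c * -α) = 1 := by
      field_simp
    have h3 : p + (-(-(c * α ^ 2)⁻¹) * α) • r = (c * α)⁻¹ • (r + (-c * -α) • p) := by
      rw [e1, smul_add, smul_smul, e2, one_smul, add_comm]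
    rw [h3, spTG_smul _ (inv_ne_zero (mul_ne_zero hc hα0))]

theorem spTG_isComm (p : Fin k ⊕ Fin k → F) : IsMulCommutative ↥(spTG k F p) := by
  refine ⟨⟨fun a b => ?_⟩⟩
  obtain ⟨c, hc⟩ := (mem_spTG_iff p a.1).1 a.2
  obtain ⟨c', hc'⟩ := (mem_spTG_iff p b.1).1 b.2
  apply Subtype.ext
  show a.1 * b.1 = b.1 * a.1
  rw [hc, hc', tvS_mul, tvS_mul, add_comm]

theorem spTG_nilpotent (p : Fin k ⊕ Fin k → F) : Group.IsNilpotent ↥(spTG k F p) :=
  ⟨⟨1, Subgroup.upperCentralSeries_one_eq_top_iff.2 (spTG_isComm p)⟩⟩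

theorem spTG_ne_bot (p : Fin k ⊕ Fin k → F) (hp : p ≠ 0) : spTG k F p ≠ ⊥ := by
  intro h
  have h1 : tvS k p 1 ∈ spTG k F p := (mem_spTG_iff p _).2 ⟨1, rfl⟩
  rw [h, Subgroup.mem_bot] at h1
  exact one_ne_zero ((tvS_eq_one_iff p hp 1).1 h1)

theorem spRoot_gen : (⨆ A ∈ spRootSet k F, A) = ⊤ := by
  rw [eq_top_iff, ← sp_gen_transv k F, Subgroup.closure_le]
  rintro A ⟨w, c, hA⟩
  have hA' : A = tvS k w c := Subtype.ext hA
  rw [hA']
  show tvS k w c ∈ (⨆ A ∈ spRootSet k F, A)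
  by_cases hw : w = 0
  · rw [hw, tvS_zero_left]
    exact one_mem _
  · have hle : spTG k F w ≤ ⨆ A ∈ spRootSet k F, A :=
      le_biSup (fun A => A) (⟨w, hw, rfl⟩ : spTG k F w ∈ spRootSet k F)
    exact hle ((mem_spTG_iff w _).2 ⟨c, rfl⟩)

theorem sp_mulVec_ne_zero (g : ↥(Matrix.symplecticGroup (Fin k) F)) (p : Fin k ⊕ Fin k → F)
    (hp : p ≠ 0) : g.1 *ᵥ p ≠ 0 := by
  intro h
  apply hp
  have h1 : (g⁻¹ * g).1 *ᵥ p = p := by
    rw [inv_mul_cancel]
    exact Matrix.one_mulVec p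
  have h2 : (g⁻¹ * g).1 *ᵥ p = (g⁻¹).1 *ᵥ (g.1 *ᵥ p) := by
    show ((g⁻¹).1 * g.1) *ᵥ p = _
    rw [Matrix.mulVec_mulVec]
  rw [← h1, h2, h, Matrix.mulVec_zero]

theorem spRoot_pair (A B : Subgroup ↥(Matrix.symplecticGroup (Fin k) F))
    (hA : A ∈ spRootSet k F) (hB : B ∈ spRootSet k F) :
    ⁅A, B⁆ = ⊥ ∨ Cfsg.IsRankOnePair A B := by
  obtain ⟨p, hp, rfl⟩ := hA
  obtain ⟨r, hr, rfl⟩ := hB
  by_cases h : stdSymp k F p r = 0
  · exact Or.inl (spTG_comm p r h)
  · right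
    have h' : stdSymp k F r p ≠ 0 := fun h0 => h (tv_swap0 r p h0)
    exact ⟨spTG_ne p r hp hr h, spTG_nilpotent p, spTG_nilpotent r,
      spTG_rankOne p r hp hr h, spTG_rankOne r p hr hp h'⟩

theorem spRoot_isRootSet : Cfsg.IsRootSubgroupSet (spRootSet k F) where
  commutative := by
    rintro A ⟨p, hp, rfl⟩
    exact spTG_isComm p
  ne_bot := by
    rintro A ⟨p, hp, rfl⟩
    exact spTG_ne_bot p hp
  generates := spRoot_gen
  conj_mem := by
    rintro A ⟨p, hp, rfl⟩ g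
    exact ⟨g.1 *ᵥ p, sp_mulVec_ne_zero g p hp, spTG_conj g p⟩
  pair := by
    intro A hA B hB
    rcases spRoot_pair A B hA hB with h | h
    · exact Or.inl h
    · exact Or.inr (Or.inl h)

theorem spRoot_class (k : ℕ) : Cfsg.IsConjClassOfSubgroups (spRootSet (k + 1) F) := by
  refine ⟨⟨spTG (k + 1) F (fun _ => 1), fun _ => 1, ?_, rfl⟩, ?_⟩
  · intro h
    have h1 := congrFun h (Sum.inl 0)
    exact one_ne_zero h1
  · rintro A ⟨p, hp, rfl⟩ B ⟨r, hr, rfl⟩
    obtain ⟨g, hg⟩ := sp_transitive_nonzero (k + 1) p r hp hr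
    exact ⟨g, by rw [spTG_conj, hg]⟩

theorem spRoot_degenerate : Cfsg.IsDegenerateRootSet (spRootSet k F) := by
  rintro A ⟨p, hp, rfl⟩ B ⟨r, hr, rfl⟩ ⟨hmem, hcent, -, -⟩
  by_cases h : stdSymp k F p r = 0
  · rw [spTG_comm p r h] at hmem
    obtain ⟨q, hq, hq'⟩ := hmem
    exact spTG_ne_bot q hq hq'.symm
  · obtain ⟨α, hα⟩ : ∃ α, α = stdSymp k F p r := ⟨_, rfl⟩
    have hα0 : α ≠ 0 := by
      rw [hα]
      exact h
    have hrp : stdSymp k F r p = -α := by
      rw [hα]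
      exact alt_swap (stdSymp k F) stdSymp_alt r p
    have ha : tvS k p 1 ∈ spTG k F p := (mem_spTG_iff p _).2 ⟨1, rfl⟩
    have hb : tvS k r 1 ∈ spTG k F r := (mem_spTG_iff r _).2 ⟨1, rfl⟩
    have hc := hcent _ (Subgroup.commutator_mem_commutator ha hb) (tvS k p 1)
      (Subgroup.mem_sup_left ha)
    rw [commutatorElement_def, tvS_inv, tvS_inv] at hc
    have hs := congrArg
      (fun g : ↥(Matrix.symplecticGroup (Fin k) F) => stdSymp k F (g.1 *ᵥ p) r) hc
    simp only [Submonoid.coe_mul, ← Matrix.mulVec_mulVec, tvS_mulVec, map_add, map_smul,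
      LinearMap.add_apply, LinearMap.smul_apply, stdSymp_alt, ← hα, hrp, smul_eq_mul] at hs
    have h5 : α ^ 5 = 0 := by linear_combination (-1 : F) * hs
    exact hα0 ((pow_eq_zero_iff (by norm_num : (5 : ℕ) ≠ 0)).1 h5)

theorem spRoot_connected :
    Cfsg.IsConnectedFamily (Cfsg.FAdj (spRootSet k F)) (spRootSet k F) := by
  rintro A ⟨p, hp, rfl⟩ B ⟨r, hr, rfl⟩
  have hadj : ∀ x y : Fin k ⊕ Fin k → F, x ≠ 0 → y ≠ 0 → stdSymp k F x y ≠ 0 →
      Cfsg.FAdj (spRootSet k F) (spTG k F x) (spTG k F y) := by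
    intro x y hx hy hxy
    have h' : stdSymp k F y x ≠ 0 := fun h0 => hxy (tv_swap0 y x h0)
    exact ⟨⟨x, hx, rfl⟩, ⟨y, hy, rfl⟩, spTG_ne x y hx hy hxy, spTG_nilpotent x,
      spTG_nilpotent y, spTG_rankOne x y hx hy hxy, spTG_rankOne y x hy hx h'⟩
  by_cases h : stdSymp k F p r = 0
  · obtain ⟨u, hu⟩ := exists_symp_ne p hp
    obtain ⟨w, hw⟩ := exists_symp_ne r hr
    have key : ∃ x, stdSymp k F x p ≠ 0 ∧ stdSymp k F x r ≠ 0 := by
      by_cases h1 : stdSymp k F u r = 0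
      · by_cases h2 : stdSymp k F w p = 0
        · refine ⟨u + w, ?_, ?_⟩
          · rw [map_add, LinearMap.add_apply, h2, add_zero]
            exact hu
          · rw [map_add, LinearMap.add_apply, h1, zero_add]
            exact hw
        · exact ⟨w, h2, hw⟩
      · exact ⟨u, hu, h1⟩
    obtain ⟨x, hxp, hxr⟩ := key
    have hx0 : x ≠ 0 := by
      rintro rfl
      apply hxp
      rw [map_zero, LinearMap.zero_apply]
    have hpx : stdSymp k F p x ≠ 0 := fun h0 => hxp (tv_swap0 p x h0)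
    exact Relation.ReflTransGen.trans (Relation.ReflTransGen.single (hadj p x hp hx0 hpx))
      (Relation.ReflTransGen.single (hadj x r hx0 hr hxr))
  · exact Relation.ReflTransGen.single (hadj p r hp hr h)

end

section

variable {F : Type u} [Field F] (k : ℕ)

/-- The vector `(a, b, ..., b)`. -/
def dg (a b : F) : Fin (k + 1) → F := fun i => if i = 0 then a else b

/-- The block matrix of the standard embedding of `SL₂` on the first hyperbolic plane. -/
def slMat (a b c d : F) : Matrix (Fin (k + 1) ⊕ Fin (k + 1)) (Fin (k + 1) ⊕ Fin (k + 1)) F :=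
  Matrix.fromBlocks (Matrix.diagonal (dg k a 1)) (Matrix.diagonal (dg k b 0))
    (Matrix.diagonal (dg k c 0)) (Matrix.diagonal (dg k d 1))

theorem dg_self (a : F) : dg k a a = fun _ => a := by
  funext i
  unfold dg
  split_ifs <;> rfl

theorem slMat_one : slMat k (1 : F) 0 0 1 = 1 := by
  unfold slMat
  rw [dg_self, dg_self, Matrix.diagonal_one, Matrix.diagonal_zero, Matrix.fromBlocks_one]

theorem slMat_mul (a b c d a' b' c' d' : F) :
    slMat k a b c d * slMat k a' b' c' d' =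
      slMat k (a * a' + b * c') (a * b' + b * d') (c * a' + d * c') (c * b' + d * d') := by
  unfold slMat
  rw [Matrix.fromBlocks_multiply]
  simp only [Matrix.diagonal_mul_diagonal, Matrix.diagonal_add]
  rw [Matrix.fromBlocks_inj]
  refine ⟨?_, ?_, ?_, ?_⟩ <;>
  · congr 1
    funext i
    unfold dg
    split_ifs <;> ring

theorem diag_sub_const (f g : Fin (k + 1) → F) (c : F) (h : ∀ i, f i - g i = c) :
    Matrix.diagonal f + -Matrix.diagonal g = Matrix.diagonal (fun _ => c) := by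
  rw [Matrix.diagonal_neg, Matrix.diagonal_add]
  congr 1
  funext i
  have h1 := h i
  linear_combination h1

theorem slMat_mem (a b c d : F) (h : a * d - b * c = 1) :
    slMat k a b c d ∈ Matrix.symplecticGroup (Fin (k + 1)) F := by
  rw [SymplecticGroup.mem_iff]
  unfold slMat
  rw [Matrix.J, Matrix.fromBlocks_transpose, Matrix.fromBlocks_multiply,
    Matrix.fromBlocks_multiply]
  simp only [Matrix.diagonal_transpose, mul_zero, mul_one, zero_add, add_zero, mul_neg, neg_mul,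
    Matrix.diagonal_mul_diagonal]
  rw [Matrix.fromBlocks_inj]
  refine ⟨?_, ?_, ?_, ?_⟩
  · rw [diag_sub_const k _ _ 0, Matrix.diagonal_zero]
    intro i
    ring
  · rw [diag_sub_const k _ _ (-1), ← Matrix.diagonal_neg, Matrix.diagonal_one]
    intro i
    unfold dg
    split_ifs
    · linear_combination (-1 : F) * h
    · ring
  · rw [diag_sub_const k _ _ 1, Matrix.diagonal_one]
    intro i
    unfold dg
    split_ifs
    · linear_combination h
    · ring
  · rw [diag_sub_const k _ _ 0, Matrix.diagonal_zero]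
    intro i
    ring

/-- The standard embedding of `SL₂(F)` into `Sp_{2(k+1)}(F)`. -/
def slEmb (F : Type u) [Field F] (k : ℕ) :
    Matrix.SpecialLinearGroup (Fin 2) F →* ↥(Matrix.symplecticGroup (Fin (k + 1)) F) where
  toFun g := ⟨slMat k (g.1 0 0) (g.1 0 1) (g.1 1 0) (g.1 1 1),
    slMat_mem k _ _ _ _ (by
      have h := g.2
      rw [Matrix.det_fin_two] at h
      exact h)⟩
  map_one' := by
    apply Subtype.ext
    show slMat k ((1 : Matrix (Fin 2) (Fin 2) F) 0 0) ((1 : Matrix (Fin 2) (Fin 2) F) 0 1)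
      ((1 : Matrix (Fin 2) (Fin 2) F) 1 0) ((1 : Matrix (Fin 2) (Fin 2) F) 1 1) = 1
    rw [Matrix.one_apply_eq, Matrix.one_apply_eq,
      Matrix.one_apply_ne (show (0 : Fin 2) ≠ 1 by decide),
      Matrix.one_apply_ne (show (1 : Fin 2) ≠ 0 by decide)]
    exact slMat_one k
  map_mul' g h := by
    apply Subtype.ext
    show slMat k ((g.1 * h.1) 0 0) ((g.1 * h.1) 0 1) ((g.1 * h.1) 1 0) ((g.1 * h.1) 1 1)
      = slMat k (g.1 0 0) (g.1 0 1) (g.1 1 0) (g.1 1 1)
        * slMat k (h.1 0 0) (h.1 0 1) (h.1 1 0) (h.1 1 1)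
    rw [slMat_mul]
    simp only [Matrix.mul_apply, Fin.sum_univ_two]

theorem slEmb_val (g : Matrix.SpecialLinearGroup (Fin 2) F) :
    (slEmb F k g).1 = slMat k (g.1 0 0) (g.1 0 1) (g.1 1 0) (g.1 1 1) := rfl

theorem sympForm_e0 (v : Fin (k + 1) ⊕ Fin (k + 1) → F) :
    Cfsg.sympForm (k + 1) F v (Pi.single (Sum.inl 0) 1) = v (Sum.inr 0) := by
  rw [sympForm_eq_sum]
  simp [Pi.single_apply]

theorem sympForm_f0 (v : Fin (k + 1) ⊕ Fin (k + 1) → F) :
    Cfsg.sympForm (k + 1) F v (Pi.single (Sum.inr 0) 1) = - v (Sum.inl 0) := by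
  rw [sympForm_eq_sum]
  simp [Pi.single_apply]

theorem slMat_mulVec (a b c d : F) (v : Fin (k + 1) ⊕ Fin (k + 1) → F) :
    slMat k a b c d *ᵥ v =
      Sum.elim (fun i => dg k a 1 i * v (Sum.inl i) + dg k b 0 i * v (Sum.inr i))
        (fun i => dg k c 0 i * v (Sum.inl i) + dg k d 1 i * v (Sum.inr i)) := by
  unfold slMat
  rw [Matrix.fromBlocks_mulVec]
  congr 1 <;>
  · funext i
    rw [Pi.add_apply, Matrix.mulVec_diagonal, Matrix.mulVec_diagonal]
    rfl

theorem slMat_upper (b : F) :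
    slMat k 1 b 0 1 = Cfsg.sympTransvection (k + 1) (Pi.single (Sum.inl 0) 1) b := by
  apply Matrix.mulVec_injective
  funext v
  rw [sympTransv_mulVec, sympForm_e0, slMat_mulVec]
  funext x
  rcases x with i | i
  · simp only [Sum.elim_inl, Pi.add_apply, Pi.smul_apply, smul_eq_mul, dg]
    by_cases hi : i = 0
    · subst hi
      first
        | (simp [Pi.single_apply]; done)
        | (simp [Pi.single_apply]; ring)
    · first
        | (simp [hi, Pi.single_apply]; done)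
        | (simp [hi, Pi.single_apply]; ring)
  · simp only [Sum.elim_inr, Pi.add_apply, Pi.smul_apply, smul_eq_mul, dg]
    first
      | (simp [Pi.single_apply]; done)
      | (simp [Pi.single_apply]; ring)

theorem slMat_lower (c : F) :
    slMat k 1 0 c 1 = Cfsg.sympTransvection (k + 1) (Pi.single (Sum.inr 0) 1) (-c) := by
  apply Matrix.mulVec_injective
  funext v
  rw [sympTransv_mulVec, sympForm_f0, slMat_mulVec]
  funext x
  rcases x with i | i
  · simp only [Sum.elim_inl, Pi.add_apply, Pi.smul_apply, smul_eq_mul, dg]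
    first
      | (simp [Pi.single_apply]; done)
      | (simp [Pi.single_apply]; ring)
  · simp only [Sum.elim_inr, Pi.add_apply, Pi.smul_apply, smul_eq_mul, dg]
    by_cases hi : i = 0
    · subst hi
      first
        | (simp [Pi.single_apply]; done)
        | (simp [Pi.single_apply]; ring)
    · first
        | (simp [hi, Pi.single_apply]; done)
        | (simp [hi, Pi.single_apply]; ring)

theorem spTG_eq_closure {k : ℕ} (p : Fin k ⊕ Fin k → F) :
    spTG k F p = Subgroup.closure {x | ∃ c : F, x = tvS k p c} := by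
  unfold spTG
  congr 1
  ext g
  exact gen_iff p g

theorem slEmb_upper_set :
    (slEmb F k) '' {g : Matrix.SpecialLinearGroup (Fin 2) F |
        g.1 1 0 = 0 ∧ g.1 0 0 = 1 ∧ g.1 1 1 = 1}
      = {x | ∃ c : F, x = tvS (k + 1) (Pi.single (Sum.inl 0) 1) c} := by
  ext x
  constructor
  · rintro ⟨g, ⟨h10, h00, h11⟩, rfl⟩
    refine ⟨g.1 0 1, Subtype.ext ?_⟩
    rw [slEmb_val, h10, h00, h11, slMat_upper]
    rfl
  · rintro ⟨c, rfl⟩
    refine ⟨⟨!![1, c; 0, 1], by simp [Matrix.det_fin_two]⟩, ⟨rfl, rfl, rfl⟩, Subtype.ext ?_⟩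
    show slMat k 1 c 0 1 = _
    rw [slMat_upper]
    rfl

theorem slEmb_lower_set :
    (slEmb F k) '' {g : Matrix.SpecialLinearGroup (Fin 2) F |
        g.1 0 1 = 0 ∧ g.1 0 0 = 1 ∧ g.1 1 1 = 1}
      = {x | ∃ c : F, x = tvS (k + 1) (Pi.single (Sum.inr 0) 1) c} := by
  ext x
  constructor
  · rintro ⟨g, ⟨h01, h00, h11⟩, rfl⟩
    refine ⟨-(g.1 1 0), Subtype.ext ?_⟩
    rw [slEmb_val, h01, h00, h11, slMat_lower]
    rfl
  · rintro ⟨c, rfl⟩
    refine ⟨⟨!![1, 0; -c, 1], by simp [Matrix.det_fin_two]⟩, ⟨rfl, rfl, rfl⟩, Subtype.ext ?_⟩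
    show slMat k 1 0 (-c) 1 = _
    rw [slMat_lower, neg_neg]
    rfl

theorem slEmb_map_upper :
    (Cfsg.upperUnipotentSL2 F).map (slEmb F k)
      = spTG (k + 1) F (Pi.single (Sum.inl 0) 1) := by
  unfold Cfsg.upperUnipotentSL2
  rw [MonoidHom.map_closure, slEmb_upper_set, spTG_eq_closure]

theorem slEmb_map_lower :
    (Cfsg.lowerUnipotentSL2 F).map (slEmb F k)
      = spTG (k + 1) F (Pi.single (Sum.inr 0) 1) := by
  unfold Cfsg.lowerUnipotentSL2
  rw [MonoidHom.map_closure, slEmb_lower_set, spTG_eq_closure]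

theorem sl2_gen (F : Type u) [Field F] :
    Cfsg.upperUnipotentSL2 F ⊔ Cfsg.lowerUnipotentSL2 F = ⊤ := by
  have key : ∀ (i j : Fin 2) (hij : i ≠ j) (a : F),
      SpecialLinearGroup.transvection hij a
        ∈ Cfsg.upperUnipotentSL2 F ⊔ Cfsg.lowerUnipotentSL2 F := by
    rw [Fin.forall_fin_two]
    constructor
    · rw [Fin.forall_fin_two]
      constructor
      · intro hij
        exact absurd rfl hij
      · intro hij a
        apply Subgroup.mem_sup_left
        apply Subgroup.subset_closure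
        refine ⟨?_, ?_, ?_⟩ <;>
          simp [SpecialLinearGroup.transvection_coe, Matrix.transvection, Matrix.one_apply,
            Matrix.single_apply]
    · rw [Fin.forall_fin_two]
      constructor
      · intro hij a
        apply Subgroup.mem_sup_right
        apply Subgroup.subset_closure
        refine ⟨?_, ?_, ?_⟩ <;>
          simp [SpecialLinearGroup.transvection_coe, Matrix.transvection, Matrix.one_apply,
            Matrix.single_apply]
      · intro hij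
        exact absurd rfl hij
  rw [eq_top_iff]
  intro M _
  exact Cfsg.Agent.Lib.Lead.transvection_induction_gen
    (fun M => M ∈ Cfsg.upperUnipotentSL2 F ⊔ Cfsg.lowerUnipotentSL2 F)
    key (fun A B hA hB => mul_mem hA hB) M

theorem slEmb_injective : Function.Injective (slEmb F k) := by
  intro g h hgh
  have h1 : slMat k (g.1 0 0) (g.1 0 1) (g.1 1 0) (g.1 1 1)
      = slMat k (h.1 0 0) (h.1 0 1) (h.1 1 0) (h.1 1 1) := congrArg Subtype.val hgh
  unfold slMat at h1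
  rw [Matrix.fromBlocks_inj] at h1
  obtain ⟨ha, hb, hc, hd⟩ := h1
  have e : ∀ a b a' b' : F, Matrix.diagonal (dg k a b) = Matrix.diagonal (dg k a' b') →
      a = a' := by
    intro a b a' b' hh
    have h2 := congrFun (Matrix.diagonal_injective hh) 0
    simpa [dg] using h2
  apply Subtype.ext
  rw [Matrix.eta_fin_two g.1, Matrix.eta_fin_two h.1, e _ _ _ _ ha, e _ _ _ _ hb,
    e _ _ _ _ hc, e _ _ _ _ hd]

theorem spRoot_psl2 (p r : Fin (k + 1) ⊕ Fin (k + 1) → F)
    (h : stdSymp (k + 1) F p r ≠ 0) :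
    Cfsg.IsPSL2PairOver F (spTG (k + 1) F p) (spTG (k + 1) F r) := by
  have hrp : stdSymp (k + 1) F r p ≠ 0 := fun h0 => h (tv_swap0 r p h0)
  have hb : Cfsg.sympForm (k + 1) F (Pi.single (Sum.inr 0) 1) (Pi.single (Sum.inl 0) 1) = 1 := by
    rw [sympForm_e0, Pi.single_eq_same]
  have hb' : Cfsg.sympForm (k + 1) F ((stdSymp (k + 1) F r p)⁻¹ • r) p = 1 := by
    rw [← stdSymp_apply, map_smul, LinearMap.smul_apply, smul_eq_mul, inv_mul_cancel₀ hrp]
  obtain ⟨A, -, hA1, hA2⟩ := transv_pair_all _ _ _ _ hb hb'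
  have hU : (Cfsg.upperUnipotentSL2 F).map ((MulAut.conj A).toMonoidHom.comp (slEmb F k))
      = spTG (k + 1) F p := by
    rw [← Subgroup.map_map, slEmb_map_upper]
    exact (spTG_conj A _).trans (by rw [hA2])
  have hL : (Cfsg.lowerUnipotentSL2 F).map ((MulAut.conj A).toMonoidHom.comp (slEmb F k))
      = spTG (k + 1) F r := by
    rw [← Subgroup.map_map, slEmb_map_lower]
    exact (spTG_conj A _).trans (by rw [hA1, spTG_smul _ (inv_ne_zero hrp)])
  have hinj : Function.Injective ((MulAut.conj A).toMonoidHom.comp (slEmb F k)) := by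
    rw [MonoidHom.coe_comp]
    exact (MulEquiv.injective _).comp (slEmb_injective k)
  refine ⟨(MulAut.conj A).toMonoidHom.comp (slEmb F k), ?_, ?_, hU, hL⟩
  · rw [MonoidHom.range_eq_map, ← sl2_gen F, Subgroup.map_sup, hU, hL]
  · rw [(MonoidHom.ker_eq_bot_iff _).2 hinj]
    exact bot_le

theorem spRoot_kroot : Cfsg.IsKRootSubgroupSet F (spRootSet (k + 1) F) := by
  refine ⟨spRoot_isRootSet, ?_⟩
  rintro A ⟨p, hp, rfl⟩ B ⟨r, hr, rfl⟩ hpair
  have h : stdSymp (k + 1) F p r ≠ 0 := by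
    intro h0
    have ha : tvS (k + 1) p 1 ∈ spTG (k + 1) F p := (mem_spTG_iff p _).2 ⟨1, rfl⟩
    have ha1 : tvS (k + 1) p 1 ≠ 1 := fun h1 => one_ne_zero ((tvS_eq_one_iff p hp 1).1 h1)
    obtain ⟨b, hb, -, hconj⟩ := hpair.cond_left _ ha ha1
    obtain ⟨c, rfl⟩ := (mem_spTG_iff r b).1 hb
    rw [spTG_conj, spTG_conj, tvS_inv, tvS_inv, tvS_mulVec, tvS_mulVec, h0, tv_swap0 p r h0,
      mul_zero, mul_zero, zero_smul, zero_smul, add_zero, add_zero] at hconj
    exact hpair.ne hconj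
  exact spRoot_psl2 k p r h

theorem sp_root_main (F : Type u) [Field F] (m : ℕ) :
    Cfsg.IsRootSubgroupClass (spRootSet (m + 1) F) ∧
      Cfsg.IsDegenerateRootSet (spRootSet (m + 1) F) ∧
      Cfsg.IsKRootSubgroupSet F (spRootSet (m + 1) F) ∧
      Cfsg.IsConnectedFamily (Cfsg.FAdj (spRootSet (m + 1) F)) (spRootSet (m + 1) F) :=
  ⟨⟨spRoot_isRootSet, spRoot_class m⟩, spRoot_degenerate, spRoot_kroot m, spRoot_connected⟩

end

end Cfsg.Agent.Lib.Helper4
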