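import Mathlib
import Cfsg.Prelude.Def_RootSubgroups
import Cfsg.Agent.Lib.Helper4.RootInv
import Cfsg.Agent.Lib.Helper4.SpRoot

set_option autoImplicit false

namespace Cfsg.Agent.Lib.Helper4

open Matrix

universe u

section

variable {ι : Type*} [Fintype ι] [DecidableEq ι] {F : Type u} [Field F]

theorem vmv_mul (u φ v ψ : ι → F) :
    vecMulVec u φ * vecMulVec v ψ = (φ ⬝ᵥ v) • vecMulVec u ψ := by
  rw [vecMulVec_mul_vecMulVec]
  ext i j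
  simp only [vecMulVec_apply, Pi.smul_apply, smul_eq_mul, Matrix.smul_apply]
  ring

theorem det_rk (u φ : ι → F) (h : φ ⬝ᵥ u = 0) (c : F) :
    (1 + c • vecMulVec u φ).det = 1 := by
  rw [← Matrix.smul_vecMulVec, Matrix.vecMulVec_eq (ι := Unit),
    Matrix.det_one_add_replicateCol_mul_replicateRow, dotProduct_smul, h, smul_zero, add_zero]

/-- The element `1 + c u φᵀ` of `SL`. -/
def slX (u φ : ι → F) (h : φ ⬝ᵥ u = 0) (c : F) : SpecialLinearGroup ι F :=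
  ⟨1 + c • vecMulVec u φ, det_rk u φ h c⟩

theorem slX_val (u φ : ι → F) (h : φ ⬝ᵥ u = 0) (c : F) :
    (slX u φ h c).1 = 1 + c • vecMulVec u φ := rfl

theorem slX_mul (u φ : ι → F) (h : φ ⬝ᵥ u = 0) (c d : F) :
    slX u φ h c * slX u φ h d = slX u φ h (c + d) := by
  apply Subtype.ext
  show (1 + c • vecMulVec u φ) * (1 + d • vecMulVec u φ) = 1 + (c + d) • vecMulVec u φ
  simp only [mul_add, add_mul, mul_one, one_mul, Matrix.smul_mul, Matrix.mul_smul,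
    vmv_mul, h, zero_smul, smul_zero, add_zero]
  first
    | done
    | (ext i j
       simp only [Matrix.add_apply, Matrix.neg_apply, Matrix.smul_apply, Matrix.one_apply,
         vecMulVec_apply, smul_eq_mul]
       ring)

theorem slX_zero (u φ : ι → F) (h : φ ⬝ᵥ u = 0) : slX u φ h 0 = 1 := by
  apply Subtype.ext
  show 1 + (0 : F) • vecMulVec u φ = 1
  rw [zero_smul, add_zero]

theorem slX_inv (u φ : ι → F) (h : φ ⬝ᵥ u = 0) (c : F) :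
    (slX u φ h c)⁻¹ = slX u φ h (-c) := by
  apply inv_eq_of_mul_eq_one_right
  rw [slX_mul, add_neg_cancel, slX_zero]

theorem slX_eq_one_iff (u φ : ι → F) (h : φ ⬝ᵥ u = 0) (hu : u ≠ 0) (hφ : φ ≠ 0) (c : F) :
    slX u φ h c = 1 ↔ c = 0 := by
  constructor
  · intro h1
    have h2 : (1 : Matrix ι ι F) + c • vecMulVec u φ = 1 := congrArg Subtype.val h1
    have h3 : c • vecMulVec u φ = 0 := by
      have h9 := congrArg (fun y => y - 1) h2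
      simpa using h9
    rcases smul_eq_zero.1 h3 with h4 | h4
    · exact h4
    · rcases vecMulVec_eq_zero.1 h4 with h5 | h5
      · exact absurd h5 hu
      · exact absurd h5 hφ
  · rintro rfl
    exact slX_zero u φ h

theorem slX_mulVec (u φ : ι → F) (h : φ ⬝ᵥ u = 0) (c : F) (w : ι → F) :
    (slX u φ h c).1 *ᵥ w = w + (c * (φ ⬝ᵥ w)) • u := by
  rw [slX_val, Matrix.add_mulVec, Matrix.one_mulVec, Matrix.smul_mulVec, Matrix.vecMulVec_mulVec,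
    op_smul_eq_smul, smul_smul]

theorem slX_vecMul (u φ : ι → F) (h : φ ⬝ᵥ u = 0) (c : F) (χ : ι → F) :
    χ ᵥ* (slX u φ h c).1 = χ + (c * (χ ⬝ᵥ u)) • φ := by
  rw [slX_val, Matrix.vecMul_add, Matrix.vecMul_one, Matrix.vecMul_smul, Matrix.vecMul_vecMulVec,
    smul_smul]

/-- The root subgroup `{1 + c u φᵀ}`. -/
def slT (u φ : ι → F) : Subgroup (SpecialLinearGroup ι F) :=
  Subgroup.closure {t | ∃ c : F, t.1 = 1 + c • vecMulVec u φ}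

theorem mem_slT_iff (u φ : ι → F) (h : φ ⬝ᵥ u = 0) (t : SpecialLinearGroup ι F) :
    t ∈ slT u φ ↔ ∃ c : F, t = slX u φ h c := by
  constructor
  · intro ht
    refine Subgroup.closure_induction (p := fun t _ => ∃ c : F, t = slX u φ h c) ?_ ?_ ?_ ?_ ht
    · rintro y ⟨c, hc⟩
      exact ⟨c, Subtype.ext hc⟩
    · exact ⟨0, (slX_zero u φ h).symm⟩
    · rintro y z _ _ ⟨c, rfl⟩ ⟨d, rfl⟩
      exact ⟨c + d, slX_mul u φ h c d⟩
    · rintro y _ ⟨c, rfl⟩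
      exact ⟨-c, slX_inv u φ h c⟩
  · rintro ⟨c, rfl⟩
    exact Subgroup.subset_closure ⟨c, rfl⟩

theorem vmv_smul (a b : F) (u φ : ι → F) :
    vecMulVec (a • u) (b • φ) = (a * b) • vecMulVec u φ := by
  ext i j
  simp only [vecMulVec_apply, Pi.smul_apply, smul_eq_mul, Matrix.smul_apply]
  ring

theorem slT_smul (a b : F) (ha : a ≠ 0) (hb : b ≠ 0) (u φ : ι → F) :
    slT (a • u) (b • φ) = slT u φ := by
  unfold slT
  congr 1
  ext t
  constructor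
  · rintro ⟨c, hc⟩
    exact ⟨c * (a * b), by rw [hc, vmv_smul, smul_smul]⟩
  · rintro ⟨c, hc⟩
    refine ⟨c / (a * b), ?_⟩
    rw [hc, vmv_smul, smul_smul, div_mul_cancel₀ c (mul_ne_zero ha hb)]

theorem conj_slX (g : SpecialLinearGroup ι F) (u φ : ι → F) (h : φ ⬝ᵥ u = 0) (c : F) :
    (g * slX u φ h c * g⁻¹).1 = 1 + c • vecMulVec (g.1 *ᵥ u) (φ ᵥ* (g⁻¹).1) := by
  have h2 : g.1 * (g⁻¹).1 = 1 := congrArg Subtype.val (mul_inv_cancel g)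
  show g.1 * (1 + c • vecMulVec u φ) * (g⁻¹).1 = _
  rw [mul_add, add_mul, mul_one, h2, Matrix.mul_smul, Matrix.smul_mul, mul_vecMulVec,
    vecMulVec_mul]

theorem conj_inc (g : SpecialLinearGroup ι F) (u φ : ι → F) :
    (φ ᵥ* (g⁻¹).1) ⬝ᵥ (g.1 *ᵥ u) = φ ⬝ᵥ u := by
  have h1 : (g⁻¹).1 * g.1 = 1 := congrArg Subtype.val (inv_mul_cancel g)
  rw [dotProduct_mulVec, vecMul_vecMul, h1, vecMul_one]

theorem slT_conj (g : SpecialLinearGroup ι F) (u φ : ι → F) (h : φ ⬝ᵥ u = 0) :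
    Cfsg.conjBy (slT u φ) g = slT (g.1 *ᵥ u) (φ ᵥ* (g⁻¹).1) := by
  have h' : (φ ᵥ* (g⁻¹).1) ⬝ᵥ (g.1 *ᵥ u) = 0 := by rw [conj_inc, h]
  ext x
  constructor
  · intro hx
    obtain ⟨y, hy, rfl⟩ := Subgroup.mem_map.1 hx
    obtain ⟨c, rfl⟩ := (mem_slT_iff u φ h y).1 hy
    exact Subgroup.subset_closure ⟨c, conj_slX g u φ h c⟩
  · intro hx
    obtain ⟨c, rfl⟩ := (mem_slT_iff _ _ h' x).1 hx
    refine Subgroup.mem_map.2 ⟨slX u φ h c, (mem_slT_iff u φ h _).2 ⟨c, rfl⟩, ?_⟩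
    apply Subtype.ext
    exact conj_slX g u φ h c

theorem slX_comm (u φ v ψ : ι → F) (h1 : φ ⬝ᵥ u = 0) (h2 : ψ ⬝ᵥ v = 0)
    (hs : φ ⬝ᵥ v = 0) (ht : ψ ⬝ᵥ u = 0) (c d : F) :
    slX u φ h1 c * slX v ψ h2 d = slX v ψ h2 d * slX u φ h1 c := by
  apply Subtype.ext
  show (1 + c • vecMulVec u φ) * (1 + d • vecMulVec v ψ)
    = (1 + d • vecMulVec v ψ) * (1 + c • vecMulVec u φ)
  simp only [mul_add, add_mul, mul_one, one_mul, Matrix.smul_mul, Matrix.mul_smul,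
    vmv_mul, hs, ht, zero_smul, smul_zero, add_zero]
  first
    | done
    | (ext i j
       simp only [Matrix.add_apply, Matrix.neg_apply, Matrix.smul_apply, Matrix.one_apply,
         vecMulVec_apply, smul_eq_mul]
       ring)

theorem slT_comm (u φ v ψ : ι → F) (h1 : φ ⬝ᵥ u = 0) (h2 : ψ ⬝ᵥ v = 0)
    (hs : φ ⬝ᵥ v = 0) (ht : ψ ⬝ᵥ u = 0) : ⁅slT u φ, slT v ψ⁆ = ⊥ := by
  rw [Subgroup.commutator_eq_bot_iff_le_centralizer]
  intro x hx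
  obtain ⟨c, rfl⟩ := (mem_slT_iff u φ h1 x).1 hx
  rw [Subgroup.mem_centralizer_iff]
  intro y hy
  obtain ⟨d, rfl⟩ := (mem_slT_iff v ψ h2 y).1 hy
  exact (slX_comm u φ v ψ h1 h2 hs ht c d).symm

theorem slT_eq_imp (u φ v ψ : ι → F) (h1 : φ ⬝ᵥ u = 0) (h2 : ψ ⬝ᵥ v = 0)
    (hu : u ≠ 0) (hφ : φ ≠ 0) (hv : v ≠ 0) (hψ : ψ ≠ 0)
    (heq : slT u φ = slT v ψ) : φ ⬝ᵥ v = 0 ∧ ψ ⬝ᵥ u = 0 := by
  have hx : slX u φ h1 1 ∈ slT v ψ := by
    rw [← heq]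
    exact (mem_slT_iff u φ h1 _).2 ⟨1, rfl⟩
  obtain ⟨d, hd⟩ := (mem_slT_iff v ψ h2 _).1 hx
  have hm : vecMulVec u φ = d • vecMulVec v ψ := by
    have h3 : (1 : Matrix ι ι F) + (1 : F) • vecMulVec u φ = 1 + d • vecMulVec v ψ :=
      congrArg Subtype.val hd
    rw [one_smul] at h3
    exact add_left_cancel h3
  constructor
  · have h4 : vecMulVec u φ * vecMulVec v ψ = 0 := by
      rw [hm, Matrix.smul_mul, vmv_mul, h2, zero_smul, smul_zero]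
    rw [vmv_mul] at h4
    rcases smul_eq_zero.1 h4 with h5 | h5
    · exact h5
    · rcases vecMulVec_eq_zero.1 h5 with h6 | h6
      · exact absurd h6 hu
      · exact absurd h6 hψ
  · have h4 : vecMulVec v ψ * vecMulVec u φ = 0 := by
      rw [hm, Matrix.mul_smul, vmv_mul, h2, zero_smul, smul_zero]
    rw [vmv_mul] at h4
    rcases smul_eq_zero.1 h4 with h5 | h5
    · exact h5
    · rcases vecMulVec_eq_zero.1 h5 with h6 | h6
      · exact absurd h6 hv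
      · exact absurd h6 hφ

theorem slT_rankOne (u φ v ψ : ι → F) (h1 : φ ⬝ᵥ u = 0) (h2 : ψ ⬝ᵥ v = 0)
    (hv : v ≠ 0) (hψ : ψ ≠ 0)
    (hs : φ ⬝ᵥ v ≠ 0) (ht : ψ ⬝ᵥ u ≠ 0) : Cfsg.RankOneCondition (slT u φ) (slT v ψ) := by
  intro a ha ha1
  obtain ⟨c, rfl⟩ := (mem_slT_iff u φ h1 a).1 ha
  have hc : c ≠ 0 := by
    intro h0
    rw [h0, slX_zero] at ha1
    exact ha1 rfl
  obtain ⟨s, hsd⟩ : ∃ s, s = φ ⬝ᵥ v := ⟨_, rfl⟩
  obtain ⟨t, htd⟩ : ∃ t, t = ψ ⬝ᵥ u := ⟨_, rfl⟩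
  rw [← hsd] at hs
  rw [← htd] at ht
  refine ⟨slX v ψ h2 (c * s * t)⁻¹, (mem_slT_iff v ψ h2 _).2 ⟨_, rfl⟩, ?_, ?_⟩
  · intro h3
    exact (inv_ne_zero (mul_ne_zero (mul_ne_zero hc hs) ht))
      ((slX_eq_one_iff v ψ h2 hv hψ _).1 h3)
  · rw [slT_conj _ u φ h1, slT_conj _ v ψ h2, inv_inv, inv_inv, slX_inv, slX_inv,
      slX_mulVec, slX_vecMul, slX_mulVec, slX_vecMul, ← hsd, ← htd]
    have e1 : u + (-(c * s * t)⁻¹ * t) • v = (-(c * s)⁻¹) • (v + (-c * s) • u) := by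
      funext i
      simp only [Pi.add_apply, Pi.smul_apply, smul_eq_mul]
      first
        | (field_simp; ring)
        | field_simp
    have e2 : φ + ((c * s * t)⁻¹ * s) • ψ = (c * t)⁻¹ • (ψ + (c * t) • φ) := by
      funext i
      simp only [Pi.add_apply, Pi.smul_apply, smul_eq_mul]
      first
        | (field_simp; ring)
        | field_simp
    rw [e1, e2, slT_smul _ _ (neg_ne_zero.2 (inv_ne_zero (mul_ne_zero hc hs)))
      (inv_ne_zero (mul_ne_zero hc ht))]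

theorem comm_val (u φ v ψ : ι → F) (h1 : φ ⬝ᵥ u = 0) (h2 : ψ ⬝ᵥ v = 0) (ht : ψ ⬝ᵥ u = 0)
    (c d : F) :
    slX u φ h1 c * slX v ψ h2 d * (slX u φ h1 c)⁻¹ * (slX v ψ h2 d)⁻¹
      = slX u ψ ht (c * d * (φ ⬝ᵥ v)) := by
  rw [slX_inv, slX_inv]
  apply Subtype.ext
  show (1 + c • vecMulVec u φ) * (1 + d • vecMulVec v ψ) * (1 + (-c) • vecMulVec u φ)
    * (1 + (-d) • vecMulVec v ψ) = 1 + (c * d * (φ ⬝ᵥ v)) • vecMulVec u ψ
  simp only [mul_add, add_mul, mul_one, one_mul, Matrix.smul_mul, Matrix.mul_smul,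
    vmv_mul, h1, h2, ht, zero_smul, smul_zero, add_zero, zero_add, smul_smul]
  first
    | done
    | (ext i j
       simp only [Matrix.add_apply, Matrix.neg_apply, Matrix.smul_apply, Matrix.one_apply,
         vecMulVec_apply, smul_eq_mul]
       ring)

theorem closure_comm_swap {G : Type*} [Group G] (A : Set G) (f g : G → G)
    (hfg : ∀ a, g a = (f a)⁻¹) : Subgroup.closure (g '' A) = Subgroup.closure (f '' A) := by
  rw [← Subgroup.closure_inv (f '' A)]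
  congr 1
  ext x
  rw [Set.mem_inv]
  constructor
  · rintro ⟨a, ha, rfl⟩
    exact ⟨a, ha, by rw [hfg, inv_inv]⟩
  · rintro ⟨a, ha, hax⟩
    exact ⟨a, ha, by rw [hfg, hax, inv_inv]⟩

theorem rootComm_symm {G : Type*} [Group G] (S : Set (Subgroup G)) (A B : Subgroup G)
    (h : Cfsg.RootCommutatorCase S A B) : Cfsg.RootCommutatorCase S B A := by
  obtain ⟨h1, h2, h3, h4⟩ := h
  have hc : ⁅B, A⁆ = ⁅A, B⁆ := Subgroup.commutator_comm B A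
  refine ⟨by rw [hc]; exact h1, ?_, ?_, ?_⟩
  · intro c hc' x hx
    rw [hc] at hc'
    rw [sup_comm] at hx
    exact h2 c hc' x hx
  · intro b hb hb1
    rw [hc, ← h4 b hb hb1]
    apply closure_comm_swap
    intro a
    group
  · intro a ha ha1
    rw [hc, ← h3 a ha ha1]
    apply closure_comm_swap
    intro b
    group

theorem slT_commCase (S : Set (Subgroup (SpecialLinearGroup ι F))) (u φ v ψ : ι → F)
    (h1 : φ ⬝ᵥ u = 0) (h2 : ψ ⬝ᵥ v = 0)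
    (hs : φ ⬝ᵥ v ≠ 0) (ht : ψ ⬝ᵥ u = 0) (hS : slT u ψ ∈ S) :
    Cfsg.RootCommutatorCase S (slT u φ) (slT v ψ) := by
  have hcomm : ⁅slT u φ, slT v ψ⁆ = slT u ψ := by
    apply le_antisymm
    · rw [Subgroup.commutator_le]
      intro a ha b hb
      obtain ⟨c, rfl⟩ := (mem_slT_iff u φ h1 a).1 ha
      obtain ⟨d, rfl⟩ := (mem_slT_iff v ψ h2 b).1 hb
      rw [commutatorElement_def, comm_val u φ v ψ h1 h2 ht]
      exact (mem_slT_iff u ψ ht _).2 ⟨_, rfl⟩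
    · intro z hz
      obtain ⟨e, rfl⟩ := (mem_slT_iff u ψ ht z).1 hz
      have h3 := Subgroup.commutator_mem_commutator ((mem_slT_iff u φ h1 _).2 ⟨1, rfl⟩)
        ((mem_slT_iff v ψ h2 _).2 ⟨e / (φ ⬝ᵥ v), rfl⟩)
      rw [commutatorElement_def, comm_val u φ v ψ h1 h2 ht] at h3
      have e1 : 1 * (e / (φ ⬝ᵥ v)) * (φ ⬝ᵥ v) = e := by
        rw [one_mul, div_mul_cancel₀ e hs]
      rw [e1] at h3
      exact h3
  refine ⟨?_, ?_, ?_, ?_⟩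
  · rw [hcomm]
    exact hS
  · rw [hcomm]
    intro z hz x hx
    obtain ⟨e, rfl⟩ := (mem_slT_iff u ψ ht z).1 hz
    have hle : slT u φ ⊔ slT v ψ ≤ Subgroup.centralizer {slX u ψ ht e} := by
      apply sup_le
      · intro a ha
        obtain ⟨c, rfl⟩ := (mem_slT_iff u φ h1 a).1 ha
        rw [Subgroup.mem_centralizer_iff]
        intro y hy
        rw [Set.mem_singleton_iff] at hy
        rw [hy]
        exact slX_comm u ψ u φ ht h1 ht h1 e c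
      · intro b hb
        obtain ⟨d, rfl⟩ := (mem_slT_iff v ψ h2 b).1 hb
        rw [Subgroup.mem_centralizer_iff]
        intro y hy
        rw [Set.mem_singleton_iff] at hy
        rw [hy]
        exact slX_comm u ψ v ψ ht h2 h2 ht e d
    have h4 := hle hx
    rw [Subgroup.mem_centralizer_iff] at h4
    exact h4 _ (Set.mem_singleton _)
  · intro a ha ha1
    obtain ⟨c, rfl⟩ := (mem_slT_iff u φ h1 a).1 ha
    have hc : c ≠ 0 := by
      intro h0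
      rw [h0, slX_zero] at ha1
      exact ha1 rfl
    rw [hcomm]
    apply le_antisymm
    · rw [Subgroup.closure_le]
      rintro _ ⟨b, hb, rfl⟩
      obtain ⟨d, rfl⟩ := (mem_slT_iff v ψ h2 b).1 hb
      show slX u φ h1 c * slX v ψ h2 d * (slX u φ h1 c)⁻¹ * (slX v ψ h2 d)⁻¹ ∈ slT u ψ
      rw [comm_val u φ v ψ h1 h2 ht]
      exact (mem_slT_iff u ψ ht _).2 ⟨_, rfl⟩
    · intro z hz
      obtain ⟨e, rfl⟩ := (mem_slT_iff u ψ ht z).1 hz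
      apply Subgroup.subset_closure
      refine ⟨slX v ψ h2 (e / (c * (φ ⬝ᵥ v))), (mem_slT_iff v ψ h2 _).2 ⟨_, rfl⟩, ?_⟩
      show slX u φ h1 c * slX v ψ h2 (e / (c * (φ ⬝ᵥ v))) * (slX u φ h1 c)⁻¹
        * (slX v ψ h2 (e / (c * (φ ⬝ᵥ v))))⁻¹ = slX u ψ ht e
      rw [comm_val u φ v ψ h1 h2 ht]
      congr 1
      field_simp
  · intro b hb hb1
    obtain ⟨d, rfl⟩ := (mem_slT_iff v ψ h2 b).1 hb
    have hd : d ≠ 0 := by
      intro h0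
      rw [h0, slX_zero] at hb1
      exact hb1 rfl
    rw [hcomm]
    apply le_antisymm
    · rw [Subgroup.closure_le]
      rintro _ ⟨a, ha, rfl⟩
      obtain ⟨c, rfl⟩ := (mem_slT_iff u φ h1 a).1 ha
      show slX u φ h1 c * slX v ψ h2 d * (slX u φ h1 c)⁻¹ * (slX v ψ h2 d)⁻¹ ∈ slT u ψ
      rw [comm_val u φ v ψ h1 h2 ht]
      exact (mem_slT_iff u ψ ht _).2 ⟨_, rfl⟩
    · intro z hz
      obtain ⟨e, rfl⟩ := (mem_slT_iff u ψ ht z).1 hz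
      apply Subgroup.subset_closure
      refine ⟨slX u φ h1 (e / (d * (φ ⬝ᵥ v))), (mem_slT_iff u φ h1 _).2 ⟨_, rfl⟩, ?_⟩
      show slX u φ h1 (e / (d * (φ ⬝ᵥ v))) * slX v ψ h2 d
        * (slX u φ h1 (e / (d * (φ ⬝ᵥ v))))⁻¹ * (slX v ψ h2 d)⁻¹ = slX u ψ ht e
      rw [comm_val u φ v ψ h1 h2 ht]
      congr 1
      field_simp

end

section

variable {ι : Type*} [Fintype ι] [DecidableEq ι] {F : Type u} [Field F]

theorem slT_eq_imp1 (u φ v ψ : ι → F) (h2 : ψ ⬝ᵥ v = 0) (h1 : φ ⬝ᵥ u = 0)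
    (hu : u ≠ 0) (hψ : ψ ≠ 0) (heq : slT u φ = slT v ψ) : φ ⬝ᵥ v = 0 := by
  have hx : slX u φ h1 1 ∈ slT v ψ := by
    rw [← heq]
    exact (mem_slT_iff u φ h1 _).2 ⟨1, rfl⟩
  obtain ⟨d, hd⟩ := (mem_slT_iff v ψ h2 _).1 hx
  have hm : vecMulVec u φ = d • vecMulVec v ψ := by
    have h3 : (1 : Matrix ι ι F) + (1 : F) • vecMulVec u φ = 1 + d • vecMulVec v ψ :=
      congrArg Subtype.val hd
    rw [one_smul] at h3
    exact add_left_cancel h3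
  have h4 : vecMulVec u φ * vecMulVec v ψ = 0 := by
    rw [hm, Matrix.smul_mul, vmv_mul, h2, zero_smul, smul_zero]
  rw [vmv_mul] at h4
  rcases smul_eq_zero.1 h4 with h5 | h5
  · exact h5
  · rcases vecMulVec_eq_zero.1 h5 with h6 | h6
    · exact absurd h6 hu
    · exact absurd h6 hψ

theorem slT_isComm (u φ : ι → F) (h : φ ⬝ᵥ u = 0) : IsMulCommutative ↥(slT u φ) := by
  refine ⟨⟨fun a b => ?_⟩⟩
  obtain ⟨c, hc⟩ := (mem_slT_iff u φ h a.1).1 a.2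
  obtain ⟨d, hd⟩ := (mem_slT_iff u φ h b.1).1 b.2
  apply Subtype.ext
  show a.1 * b.1 = b.1 * a.1
  rw [hc, hd, slX_mul, slX_mul, add_comm]

theorem slT_nilpotent (u φ : ι → F) (h : φ ⬝ᵥ u = 0) : Group.IsNilpotent ↥(slT u φ) :=
  ⟨⟨1, Subgroup.upperCentralSeries_one_eq_top_iff.2 (slT_isComm u φ h)⟩⟩

theorem slT_ne_bot (u φ : ι → F) (h : φ ⬝ᵥ u = 0) (hu : u ≠ 0) (hφ : φ ≠ 0) :
    slT u φ ≠ ⊥ := by
  intro hb
  have h1 : slX u φ h 1 ∈ slT u φ := (mem_slT_iff u φ h _).2 ⟨1, rfl⟩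
  rw [hb, Subgroup.mem_bot] at h1
  exact one_ne_zero ((slX_eq_one_iff u φ h hu hφ 1).1 h1)

theorem slT_isRankOne (u φ v ψ : ι → F) (h1 : φ ⬝ᵥ u = 0) (h2 : ψ ⬝ᵥ v = 0)
    (hu : u ≠ 0) (hφ : φ ≠ 0) (hv : v ≠ 0) (hψ : ψ ≠ 0)
    (hs : φ ⬝ᵥ v ≠ 0) (ht : ψ ⬝ᵥ u ≠ 0) : Cfsg.IsRankOnePair (slT u φ) (slT v ψ) :=
  ⟨fun heq => hs (slT_eq_imp1 u φ v ψ h2 h1 hu hψ heq), slT_nilpotent u φ h1,
    slT_nilpotent v ψ h2, slT_rankOne u φ v ψ h1 h2 hv hψ hs ht,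
    slT_rankOne v ψ u φ h2 h1 hu hφ ht hs⟩

theorem rank_imp (u φ v ψ : ι → F) (h1 : φ ⬝ᵥ u = 0) (h2 : ψ ⬝ᵥ v = 0)
    (hu : u ≠ 0) (hφ : φ ≠ 0) (hψ : ψ ≠ 0)
    (hc : Cfsg.RankOneCondition (slT u φ) (slT v ψ)) (ht : ψ ⬝ᵥ u = 0) : φ ⬝ᵥ v = 0 := by
  have ha : slX u φ h1 1 ∈ slT u φ := (mem_slT_iff u φ h1 _).2 ⟨1, rfl⟩
  have ha1 : slX u φ h1 1 ≠ 1 := fun h => one_ne_zero ((slX_eq_one_iff u φ h1 hu hφ 1).1 h)
  obtain ⟨b, hb, -, hconj⟩ := hc _ ha ha1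
  obtain ⟨d, rfl⟩ := (mem_slT_iff v ψ h2 b).1 hb
  rw [slT_conj _ u φ h1, slT_conj _ v ψ h2, inv_inv, inv_inv, slX_inv, slX_inv,
    slX_mulVec, slX_vecMul, slX_mulVec, slX_vecMul] at hconj
  simp only [ht, mul_zero, zero_smul, add_zero] at hconj
  have inc1 : (φ + (d * (φ ⬝ᵥ v)) • ψ) ⬝ᵥ u = 0 := by
    rw [add_dotProduct, smul_dotProduct, h1, ht, smul_zero, add_zero]
  have inc2 : ψ ⬝ᵥ (v + (-1 * (φ ⬝ᵥ v)) • u) = 0 := by
    rw [dotProduct_add, dotProduct_smul, h2, ht, smul_zero, add_zero]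
  have h5 := slT_eq_imp1 u (φ + (d * (φ ⬝ᵥ v)) • ψ) (v + (-1 * (φ ⬝ᵥ v)) • u) ψ inc2 inc1 hu hψ
    hconj
  simp only [add_dotProduct, dotProduct_add, smul_dotProduct, dotProduct_smul, h1, h2, ht,
    smul_eq_mul, mul_zero, add_zero, zero_add] at h5
  exact h5

theorem rank_eq (u φ v ψ : ι → F) (h1 : φ ⬝ᵥ u = 0) (h2 : ψ ⬝ᵥ v = 0)
    (hu : u ≠ 0) (hφ : φ ≠ 0)
    (hc : Cfsg.RankOneCondition (slT u φ) (slT v ψ)) (hs : φ ⬝ᵥ v = 0) (ht : ψ ⬝ᵥ u = 0) :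
    slT u φ = slT v ψ := by
  have ha : slX u φ h1 1 ∈ slT u φ := (mem_slT_iff u φ h1 _).2 ⟨1, rfl⟩
  have ha1 : slX u φ h1 1 ≠ 1 := fun h => one_ne_zero ((slX_eq_one_iff u φ h1 hu hφ 1).1 h)
  obtain ⟨b, hb, -, hconj⟩ := hc _ ha ha1
  obtain ⟨d, rfl⟩ := (mem_slT_iff v ψ h2 b).1 hb
  rw [slT_conj _ u φ h1, slT_conj _ v ψ h2, inv_inv, inv_inv, slX_inv, slX_inv,
    slX_mulVec, slX_vecMul, slX_mulVec, slX_vecMul] at hconj
  simp only [hs, ht, mul_zero, zero_smul, add_zero] at hconj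
  exact hconj

/-- The matrix with columns `u`, `v`. -/
def pMat (u v : ι → F) : Matrix ι (Fin 2) F := Matrix.of fun i j => if j = 0 then u i else v i

/-- The matrix with rows `α`, `β`. -/
def qMat (α β : ι → F) : Matrix (Fin 2) ι F := Matrix.of fun j i => if j = 0 then α i else β i

theorem qMat_mul_pMat (α β u v : ι → F) (h00 : α ⬝ᵥ u = 1) (h01 : α ⬝ᵥ v = 0)
    (h10 : β ⬝ᵥ u = 0) (h11 : β ⬝ᵥ v = 1) : qMat α β * pMat u v = 1 := by
  have h : qMat α β * pMat u v = !![α ⬝ᵥ u, α ⬝ᵥ v; β ⬝ᵥ u, β ⬝ᵥ v] := by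
    ext i j
    fin_cases i <;> fin_cases j <;> simp [Matrix.mul_apply, qMat, pMat, dotProduct]
  rw [h, h00, h01, h10, h11]
  exact (Matrix.one_fin_two).symm

theorem rk_mul (P : Matrix ι (Fin 2) F) (Q : Matrix (Fin 2) ι F) (hQP : Q * P = 1)
    (g h : Matrix (Fin 2) (Fin 2) F) :
    (1 + P * (g - 1) * Q) * (1 + P * (h - 1) * Q) = 1 + P * (g * h - 1) * Q := by
  have e1 : P * (g - 1) * Q * (P * (h - 1) * Q) = P * ((g - 1) * (h - 1)) * Q := by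
    calc P * (g - 1) * Q * (P * (h - 1) * Q)
        = P * (g - 1) * (Q * P) * (h - 1) * Q := by simp only [Matrix.mul_assoc]
      _ = P * ((g - 1) * (h - 1)) * Q := by
          rw [hQP, Matrix.mul_one, Matrix.mul_assoc P]
  have e2 : g * h - 1 = (g - 1) + (h - 1) + (g - 1) * (h - 1) := by noncomm_ring
  have e3 : P * (g * h - 1) * Q
      = P * (g - 1) * Q + P * (h - 1) * Q + P * (g - 1) * Q * (P * (h - 1) * Q) := by
    rw [e1, e2, Matrix.mul_add, Matrix.mul_add, Matrix.add_mul, Matrix.add_mul]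
  rw [e3]
  generalize P * (g - 1) * Q = X
  generalize P * (h - 1) * Q = Y
  noncomm_ring

/-- The homomorphism `SL₂ → SL_ι` attached to `Q * P = 1`. -/
def rkEmb (P : Matrix ι (Fin 2) F) (Q : Matrix (Fin 2) ι F) (hQP : Q * P = 1) :
    SpecialLinearGroup (Fin 2) F →* SpecialLinearGroup ι F where
  toFun g := ⟨1 + P * (g.1 - 1) * Q, by
    rw [Matrix.mul_assoc, Matrix.det_one_add_mul_comm, Matrix.mul_assoc, hQP, Matrix.mul_one,
      add_sub_cancel]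
    exact g.2⟩
  map_one' := by
    apply Subtype.ext
    show 1 + P * ((1 : Matrix (Fin 2) (Fin 2) F) - 1) * Q = 1
    rw [sub_self, Matrix.mul_zero, Matrix.zero_mul, add_zero]
  map_mul' g h := by
    apply Subtype.ext
    show 1 + P * (g.1 * h.1 - 1) * Q = (1 + P * (g.1 - 1) * Q) * (1 + P * (h.1 - 1) * Q)
    exact (rk_mul P Q hQP g.1 h.1).symm

theorem rkEmb_val (P : Matrix ι (Fin 2) F) (Q : Matrix (Fin 2) ι F) (hQP : Q * P = 1)
    (g : SpecialLinearGroup (Fin 2) F) : (rkEmb P Q hQP g).1 = 1 + P * (g.1 - 1) * Q := rfl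

theorem rkEmb_injective (P : Matrix ι (Fin 2) F) (Q : Matrix (Fin 2) ι F) (hQP : Q * P = 1) :
    Function.Injective (rkEmb P Q hQP) := by
  intro g h hgh
  have h1 : (1 : Matrix ι ι F) + P * (g.1 - 1) * Q = 1 + P * (h.1 - 1) * Q :=
    congrArg Subtype.val hgh
  have h2 : P * (g.1 - 1) * Q = P * (h.1 - 1) * Q := add_left_cancel h1
  have h3 : ∀ X : Matrix (Fin 2) (Fin 2) F, Q * (P * X * Q) * P = X := by
    intro X
    calc Q * (P * X * Q) * P = (Q * P) * X * (Q * P) := by simp only [Matrix.mul_assoc]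
      _ = X := by rw [hQP, Matrix.one_mul, Matrix.mul_one]
  have h4 : g.1 - 1 = h.1 - 1 := by rw [← h3 (g.1 - 1), h2, h3]
  apply Subtype.ext
  exact sub_left_injective h4

theorem rk_upper (u v α β : ι → F) (g : Matrix (Fin 2) (Fin 2) F)
    (h10 : g 1 0 = 0) (h00 : g 0 0 = 1) (h11 : g 1 1 = 1) :
    pMat u v * (g - 1) * qMat α β = (g 0 1) • vecMulVec u β := by
  ext i j
  first
    | (simp [Matrix.mul_apply, Fin.sum_univ_two, pMat, qMat, Matrix.sub_apply, Matrix.one_apply,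
        vecMulVec_apply, h10, h00, h11]; done)
    | (simp [Matrix.mul_apply, Fin.sum_univ_two, pMat, qMat, Matrix.sub_apply, Matrix.one_apply,
        vecMulVec_apply, h10, h00, h11]; ring)

theorem rk_lower (u v α β : ι → F) (g : Matrix (Fin 2) (Fin 2) F)
    (h01 : g 0 1 = 0) (h00 : g 0 0 = 1) (h11 : g 1 1 = 1) :
    pMat u v * (g - 1) * qMat α β = (g 1 0) • vecMulVec v α := by
  ext i j
  first
    | (simp [Matrix.mul_apply, Fin.sum_univ_two, pMat, qMat, Matrix.sub_apply, Matrix.one_apply,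
        vecMulVec_apply, h01, h00, h11]; done)
    | (simp [Matrix.mul_apply, Fin.sum_univ_two, pMat, qMat, Matrix.sub_apply, Matrix.one_apply,
        vecMulVec_apply, h01, h00, h11]; ring)

theorem rkEmb_upper_set (u v α β : ι → F) (hQP : qMat α β * pMat u v = 1) :
    (rkEmb (pMat u v) (qMat α β) hQP) '' {g : SpecialLinearGroup (Fin 2) F |
        g.1 1 0 = 0 ∧ g.1 0 0 = 1 ∧ g.1 1 1 = 1}
      = {t | ∃ c : F, t.1 = 1 + c • vecMulVec u β} := by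
  ext x
  constructor
  · rintro ⟨g, ⟨h10, h00, h11⟩, rfl⟩
    exact ⟨g.1 0 1, by rw [rkEmb_val, rk_upper u v α β g.1 h10 h00 h11]⟩
  · rintro ⟨c, hc⟩
    refine ⟨⟨!![1, c; 0, 1], by simp [Matrix.det_fin_two]⟩, ⟨rfl, rfl, rfl⟩, Subtype.ext ?_⟩
    rw [hc]
    show 1 + pMat u v * ((!![1, c; 0, 1] : Matrix (Fin 2) (Fin 2) F) - 1) * qMat α β = _
    rw [rk_upper u v α β !![1, c; 0, 1] rfl rfl rfl]
    rfl

theorem rkEmb_lower_set (u v α β : ι → F) (hQP : qMat α β * pMat u v = 1) :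
    (rkEmb (pMat u v) (qMat α β) hQP) '' {g : SpecialLinearGroup (Fin 2) F |
        g.1 0 1 = 0 ∧ g.1 0 0 = 1 ∧ g.1 1 1 = 1}
      = {t | ∃ c : F, t.1 = 1 + c • vecMulVec v α} := by
  ext x
  constructor
  · rintro ⟨g, ⟨h01, h00, h11⟩, rfl⟩
    exact ⟨g.1 1 0, by rw [rkEmb_val, rk_lower u v α β g.1 h01 h00 h11]⟩
  · rintro ⟨c, hc⟩
    refine ⟨⟨!![1, 0; c, 1], by simp [Matrix.det_fin_two]⟩, ⟨rfl, rfl, rfl⟩, Subtype.ext ?_⟩
    rw [hc]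
    show 1 + pMat u v * ((!![1, 0; c, 1] : Matrix (Fin 2) (Fin 2) F) - 1) * qMat α β = _
    rw [rk_lower u v α β !![1, 0; c, 1] rfl rfl rfl]
    rfl

theorem slT_psl2 (u φ v ψ : ι → F) (h1 : φ ⬝ᵥ u = 0) (h2 : ψ ⬝ᵥ v = 0)
    (hs : φ ⬝ᵥ v ≠ 0) (ht : ψ ⬝ᵥ u ≠ 0) :
    Cfsg.IsPSL2PairOver F (slT u φ) (slT v ψ) := by
  have hQP : qMat ((ψ ⬝ᵥ u)⁻¹ • ψ) ((φ ⬝ᵥ v)⁻¹ • φ) * pMat u v = 1 := by
    apply qMat_mul_pMat
    · rw [smul_dotProduct, smul_eq_mul, inv_mul_cancel₀ ht]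
    · rw [smul_dotProduct, h2, smul_zero]
    · rw [smul_dotProduct, h1, smul_zero]
    · rw [smul_dotProduct, smul_eq_mul, inv_mul_cancel₀ hs]
  have hU : (Cfsg.upperUnipotentSL2 F).map (rkEmb _ _ hQP) = slT u φ := by
    unfold Cfsg.upperUnipotentSL2
    rw [MonoidHom.map_closure, rkEmb_upper_set]
    have h3 := slT_smul 1 (φ ⬝ᵥ v)⁻¹ one_ne_zero (inv_ne_zero hs) u φ
    rw [one_smul] at h3
    exact h3
  have hL : (Cfsg.lowerUnipotentSL2 F).map (rkEmb _ _ hQP) = slT v ψ := by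
    unfold Cfsg.lowerUnipotentSL2
    rw [MonoidHom.map_closure, rkEmb_lower_set]
    have h3 := slT_smul 1 (ψ ⬝ᵥ u)⁻¹ one_ne_zero (inv_ne_zero ht) v ψ
    rw [one_smul] at h3
    exact h3
  refine ⟨rkEmb _ _ hQP, ?_, ?_, hU, hL⟩
  · rw [MonoidHom.range_eq_map, ← sl2_gen F, Subgroup.map_sup, hU, hL]
  · rw [(MonoidHom.ker_eq_bot_iff _).2 (rkEmb_injective _ _ hQP)]
    exact bot_le

theorem sl_mulVec_ne_zero (g : SpecialLinearGroup ι F) (w : ι → F) (hw : w ≠ 0) :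
    g.1 *ᵥ w ≠ 0 := by
  intro h
  apply hw
  have h1 : (g⁻¹).1 * g.1 = 1 := congrArg Subtype.val (inv_mul_cancel g)
  have h2 : (g⁻¹).1 *ᵥ (g.1 *ᵥ w) = w := by rw [Matrix.mulVec_mulVec, h1, Matrix.one_mulVec]
  rw [← h2, h, Matrix.mulVec_zero]

theorem sl_vecMul_ne_zero (g : SpecialLinearGroup ι F) (χ : ι → F) (hχ : χ ≠ 0) :
    χ ᵥ* g.1 ≠ 0 := by
  intro h
  apply hχ
  have h1 : g.1 * (g⁻¹).1 = 1 := congrArg Subtype.val (mul_inv_cancel g)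
  have h2 : (χ ᵥ* g.1) ᵥ* (g⁻¹).1 = χ := by rw [Matrix.vecMul_vecMul, h1, Matrix.vecMul_one]
  rw [← h2, h, Matrix.zero_vecMul]

theorem conjClass_generic {G : Type*} [Group G] (T : Subgroup G) :
    Cfsg.IsConjClassOfSubgroups {A : Subgroup G | ∃ g : G, A = Cfsg.conjBy T g} := by
  refine ⟨⟨_, 1, rfl⟩, ?_⟩
  rintro A ⟨g₁, rfl⟩ B ⟨g₂, rfl⟩
  refine ⟨g₂ * g₁⁻¹, ?_⟩
  ext x
  constructor
  · intro hx
    obtain ⟨y, hy, rfl⟩ := Subgroup.mem_map.1 hx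
    refine Subgroup.mem_map.2 ⟨g₁ * y * g₁⁻¹, Subgroup.mem_map.2 ⟨y, hy, rfl⟩, ?_⟩
    show g₂ * g₁⁻¹ * (g₁ * y * g₁⁻¹) * (g₂ * g₁⁻¹)⁻¹ = g₂ * y * g₂⁻¹
    group
  · intro hx
    obtain ⟨z, hz, rfl⟩ := Subgroup.mem_map.1 hx
    obtain ⟨y, hy, rfl⟩ := Subgroup.mem_map.1 hz
    refine Subgroup.mem_map.2 ⟨y, hy, ?_⟩
    show g₂ * y * g₂⁻¹ = g₂ * g₁⁻¹ * (g₁ * y * g₁⁻¹) * (g₂ * g₁⁻¹)⁻¹
    group

theorem single_smul_vmv (i j : ι) (c : F) :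
    Matrix.single i j c = c • vecMulVec (Pi.single i 1) (Pi.single j 1) := by
  rw [single_eq_vmv]
  ext a b
  simp only [vecMulVec_apply, Matrix.smul_apply, Pi.single_apply, smul_eq_mul]
  split_ifs <;> ring

theorem ee (i j : ι) :
    (Pi.single i (1 : F) : ι → F) ⬝ᵥ Pi.single j 1 = if i = j then 1 else 0 := by
  rw [single_dotProduct, one_mul, Pi.single_apply]

theorem e_ne (i : ι) : (Pi.single i (1 : F) : ι → F) ≠ 0 := by
  intro h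
  have h1 := congrFun h i
  rw [Pi.single_eq_same] at h1
  exact one_ne_zero h1

end

section

variable {F : Type u} [Field F] {n : ℕ}

/-- The set of conjugates of the standard root subgroup (the set of the statement). -/
def slRootSet (n : ℕ) (F : Type u) [Field F] :
    Set (Subgroup (Matrix.SpecialLinearGroup (Fin (n + 3)) F)) :=
  {A | ∃ g : Matrix.SpecialLinearGroup (Fin (n + 3)) F,
      A = Cfsg.conjBy (Subgroup.closure {t : Matrix.SpecialLinearGroup (Fin (n + 3)) F |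
        ∃ c : F, (t : Matrix (Fin (n + 3)) (Fin (n + 3)) F) = Matrix.transvection 0 1 c}) g}

/-- The set of all `T(u, φ)` for incident pairs. -/
def slRootSet' (n : ℕ) (F : Type u) [Field F] :
    Set (Subgroup (Matrix.SpecialLinearGroup (Fin (n + 3)) F)) :=
  {A | ∃ u φ : Fin (n + 3) → F, u ≠ 0 ∧ φ ≠ 0 ∧ φ ⬝ᵥ u = 0 ∧ A = slT u φ}

theorem std_eq : Subgroup.closure {t : Matrix.SpecialLinearGroup (Fin (n + 3)) F |
      ∃ c : F, (t : Matrix (Fin (n + 3)) (Fin (n + 3)) F) = Matrix.transvection 0 1 c}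
    = slT (Pi.single 0 1) (Pi.single 1 1) := by
  unfold slT
  congr 1
  ext t
  constructor
  · rintro ⟨c, hc⟩
    exact ⟨c, by rw [hc, Matrix.transvection, single_smul_vmv]⟩
  · rintro ⟨c, hc⟩
    exact ⟨c, by rw [hc, Matrix.transvection, single_smul_vmv]⟩

theorem e10 : (Pi.single 1 (1 : F) : Fin (n + 3) → F) ⬝ᵥ Pi.single 0 1 = 0 := by
  rw [ee, if_neg (f01 (n := n)).symm]

theorem e20 : (Pi.single 2 (1 : F) : Fin (n + 3) → F) ⬝ᵥ Pi.single 0 1 = 0 := by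
  rw [ee, if_neg (f02 (n := n)).symm]

theorem e01 : (Pi.single 0 (1 : F) : Fin (n + 3) → F) ⬝ᵥ Pi.single 1 1 = 0 := by
  rw [ee, if_neg (f01 (n := n))]

theorem e21 : (Pi.single 2 (1 : F) : Fin (n + 3) → F) ⬝ᵥ Pi.single 1 1 = 0 := by
  rw [ee, if_neg (f12 (n := n)).symm]

theorem e11 : (Pi.single 1 (1 : F) : Fin (n + 3) → F) ⬝ᵥ Pi.single 1 1 = 1 := by
  rw [ee, if_pos rfl]

theorem e00 : (Pi.single 0 (1 : F) : Fin (n + 3) → F) ⬝ᵥ Pi.single 0 1 = 1 := by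
  rw [ee, if_pos rfl]

theorem exists_move (u : Fin (n + 3) → F) (hu : u ≠ 0) :
    ∃ g : Matrix.SpecialLinearGroup (Fin (n + 3)) F, ∃ a : F, a ≠ 0 ∧
      g.1 *ᵥ (Pi.single 0 1) = a • u := by
  by_cases hex : ∃ i, i ≠ 0 ∧ u i ≠ 0
  · obtain ⟨i, hi0, hui⟩ := hex
    obtain ⟨χ, hχ⟩ : ∃ χ : Fin (n + 3) → F,
        χ = Pi.single 0 1 + ((1 - u 0) / u i) • Pi.single i 1 := ⟨_, rfl⟩
    have a1 : χ ⬝ᵥ u = 1 := by
      rw [hχ, add_dotProduct, smul_dotProduct, single_dotProduct, single_dotProduct, one_mul,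
        one_mul, smul_eq_mul, div_mul_cancel₀ _ hui]
      ring
    have a2 : χ ⬝ᵥ Pi.single 0 1 = 1 := by
      rw [hχ, add_dotProduct, smul_dotProduct, ee, ee, if_pos rfl, if_neg hi0, smul_zero,
        add_zero]
    have hχw : χ ⬝ᵥ (u - Pi.single 0 1) = 0 := by rw [dotProduct_sub, a1, a2, sub_self]
    refine ⟨slX (u - Pi.single 0 1) χ hχw 1, 1, one_ne_zero, ?_⟩
    rw [slX_mulVec, a2, mul_one, one_smul, one_smul, add_sub_cancel]
  · push Not at hex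
    have hu0 : u 0 ≠ 0 := by
      intro h0
      apply hu
      funext i
      by_cases hi : i = 0
      · simp only [hi, h0, Pi.zero_apply]
      · simp only [hex i hi, Pi.zero_apply]
    refine ⟨1, (u 0)⁻¹, inv_ne_zero hu0, ?_⟩
    show (1 : Matrix (Fin (n + 3)) (Fin (n + 3)) F) *ᵥ Pi.single 0 1 = _
    rw [Matrix.one_mulVec]
    funext i
    by_cases hi : i = 0
    · rw [hi, Pi.single_eq_same, Pi.smul_apply, smul_eq_mul, inv_mul_cancel₀ hu0]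
    · rw [Pi.single_eq_of_ne hi, Pi.smul_apply, hex i hi, smul_zero]

theorem exists_fix (ψ : Fin (n + 3) → F) (hψ : ψ ≠ 0) (h0 : ψ 0 = 0) :
    ∃ m : Matrix.SpecialLinearGroup (Fin (n + 3)) F, ∃ b : F, b ≠ 0 ∧
      m.1 *ᵥ (Pi.single 0 1) = Pi.single 0 1 ∧ Pi.single 1 1 ᵥ* (m⁻¹).1 = b • ψ := by
  by_cases hex : ∃ i, i ≠ 0 ∧ i ≠ 1 ∧ ψ i ≠ 0
  · obtain ⟨i, hi0, hi1, hψi⟩ := hex
    obtain ⟨a', ha'⟩ : ∃ a' : Fin (n + 3) → F,
        a' = Pi.single 1 1 + ((1 - ψ 1) / ψ i) • Pi.single i 1 := ⟨_, rfl⟩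
    have b1 : ψ ⬝ᵥ a' = 1 := by
      rw [ha', dotProduct_add, dotProduct_smul, dotProduct_single, dotProduct_single, mul_one,
        mul_one, smul_eq_mul, div_mul_cancel₀ _ hψi]
      ring
    have b2 : Pi.single 1 1 ⬝ᵥ a' = 1 := by
      rw [ha', dotProduct_add, dotProduct_smul, ee, ee, if_pos rfl, if_neg (Ne.symm hi1),
        smul_zero, add_zero]
    have hχ : (Pi.single 1 1 - ψ) ⬝ᵥ a' = 0 := by rw [sub_dotProduct, b2, b1, sub_self]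
    have b3 : (Pi.single 1 1 - ψ) ⬝ᵥ Pi.single 0 1 = 0 := by
      rw [sub_dotProduct, ee, if_neg (f01 (n := n)).symm, dotProduct_single, h0, zero_mul,
        sub_zero]
    obtain ⟨m, hm⟩ : ∃ m, m = slX a' (Pi.single 1 1 - ψ) hχ 1 := ⟨_, rfl⟩
    have hm1 : m.1 *ᵥ (Pi.single 0 1) = Pi.single 0 1 := by
      rw [hm, slX_mulVec, b3, mul_zero, zero_smul, add_zero]
    have hm2 : ψ ᵥ* m.1 = Pi.single 1 1 := by
      rw [hm, slX_vecMul, b1, mul_one, one_smul, add_sub_cancel]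
    have hmm : m.1 * (m⁻¹).1 = 1 := congrArg Subtype.val (mul_inv_cancel m)
    refine ⟨m, 1, one_ne_zero, hm1, ?_⟩
    rw [← hm2, Matrix.vecMul_vecMul, hmm, Matrix.vecMul_one, one_smul]
  · push Not at hex
    have hψ1 : ψ 1 ≠ 0 := by
      intro h1
      apply hψ
      funext i
      by_cases hi : i = 0
      · simp only [hi, h0, Pi.zero_apply]
      · by_cases hi' : i = 1
        · simp only [hi', h1, Pi.zero_apply]
        · simp only [hex i hi hi', Pi.zero_apply]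
    refine ⟨1, (ψ 1)⁻¹, inv_ne_zero hψ1, ?_, ?_⟩
    · show (1 : Matrix (Fin (n + 3)) (Fin (n + 3)) F) *ᵥ Pi.single 0 1 = _
      rw [Matrix.one_mulVec]
    · rw [inv_one]
      show Pi.single 1 1 ᵥ* (1 : Matrix (Fin (n + 3)) (Fin (n + 3)) F) = _
      rw [Matrix.vecMul_one]
      funext i
      by_cases hi : i = 1
      · rw [hi, Pi.single_eq_same, Pi.smul_apply, smul_eq_mul, inv_mul_cancel₀ hψ1]
      · rw [Pi.single_eq_of_ne hi, Pi.smul_apply]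
        by_cases hi0 : i = 0
        · rw [hi0, h0, smul_zero]
        · rw [hex i hi0 hi, smul_zero]

theorem exists_conj (u φ : Fin (n + 3) → F) (hu : u ≠ 0) (hφ : φ ≠ 0) (h : φ ⬝ᵥ u = 0) :
    ∃ g : Matrix.SpecialLinearGroup (Fin (n + 3)) F,
      slT (g.1 *ᵥ Pi.single 0 1) (Pi.single 1 1 ᵥ* (g⁻¹).1) = slT u φ := by
  obtain ⟨g₁, a, ha, hg₁⟩ := exists_move u hu
  have hψ : φ ᵥ* g₁.1 ≠ 0 := sl_vecMul_ne_zero g₁ φ hφ
  have hψ0 : (φ ᵥ* g₁.1) 0 = 0 := by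
    have h1 : (φ ᵥ* g₁.1) ⬝ᵥ Pi.single 0 1 = 0 := by
      rw [← dotProduct_mulVec, hg₁, dotProduct_smul, h, smul_zero]
    rw [dotProduct_single, mul_one] at h1
    exact h1
  obtain ⟨m, b, hb, hm1, hm2⟩ := exists_fix (φ ᵥ* g₁.1) hψ hψ0
  refine ⟨g₁ * m, ?_⟩
  have e1 : (g₁ * m).1 *ᵥ Pi.single 0 1 = a • u := by
    show (g₁.1 * m.1) *ᵥ Pi.single 0 1 = _
    rw [← Matrix.mulVec_mulVec, hm1, hg₁]
  have e2 : Pi.single 1 1 ᵥ* ((g₁ * m)⁻¹).1 = b • φ := by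
    rw [_root_.mul_inv_rev]
    show Pi.single 1 1 ᵥ* ((m⁻¹).1 * (g₁⁻¹).1) = _
    have h3 : g₁.1 * (g₁⁻¹).1 = 1 := congrArg Subtype.val (mul_inv_cancel g₁)
    rw [← Matrix.vecMul_vecMul, hm2, Matrix.smul_vecMul, Matrix.vecMul_vecMul, h3,
      Matrix.vecMul_one]
  rw [e1, e2, slT_smul a b ha hb]

theorem slRootSet_eq : slRootSet n F = slRootSet' n F := by
  ext A
  constructor
  · rintro ⟨g, rfl⟩
    rw [std_eq, slT_conj g _ _ e10]
    exact ⟨_, _, sl_mulVec_ne_zero g _ (e_ne 0), sl_vecMul_ne_zero g⁻¹ _ (e_ne 1),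
      by rw [conj_inc]; exact e10, rfl⟩
  · rintro ⟨u, φ, hu, hφ, h, rfl⟩
    obtain ⟨g, hg⟩ := exists_conj u φ hu hφ h
    refine ⟨g, ?_⟩
    rw [std_eq, slT_conj g _ _ e10, hg]

theorem slRoot_gen : (⨆ A ∈ slRootSet' n F, A) = ⊤ := by
  rw [eq_top_iff, ← tvSet_gen n F, Subgroup.closure_le]
  intro t ht
  obtain ⟨c, -, g, rfl⟩ := (mem_tvSet_iff t).1 ht
  have hmem : slT (g.1 *ᵥ Pi.single 0 1) (Pi.single 1 1 ᵥ* (g⁻¹).1) ∈ slRootSet' n F :=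
    ⟨_, _, sl_mulVec_ne_zero g _ (e_ne 0), sl_vecMul_ne_zero g⁻¹ _ (e_ne 1),
      by rw [conj_inc]; exact e10, rfl⟩
  have hle : slT (g.1 *ᵥ Pi.single 0 1) (Pi.single 1 1 ᵥ* (g⁻¹).1) ≤ ⨆ A ∈ slRootSet' n F, A :=
    le_biSup (fun A => A) hmem
  show g * SpecialLinearGroup.transvection f01 c * g⁻¹ ∈ (⨆ A ∈ slRootSet' n F, A)
  apply hle
  rw [← slT_conj g _ _ e10]
  refine Subgroup.mem_map.2 ⟨SpecialLinearGroup.transvection f01 c,
    Subgroup.subset_closure ⟨c, ?_⟩, rfl⟩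
  rw [SpecialLinearGroup.transvection_coe, single_smul_vmv]

theorem slRoot'_isRootSet : Cfsg.IsRootSubgroupSet (slRootSet' n F) where
  commutative := by
    rintro A ⟨u, φ, hu, hφ, h, rfl⟩
    exact slT_isComm u φ h
  ne_bot := by
    rintro A ⟨u, φ, hu, hφ, h, rfl⟩
    exact slT_ne_bot u φ h hu hφ
  generates := slRoot_gen
  conj_mem := by
    rintro A ⟨u, φ, hu, hφ, h, rfl⟩ g
    exact ⟨_, _, sl_mulVec_ne_zero g u hu, sl_vecMul_ne_zero g⁻¹ φ hφ,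
      by rw [conj_inc, h], slT_conj g u φ h⟩
  pair := by
    rintro A ⟨u, φ, hu, hφ, h1, rfl⟩ B ⟨v, ψ, hv, hψ, h2, rfl⟩
    by_cases hs : φ ⬝ᵥ v = 0
    · by_cases ht : ψ ⬝ᵥ u = 0
      · exact Or.inl (slT_comm u φ v ψ h1 h2 hs ht)
      · right
        right
        exact rootComm_symm _ _ _
          (slT_commCase _ v ψ u φ h2 h1 ht hs ⟨v, φ, hv, hφ, hs, rfl⟩)
    · by_cases ht : ψ ⬝ᵥ u = 0
      · right
        right
        exact slT_commCase _ u φ v ψ h1 h2 hs ht ⟨u, ψ, hu, hψ, ht, rfl⟩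
      · right
        left
        exact slT_isRankOne u φ v ψ h1 h2 hu hφ hv hψ hs ht

theorem slRoot'_nondeg : Cfsg.IsNondegenerateRootSet (slRootSet' n F) := by
  have m01 : slT (Pi.single 0 1) (Pi.single 1 1) ∈ slRootSet' n F :=
    ⟨_, _, e_ne 0, e_ne 1, e10, rfl⟩
  have m02 : slT (Pi.single 0 1) (Pi.single 2 1) ∈ slRootSet' n F :=
    ⟨_, _, e_ne 0, e_ne 2, e20, rfl⟩
  have m10 : slT (Pi.single 1 1) (Pi.single 0 1) ∈ slRootSet' n F :=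
    ⟨_, _, e_ne 1, e_ne 0, e01, rfl⟩
  have m12 : slT (Pi.single 1 1) (Pi.single 2 1) ∈ slRootSet' n F :=
    ⟨_, _, e_ne 1, e_ne 2, e21, rfl⟩
  refine ⟨⟨_, m01, _, m02, ?_, slT_comm _ _ _ _ e10 e20 e10 e20⟩, ⟨_, m01, _, m10, ?_⟩,
    ⟨_, m01, _, m12, ?_⟩⟩
  · intro heq
    have hx : slX (Pi.single 0 1) (Pi.single 1 1) (e10 (F := F) (n := n)) 1
        ∈ slT (Pi.single 0 (1 : F)) (Pi.single 2 1) := by
      rw [← heq]
      exact (mem_slT_iff _ _ e10 _).2 ⟨1, rfl⟩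
    obtain ⟨d, hd⟩ := (mem_slT_iff _ _ e20 _).1 hx
    have h3 : (slX (Pi.single 0 1) (Pi.single 1 1) (e10 (F := F) (n := n)) 1).1 0 1
        = (slX (Pi.single 0 1) (Pi.single 2 1) (e20 (F := F) (n := n)) d).1 0 1 := by
      rw [hd]
    simp [slX_val, Matrix.add_apply, Matrix.smul_apply, vecMulVec_apply, Pi.single_apply,
      Matrix.one_apply, (f01 (n := n)), (f12 (n := n))] at h3
  · exact slT_isRankOne _ _ _ _ e10 e01 (e_ne 0) (e_ne 1) (e_ne 1) (e_ne 0)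
      (by rw [e11]; exact one_ne_zero) (by rw [e00]; exact one_ne_zero)
  · exact slT_commCase _ _ _ _ _ e10 e21 (by rw [e11]; exact one_ne_zero) e20 m02

theorem slRoot'_connected :
    Cfsg.IsConnectedFamily (Cfsg.FAdj (slRootSet' n F)) (slRootSet' n F) := by
  rintro A ⟨u, φ, hu, hφ, h1, rfl⟩ B ⟨v, ψ, hv, hψ, h2, rfl⟩
  obtain ⟨w, hw1, hw2⟩ : ∃ w, φ ⬝ᵥ w ≠ 0 ∧ ψ ⬝ᵥ w ≠ 0 := by
    obtain ⟨i, hi⟩ : ∃ i, φ i ≠ 0 := by
      by_contra hcon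
      push Not at hcon
      exact hφ (funext hcon)
    obtain ⟨j, hj⟩ : ∃ j, ψ j ≠ 0 := by
      by_contra hcon
      push Not at hcon
      exact hψ (funext hcon)
    have a1 : φ ⬝ᵥ Pi.single i 1 = φ i := by rw [dotProduct_single, mul_one]
    have a2 : ψ ⬝ᵥ Pi.single j 1 = ψ j := by rw [dotProduct_single, mul_one]
    by_cases c1 : ψ ⬝ᵥ Pi.single i 1 = 0
    · by_cases c2 : φ ⬝ᵥ Pi.single j 1 = 0
      · refine ⟨Pi.single i 1 + Pi.single j 1, ?_, ?_⟩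
        · rw [dotProduct_add, a1, c2, add_zero]
          exact hi
        · rw [dotProduct_add, c1, a2, zero_add]
          exact hj
      · exact ⟨Pi.single j 1, c2, by rw [a2]; exact hj⟩
    · exact ⟨Pi.single i 1, by rw [a1]; exact hi, c1⟩
  have hw0 : w ≠ 0 := by
    rintro rfl
    exact hw1 (dotProduct_zero φ)
  obtain ⟨χ₁, hχ₁w, hχ₁u⟩ := exists_functional u w φ h1 hw1 hu 1
  obtain ⟨χ₂, hχ₂w, hχ₂v⟩ := exists_functional v w ψ h2 hw2 hv 1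
  obtain ⟨χ, hχw, hχu, hχv⟩ : ∃ χ : Fin (n + 3) → F, χ ⬝ᵥ w = 0 ∧ χ ⬝ᵥ u ≠ 0 ∧ χ ⬝ᵥ v ≠ 0 := by
    by_cases c1 : χ₁ ⬝ᵥ v = 0
    · by_cases c2 : χ₂ ⬝ᵥ u = 0
      · refine ⟨χ₁ + χ₂, ?_, ?_, ?_⟩
        · rw [add_dotProduct, hχ₁w, hχ₂w, add_zero]
        · rw [add_dotProduct, hχ₁u, c2, add_zero]
          exact one_ne_zero
        · rw [add_dotProduct, c1, hχ₂v, zero_add]
          exact one_ne_zero
      · exact ⟨χ₂, hχ₂w, c2, by rw [hχ₂v]; exact one_ne_zero⟩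
    · exact ⟨χ₁, hχ₁w, by rw [hχ₁u]; exact one_ne_zero, c1⟩
  have hχ0 : χ ≠ 0 := by
    rintro rfl
    exact hχu (zero_dotProduct u)
  have hmid : slT w χ ∈ slRootSet' n F := ⟨w, χ, hw0, hχ0, hχw, rfl⟩
  exact Relation.ReflTransGen.trans
    (Relation.ReflTransGen.single ⟨⟨u, φ, hu, hφ, h1, rfl⟩, hmid,
      slT_isRankOne u φ w χ h1 hχw hu hφ hw0 hχ0 hw1 hχu⟩)
    (Relation.ReflTransGen.single ⟨hmid, ⟨v, ψ, hv, hψ, h2, rfl⟩,
      slT_isRankOne w χ v ψ hχw h2 hw0 hχ0 hv hψ hχv hw2⟩)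

theorem slRoot'_kroot : Cfsg.IsKRootSubgroupSet F (slRootSet' n F) := by
  refine ⟨slRoot'_isRootSet, ?_⟩
  rintro A ⟨u, φ, hu, hφ, h1, rfl⟩ B ⟨v, ψ, hv, hψ, h2, rfl⟩ hpair
  have key1 := rank_imp u φ v ψ h1 h2 hu hφ hψ hpair.cond_left
  have key2 := rank_imp v ψ u φ h2 h1 hv hψ hφ hpair.cond_right
  have hs : φ ⬝ᵥ v ≠ 0 := by
    intro hs
    exact hpair.ne (rank_eq u φ v ψ h1 h2 hu hφ hpair.cond_left hs (key2 hs))
  have ht : ψ ⬝ᵥ u ≠ 0 := fun ht => hs (key1 ht)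
  exact slT_psl2 u φ v ψ h1 h2 hs ht

theorem sl_root_main (F : Type u) [Field F] (n : ℕ) :
    Cfsg.IsRootSubgroupClass (slRootSet n F) ∧ Cfsg.IsNondegenerateRootSet (slRootSet n F) ∧
      Cfsg.IsKRootSubgroupSet F (slRootSet n F) ∧
      Cfsg.IsConnectedFamily (Cfsg.FAdj (slRootSet n F)) (slRootSet n F) := by
  refine ⟨⟨?_, conjClass_generic _⟩, ?_, ?_, ?_⟩
  · rw [slRootSet_eq]
    exact slRoot'_isRootSet
  · rw [slRootSet_eq]
    exact slRoot'_nondeg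
  · rw [slRootSet_eq]
    exact slRoot'_kroot
  · rw [slRootSet_eq]
    exact slRoot'_connected

end

end Cfsg.Agent.Lib.Helper4
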