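import Mathlib
import Cfsg.Prelude.Def_RootSubgroups
import Cfsg.Prelude.Def_Classical
import Cfsg.Agent.Lib.Helper4.SlRoot
import Cfsg.Agent.Lib.Helper4.HermLines
import Cfsg.Agent.Lib.Helper4.SUCenter

set_option autoImplicit false

namespace Cfsg.Agent.Lib.Helper4

open Matrix

universe u

section

variable {F : Type u} [Field F] [Fintype F] {q : ℕ}

/-- Frobenius applied to a vector. -/
def fq (q : ℕ) {n : ℕ} (v : Fin n → F) : Fin n → F := fun i => v i ^ q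

theorem herm_dot (n : ℕ) (u v : Fin n → F) : Cfsg.hermForm n F q u v = fq q v ⬝ᵥ u := by
  unfold Cfsg.hermForm fq dotProduct
  exact Finset.sum_congr rfl (fun i _ => mul_comm _ _)

theorem exists_skew (hF : Fintype.card F = q ^ 2) : ∃ θ : F, θ ≠ 0 ∧ θ + θ ^ q = 0 := by
  obtain ⟨φ, hφ⟩ := exists_frobQ hF
  obtain ⟨c, hc⟩ := exists_not_fixed hF
  refine ⟨c - c ^ q, sub_ne_zero.2 (Ne.symm hc), ?_⟩
  have h1 : (c - c ^ q) ^ q = c ^ q - c := by
    rw [← hφ, map_sub, hφ, hφ, pow_card_sq hF]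
  rw [h1]
  ring

theorem exists_trace (hF : Fintype.card F = q ^ 2) (y : F) (hy : y ^ q = y) :
    ∃ d : F, d + d ^ q = y := by
  obtain ⟨φ, hφ⟩ := exists_frobQ hF
  have key : ∃ θ₀ : F, θ₀ + θ₀ ^ q ≠ 0 := by
    by_cases h2 : (1 : F) + 1 = 0
    · obtain ⟨c, hc⟩ := exists_not_fixed hF
      refine ⟨c, fun h => hc ?_⟩
      have h3 : c ^ q = -c := by linear_combination h
      rw [h3]
      linear_combination (-c) * h2
    · exact ⟨1, by rw [one_pow]; exact h2⟩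
  obtain ⟨θ₀, hθ⟩ := key
  have ht : (θ₀ + θ₀ ^ q) ^ q = θ₀ + θ₀ ^ q := by
    rw [← hφ, map_add, hφ, hφ, pow_card_sq hF, add_comm]
  refine ⟨y / (θ₀ + θ₀ ^ q) * θ₀, ?_⟩
  have h1 : (y / (θ₀ + θ₀ ^ q) * θ₀) ^ q = y / (θ₀ + θ₀ ^ q) * θ₀ ^ q := by
    rw [mul_pow, div_pow, hy, ht]
  rw [h1]
  field_simp

theorem suX_mem (hF : Fintype.card F = q ^ 2) (n : ℕ) (p : Fin n → F)
    (hp : fq q p ⬝ᵥ p = 0) (a : F) (ha : a + a ^ q = 0) :
    slX p (fq q p) hp a ∈ Cfsg.SU n F q := by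
  obtain ⟨φ, hφ⟩ := exists_frobQ hF
  rw [su_mem_iff]
  intro u v
  rw [slX_mulVec, slX_mulVec, ← herm_dot, ← herm_dot]
  have hpp : Cfsg.hermForm n F q p p = 0 := by
    rw [herm_dot]
    exact hp
  obtain ⟨x, hx⟩ : ∃ x : F, x = Cfsg.hermForm n F q u p := ⟨_, rfl⟩
  obtain ⟨y, hy⟩ : ∃ y : F, y = Cfsg.hermForm n F q v p := ⟨_, rfl⟩
  rw [← hx, ← hy]
  have hpv : Cfsg.hermForm n F q p v = y ^ q := by rw [herm_symm hF n v p, ← hy]
  have hcq : (a * y) ^ q = a ^ q * y ^ q := mul_pow _ _ _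
  simp only [herm_add_left, herm_add_right φ hφ, herm_smul_left, herm_smul_right, hpp, hpv,
    ← hx, hcq]
  linear_combination (x * y ^ q) * ha

/-- The generating set of the unitary transvection group. -/
def suGen (n q : ℕ) (F : Type u) [Field F] (p : Fin n → F) : Set ↥(Cfsg.SU n F q) :=
  {g | (∀ v : Fin n → F, ∃ c : F,
      ((g : Matrix.SpecialLinearGroup (Fin n) F) : Matrix (Fin n) (Fin n) F) *ᵥ v = v + c • p) ∧
    ∀ v : Fin n → F, Cfsg.hermForm n F q v p = 0 →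
      ((g : Matrix.SpecialLinearGroup (Fin n) F) : Matrix (Fin n) (Fin n) F) *ᵥ v = v}

/-- The unitary transvection group. -/
def suTG (n q : ℕ) (F : Type u) [Field F] (p : Fin n → F) : Subgroup ↥(Cfsg.SU n F q) :=
  Subgroup.closure (suGen n q F p)

/-- The set of unitary transvection groups. -/
def suRootSet (n q : ℕ) (F : Type u) [Field F] : Set (Subgroup ↥(Cfsg.SU n F q)) :=
  {A | ∃ p : Fin n → F, p ≠ 0 ∧ Cfsg.hermForm n F q p p = 0 ∧ A = suTG n q F p}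

theorem exists_herm_one (hF : Fintype.card F = q ^ 2) (n : ℕ) (p : Fin n → F) (hp0 : p ≠ 0) :
    ∃ x : Fin n → F, Cfsg.hermForm n F q x p = 1 := by
  have h1 : ∃ x, Cfsg.hermForm n F q x p ≠ 0 := by
    by_contra hcon
    push Not at hcon
    apply hp0
    apply herm_nondeg_std hF n p
    intro x
    exact herm_sym_zero hF n _ _ (hcon x)
  obtain ⟨x, hx⟩ := h1
  refine ⟨(Cfsg.hermForm n F q x p)⁻¹ • x, ?_⟩
  rw [herm_smul_left, inv_mul_cancel₀ hx]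

theorem mem_suGen_iff (hF : Fintype.card F = q ^ 2) (n : ℕ) (p : Fin n → F) (hp0 : p ≠ 0)
    (hp : fq q p ⬝ᵥ p = 0) (g : ↥(Cfsg.SU n F q)) :
    g ∈ suGen n q F p ↔ ∃ a : F, a + a ^ q = 0 ∧ g.1 = slX p (fq q p) hp a := by
  obtain ⟨φ, hφ⟩ := exists_frobQ hF
  constructor
  · rintro ⟨h1, h2⟩
    obtain ⟨x₀, hx₀⟩ := exists_herm_one hF n p hp0
    obtain ⟨c₀, hc₀⟩ := h1 x₀
    have hg : ∀ v, g.1.1 *ᵥ v = v + (c₀ * (fq q p ⬝ᵥ v)) • p := by
      intro v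
      have hv : Cfsg.hermForm n F q (v - Cfsg.hermForm n F q v p • x₀) p = 0 := by
        rw [herm_sub_left, herm_smul_left, hx₀, mul_one, sub_self]
      have h3 := h2 _ hv
      rw [Matrix.mulVec_sub, Matrix.mulVec_smul, hc₀] at h3
      rw [← herm_dot]
      have h4 : g.1.1 *ᵥ v = v - Cfsg.hermForm n F q v p • x₀
          + Cfsg.hermForm n F q v p • (x₀ + c₀ • p) := by
        rw [← h3]
        abel
      rw [h4]
      ext i
      simp only [Pi.add_apply, Pi.sub_apply, Pi.smul_apply, smul_eq_mul]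
      ring
    have hgeq : g.1 = slX p (fq q p) hp c₀ := by
      apply Subtype.ext
      apply Matrix.mulVec_injective
      funext v
      rw [hg v, slX_mulVec]
    refine ⟨c₀, ?_, hgeq⟩
    have hu := (su_mem_iff n q g.1).1 g.2 x₀ x₀
    rw [hc₀] at hu
    have hpp : Cfsg.hermForm n F q p p = 0 := by
      rw [herm_dot]
      exact hp
    have hpx : Cfsg.hermForm n F q p x₀ = 1 := by rw [herm_symm hF n x₀ p, hx₀, one_pow]
    simp only [herm_add_left, herm_add_right φ hφ, herm_smul_left, herm_smul_right, hpp, hpx,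
      hx₀] at hu
    linear_combination hu
  · rintro ⟨a, ha, hg⟩
    refine ⟨fun v => ⟨a * (fq q p ⬝ᵥ v), ?_⟩, fun v hv => ?_⟩
    · rw [hg, slX_mulVec]
    · rw [hg, slX_mulVec, ← herm_dot, hv, mul_zero, zero_smul, add_zero]

theorem mem_suTG_iff (hF : Fintype.card F = q ^ 2) (n : ℕ) (p : Fin n → F) (hp0 : p ≠ 0)
    (hp : fq q p ⬝ᵥ p = 0) (x : ↥(Cfsg.SU n F q)) :
    x ∈ suTG n q F p ↔ ∃ a : F, a + a ^ q = 0 ∧ x.1 = slX p (fq q p) hp a := by
  obtain ⟨φ, hφ⟩ := exists_frobQ hF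
  have hq := card_sq_two_le hF
  constructor
  · intro hx
    refine Subgroup.closure_induction
      (p := fun x _ => ∃ a : F, a + a ^ q = 0 ∧ x.1 = slX p (fq q p) hp a) ?_ ?_ ?_ ?_ hx
    · intro y hy
      exact (mem_suGen_iff hF n p hp0 hp y).1 hy
    · exact ⟨0, by rw [zero_pow (by omega), add_zero], (slX_zero p _ hp).symm⟩
    · rintro y z _ _ ⟨c, hc, hy⟩ ⟨c', hc', hz⟩
      refine ⟨c + c', ?_, ?_⟩
      · have h1 : (c + c') ^ q = c ^ q + c' ^ q := by rw [← hφ, map_add, hφ, hφ]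
        rw [h1]
        linear_combination hc + hc'
      · show y.1 * z.1 = _
        rw [hy, hz, slX_mul]
    · rintro y _ ⟨c, hc, hy⟩
      refine ⟨-c, ?_, ?_⟩
      · have h1 : (-c) ^ q = -(c ^ q) := by rw [← hφ, map_neg, hφ]
        rw [h1]
        linear_combination -hc
      · show (y.1)⁻¹ = _
        rw [hy, slX_inv]
  · intro h
    exact Subgroup.subset_closure ((mem_suGen_iff hF n p hp0 hp x).2 h)

end

section

variable {F : Type u} [Field F] [Fintype F] {q : ℕ}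

theorem iso_dot (n : ℕ) (p : Fin n → F) (hp : Cfsg.hermForm n F q p p = 0) :
    fq q p ⬝ᵥ p = 0 := by
  rw [← herm_dot]
  exact hp

theorem fq_ne_zero (hF : Fintype.card F = q ^ 2) (n : ℕ) (p : Fin n → F) (hp0 : p ≠ 0) :
    fq q p ≠ 0 := by
  have hq := card_sq_two_le hF
  intro h
  apply hp0
  funext i
  have h1 : p i ^ q = 0 := congrFun h i
  exact (pow_eq_zero_iff (by omega)).1 h1

/-- The unitary transvection as an element of `SU`. -/
def suX (hF : Fintype.card F = q ^ 2) (n : ℕ) (p : Fin n → F) (hp : fq q p ⬝ᵥ p = 0) (a : F)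
    (ha : a + a ^ q = 0) : ↥(Cfsg.SU n F q) := ⟨slX p (fq q p) hp a, suX_mem hF n p hp a ha⟩

theorem suX_mem_TG (hF : Fintype.card F = q ^ 2) (n : ℕ) (p : Fin n → F) (hp0 : p ≠ 0)
    (hp : fq q p ⬝ᵥ p = 0) (a : F) (ha : a + a ^ q = 0) :
    suX hF n p hp a ha ∈ suTG n q F p := (mem_suTG_iff hF n p hp0 hp _).2 ⟨a, ha, rfl⟩

theorem suGen_conj_mem (n : ℕ) (g : ↥(Cfsg.SU n F q)) (p : Fin n → F) (x : ↥(Cfsg.SU n F q))
    (hx : x ∈ suGen n q F p) : g * x * g⁻¹ ∈ suGen n q F (g.1.1 *ᵥ p) := by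
  obtain ⟨h1, h2⟩ := hx
  have hgg : ∀ v : Fin n → F, g.1.1 *ᵥ ((g⁻¹).1.1 *ᵥ v) = v := by
    intro v
    rw [Matrix.mulVec_mulVec]
    have h9 : g.1.1 * (g⁻¹).1.1 = 1 :=
      congrArg (fun y : ↥(Cfsg.SU n F q) => y.1.1) (mul_inv_cancel g)
    rw [h9, Matrix.one_mulVec]
  have hmul : ∀ v : Fin n → F,
      (g * x * g⁻¹).1.1 *ᵥ v = g.1.1 *ᵥ (x.1.1 *ᵥ ((g⁻¹).1.1 *ᵥ v)) := by
    intro v
    rw [Matrix.mulVec_mulVec, Matrix.mulVec_mulVec]
    rfl
  refine ⟨fun v => ?_, fun v hv => ?_⟩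
  · obtain ⟨c, hc⟩ := h1 ((g⁻¹).1.1 *ᵥ v)
    refine ⟨c, ?_⟩
    rw [hmul, hc, Matrix.mulVec_add, hgg, Matrix.mulVec_smul]
  · have hv' : Cfsg.hermForm n F q ((g⁻¹).1.1 *ᵥ v) p = 0 := by
      have h3 := (su_mem_iff n q g.1).1 g.2 ((g⁻¹).1.1 *ᵥ v) p
      rw [hgg] at h3
      rw [← h3]
      exact hv
    rw [hmul, h2 _ hv', hgg]

theorem suTG_conj (n : ℕ) (g : ↥(Cfsg.SU n F q)) (p : Fin n → F) :
    Cfsg.conjBy (suTG n q F p) g = suTG n q F (g.1.1 *ᵥ p) := by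
  show (Subgroup.closure (suGen n q F p)).map (MulAut.conj g).toMonoidHom
    = Subgroup.closure (suGen n q F (g.1.1 *ᵥ p))
  rw [MonoidHom.map_closure]
  congr 1
  ext x
  constructor
  · rintro ⟨y, hy, rfl⟩
    exact suGen_conj_mem n g p y hy
  · intro hx
    refine ⟨g⁻¹ * x * g, ?_, ?_⟩
    · have h1 := suGen_conj_mem n g⁻¹ (g.1.1 *ᵥ p) x hx
      rw [inv_inv] at h1
      have h2 : (g⁻¹).1.1 *ᵥ (g.1.1 *ᵥ p) = p := by
        rw [Matrix.mulVec_mulVec]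
        have h9 : (g⁻¹).1.1 * g.1.1 = 1 :=
          congrArg (fun y : ↥(Cfsg.SU n F q) => y.1.1) (inv_mul_cancel g)
        rw [h9, Matrix.one_mulVec]
      rw [h2] at h1
      exact h1
    · show g * (g⁻¹ * x * g) * g⁻¹ = x
      group

theorem suTG_smul (hF : Fintype.card F = q ^ 2) (n : ℕ) (a : F) (ha : a ≠ 0) (p : Fin n → F) :
    suTG n q F (a • p) = suTG n q F p := by
  have hq := card_sq_two_le hF
  unfold suTG
  congr 1
  ext g
  constructor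
  · rintro ⟨h1, h2⟩
    refine ⟨fun v => ?_, fun v hv => ?_⟩
    · obtain ⟨c, hc⟩ := h1 v
      exact ⟨c * a, by rw [hc, smul_smul]⟩
    · apply h2
      rw [herm_smul_right, hv, mul_zero]
  · rintro ⟨h1, h2⟩
    refine ⟨fun v => ?_, fun v hv => ?_⟩
    · obtain ⟨c, hc⟩ := h1 v
      exact ⟨c / a, by rw [hc, smul_smul, div_mul_cancel₀ c ha]⟩
    · apply h2
      rw [herm_smul_right] at hv
      rcases mul_eq_zero.1 hv with h3 | h3
      · exact absurd ((pow_eq_zero_iff (by omega)).1 h3) ha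
      · exact h3

theorem suTG_comm (hF : Fintype.card F = q ^ 2) (n : ℕ) (p r : Fin n → F) (hp0 : p ≠ 0)
    (hr0 : r ≠ 0) (hp : Cfsg.hermForm n F q p p = 0) (hr : Cfsg.hermForm n F q r r = 0)
    (h : Cfsg.hermForm n F q p r = 0) : ⁅suTG n q F p, suTG n q F r⁆ = ⊥ := by
  rw [Subgroup.commutator_eq_bot_iff_le_centralizer]
  intro x hx
  obtain ⟨c, -, hc⟩ := (mem_suTG_iff hF n p hp0 (iso_dot n p hp) x).1 hx
  rw [Subgroup.mem_centralizer_iff]
  intro y hy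
  obtain ⟨c', -, hc'⟩ := (mem_suTG_iff hF n r hr0 (iso_dot n r hr) y).1 hy
  apply Subtype.ext
  show y.1 * x.1 = x.1 * y.1
  rw [hc, hc']
  exact (slX_comm p (fq q p) r (fq q r) _ _
    (by rw [← herm_dot]; exact herm_sym_zero hF n _ _ h) (by rw [← herm_dot]; exact h) c c').symm

theorem suTG_ne (hF : Fintype.card F = q ^ 2) (n : ℕ) (p r : Fin n → F) (hp0 : p ≠ 0)
    (hr0 : r ≠ 0) (hp : Cfsg.hermForm n F q p p = 0) (hr : Cfsg.hermForm n F q r r = 0)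
    (h : Cfsg.hermForm n F q p r ≠ 0) : suTG n q F p ≠ suTG n q F r := by
  intro heq
  obtain ⟨θ, hθ0, hθ⟩ := exists_skew hF
  have h1 : suX hF n p (iso_dot n p hp) θ hθ ∈ suTG n q F r := by
    rw [← heq]
    exact suX_mem_TG hF n p hp0 _ θ hθ
  obtain ⟨c, -, hc⟩ := (mem_suTG_iff hF n r hr0 (iso_dot n r hr) _).1 h1
  have hc2 : slX p (fq q p) (iso_dot n p hp) θ = slX r (fq q r) (iso_dot n r hr) c := hc
  have h2 : (slX p (fq q p) (iso_dot n p hp) θ).1 *ᵥ r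
      = (slX r (fq q r) (iso_dot n r hr) c).1 *ᵥ r := by rw [hc2]
  rw [slX_mulVec, slX_mulVec, iso_dot n r hr, mul_zero, zero_smul, add_zero] at h2
  have h3 : (θ * (fq q p ⬝ᵥ r)) • p = 0 := by
    have h9 := congrArg (fun y => y - r) h2
    simpa using h9
  rcases smul_eq_zero.1 h3 with h4 | h4
  · rcases mul_eq_zero.1 h4 with h5 | h5
    · exact hθ0 h5
    · apply h
      apply herm_sym_zero hF n r p
      rw [herm_dot]
      exact h5
  · exact hp0 h4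

theorem suTG_rankOne (hF : Fintype.card F = q ^ 2) (n : ℕ) (p r : Fin n → F) (hp0 : p ≠ 0)
    (hr0 : r ≠ 0) (hp : Cfsg.hermForm n F q p p = 0) (hr : Cfsg.hermForm n F q r r = 0)
    (h : Cfsg.hermForm n F q p r ≠ 0) :
    Cfsg.RankOneCondition (suTG n q F p) (suTG n q F r) := by
  intro a ha ha1
  obtain ⟨α, hα, hae⟩ := (mem_suTG_iff hF n p hp0 (iso_dot n p hp) a).1 ha
  have hα0 : α ≠ 0 := by
    intro h0
    apply ha1
    apply Subtype.ext
    rw [hae, h0, slX_zero]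
    rfl
  obtain ⟨t, ht⟩ : ∃ t, t = Cfsg.hermForm n F q p r := ⟨_, rfl⟩
  obtain ⟨s, hs⟩ : ∃ s, s = Cfsg.hermForm n F q r p := ⟨_, rfl⟩
  have ht0 : t ≠ 0 := by
    rw [ht]
    exact h
  have hs0 : s ≠ 0 := by
    rw [hs]
    exact fun h0 => h (herm_sym_zero hF n _ _ h0)
  have hst : s = t ^ q := by
    rw [hs, ht]
    exact herm_symm hF n p r
  have hts : t = s ^ q := by
    rw [hs, ht]
    exact herm_symm hF n r p
  have hβ : (α * t * s)⁻¹ + ((α * t * s)⁻¹) ^ q = 0 := by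
    have hαq : α ^ q = -α := by linear_combination hα
    have e : -α * s * t = -(α * t * s) := by ring
    rw [inv_pow, mul_pow, mul_pow, hαq, ← hst, ← hts, e, ← neg_inv, add_neg_cancel]
  have hβ0 : (α * t * s)⁻¹ ≠ 0 := inv_ne_zero (mul_ne_zero (mul_ne_zero hα0 ht0) hs0)
  refine ⟨suX hF n r (iso_dot n r hr) (α * t * s)⁻¹ hβ,
    suX_mem_TG hF n r hr0 _ _ hβ, ?_, ?_⟩
  · intro h1
    have h2 : slX r (fq q r) (iso_dot n r hr) (α * t * s)⁻¹ = 1 := congrArg Subtype.val h1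
    exact hβ0 ((slX_eq_one_iff r (fq q r) _ hr0 (fq_ne_zero hF n r hr0) _).1 h2)
  · rw [suTG_conj, suTG_conj]
    have e1 : ((suX hF n r (iso_dot n r hr) (α * t * s)⁻¹ hβ)⁻¹).1.1 *ᵥ p
        = p + (-(α * t * s)⁻¹ * t) • r := by
      have h9 : ((suX hF n r (iso_dot n r hr) (α * t * s)⁻¹ hβ)⁻¹).1
          = slX r (fq q r) (iso_dot n r hr) (-(α * t * s)⁻¹) := by
        show (slX r (fq q r) (iso_dot n r hr) (α * t * s)⁻¹)⁻¹ = _
        rw [slX_inv]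
      rw [h9, slX_mulVec, ← herm_dot, ← ht]
    have e2 : (a⁻¹).1.1 *ᵥ r = r + (-α * s) • p := by
      have h9 : (a⁻¹).1 = slX p (fq q p) (iso_dot n p hp) (-α) := by
        show (a.1)⁻¹ = _
        rw [hae, slX_inv]
      rw [h9, slX_mulVec, ← herm_dot, ← hs]
    rw [e1, e2]
    have e3 : p + (-(α * t * s)⁻¹ * t) • r = (-(α * s)⁻¹) • (r + (-α * s) • p) := by
      rw [smul_add, smul_smul]
      have c1 : -(α * s)⁻¹ * (-α * s) = 1 := by field_simp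
      have c2 : -(α * t * s)⁻¹ * t = -(α * s)⁻¹ := by field_simp
      rw [c1, c2, one_smul, add_comm]
    rw [e3, suTG_smul hF n _ (neg_ne_zero.2 (inv_ne_zero (mul_ne_zero hα0 hs0)))]

theorem suTG_isComm (hF : Fintype.card F = q ^ 2) (n : ℕ) (p : Fin n → F) (hp0 : p ≠ 0)
    (hp : Cfsg.hermForm n F q p p = 0) : IsMulCommutative ↥(suTG n q F p) := by
  refine ⟨⟨fun a b => ?_⟩⟩
  obtain ⟨c, -, hc⟩ := (mem_suTG_iff hF n p hp0 (iso_dot n p hp) a.1).1 a.2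
  obtain ⟨c', -, hc'⟩ := (mem_suTG_iff hF n p hp0 (iso_dot n p hp) b.1).1 b.2
  apply Subtype.ext
  apply Subtype.ext
  show a.1.1 * b.1.1 = b.1.1 * a.1.1
  rw [hc, hc', slX_mul, slX_mul, add_comm]

theorem suTG_nilpotent (hF : Fintype.card F = q ^ 2) (n : ℕ) (p : Fin n → F) (hp0 : p ≠ 0)
    (hp : Cfsg.hermForm n F q p p = 0) : Group.IsNilpotent ↥(suTG n q F p) :=
  ⟨⟨1, Subgroup.upperCentralSeries_one_eq_top_iff.2 (suTG_isComm hF n p hp0 hp)⟩⟩

theorem suTG_ne_bot (hF : Fintype.card F = q ^ 2) (n : ℕ) (p : Fin n → F) (hp0 : p ≠ 0)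
    (hp : Cfsg.hermForm n F q p p = 0) : suTG n q F p ≠ ⊥ := by
  intro h
  obtain ⟨θ, hθ0, hθ⟩ := exists_skew hF
  have h1 : suX hF n p (iso_dot n p hp) θ hθ ∈ suTG n q F p :=
    suX_mem_TG hF n p hp0 _ θ hθ
  rw [h, Subgroup.mem_bot] at h1
  have h2 : slX p (fq q p) (iso_dot n p hp) θ = 1 := congrArg Subtype.val h1
  exact hθ0 ((slX_eq_one_iff p (fq q p) _ hp0 (fq_ne_zero hF n p hp0) θ).1 h2)

theorem su_pair (hF : Fintype.card F = q ^ 2) (n : ℕ) (A B : Subgroup ↥(Cfsg.SU n F q))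
    (hA : A ∈ suRootSet n q F) (hB : B ∈ suRootSet n q F) :
    ⁅A, B⁆ = ⊥ ∨ Cfsg.IsRankOnePair A B := by
  obtain ⟨p, hp0, hp, rfl⟩ := hA
  obtain ⟨r, hr0, hr, rfl⟩ := hB
  by_cases h : Cfsg.hermForm n F q p r = 0
  · exact Or.inl (suTG_comm hF n p r hp0 hr0 hp hr h)
  · right
    have h' : Cfsg.hermForm n F q r p ≠ 0 := fun h0 => h (herm_sym_zero hF n _ _ h0)
    exact ⟨suTG_ne hF n p r hp0 hr0 hp hr h, suTG_nilpotent hF n p hp0 hp,
      suTG_nilpotent hF n r hr0 hr, suTG_rankOne hF n p r hp0 hr0 hp hr h,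
      suTG_rankOne hF n r p hr0 hp0 hr hp h'⟩

theorem su_conj_mem (hF : Fintype.card F = q ^ 2) (n : ℕ) (A : Subgroup ↥(Cfsg.SU n F q))
    (hA : A ∈ suRootSet n q F) (g : ↥(Cfsg.SU n F q)) : Cfsg.conjBy A g ∈ suRootSet n q F := by
  obtain ⟨p, hp0, hp, rfl⟩ := hA
  refine ⟨g.1.1 *ᵥ p, sl_mulVec_ne_zero g.1 p hp0, ?_, suTG_conj n g p⟩
  rw [(su_mem_iff n q g.1).1 g.2 p p]
  exact hp

end

section transfer

variable {G : Type*} [Group G]

theorem map_conjBy {G' : Type*} [Group G'] (f : G' →* G) (A : Subgroup G') (g : G') :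
    (Cfsg.conjBy A g).map f = Cfsg.conjBy (A.map f) (f g) := by
  show (A.map (MulAut.conj g).toMonoidHom).map f = (A.map f).map (MulAut.conj (f g)).toMonoidHom
  rw [Subgroup.map_map, Subgroup.map_map]
  congr 1
  ext x
  simp [MulAut.conj_apply]

theorem sub_map (H A : Subgroup G) (hA : A ≤ H) : (A.subgroupOf H).map H.subtype = A :=
  Subgroup.map_subgroupOf_eq_of_le hA

theorem sub_inj (H : Subgroup G) (A B : Subgroup ↥H)
    (h : A.map H.subtype = B.map H.subtype) : A = B :=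
  Subgroup.map_injective H.subtype_injective h

theorem sub_conj (H A : Subgroup G) (hA : A ≤ H) (g : ↥H) :
    Cfsg.conjBy (A.subgroupOf H) g = (Cfsg.conjBy A g.1).subgroupOf H := by
  apply sub_inj
  have hle : Cfsg.conjBy A g.1 ≤ H := by
    rintro x ⟨y, hy, rfl⟩
    exact H.mul_mem (H.mul_mem g.2 (hA hy)) (H.inv_mem g.2)
  have e1 := map_conjBy H.subtype (A.subgroupOf H) g
  rw [sub_map H A hA] at e1
  rw [e1, sub_map H _ hle]
  first
    | rfl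
    | done

theorem sub_isComm (H A : Subgroup G) (hA : IsMulCommutative ↥A) :
    IsMulCommutative ↥(A.subgroupOf H) := by
  refine ⟨⟨fun a b => ?_⟩⟩
  have ha : a.1.1 ∈ A := Subgroup.mem_subgroupOf.1 a.2
  have hb : b.1.1 ∈ A := Subgroup.mem_subgroupOf.1 b.2
  have h1 : (⟨a.1.1, ha⟩ : ↥A) * ⟨b.1.1, hb⟩ = ⟨b.1.1, hb⟩ * ⟨a.1.1, ha⟩ :=
    hA.is_comm.comm _ _
  have h2 : a.1.1 * b.1.1 = b.1.1 * a.1.1 := congrArg Subtype.val h1
  apply Subtype.ext
  apply Subtype.ext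
  exact h2

theorem sub_ne_bot (H A : Subgroup G) (hA : A ≤ H) (h : A ≠ ⊥) : A.subgroupOf H ≠ ⊥ := by
  intro h0
  apply h
  rw [← sub_map H A hA, h0, Subgroup.map_bot]

theorem sub_comm (H A B : Subgroup G) (h : ⁅A, B⁆ = ⊥) :
    ⁅A.subgroupOf H, B.subgroupOf H⁆ = ⊥ := by
  rw [Subgroup.commutator_eq_bot_iff_le_centralizer] at h ⊢
  intro x hx
  rw [Subgroup.mem_centralizer_iff]
  intro y hy
  have h1 := h (Subgroup.mem_subgroupOf.1 hx)
  rw [Subgroup.mem_centralizer_iff] at h1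
  exact Subtype.ext (h1 _ (Subgroup.mem_subgroupOf.1 hy))

theorem sub_rankOneCond (H A B : Subgroup G) (hA : A ≤ H) (hB : B ≤ H)
    (h : Cfsg.RankOneCondition A B) :
    Cfsg.RankOneCondition (A.subgroupOf H) (B.subgroupOf H) := by
  intro a ha ha1
  have ha' : a.1 ∈ A := Subgroup.mem_subgroupOf.1 ha
  have ha1' : a.1 ≠ 1 := fun h0 => ha1 (Subtype.ext h0)
  obtain ⟨b, hb, hb1, hconj⟩ := h a.1 ha' ha1'
  refine ⟨⟨b, hB hb⟩, Subgroup.mem_subgroupOf.2 hb, fun h0 => hb1 (congrArg Subtype.val h0), ?_⟩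
  rw [sub_conj H A hA, sub_conj H B hB]
  show (Cfsg.conjBy A b⁻¹).subgroupOf H = (Cfsg.conjBy B a.1⁻¹).subgroupOf H
  rw [hconj]

theorem sub_rankOne (H A B : Subgroup G) (hA : A ≤ H) (hB : B ≤ H)
    (hAc : IsMulCommutative ↥A) (hBc : IsMulCommutative ↥B) (h : Cfsg.IsRankOnePair A B) :
    Cfsg.IsRankOnePair (A.subgroupOf H) (B.subgroupOf H) := by
  refine ⟨?_, ?_, ?_, sub_rankOneCond H A B hA hB h.cond_left,
    sub_rankOneCond H B A hB hA h.cond_right⟩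
  · intro h0
    apply h.ne
    rw [← sub_map H A hA, ← sub_map H B hB, h0]
  · exact ⟨⟨1, Subgroup.upperCentralSeries_one_eq_top_iff.2 (sub_isComm H A hAc)⟩⟩
  · exact ⟨⟨1, Subgroup.upperCentralSeries_one_eq_top_iff.2 (sub_isComm H B hBc)⟩⟩

theorem sub_gen (S : Set (Subgroup G)) (H : Subgroup G) (hH : H = ⨆ B ∈ S, B) :
    (⨆ A' ∈ (fun A : Subgroup G => A.subgroupOf H) '' S, A') = ⊤ := by
  rw [eq_top_iff]
  have hAH : ∀ A ∈ S, A ≤ H := fun A hA => by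
    rw [hH]
    exact le_biSup (fun A => A) hA
  have hle : (⨆ B ∈ S, B) ≤
      (⨆ A' ∈ (fun A : Subgroup G => A.subgroupOf H) '' S, A').map H.subtype := by
    refine iSup₂_le (fun A hA => ?_)
    have h1 : (A.subgroupOf H).map H.subtype ≤
        (⨆ A' ∈ (fun A : Subgroup G => A.subgroupOf H) '' S, A').map H.subtype := by
      apply Subgroup.map_mono
      exact le_biSup (fun A' => A') (Set.mem_image_of_mem _ hA)
    rw [sub_map H A (hAH A hA)] at h1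
    exact h1
  intro x _
  have hx : x.1 ∈ ⨆ B ∈ S, B := by
    rw [← hH]
    exact x.2
  obtain ⟨y, hy, hyx⟩ := Subgroup.mem_map.1 (hle hx)
  have h2 : y = x := Subtype.ext hyx
  rw [← h2]
  exact hy

theorem sub_psl2 (k : Type*) [Field k] (H A B : Subgroup G) (hA : A ≤ H) (hB : B ≤ H)
    (h : Cfsg.IsPSL2PairOver k A B) :
    Cfsg.IsPSL2PairOver k (A.subgroupOf H) (B.subgroupOf H) := by
  obtain ⟨φ, hr, hk, hU, hL⟩ := h
  have hmem : ∀ x, φ x ∈ H := by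
    intro x
    have h1 : φ x ∈ φ.range := ⟨x, rfl⟩
    rw [hr] at h1
    exact (sup_le hA hB) h1
  have hcomp : H.subtype.comp (φ.codRestrict H hmem) = φ := MonoidHom.ext (fun _ => rfl)
  refine ⟨φ.codRestrict H hmem, ?_, ?_, ?_, ?_⟩
  · apply sub_inj
    rw [Subgroup.map_sup, sub_map H A hA, sub_map H B hB, MonoidHom.range_eq_map,
      Subgroup.map_map, hcomp, ← MonoidHom.range_eq_map, hr]
  · intro x hx
    apply hk
    rw [MonoidHom.mem_ker] at hx ⊢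
    exact congrArg Subtype.val hx
  · apply sub_inj
    rw [Subgroup.map_map, hcomp, hU, sub_map H A hA]
  · apply sub_inj
    rw [Subgroup.map_map, hcomp, hL, sub_map H B hB]

theorem conjBy_conjBy (A : Subgroup G) (g₁ g₂ : G) :
    Cfsg.conjBy (Cfsg.conjBy A g₁) g₂ = Cfsg.conjBy A (g₂ * g₁) := by
  show (A.map (MulAut.conj g₁).toMonoidHom).map (MulAut.conj g₂).toMonoidHom
    = A.map (MulAut.conj (g₂ * g₁)).toMonoidHom
  rw [Subgroup.map_map]
  congr 1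
  refine MonoidHom.ext (fun x => ?_)
  show g₂ * (g₁ * x * g₁⁻¹) * g₂⁻¹ = g₂ * g₁ * x * (g₂ * g₁)⁻¹
  group

theorem rankOne_conj (A B : Subgroup G) (h : Cfsg.IsRankOnePair A B) (hA : A ≠ ⊥) :
    ∃ g : G, B = Cfsg.conjBy A g := by
  obtain ⟨⟨a, ha⟩, ha1⟩ := (Subgroup.ne_bot_iff_exists_ne_one).1 hA
  have ha1' : a ≠ 1 := fun h0 => ha1 (Subtype.ext h0)
  obtain ⟨b, hb, hb1, hconj⟩ := h.cond_left a ha ha1'
  refine ⟨a * b⁻¹, ?_⟩
  ext x
  constructor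
  · intro hx
    have h1 : a⁻¹ * x * a ∈ Cfsg.conjBy B a⁻¹ :=
      Subgroup.mem_map.2 ⟨x, hx, by simp [MulAut.conj_apply]⟩
    rw [← hconj] at h1
    obtain ⟨y, hy, hyx⟩ := Subgroup.mem_map.1 h1
    have h2 : b⁻¹ * y * (b⁻¹)⁻¹ = a⁻¹ * x * a := hyx
    refine Subgroup.mem_map.2 ⟨y, hy, ?_⟩
    show a * b⁻¹ * y * (a * b⁻¹)⁻¹ = x
    have e : a * b⁻¹ * y * (a * b⁻¹)⁻¹ = a * (b⁻¹ * y * (b⁻¹)⁻¹) * a⁻¹ := by group
    rw [e, h2]
    group
  · intro hx
    obtain ⟨y, hy, rfl⟩ := Subgroup.mem_map.1 hx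
    have h1 : b⁻¹ * y * (b⁻¹)⁻¹ ∈ Cfsg.conjBy A b⁻¹ := Subgroup.mem_map.2 ⟨y, hy, rfl⟩
    rw [hconj] at h1
    obtain ⟨z, hz, hzy⟩ := Subgroup.mem_map.1 h1
    have h2 : a⁻¹ * z * (a⁻¹)⁻¹ = b⁻¹ * y * (b⁻¹)⁻¹ := hzy
    have h3 : (MulAut.conj (a * b⁻¹)).toMonoidHom y = z := by
      show a * b⁻¹ * y * (a * b⁻¹)⁻¹ = z
      have e : a * b⁻¹ * y * (a * b⁻¹)⁻¹ = a * (b⁻¹ * y * (b⁻¹)⁻¹) * a⁻¹ := by group
      rw [e, ← h2]
      group
    rw [h3]
    exact hz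

theorem conjClass_of_connected (S : Set (Subgroup G)) (hne : S.Nonempty)
    (hbot : ∀ A ∈ S, A ≠ ⊥) (hconn : Cfsg.IsConnectedFamily (Cfsg.FAdj S) S) :
    Cfsg.IsConjClassOfSubgroups S := by
  refine ⟨hne, fun A hA B hB => ?_⟩
  have aux : ∀ B, Relation.ReflTransGen (Cfsg.FAdj S) A B → ∃ g : G, B = Cfsg.conjBy A g := by
    intro B h
    induction h with
    | refl =>
      refine ⟨1, ?_⟩
      ext x
      constructor
      · intro hx
        exact Subgroup.mem_map.2 ⟨x, hx, by simp⟩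
      · intro hx
        obtain ⟨y, hy, rfl⟩ := Subgroup.mem_map.1 hx
        simpa using hy
    | tail _ hbc ih =>
      obtain ⟨g, hg⟩ := ih
      obtain ⟨hb, hc, hpair⟩ := hbc
      obtain ⟨g₂, hg₂⟩ := rankOne_conj _ _ hpair (hbot _ hb)
      exact ⟨g₂ * g, by rw [hg₂, hg, conjBy_conjBy]⟩
  exact aux B (hconn A hA B hB)

end transfer

section

variable {F : Type u} [Field F] [Fintype F] {q : ℕ}

/-- The subgroup generated by the unitary transvection groups. -/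
def suH (n q : ℕ) (F : Type u) [Field F] : Subgroup ↥(Cfsg.SU n F q) :=
  ⨆ B ∈ suRootSet n q F, B

/-- The unitary transvection groups inside the subgroup they generate. -/
def suRootSet' (n q : ℕ) (F : Type u) [Field F] : Set (Subgroup ↥(suH n q F)) :=
  (fun A : Subgroup ↥(Cfsg.SU n F q) => A.subgroupOf (suH n q F)) '' suRootSet n q F

theorem su_le (n : ℕ) (A : Subgroup ↥(Cfsg.SU n F q)) (hA : A ∈ suRootSet n q F) :
    A ≤ suH n q F := le_biSup (fun A => A) hA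

theorem su'_isRootSet (hF : Fintype.card F = q ^ 2) (n : ℕ) :
    Cfsg.IsRootSubgroupSet (suRootSet' n q F) where
  commutative := by
    rintro _ ⟨A, hA, rfl⟩
    obtain ⟨p, hp0, hp, rfl⟩ := hA
    exact sub_isComm _ _ (suTG_isComm hF n p hp0 hp)
  ne_bot := by
    rintro _ ⟨A, hA, rfl⟩
    have hle := su_le n A hA
    obtain ⟨p, hp0, hp, rfl⟩ := hA
    exact sub_ne_bot _ _ hle (suTG_ne_bot hF n p hp0 hp)
  generates := sub_gen (suRootSet n q F) (suH n q F) rfl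
  conj_mem := by
    rintro _ ⟨A, hA, rfl⟩ g
    exact ⟨Cfsg.conjBy A g.1, su_conj_mem hF n A hA g.1, (sub_conj _ A (su_le n A hA) g).symm⟩
  pair := by
    rintro _ ⟨A, hA, rfl⟩ _ ⟨B, hB, rfl⟩
    rcases su_pair hF n A B hA hB with h | h
    · exact Or.inl (sub_comm _ A B h)
    · refine Or.inr (Or.inl (sub_rankOne _ A B (su_le n A hA) (su_le n B hB) ?_ ?_ h))
      · obtain ⟨p, hp0, hp, rfl⟩ := hA
        exact suTG_isComm hF n p hp0 hp
      · obtain ⟨p, hp0, hp, rfl⟩ := hB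
        exact suTG_isComm hF n p hp0 hp

theorem su_key (hF : Fintype.card F = q ^ 2) (n : ℕ) (p r : Fin n → F) (hp0 : p ≠ 0)
    (hr0 : r ≠ 0) (hp : Cfsg.hermForm n F q p p = 0)
    (h : Cfsg.hermForm n F q p r = 0) :
    ∃ s : Fin n → F, s ≠ 0 ∧ Cfsg.hermForm n F q s s = 0 ∧ Cfsg.hermForm n F q p s ≠ 0 ∧
      Cfsg.hermForm n F q s r ≠ 0 := by
  obtain ⟨φ, hφ⟩ := exists_frobQ hF
  have hq := card_sq_two_le hF
  obtain ⟨u, hu⟩ := exists_herm_one hF n p hp0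
  obtain ⟨w, hw⟩ := exists_herm_one hF n r hr0
  have key : ∃ x, Cfsg.hermForm n F q x p ≠ 0 ∧ Cfsg.hermForm n F q x r ≠ 0 := by
    by_cases h1 : Cfsg.hermForm n F q u r = 0
    · by_cases h2 : Cfsg.hermForm n F q w p = 0
      · refine ⟨u + w, ?_, ?_⟩
        · rw [herm_add_left, h2, add_zero, hu]
          exact one_ne_zero
        · rw [herm_add_left, h1, zero_add, hw]
          exact one_ne_zero
      · exact ⟨w, h2, by rw [hw]; exact one_ne_zero⟩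
    · exact ⟨u, by rw [hu]; exact one_ne_zero, h1⟩
  obtain ⟨x, hxp, hxr⟩ := key
  have hpx : Cfsg.hermForm n F q p x ≠ 0 := fun h0 => hxp (herm_sym_zero hF n _ _ h0)
  have hxx : (Cfsg.hermForm n F q x x) ^ q = Cfsg.hermForm n F q x x :=
    (herm_symm hF n x x).symm
  have hnx : (-(Cfsg.hermForm n F q x x)) ^ q = -(Cfsg.hermForm n F q x x) := by
    rw [← hφ, map_neg, hφ, hxx]
  obtain ⟨d, hd⟩ := exists_trace hF _ hnx
  obtain ⟨t, ht⟩ : ∃ t, t = Cfsg.hermForm n F q p x := ⟨_, rfl⟩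
  have hxp' : Cfsg.hermForm n F q x p = t ^ q := by
    rw [ht]
    exact herm_symm hF n p x
  have ht0 : t ≠ 0 := by
    rw [ht]
    exact hpx
  have hps : Cfsg.hermForm n F q p (x + (d / t) • p) = t := by
    rw [herm_add_right φ hφ, herm_smul_right, hp, mul_zero, add_zero, ht]
  refine ⟨x + (d / t) • p, ?_, ?_, ?_, ?_⟩
  · intro h0
    rw [h0] at hps
    have h9 : Cfsg.hermForm n F q p 0 = 0 := by
      unfold Cfsg.hermForm
      simp [zero_pow (by omega : q ≠ 0)]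
    rw [h9] at hps
    exact ht0 hps.symm
  · have hcq : (d / t) ^ q * t ^ q = d ^ q := by rw [← mul_pow, div_mul_cancel₀ d ht0]
    have e : d / t * t = d := div_mul_cancel₀ d ht0
    simp only [herm_add_left, herm_add_right φ hφ, herm_smul_left, herm_smul_right, hp, hxp',
      ← ht]
    linear_combination hd + hcq + e
  · rw [hps]
    exact ht0
  · rw [herm_add_left, herm_smul_left, h, mul_zero, add_zero]
    exact hxr

theorem su'_adj (hF : Fintype.card F = q ^ 2) (n : ℕ) (p r : Fin n → F) (hp0 : p ≠ 0)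
    (hr0 : r ≠ 0) (hp : Cfsg.hermForm n F q p p = 0) (hr : Cfsg.hermForm n F q r r = 0)
    (h : Cfsg.hermForm n F q p r ≠ 0) :
    Cfsg.FAdj (suRootSet' n q F) ((suTG n q F p).subgroupOf (suH n q F))
      ((suTG n q F r).subgroupOf (suH n q F)) := by
  have hA : suTG n q F p ∈ suRootSet n q F := ⟨p, hp0, hp, rfl⟩
  have hB : suTG n q F r ∈ suRootSet n q F := ⟨r, hr0, hr, rfl⟩
  have h' : Cfsg.hermForm n F q r p ≠ 0 := fun h0 => h (herm_sym_zero hF n _ _ h0)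
  exact ⟨Set.mem_image_of_mem _ hA, Set.mem_image_of_mem _ hB,
    sub_rankOne _ _ _ (su_le n _ hA) (su_le n _ hB) (suTG_isComm hF n p hp0 hp)
      (suTG_isComm hF n r hr0 hr)
      ⟨suTG_ne hF n p r hp0 hr0 hp hr h, suTG_nilpotent hF n p hp0 hp,
        suTG_nilpotent hF n r hr0 hr, suTG_rankOne hF n p r hp0 hr0 hp hr h,
        suTG_rankOne hF n r p hr0 hp0 hr hp h'⟩⟩

theorem su'_connected (hF : Fintype.card F = q ^ 2) (n : ℕ) :
    Cfsg.IsConnectedFamily (Cfsg.FAdj (suRootSet' n q F)) (suRootSet' n q F) := by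
  rintro _ ⟨A, ⟨p, hp0, hp, rfl⟩, rfl⟩ _ ⟨B, ⟨r, hr0, hr, rfl⟩, rfl⟩
  by_cases h : Cfsg.hermForm n F q p r = 0
  · obtain ⟨s, hs0, hs, hps, hsr⟩ := su_key hF n p r hp0 hr0 hp h
    exact Relation.ReflTransGen.trans
      (Relation.ReflTransGen.single (su'_adj hF n p s hp0 hs0 hp hs hps))
      (Relation.ReflTransGen.single (su'_adj hF n s r hs0 hr0 hs hr hsr))
  · exact Relation.ReflTransGen.single (su'_adj hF n p r hp0 hr0 hp hr h)

theorem act_p (n : ℕ) (p r : Fin n → F) (hp : fq q p ⬝ᵥ p = 0) (s : F)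
    (hs : fq q p ⬝ᵥ r = s) (c x y : F) :
    (slX p (fq q p) hp c).1 *ᵥ (x • p + y • r) = (x + c * s * y) • p + y • r := by
  rw [slX_mulVec, dotProduct_add, dotProduct_smul, dotProduct_smul, hp, hs]
  ext i
  simp only [Pi.add_apply, Pi.smul_apply, smul_eq_mul]
  ring

theorem act_r (n : ℕ) (p r : Fin n → F) (hr : fq q r ⬝ᵥ r = 0) (t : F)
    (ht : fq q r ⬝ᵥ p = t) (c x y : F) :
    (slX r (fq q r) hr c).1 *ᵥ (x • p + y • r) = x • p + (y + c * t * x) • r := by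
  rw [slX_mulVec, dotProduct_add, dotProduct_smul, dotProduct_smul, hr, ht]
  ext i
  simp only [Pi.add_apply, Pi.smul_apply, smul_eq_mul]
  ring

theorem su_no_central (hF : Fintype.card F = q ^ 2) (n : ℕ) (p r : Fin n → F) (hp0 : p ≠ 0)
    (hr0 : r ≠ 0) (hp : Cfsg.hermForm n F q p p = 0) (hr : Cfsg.hermForm n F q r r = 0)
    (h : Cfsg.hermForm n F q p r ≠ 0) :
    ∃ a ∈ suTG n q F p, ∃ b ∈ suTG n q F r,
      a * b * a⁻¹ * b⁻¹ * a ≠ a * (a * b * a⁻¹ * b⁻¹) := by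
  obtain ⟨θ, hθ0, hθ⟩ := exists_skew hF
  have hpp := iso_dot n p hp
  have hrr := iso_dot n r hr
  refine ⟨suX hF n p hpp θ hθ, suX_mem_TG hF n p hp0 _ θ hθ, suX hF n r hrr θ hθ,
    suX_mem_TG hF n r hr0 _ θ hθ, fun hc2 => ?_⟩
  obtain ⟨s, hs⟩ : ∃ s, s = fq q p ⬝ᵥ r := ⟨_, rfl⟩
  obtain ⟨t, ht⟩ : ∃ t, t = fq q r ⬝ᵥ p := ⟨_, rfl⟩
  have ht0 : t ≠ 0 := by
    rw [ht, ← herm_dot]
    exact h
  have hs0 : s ≠ 0 := by
    rw [hs, ← herm_dot]
    exact fun h0 => h (herm_sym_zero hF n _ _ h0)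
  have hc3 : slX p (fq q p) hpp θ * slX r (fq q r) hrr θ * (slX p (fq q p) hpp θ)⁻¹
        * (slX r (fq q r) hrr θ)⁻¹ * slX p (fq q p) hpp θ
      = slX p (fq q p) hpp θ * (slX p (fq q p) hpp θ * slX r (fq q r) hrr θ
        * (slX p (fq q p) hpp θ)⁻¹ * (slX r (fq q r) hrr θ)⁻¹) := congrArg Subtype.val hc2
  rw [slX_inv, slX_inv] at hc3
  have h5 := congrArg (fun g : Matrix.SpecialLinearGroup (Fin n) F =>
    g.1 *ᵥ ((1 : F) • p + (0 : F) • r)) hc3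
  simp only [Matrix.SpecialLinearGroup.coe_mul, ← Matrix.mulVec_mulVec,
    act_p n p r hpp s hs.symm, act_r n p r hrr t ht.symm] at h5
  have h6 := congrArg (fun w => fq q r ⬝ᵥ w) h5
  simp only [dotProduct_add, dotProduct_smul, ← ht, hrr, smul_eq_mul] at h6
  have h7 : θ ^ 4 * s ^ 2 * t ^ 3 = 0 := by
    first
      | linear_combination (-1 : F) * h6
      | linear_combination h6
  exact (mul_ne_zero (mul_ne_zero (pow_ne_zero 4 hθ0) (pow_ne_zero 2 hs0))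
    (pow_ne_zero 3 ht0)) h7

theorem su'_degenerate (hF : Fintype.card F = q ^ 2) (n : ℕ) :
    Cfsg.IsDegenerateRootSet (suRootSet' n q F) := by
  rintro _ ⟨A, hA, rfl⟩ _ ⟨B, hB, rfl⟩ ⟨hmem, hcent, -, -⟩
  have hAle := su_le n A hA
  have hBle := su_le n B hB
  obtain ⟨p, hp0, hp, rfl⟩ := hA
  obtain ⟨r, hr0, hr, rfl⟩ := hB
  by_cases h : Cfsg.hermForm n F q p r = 0
  · rw [sub_comm _ _ _ (suTG_comm hF n p r hp0 hr0 hp hr h)] at hmem
    exact (su'_isRootSet hF n).ne_bot _ hmem rfl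
  · obtain ⟨a, ha, b, hb, hne⟩ := su_no_central hF n p r hp0 hr0 hp hr h
    have ha' : (⟨a, hAle ha⟩ : ↥(suH n q F)) ∈ (suTG n q F p).subgroupOf (suH n q F) :=
      Subgroup.mem_subgroupOf.2 ha
    have hb' : (⟨b, hBle hb⟩ : ↥(suH n q F)) ∈ (suTG n q F r).subgroupOf (suH n q F) :=
      Subgroup.mem_subgroupOf.2 hb
    have hc := hcent _ (Subgroup.commutator_mem_commutator ha' hb') _
      (Subgroup.mem_sup_left ha')
    have hc2 : a * b * a⁻¹ * b⁻¹ * a = a * (a * b * a⁻¹ * b⁻¹) := congrArg Subtype.val hc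
    exact hne hc2

theorem su'_class (hF : Fintype.card F = q ^ 2) (n : ℕ) (hne : (suRootSet n q F).Nonempty) :
    Cfsg.IsConjClassOfSubgroups (suRootSet' n q F) :=
  conjClass_of_connected _ (hne.image _) (su'_isRootSet hF n).ne_bot (su'_connected hF n)

end

section transfer2

variable {G : Type*} [Group G]

theorem conjBy_of_comm (A : Subgroup G) (g : G) (hg : ∀ y ∈ A, g * y = y * g) :
    Cfsg.conjBy A g = A := by
  ext x
  constructor
  · intro hx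
    obtain ⟨y, hy, rfl⟩ := Subgroup.mem_map.1 hx
    have h1 : (MulAut.conj g).toMonoidHom y = y := by
      show g * y * g⁻¹ = y
      rw [hg y hy, mul_inv_cancel_right]
    rw [h1]
    exact hy
  · intro hx
    refine Subgroup.mem_map.2 ⟨x, hx, ?_⟩
    show g * x * g⁻¹ = x
    rw [hg x hx, mul_inv_cancel_right]

theorem rankOne_not_comm (A B : Subgroup G) (h : Cfsg.IsRankOnePair A B) (hA : A ≠ ⊥)
    (hc : ⁅A, B⁆ = ⊥) : False := by
  rw [Subgroup.commutator_eq_bot_iff_le_centralizer] at hc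
  obtain ⟨⟨a, ha⟩, ha1⟩ := (Subgroup.ne_bot_iff_exists_ne_one).1 hA
  have ha1' : a ≠ 1 := fun h0 => ha1 (Subtype.ext h0)
  obtain ⟨b, hb, hb1, hconj⟩ := h.cond_left a ha ha1'
  have e1 : Cfsg.conjBy A b⁻¹ = A := conjBy_of_comm A b⁻¹ (fun y hy => by
    have h1 : b * y = y * b := (Subgroup.mem_centralizer_iff.1 (hc hy)) b hb
    calc b⁻¹ * y = b⁻¹ * (y * b) * b⁻¹ := by group
      _ = b⁻¹ * (b * y) * b⁻¹ := by rw [h1]
      _ = y * b⁻¹ := by group)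
  have e2 : Cfsg.conjBy B a⁻¹ = B := conjBy_of_comm B a⁻¹ (fun y hy => by
    have h1 : y * a = a * y := (Subgroup.mem_centralizer_iff.1 (hc ha)) y hy
    calc a⁻¹ * y = a⁻¹ * (y * a) * a⁻¹ := by group
      _ = a⁻¹ * (a * y) * a⁻¹ := by rw [h1]
      _ = y * a⁻¹ := by group)
  rw [e1, e2] at hconj
  exact h.ne hconj

end transfer2

section

variable {F : Type u} [Field F] [Fintype F] {q : ℕ}

theorem skew_iff {L : Type*} [Field L] (ψ : L →+* F)
    (hψ₁ : ∀ c, ψ c ^ q = ψ c) (hψ₂ : ∀ x : F, x ^ q = x → ∃ c, ψ c = x)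
    (κ : F) (hκ0 : κ ≠ 0) (hκ : κ + κ ^ q = 0) (a : F) :
    a + a ^ q = 0 ↔ ∃ c : L, a = ψ c * κ := by
  have hκq : κ ^ q = -κ := by linear_combination hκ
  constructor
  · intro ha
    have haq : a ^ q = -a := by linear_combination ha
    obtain ⟨c, hc⟩ := hψ₂ (a / κ) (by rw [div_pow, haq, hκq, neg_div_neg_eq])
    exact ⟨c, by rw [hc, div_mul_cancel₀ a hκ0]⟩
  · rintro ⟨c, rfl⟩
    rw [mul_pow, hψ₁, hκq]
    ring

theorem slmap_injective {L : Type*} [Field L] (ψ : L →+* F) :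
    Function.Injective (Matrix.SpecialLinearGroup.map (n := Fin 2) ψ) := by
  intro g h hgh
  apply Subtype.ext
  ext i j
  have h1 : ψ (g.1 i j) = ψ (h.1 i j) :=
    congrArg (fun m : Matrix.SpecialLinearGroup (Fin 2) F => m.1 i j) hgh
  exact ψ.injective h1

theorem su_psl2 (hF : Fintype.card F = q ^ 2) (n : ℕ) {L : Type*} [Field L] (ψ : L →+* F)
    (hψ₁ : ∀ c, ψ c ^ q = ψ c) (hψ₂ : ∀ x : F, x ^ q = x → ∃ c, ψ c = x)
    (p r : Fin n → F) (hp0 : p ≠ 0) (hr0 : r ≠ 0) (hp : Cfsg.hermForm n F q p p = 0)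
    (hr : Cfsg.hermForm n F q r r = 0) (h : Cfsg.hermForm n F q p r ≠ 0) :
    Cfsg.IsPSL2PairOver L (suTG n q F p) (suTG n q F r) := by
  obtain ⟨θ, hθ0, hθ⟩ := exists_skew hF
  have hpp := iso_dot n p hp
  have hrr := iso_dot n r hr
  obtain ⟨s, hs⟩ : ∃ s, s = fq q p ⬝ᵥ r := ⟨_, rfl⟩
  obtain ⟨t, ht⟩ : ∃ t, t = fq q r ⬝ᵥ p := ⟨_, rfl⟩
  have ht' : t = Cfsg.hermForm n F q p r := by rw [ht, ← herm_dot]
  have hs' : s = Cfsg.hermForm n F q r p := by rw [hs, ← herm_dot]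
  have ht0 : t ≠ 0 := by
    rw [ht']
    exact h
  have hs0 : s ≠ 0 := by
    rw [hs']
    exact fun h0 => h (herm_sym_zero hF n _ _ h0)
  have hst : s = t ^ q := by
    rw [hs', ht']
    exact herm_symm hF n p r
  have hts : t = s ^ q := by
    rw [hs', ht']
    exact herm_symm hF n r p
  have hθq : θ ^ q = -θ := by linear_combination hθ
  obtain ⟨κ, hκdef⟩ : ∃ κ, κ = (θ * s)⁻¹ * t⁻¹ := ⟨_, rfl⟩
  have hκ0 : κ ≠ 0 := by
    rw [hκdef]
    exact mul_ne_zero (inv_ne_zero (mul_ne_zero hθ0 hs0)) (inv_ne_zero ht0)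
  have hκ : κ + κ ^ q = 0 := by
    have e : -θ * t = -(θ * t) := by ring
    rw [hκdef, mul_pow, inv_pow, inv_pow, mul_pow, hθq, ← hts, ← hst, e, ← neg_inv]
    field_simp
    ring
  have hQP : qMat (t⁻¹ • fq q r) (θ • fq q p) * pMat p ((θ * s)⁻¹ • r) = 1 := by
    apply qMat_mul_pMat
    · rw [smul_dotProduct, ← ht, smul_eq_mul, inv_mul_cancel₀ ht0]
    · rw [smul_dotProduct, dotProduct_smul, hrr, smul_zero, smul_zero]
    · rw [smul_dotProduct, hpp, smul_zero]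
    · rw [smul_dotProduct, dotProduct_smul, ← hs, smul_eq_mul, smul_eq_mul]
      field_simp
  obtain ⟨Φ₀, hΦ₀⟩ : ∃ Φ₀ : Matrix.SpecialLinearGroup (Fin 2) L →*
      Matrix.SpecialLinearGroup (Fin n) F,
      Φ₀ = (rkEmb (pMat p ((θ * s)⁻¹ • r)) (qMat (t⁻¹ • fq q r) (θ • fq q p)) hQP).comp
        (Matrix.SpecialLinearGroup.map ψ) := ⟨_, rfl⟩
  have hinj : Function.Injective Φ₀ := by
    rw [hΦ₀, MonoidHom.coe_comp]
    exact (rkEmb_injective _ _ hQP).comp (slmap_injective ψ)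
  have hU : ∀ g : Matrix.SpecialLinearGroup (Fin 2) L, g.1 1 0 = 0 → g.1 0 0 = 1 →
      g.1 1 1 = 1 → (Φ₀ g).1 = 1 + (ψ (g.1 0 1) * θ) • vecMulVec p (fq q p) := by
    intro g h10 h00 h11
    have e : vecMulVec p (θ • fq q p) = θ • vecMulVec p (fq q p) := by
      have h9 := vmv_smul 1 θ p (fq q p)
      rwa [one_smul, one_mul] at h9
    have h1 : (Φ₀ g).1 = 1 + pMat p ((θ * s)⁻¹ • r) *
        ((Matrix.SpecialLinearGroup.map ψ g).1 - 1) * qMat (t⁻¹ • fq q r) (θ • fq q p) := by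
      rw [hΦ₀]
      rfl
    rw [h1, rk_upper p ((θ * s)⁻¹ • r) (t⁻¹ • fq q r) (θ • fq q p)
      (Matrix.SpecialLinearGroup.map ψ g).1
      (show ψ (g.1 1 0) = 0 by rw [h10, map_zero])
      (show ψ (g.1 0 0) = 1 by rw [h00, map_one])
      (show ψ (g.1 1 1) = 1 by rw [h11, map_one]), e, smul_smul]
    rfl
  have hLw : ∀ g : Matrix.SpecialLinearGroup (Fin 2) L, g.1 0 1 = 0 → g.1 0 0 = 1 →
      g.1 1 1 = 1 → (Φ₀ g).1 = 1 + (ψ (g.1 1 0) * κ) • vecMulVec r (fq q r) := by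
    intro g h01 h00 h11
    have e : vecMulVec ((θ * s)⁻¹ • r) (t⁻¹ • fq q r) = κ • vecMulVec r (fq q r) := by
      rw [vmv_smul, hκdef]
    have h1 : (Φ₀ g).1 = 1 + pMat p ((θ * s)⁻¹ • r) *
        ((Matrix.SpecialLinearGroup.map ψ g).1 - 1) * qMat (t⁻¹ • fq q r) (θ • fq q p) := by
      rw [hΦ₀]
      rfl
    rw [h1, rk_lower p ((θ * s)⁻¹ • r) (t⁻¹ • fq q r) (θ • fq q p)
      (Matrix.SpecialLinearGroup.map ψ g).1
      (show ψ (g.1 0 1) = 0 by rw [h01, map_zero])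
      (show ψ (g.1 0 0) = 1 by rw [h00, map_one])
      (show ψ (g.1 1 1) = 1 by rw [h11, map_one]), e, smul_smul]
    rfl
  have hSU : ∀ g, Φ₀ g ∈ Cfsg.SU n F q := by
    have htop : (Cfsg.SU n F q).comap Φ₀ = ⊤ := by
      rw [eq_top_iff, ← sl2_gen L, sup_le_iff]
      constructor
      · unfold Cfsg.upperUnipotentSL2
        rw [Subgroup.closure_le]
        rintro g ⟨h10, h00, h11⟩
        show Φ₀ g ∈ Cfsg.SU n F q
        have h9 : Φ₀ g = slX p (fq q p) hpp (ψ (g.1 0 1) * θ) := Subtype.ext (hU g h10 h00 h11)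
        rw [h9]
        exact suX_mem hF n p hpp _ ((skew_iff ψ hψ₁ hψ₂ θ hθ0 hθ _).2 ⟨_, rfl⟩)
      · unfold Cfsg.lowerUnipotentSL2
        rw [Subgroup.closure_le]
        rintro g ⟨h01, h00, h11⟩
        show Φ₀ g ∈ Cfsg.SU n F q
        have h9 : Φ₀ g = slX r (fq q r) hrr (ψ (g.1 1 0) * κ) := Subtype.ext (hLw g h01 h00 h11)
        rw [h9]
        exact suX_mem hF n r hrr _ ((skew_iff ψ hψ₁ hψ₂ κ hκ0 hκ _).2 ⟨_, rfl⟩)
    intro g
    have h9 : g ∈ (Cfsg.SU n F q).comap Φ₀ := by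
      rw [htop]
      trivial
    exact h9
  have hUmap : (Cfsg.upperUnipotentSL2 L).map (Φ₀.codRestrict (Cfsg.SU n F q) hSU)
      = suTG n q F p := by
    unfold Cfsg.upperUnipotentSL2 suTG
    rw [MonoidHom.map_closure]
    congr 1
    ext x
    constructor
    · rintro ⟨g, ⟨h10, h00, h11⟩, rfl⟩
      exact (mem_suGen_iff hF n p hp0 hpp _).2 ⟨ψ (g.1 0 1) * θ,
        (skew_iff ψ hψ₁ hψ₂ θ hθ0 hθ _).2 ⟨_, rfl⟩, Subtype.ext (hU g h10 h00 h11)⟩
    · intro hx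
      obtain ⟨a, ha, hxa⟩ := (mem_suGen_iff hF n p hp0 hpp x).1 hx
      obtain ⟨c, rfl⟩ := (skew_iff ψ hψ₁ hψ₂ θ hθ0 hθ a).1 ha
      refine ⟨⟨!![1, c; 0, 1], by simp [Matrix.det_fin_two]⟩, ⟨rfl, rfl, rfl⟩, ?_⟩
      apply Subtype.ext
      rw [hxa]
      apply Subtype.ext
      exact hU _ rfl rfl rfl
  have hLmap : (Cfsg.lowerUnipotentSL2 L).map (Φ₀.codRestrict (Cfsg.SU n F q) hSU)
      = suTG n q F r := by
    unfold Cfsg.lowerUnipotentSL2 suTG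
    rw [MonoidHom.map_closure]
    congr 1
    ext x
    constructor
    · rintro ⟨g, ⟨h01, h00, h11⟩, rfl⟩
      exact (mem_suGen_iff hF n r hr0 hrr _).2 ⟨ψ (g.1 1 0) * κ,
        (skew_iff ψ hψ₁ hψ₂ κ hκ0 hκ _).2 ⟨_, rfl⟩, Subtype.ext (hLw g h01 h00 h11)⟩
    · intro hx
      obtain ⟨a, ha, hxa⟩ := (mem_suGen_iff hF n r hr0 hrr x).1 hx
      obtain ⟨c, rfl⟩ := (skew_iff ψ hψ₁ hψ₂ κ hκ0 hκ a).1 ha
      refine ⟨⟨!![1, 0; c, 1], by simp [Matrix.det_fin_two]⟩, ⟨rfl, rfl, rfl⟩, ?_⟩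
      apply Subtype.ext
      rw [hxa]
      apply Subtype.ext
      exact hLw _ rfl rfl rfl
  refine ⟨Φ₀.codRestrict (Cfsg.SU n F q) hSU, ?_, ?_, hUmap, hLmap⟩
  · rw [MonoidHom.range_eq_map, ← sl2_gen L, Subgroup.map_sup, hUmap, hLmap]
  · intro x hx
    have h1 : Φ₀ x = 1 := congrArg Subtype.val (MonoidHom.mem_ker.1 hx)
    have h2 : x = 1 := hinj (h1.trans (map_one Φ₀).symm)
    rw [h2]
    exact Subgroup.one_mem _

theorem su'_kroot (hF : Fintype.card F = q ^ 2) (n : ℕ) {L : Type*} [Field L] (ψ : L →+* F)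
    (hψ₁ : ∀ c, ψ c ^ q = ψ c) (hψ₂ : ∀ x : F, x ^ q = x → ∃ c, ψ c = x) :
    Cfsg.IsKRootSubgroupSet L (suRootSet' n q F) := by
  refine ⟨su'_isRootSet hF n, ?_⟩
  rintro _ ⟨A, hA, rfl⟩ _ ⟨B, hB, rfl⟩ hpair
  have hAle := su_le n A hA
  have hBle := su_le n B hB
  obtain ⟨p, hp0, hp, rfl⟩ := hA
  obtain ⟨r, hr0, hr, rfl⟩ := hB
  have h : Cfsg.hermForm n F q p r ≠ 0 := by
    intro h0
    have hcomm := sub_comm (suH n q F) _ _ (suTG_comm hF n p r hp0 hr0 hp hr h0)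
    exact rankOne_not_comm _ _ hpair (sub_ne_bot _ _ hAle (suTG_ne_bot hF n p hp0 hp)) hcomm
  exact sub_psl2 L _ _ _ hAle hBle (su_psl2 hF n ψ hψ₁ hψ₂ p r hp0 hr0 hp hr h)

end

section

variable {F : Type u} [Field F] [Fintype F] {q : ℕ}

theorem exists_fixed_field (hF : Fintype.card F = q ^ 2) :
    ∃ (L : Type) (_ : Field L) (_ : Fintype L) (ψ : L →+* F), Fintype.card L = q ∧
      (∀ c, ψ c ^ q = ψ c) ∧ ∀ x : F, x ^ q = x → ∃ c, ψ c = x := by
  classical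
  obtain ⟨φ, hφ⟩ := exists_frobQ hF
  obtain ⟨ζ, hζ⟩ := exists_not_fixed hF
  obtain ⟨K, hKdef⟩ : ∃ K : Subfield F, K = φ.eqLocusField (RingHom.id F) := ⟨_, rfl⟩
  have hK : ∀ x : F, x ∈ K ↔ x ^ q = x := fun x => by
    rw [hKdef, RingHom.mem_eqLocusField, hφ]
    rfl
  have hcard : Nat.card K = q := by
    have hbij : Function.Bijective (fun ab : K × K => (ab.1 : F) + (ab.2 : F) * ζ) := by
      constructor
      · rintro ⟨a, b⟩ ⟨a', b'⟩ hab
        have h1 : (a : F) + (b : F) * ζ = (a' : F) + (b' : F) * ζ := hab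
        have h2 : (a : F) + (b : F) * ζ ^ q = (a' : F) + (b' : F) * ζ ^ q := by
          have h9 := congrArg φ h1
          rw [map_add, map_mul, map_add, map_mul] at h9
          simp only [hφ] at h9
          rwa [(hK a).1 a.2, (hK b).1 b.2, (hK a').1 a'.2, (hK b').1 b'.2] at h9
        have h3 : ((b : F) - b') * (ζ - ζ ^ q) = 0 := by linear_combination h1 - h2
        have h4 : (b : F) = b' := by
          rcases mul_eq_zero.1 h3 with h5 | h5
          · exact sub_eq_zero.1 h5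
          · exact absurd (sub_eq_zero.1 h5).symm hζ
        have h5 : (a : F) = a' := by
          rw [h4] at h1
          exact add_right_cancel h1
        exact Prod.ext (Subtype.ext h5) (Subtype.ext h4)
      · intro x
        have hd : ζ - ζ ^ q ≠ 0 := sub_ne_zero.2 (Ne.symm hζ)
        have hdq : (ζ - ζ ^ q) ^ q = -(ζ - ζ ^ q) := by
          rw [← hφ, map_sub, hφ, hφ, pow_card_sq hF]
          ring
        have hxq : (x - x ^ q) ^ q = -(x - x ^ q) := by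
          rw [← hφ, map_sub, hφ, hφ, pow_card_sq hF]
          ring
        have hb : ((x - x ^ q) / (ζ - ζ ^ q)) ^ q = (x - x ^ q) / (ζ - ζ ^ q) := by
          rw [div_pow, hxq, hdq, neg_div_neg_eq]
        have ha : (x - (x - x ^ q) / (ζ - ζ ^ q) * ζ) ^ q
            = x - (x - x ^ q) / (ζ - ζ ^ q) * ζ := by
          have h9 : (x - (x - x ^ q) / (ζ - ζ ^ q) * ζ) ^ q
              = x ^ q - ((x - x ^ q) / (ζ - ζ ^ q)) ^ q * ζ ^ q := by
            rw [← hφ, map_sub, map_mul, hφ, hφ, hφ]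
          rw [h9, hb]
          first
            | (field_simp; ring)
            | field_simp
        refine ⟨(⟨_, (hK _).2 ha⟩, ⟨_, (hK _).2 hb⟩), ?_⟩
        show x - (x - x ^ q) / (ζ - ζ ^ q) * ζ + (x - x ^ q) / (ζ - ζ ^ q) * ζ = x
        ring
    have h1 : Nat.card (K × K) = Nat.card F := Nat.card_congr (Equiv.ofBijective _ hbij)
    rw [Nat.card_prod, Nat.card_eq_fintype_card (α := F), hF, ← sq] at h1
    exact Nat.pow_left_injective two_ne_zero h1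
  obtain ⟨e, -⟩ : ∃ e : Shrink.{0} K ≃+* K, e = e := ⟨Shrink.ringEquiv.{0, u} K, rfl⟩
  refine ⟨Shrink.{0} K, inferInstance, inferInstance,
    K.subtype.comp e.toRingHom, ?_, ?_, ?_⟩
  · rw [← Nat.card_eq_fintype_card, ← hcard]
    exact Nat.card_congr e.toEquiv
  · intro c
    exact (hK _).1 (Subtype.property _)
  · intro x hx
    refine ⟨e.symm ⟨x, (hK x).2 hx⟩, ?_⟩
    show ((e (e.symm ⟨x, (hK x).2 hx⟩) : K) : F) = x
    rw [RingEquiv.apply_symm_apply]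

theorem exists_iso (hF : Fintype.card F = q ^ 2) (n : ℕ) :
    ∃ p : Fin (n + 2) → F, p ≠ 0 ∧ Cfsg.hermForm (n + 2) F q p p = 0 := by
  obtain ⟨φ, hφ⟩ := exists_frobQ hF
  have hq := card_sq_two_le hF
  have h1 : (-1 : F) ^ q = -1 := by rw [← hφ, map_neg, map_one]
  obtain ⟨ζ, hζ⟩ := exists_norm_eq hF (-1 : F) (neg_ne_zero.2 one_ne_zero) h1
  refine ⟨fun i => if i = 0 then 1 else if i = 1 then ζ else 0, ?_, ?_⟩
  · intro h0
    have h9 := congrFun h0 0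
    simp at h9
  · unfold Cfsg.hermForm
    rw [Fin.sum_univ_succ, Fin.sum_univ_succ]
    have hne1 : ∀ x : Fin n, (x.succ.succ : Fin (n + 2)) ≠ 1 := fun x h => by
      have h9 := congrArg Fin.val h
      simp at h9
    simp [Fin.succ_ne_zero, hne1, zero_pow (by omega : q ≠ 0)]
    linear_combination hζ

theorem su_root_main (F : Type u) [Field F] [Fintype F] (q n : ℕ)
    (hF : Fintype.card F = q ^ 2) :
    Cfsg.IsRootSubgroupClass (suRootSet' (n + 2) q F) ∧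
      Cfsg.IsDegenerateRootSet (suRootSet' (n + 2) q F) ∧
      (∃ (L : Type) (_ : Field L) (_ : Fintype L), Fintype.card L = q ∧
        Cfsg.IsKRootSubgroupSet L (suRootSet' (n + 2) q F)) ∧
      Cfsg.IsConnectedFamily (Cfsg.FAdj (suRootSet' (n + 2) q F)) (suRootSet' (n + 2) q F) := by
  obtain ⟨p, hp0, hp⟩ := exists_iso hF n
  have hne : (suRootSet (n + 2) q F).Nonempty := ⟨_, p, hp0, hp, rfl⟩
  obtain ⟨L, iL, fL, ψ, hL, h1, h2⟩ := exists_fixed_field hF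
  exact ⟨⟨su'_isRootSet hF (n + 2), su'_class hF (n + 2) hne⟩, su'_degenerate hF (n + 2),
    ⟨L, iL, fL, hL, su'_kroot hF (n + 2) ψ h1 h2⟩, su'_connected hF (n + 2)⟩

end

end Cfsg.Agent.Lib.Helper4
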