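import Mathlib
import Cfsg.Prelude.Def_RootSubgroups
import Cfsg.Prelude.Def_Classical
import Cfsg.Agent.Lib.Helper4.SuRoot

set_option autoImplicit false

namespace Cfsg.Agent.Lib.Helper4.OS

open Matrix

universe u

section

variable {F : Type u} [Field F] {n : ℕ}

/-- Swap the two halves of a vector. -/
def sw (p : Fin n ⊕ Fin n → F) : Fin n ⊕ Fin n → F := fun i => p (Sum.swap i)

theorem sw_add (p r : Fin n ⊕ Fin n → F) : sw (p + r) = sw p + sw r := rfl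

theorem sw_smul (c : F) (p : Fin n ⊕ Fin n → F) : sw (c • p) = c • sw p := rfl

theorem sw_sub (p r : Fin n ⊕ Fin n → F) : sw (p - r) = sw p - sw r := rfl

theorem sw_dot (x y : Fin n ⊕ Fin n → F) :
    sw y ⬝ᵥ x = ∑ i : Fin n, (x (Sum.inl i) * y (Sum.inr i) + y (Sum.inl i) * x (Sum.inr i)) := by
  unfold dotProduct sw
  rw [Fintype.sum_sum_type, ← Finset.sum_add_distrib]
  refine Finset.sum_congr rfl (fun i _ => ?_)
  simp only [Sum.swap_inl, Sum.swap_inr]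
  ring

theorem sw_dot_comm (x y : Fin n ⊕ Fin n → F) : sw y ⬝ᵥ x = sw x ⬝ᵥ y := by
  rw [sw_dot, sw_dot]
  refine Finset.sum_congr rfl (fun i _ => ?_)
  ring

theorem quad_add (x y : Fin n ⊕ Fin n → F) :
    Cfsg.quadFormPlus n F (x + y)
      = Cfsg.quadFormPlus n F x + Cfsg.quadFormPlus n F y + sw y ⬝ᵥ x := by
  rw [sw_dot]
  unfold Cfsg.quadFormPlus
  rw [← Finset.sum_add_distrib, ← Finset.sum_add_distrib]
  refine Finset.sum_congr rfl (fun i _ => ?_)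
  simp only [Pi.add_apply]
  ring

theorem quad_smul (c : F) (x : Fin n ⊕ Fin n → F) :
    Cfsg.quadFormPlus n F (c • x) = c ^ 2 * Cfsg.quadFormPlus n F x := by
  unfold Cfsg.quadFormPlus
  rw [Finset.mul_sum]
  refine Finset.sum_congr rfl (fun i _ => ?_)
  simp only [Pi.smul_apply, smul_eq_mul]
  ring

theorem sw_self (x : Fin n ⊕ Fin n → F) (hx : Cfsg.quadFormPlus n F x = 0) : sw x ⬝ᵥ x = 0 := by
  rw [sw_dot]
  have h1 : ∑ i : Fin n, (x (Sum.inl i) * x (Sum.inr i) + x (Sum.inl i) * x (Sum.inr i))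
      = Cfsg.quadFormPlus n F x + Cfsg.quadFormPlus n F x := by
    unfold Cfsg.quadFormPlus
    rw [← Finset.sum_add_distrib]
  rw [h1, hx, add_zero]

theorem sw_single (w : Fin n ⊕ Fin n → F) (k : Fin n ⊕ Fin n) (c : F) :
    sw w ⬝ᵥ Pi.single (Sum.swap k) c = w k * c := by
  rw [dotProduct_single]
  unfold sw
  rw [Sum.swap_swap]

theorem sw_nondeg (z : Fin n ⊕ Fin n → F) (h : ∀ x, sw z ⬝ᵥ x = 0) : z = 0 := by
  funext i
  have h1 := h (Pi.single (Sum.swap i) 1)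
  rw [sw_single, mul_one] at h1
  exact h1

/-- A singular pair: both vectors singular and orthogonal. -/
def SLine (p r : Fin n ⊕ Fin n → F) : Prop :=
  Cfsg.quadFormPlus n F p = 0 ∧ Cfsg.quadFormPlus n F r = 0 ∧ sw r ⬝ᵥ p = 0

theorem quad_line (p r : Fin n ⊕ Fin n → F) (h : SLine p r) (a b : F) :
    Cfsg.quadFormPlus n F (a • p + b • r) = 0 := by
  obtain ⟨hp, hr, hpr⟩ := h
  rw [quad_add, quad_smul, quad_smul, hp, hr, sw_smul, smul_dotProduct, dotProduct_smul, hpr]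
  simp

theorem quad_line_add (p r : Fin n ⊕ Fin n → F) (h : SLine p r) (u : Fin n ⊕ Fin n → F)
    (a b : F) :
    Cfsg.quadFormPlus n F (u + (a • p + b • r))
      = Cfsg.quadFormPlus n F u + a * (sw p ⬝ᵥ u) + b * (sw r ⬝ᵥ u) := by
  rw [quad_add, quad_line p r h, sw_add, sw_smul, sw_smul, add_dotProduct, smul_dotProduct,
    smul_dotProduct, smul_eq_mul, smul_eq_mul]
  ring

theorem cond_iff (v p : Fin n ⊕ Fin n → F) :
    Cfsg.quadFormPlus n F (v + p) - Cfsg.quadFormPlus n F v - Cfsg.quadFormPlus n F p = 0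
      ↔ sw p ⬝ᵥ v = 0 := by
  rw [quad_add]
  constructor
  · intro h
    linear_combination h
  · intro h
    linear_combination h

/-- The Siegel transvection matrix. -/
def sgM (p r : Fin n ⊕ Fin n → F) (c : F) : Matrix (Fin n ⊕ Fin n) (Fin n ⊕ Fin n) F :=
  1 + c • (vecMulVec p (sw r) - vecMulVec r (sw p))

theorem sgM_mulVec (p r : Fin n ⊕ Fin n → F) (c : F) (x : Fin n ⊕ Fin n → F) :
    sgM p r c *ᵥ x = x + (c * (sw r ⬝ᵥ x)) • p - (c * (sw p ⬝ᵥ x)) • r := by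
  rw [sgM, Matrix.add_mulVec, Matrix.one_mulVec, Matrix.smul_mulVec, Matrix.sub_mulVec,
    Matrix.vecMulVec_mulVec, Matrix.vecMulVec_mulVec, op_smul_eq_smul, op_smul_eq_smul]
  ext i
  simp only [Pi.add_apply, Pi.sub_apply, Pi.smul_apply, smul_eq_mul]
  ring

theorem sgM_zero (p r : Fin n ⊕ Fin n → F) : sgM p r 0 = 1 := by
  rw [sgM, zero_smul, add_zero]

theorem SLine.pp {p r : Fin n ⊕ Fin n → F} (h : SLine p r) : sw p ⬝ᵥ p = 0 := sw_self p h.1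

theorem SLine.rr {p r : Fin n ⊕ Fin n → F} (h : SLine p r) : sw r ⬝ᵥ r = 0 := sw_self r h.2.1

theorem SLine.rp {p r : Fin n ⊕ Fin n → F} (h : SLine p r) : sw p ⬝ᵥ r = 0 := by
  rw [sw_dot_comm]
  exact h.2.2

theorem SLine.pr {p r : Fin n ⊕ Fin n → F} (h : SLine p r) : sw r ⬝ᵥ p = 0 := h.2.2

theorem SLine.symm {p r : Fin n ⊕ Fin n → F} (h : SLine p r) : SLine r p :=
  ⟨h.2.1, h.1, h.rp⟩

theorem sgM_mul (p r : Fin n ⊕ Fin n → F) (h : SLine p r) (c d : F) :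
    sgM p r c * sgM p r d = sgM p r (c + d) := by
  apply Matrix.mulVec_injective
  funext x
  rw [← Matrix.mulVec_mulVec]
  simp only [sgM_mulVec, dotProduct_add, dotProduct_sub, dotProduct_smul, h.pp, h.rr, h.rp, h.pr,
    smul_eq_mul, mul_zero, add_zero, sub_zero]
  ext i
  simp only [Pi.add_apply, Pi.sub_apply, Pi.smul_apply, smul_eq_mul]
  ring

theorem sgM_quad (p r : Fin n ⊕ Fin n → F) (h : SLine p r) (c : F) (x : Fin n ⊕ Fin n → F) :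
    Cfsg.quadFormPlus n F (sgM p r c *ᵥ x) = Cfsg.quadFormPlus n F x := by
  rw [sgM_mulVec]
  have e : x + (c * (sw r ⬝ᵥ x)) • p - (c * (sw p ⬝ᵥ x)) • r
      = x + ((c * (sw r ⬝ᵥ x)) • p + (-(c * (sw p ⬝ᵥ x))) • r) := by
    rw [neg_smul]
    abel
  rw [e, quad_line_add p r h]
  ring

/-- The Siegel transvection as an element of `GL`. -/
def sgU (p r : Fin n ⊕ Fin n → F) (h : SLine p r) (c : F) : GL (Fin n ⊕ Fin n) F :=
  ⟨sgM p r c, sgM p r (-c), by rw [sgM_mul p r h, add_neg_cancel, sgM_zero],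
    by rw [sgM_mul p r h, neg_add_cancel, sgM_zero]⟩

/-- The Siegel transvection as an isometry. -/
def sgO (p r : Fin n ⊕ Fin n → F) (h : SLine p r) (c : F) :
    ↥(Cfsg.isometryGroup F (Cfsg.quadFormPlus n F)) :=
  ⟨sgU p r h c, fun u _ => sgM_quad p r h c u⟩

theorem sgO_val (p r : Fin n ⊕ Fin n → F) (h : SLine p r) (c : F) :
    (sgO p r h c).1.1 = sgM p r c := rfl

/-- Generating set of the Siegel group. -/
def osGen (n : ℕ) (F : Type u) [Field F] (p r : Fin n ⊕ Fin n → F) :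
    Set ↥(Cfsg.isometryGroup F (Cfsg.quadFormPlus n F)) :=
  {σ | ∀ v : Fin n ⊕ Fin n → F,
    Cfsg.quadFormPlus n F (v + p) - Cfsg.quadFormPlus n F v - Cfsg.quadFormPlus n F p = 0 →
    Cfsg.quadFormPlus n F (v + r) - Cfsg.quadFormPlus n F v - Cfsg.quadFormPlus n F r = 0 →
      ((σ : Matrix.GeneralLinearGroup (Fin n ⊕ Fin n) F) :
        Matrix (Fin n ⊕ Fin n) (Fin n ⊕ Fin n) F) *ᵥ v = v}

/-- The Siegel transvection group of the pair `(p, r)`. -/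
def osTG (n : ℕ) (F : Type u) [Field F] (p r : Fin n ⊕ Fin n → F) :
    Subgroup ↥(Cfsg.isometryGroup F (Cfsg.quadFormPlus n F)) :=
  Subgroup.closure (osGen n F p r)

/-- The set of Siegel transvection groups. -/
def osRootSet (n : ℕ) (F : Type u) [Field F] :
    Set (Subgroup ↥(Cfsg.isometryGroup F (Cfsg.quadFormPlus n F))) :=
  {A | ∃ p r : Fin n ⊕ Fin n → F, LinearIndependent F ![p, r] ∧
    Cfsg.quadFormPlus n F p = 0 ∧ Cfsg.quadFormPlus n F r = 0 ∧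
    Cfsg.quadFormPlus n F (p + r) = 0 ∧ A = osTG n F p r}

theorem inv_mul_val (y : ↥(Cfsg.isometryGroup F (Cfsg.quadFormPlus n F))) :
    (y⁻¹).1.1 * y.1.1 = 1 :=
  congrArg (fun g : ↥(Cfsg.isometryGroup F (Cfsg.quadFormPlus n F)) => g.1.1) (inv_mul_cancel y)

theorem mul_inv_val (y : ↥(Cfsg.isometryGroup F (Cfsg.quadFormPlus n F))) :
    y.1.1 * (y⁻¹).1.1 = 1 :=
  congrArg (fun g : ↥(Cfsg.isometryGroup F (Cfsg.quadFormPlus n F)) => g.1.1) (mul_inv_cancel y)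

theorem mem_osTG_iff (p r : Fin n ⊕ Fin n → F)
    (x : ↥(Cfsg.isometryGroup F (Cfsg.quadFormPlus n F))) :
    x ∈ osTG n F p r ↔ ∀ v, sw p ⬝ᵥ v = 0 → sw r ⬝ᵥ v = 0 → x.1.1 *ᵥ v = v := by
  constructor
  · intro hx
    refine Subgroup.closure_induction
      (p := fun x _ => ∀ v, sw p ⬝ᵥ v = 0 → sw r ⬝ᵥ v = 0 → x.1.1 *ᵥ v = v) ?_ ?_ ?_ ?_ hx
    · intro y hy v h1 h2
      exact hy v ((cond_iff v p).2 h1) ((cond_iff v r).2 h2)
    · intro v _ _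
      exact Matrix.one_mulVec v
    · intro y z _ _ hy hz v h1 h2
      have h3 : (y * z).1.1 *ᵥ v = y.1.1 *ᵥ (z.1.1 *ᵥ v) := by
        rw [Matrix.mulVec_mulVec]
        rfl
      rw [h3, hz v h1 h2, hy v h1 h2]
    · intro y _ hy v h1 h2
      have h3 : (y⁻¹).1.1 *ᵥ (y.1.1 *ᵥ v) = v := by
        rw [Matrix.mulVec_mulVec, inv_mul_val, Matrix.one_mulVec]
      rw [hy v h1 h2] at h3
      exact h3
  · intro h
    exact Subgroup.subset_closure (fun v h1 h2 => h v ((cond_iff v p).1 h1) ((cond_iff v r).1 h2))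

theorem exists_minor {κ : Type*} (u v : κ → F) (h : LinearIndependent F ![u, v]) :
    ∃ i j, u i * v j - u j * v i ≠ 0 := by
  by_contra hcon
  push Not at hcon
  have hu : u ≠ 0 := by
    have h9 := h.ne_zero 0
    simpa using h9
  obtain ⟨i, hi⟩ := Function.ne_iff.1 hu
  have hi' : u i ≠ 0 := hi
  have hv : v = (v i / u i) • u := by
    funext j
    have h9 := hcon i j
    simp only [Pi.smul_apply, smul_eq_mul]
    rw [div_mul_eq_mul_div, eq_div_iff hi']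
    linear_combination h9
  have h2 := (LinearIndependent.pair_iff.1 h) (v i / u i) (-1) (by
    rw [neg_one_smul, ← hv, add_neg_cancel])
  exact one_ne_zero (neg_eq_zero.1 h2.2)

theorem exists_dual (p r : Fin n ⊕ Fin n → F) (hLI : LinearIndependent F ![p, r]) :
    ∃ p' r' : Fin n ⊕ Fin n → F, sw p ⬝ᵥ p' = 1 ∧ sw r ⬝ᵥ p' = 0 ∧ sw p ⬝ᵥ r' = 0 ∧
      sw r ⬝ᵥ r' = 1 := by
  obtain ⟨i, j, hij⟩ := exists_minor p r hLI
  obtain ⟨Δ, hΔ⟩ : ∃ Δ, Δ = p i * r j - p j * r i := ⟨_, rfl⟩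
  have hΔ0 : Δ ≠ 0 := by
    rw [hΔ]
    exact hij
  refine ⟨(r j / Δ) • Pi.single (Sum.swap i) 1 + (-(r i) / Δ) • Pi.single (Sum.swap j) 1,
    (-(p j) / Δ) • Pi.single (Sum.swap i) 1 + (p i / Δ) • Pi.single (Sum.swap j) 1,
    ?_, ?_, ?_, ?_⟩
  all_goals
    simp only [dotProduct_add, dotProduct_smul, sw_single, smul_eq_mul, mul_one]
    first
      | (field_simp; first | ring1 | (rw [hΔ]; ring1))
      | field_simp

theorem mem_osTG_iff' (p r : Fin n ⊕ Fin n → F) (hL : SLine p r)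
    (hLI : LinearIndependent F ![p, r])
    (x : ↥(Cfsg.isometryGroup F (Cfsg.quadFormPlus n F))) :
    x ∈ osTG n F p r ↔ ∃ c : F, x.1.1 = sgM p r c := by
  rw [mem_osTG_iff]
  constructor
  · intro hfix
    obtain ⟨p', r', h11, h21, h12, h22⟩ := exists_dual p r hLI
    have hiso : ∀ u, Cfsg.quadFormPlus n F (x.1.1 *ᵥ u) = Cfsg.quadFormPlus n F u :=
      fun u => x.2 u u
    have hB : ∀ u v, sw (x.1.1 *ᵥ v) ⬝ᵥ (x.1.1 *ᵥ u) = sw v ⬝ᵥ u := by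
      intro u v
      have h1 := hiso (u + v)
      rw [Matrix.mulVec_add, quad_add, quad_add, hiso u, hiso v] at h1
      linear_combination h1
    have hdec : ∀ u, x.1.1 *ᵥ u = u + (sw p ⬝ᵥ u) • (x.1.1 *ᵥ p' - p')
        + (sw r ⬝ᵥ u) • (x.1.1 *ᵥ r' - r') := by
      intro u
      have h0 := hfix (u - (sw p ⬝ᵥ u) • p' - (sw r ⬝ᵥ u) • r')
        (by rw [dotProduct_sub, dotProduct_sub, dotProduct_smul, dotProduct_smul, h11, h12]; simp)
        (by rw [dotProduct_sub, dotProduct_sub, dotProduct_smul, dotProduct_smul, h21, h22]; simp)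
      rw [Matrix.mulVec_sub, Matrix.mulVec_sub, Matrix.mulVec_smul, Matrix.mulVec_smul] at h0
      have h1 : x.1.1 *ᵥ u = (u - (sw p ⬝ᵥ u) • p' - (sw r ⬝ᵥ u) • r')
          + (sw p ⬝ᵥ u) • (x.1.1 *ᵥ p') + (sw r ⬝ᵥ u) • (x.1.1 *ᵥ r') := by
        rw [← h0]
        abel
      rw [h1, smul_sub, smul_sub]
      abel
    have hperp : ∀ (z : Fin n ⊕ Fin n → F),
        (∀ y, sw p ⬝ᵥ y = 0 → sw r ⬝ᵥ y = 0 → sw z ⬝ᵥ y = 0) →
        z = (sw z ⬝ᵥ p') • p + (sw z ⬝ᵥ r') • r := by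
      intro z hz
      have key : z - ((sw z ⬝ᵥ p') • p + (sw z ⬝ᵥ r') • r) = 0 := by
        apply sw_nondeg
        intro u
        have hu0 := hz (u - (sw p ⬝ᵥ u) • p' - (sw r ⬝ᵥ u) • r')
          (by rw [dotProduct_sub, dotProduct_sub, dotProduct_smul, dotProduct_smul, h11, h12]; simp)
          (by rw [dotProduct_sub, dotProduct_sub, dotProduct_smul, dotProduct_smul, h21, h22]; simp)
        rw [sw_sub, sw_add, sw_smul, sw_smul, sub_dotProduct, add_dotProduct, smul_dotProduct,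
          smul_dotProduct]
        rw [dotProduct_sub, dotProduct_sub, dotProduct_smul, dotProduct_smul] at hu0
        simp only [smul_eq_mul] at hu0 ⊢
        linear_combination hu0
      exact sub_eq_zero.1 key
    obtain ⟨a1, ha1⟩ : ∃ a1, a1 = x.1.1 *ᵥ p' - p' := ⟨_, rfl⟩
    obtain ⟨a2, ha2⟩ : ∃ a2, a2 = x.1.1 *ᵥ r' - r' := ⟨_, rfl⟩
    have hz1 : ∀ y, sw p ⬝ᵥ y = 0 → sw r ⬝ᵥ y = 0 → sw a1 ⬝ᵥ y = 0 := by
      intro y h1 h2
      have h3 := hB y p'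
      rw [hfix y h1 h2] at h3
      rw [ha1, sw_sub, sub_dotProduct, h3, sub_self]
    have hz2 : ∀ y, sw p ⬝ᵥ y = 0 → sw r ⬝ᵥ y = 0 → sw a2 ⬝ᵥ y = 0 := by
      intro y h1 h2
      have h3 := hB y r'
      rw [hfix y h1 h2] at h3
      rw [ha2, sw_sub, sub_dotProduct, h3, sub_self]
    have e1 := hperp a1 hz1
    have e2 := hperp a2 hz2
    obtain ⟨α₁, hα₁⟩ : ∃ α, α = sw a1 ⬝ᵥ p' := ⟨_, rfl⟩
    obtain ⟨β₁, hβ₁⟩ : ∃ α, α = sw a1 ⬝ᵥ r' := ⟨_, rfl⟩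
    obtain ⟨α₂, hα₂⟩ : ∃ α, α = sw a2 ⬝ᵥ p' := ⟨_, rfl⟩
    obtain ⟨β₂, hβ₂⟩ : ∃ α, α = sw a2 ⬝ᵥ r' := ⟨_, rfl⟩
    rw [← hα₁, ← hβ₁] at e1
    rw [← hα₂, ← hβ₂] at e2
    have hdec' : ∀ u, x.1.1 *ᵥ u = u + (sw p ⬝ᵥ u) • a1 + (sw r ⬝ᵥ u) • a2 := by
      intro u
      rw [ha1, ha2]
      exact hdec u
    have c1 : α₁ = 0 := by
      have h1 := hiso p'
      rw [hdec' p', h11, h21, one_smul, zero_smul, add_zero, e1, quad_line_add p r hL, h11,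
        h21] at h1
      linear_combination h1
    have c2 : β₂ = 0 := by
      have h1 := hiso r'
      rw [hdec' r', h12, h22, zero_smul, one_smul, add_zero, e2, quad_line_add p r hL, h12,
        h22] at h1
      linear_combination h1
    have c3 : α₂ + β₁ = 0 := by
      have h1 := hiso (p' + r')
      have h2 : x.1.1 *ᵥ (p' + r') = (p' + r') + ((α₁ + α₂) • p + (β₁ + β₂) • r) := by
        rw [hdec' (p' + r'), dotProduct_add, dotProduct_add, h11, h12, h21, h22, add_zero,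
          zero_add, one_smul, one_smul, e1, e2, add_smul, add_smul]
        abel
      rw [h2, quad_line_add p r hL, dotProduct_add, dotProduct_add, h11, h12, h21, h22] at h1
      linear_combination h1 - c1 - c2
    refine ⟨α₂, ?_⟩
    apply Matrix.mulVec_injective
    funext u
    have hβ : β₁ = -α₂ := by linear_combination c3
    rw [hdec' u, sgM_mulVec, e1, e2, c1, c2, hβ]
    ext i
    simp only [Pi.add_apply, Pi.sub_apply, Pi.smul_apply, smul_eq_mul]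
    ring
  · rintro ⟨c, hc⟩ v h1 h2
    rw [hc, sgM_mulVec, h1, h2]
    simp

end

section

variable {F : Type u} [Field F] {n : ℕ}

theorem sgO_mem (p r : Fin n ⊕ Fin n → F) (hL : SLine p r) (c : F) :
    sgO p r hL c ∈ osTG n F p r := by
  rw [mem_osTG_iff]
  intro v h1 h2
  rw [sgO_val, sgM_mulVec, h1, h2]
  simp

theorem os_ext (x y : ↥(Cfsg.isometryGroup F (Cfsg.quadFormPlus n F))) (h : x.1.1 = y.1.1) :
    x = y := Subtype.ext (Units.ext h)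

theorem sgO_mul (p r : Fin n ⊕ Fin n → F) (hL : SLine p r) (c d : F) :
    sgO p r hL c * sgO p r hL d = sgO p r hL (c + d) := os_ext _ _ (sgM_mul p r hL c d)

theorem sgO_zero (p r : Fin n ⊕ Fin n → F) (hL : SLine p r) : sgO p r hL 0 = 1 :=
  os_ext _ _ (sgM_zero p r)

theorem sgO_inv (p r : Fin n ⊕ Fin n → F) (hL : SLine p r) (c : F) :
    (sgO p r hL c)⁻¹ = sgO p r hL (-c) := by
  apply inv_eq_of_mul_eq_one_right
  rw [sgO_mul, add_neg_cancel, sgO_zero]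

theorem li_right_ne {p r : Fin n ⊕ Fin n → F} (hLI : LinearIndependent F ![p, r]) : r ≠ 0 := by
  have h9 := hLI.ne_zero 1
  simpa using h9

theorem li_left_ne {p r : Fin n ⊕ Fin n → F} (hLI : LinearIndependent F ![p, r]) : p ≠ 0 := by
  have h9 := hLI.ne_zero 0
  simpa using h9

theorem sgM_eq_one_iff (p r : Fin n ⊕ Fin n → F) (hLI : LinearIndependent F ![p, r]) (c : F) :
    sgM p r c = 1 ↔ c = 0 := by
  constructor
  · intro h
    obtain ⟨p', r', h11, h21, h12, h22⟩ := exists_dual p r hLI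
    have h1 : sgM p r c *ᵥ p' = p' := by rw [h, Matrix.one_mulVec]
    rw [sgM_mulVec, h11, h21, mul_zero, zero_smul, add_zero, mul_one] at h1
    have h2 : c • r = 0 := by
      have h9 := congrArg (fun y => p' - y) h1
      simpa using h9
    rcases smul_eq_zero.1 h2 with h3 | h3
    · exact h3
    · exact absurd h3 (li_right_ne hLI)
  · rintro rfl
    exact sgM_zero p r

theorem osTG_isComm (p r : Fin n ⊕ Fin n → F) (hL : SLine p r)
    (hLI : LinearIndependent F ![p, r]) : IsMulCommutative ↥(osTG n F p r) := by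
  refine ⟨⟨fun a b => ?_⟩⟩
  obtain ⟨c, hc⟩ := (mem_osTG_iff' p r hL hLI a.1).1 a.2
  obtain ⟨c', hc'⟩ := (mem_osTG_iff' p r hL hLI b.1).1 b.2
  have h2 : a.1.1.1 * b.1.1.1 = b.1.1.1 * a.1.1.1 := by
    rw [hc, hc', sgM_mul p r hL, sgM_mul p r hL, add_comm]
  apply Subtype.ext
  apply os_ext
  exact h2

theorem osTG_ne_bot (p r : Fin n ⊕ Fin n → F) (hL : SLine p r)
    (hLI : LinearIndependent F ![p, r]) : osTG n F p r ≠ ⊥ := by
  intro h
  have h1 := sgO_mem p r hL 1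
  rw [h, Subgroup.mem_bot] at h1
  have h2 : sgM p r (1 : F) = 1 :=
    congrArg (fun g : ↥(Cfsg.isometryGroup F (Cfsg.quadFormPlus n F)) => g.1.1) h1
  exact one_ne_zero ((sgM_eq_one_iff p r hLI 1).1 h2)

theorem osGen_conj_mem (g x : ↥(Cfsg.isometryGroup F (Cfsg.quadFormPlus n F)))
    (p r : Fin n ⊕ Fin n → F) (hx : x ∈ osGen n F p r) :
    g * x * g⁻¹ ∈ osGen n F (g.1.1 *ᵥ p) (g.1.1 *ᵥ r) := by
  intro v h1 h2
  have hgg : g.1.1 *ᵥ ((g⁻¹).1.1 *ᵥ v) = v := by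
    rw [Matrix.mulVec_mulVec, mul_inv_val, Matrix.one_mulVec]
  have hiso : ∀ u, Cfsg.quadFormPlus n F (g.1.1 *ᵥ u) = Cfsg.quadFormPlus n F u :=
    fun u => g.2 u u
  have hc : ∀ w, Cfsg.quadFormPlus n F (v + g.1.1 *ᵥ w) - Cfsg.quadFormPlus n F v
      - Cfsg.quadFormPlus n F (g.1.1 *ᵥ w) = 0 →
      Cfsg.quadFormPlus n F ((g⁻¹).1.1 *ᵥ v + w) - Cfsg.quadFormPlus n F ((g⁻¹).1.1 *ᵥ v)
        - Cfsg.quadFormPlus n F w = 0 := by
    intro w hw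
    have e1 : Cfsg.quadFormPlus n F ((g⁻¹).1.1 *ᵥ v + w)
        = Cfsg.quadFormPlus n F (v + g.1.1 *ᵥ w) := by
      rw [← hiso ((g⁻¹).1.1 *ᵥ v + w), Matrix.mulVec_add, hgg]
    have e2 : Cfsg.quadFormPlus n F ((g⁻¹).1.1 *ᵥ v) = Cfsg.quadFormPlus n F v := by
      rw [← hiso ((g⁻¹).1.1 *ᵥ v), hgg]
    have e3 : Cfsg.quadFormPlus n F w = Cfsg.quadFormPlus n F (g.1.1 *ᵥ w) := (hiso w).symm
    rw [e1, e2, e3]
    exact hw
  have h3 := hx ((g⁻¹).1.1 *ᵥ v) (hc p h1) (hc r h2)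
  have hmul : (g * x * g⁻¹).1.1 *ᵥ v = g.1.1 *ᵥ (x.1.1 *ᵥ ((g⁻¹).1.1 *ᵥ v)) := by
    rw [Matrix.mulVec_mulVec, Matrix.mulVec_mulVec]
    rfl
  show (g * x * g⁻¹).1.1 *ᵥ v = v
  rw [hmul, h3, hgg]

theorem osTG_conj (g : ↥(Cfsg.isometryGroup F (Cfsg.quadFormPlus n F)))
    (p r : Fin n ⊕ Fin n → F) :
    Cfsg.conjBy (osTG n F p r) g = osTG n F (g.1.1 *ᵥ p) (g.1.1 *ᵥ r) := by
  show (Subgroup.closure (osGen n F p r)).map (MulAut.conj g).toMonoidHom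
    = Subgroup.closure (osGen n F (g.1.1 *ᵥ p) (g.1.1 *ᵥ r))
  rw [MonoidHom.map_closure]
  congr 1
  ext x
  constructor
  · rintro ⟨y, hy, rfl⟩
    exact osGen_conj_mem g y p r hy
  · intro hx
    refine ⟨g⁻¹ * x * g, ?_, ?_⟩
    · have h1 := osGen_conj_mem g⁻¹ x _ _ hx
      rw [inv_inv] at h1
      have h2 : ∀ w : Fin n ⊕ Fin n → F, (g⁻¹).1.1 *ᵥ (g.1.1 *ᵥ w) = w := fun w => by
        rw [Matrix.mulVec_mulVec, inv_mul_val, Matrix.one_mulVec]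
      rw [h2, h2] at h1
      exact h1
    · show g * (g⁻¹ * x * g) * g⁻¹ = x
      group

theorem osTG_span (p r p' r' : Fin n ⊕ Fin n → F) (a b c d : F) (hdet : a * d - b * c ≠ 0)
    (hp' : p' = a • p + b • r) (hr' : r' = c • p + d • r) : osTG n F p' r' = osTG n F p r := by
  ext x
  rw [mem_osTG_iff, mem_osTG_iff]
  have key : ∀ v, (sw p' ⬝ᵥ v = 0 ∧ sw r' ⬝ᵥ v = 0) ↔ (sw p ⬝ᵥ v = 0 ∧ sw r ⬝ᵥ v = 0) := by
    intro v
    rw [hp', hr', sw_add, sw_add, sw_smul, sw_smul, sw_smul, sw_smul, add_dotProduct,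
      add_dotProduct, smul_dotProduct, smul_dotProduct, smul_dotProduct, smul_dotProduct]
    simp only [smul_eq_mul]
    constructor
    · rintro ⟨h1, h2⟩
      have e1 : (a * d - b * c) * (sw p ⬝ᵥ v) = 0 := by linear_combination d * h1 - b * h2
      have e2 : (a * d - b * c) * (sw r ⬝ᵥ v) = 0 := by linear_combination a * h2 - c * h1
      exact ⟨(mul_eq_zero.1 e1).resolve_left hdet, (mul_eq_zero.1 e2).resolve_left hdet⟩
    · rintro ⟨h1, h2⟩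
      rw [h1, h2]
      simp
  constructor
  · intro h v h1 h2
    exact h v ((key v).2 ⟨h1, h2⟩).1 ((key v).2 ⟨h1, h2⟩).2
  · intro h v h1 h2
    exact h v ((key v).1 ⟨h1, h2⟩).1 ((key v).1 ⟨h1, h2⟩).2

theorem osTG_swap (p r : Fin n ⊕ Fin n → F) : osTG n F r p = osTG n F p r :=
  osTG_span p r r p 0 1 1 0 (by simp) (by simp) (by simp)

theorem SLine.span {p r : Fin n ⊕ Fin n → F} (h : SLine p r) (a b c d : F) :
    SLine (a • p + b • r) (c • p + d • r) := by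
  refine ⟨quad_line p r h a b, quad_line p r h c d, ?_⟩
  rw [sw_add, sw_smul, sw_smul, add_dotProduct, smul_dotProduct, smul_dotProduct,
    dotProduct_add, dotProduct_add, dotProduct_smul, dotProduct_smul, dotProduct_smul,
    dotProduct_smul, h.pp, h.rr, h.rp, h.pr]
  simp

theorem li_span {p r : Fin n ⊕ Fin n → F} (hLI : LinearIndependent F ![p, r]) (a b c d : F)
    (hdet : a * d - b * c ≠ 0) : LinearIndependent F ![a • p + b • r, c • p + d • r] := by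
  rw [LinearIndependent.pair_iff] at hLI ⊢
  intro s t hst
  have h1 : (s * a + t * c) • p + (s * b + t * d) • r = 0 := by
    rw [← hst]
    simp only [smul_add, smul_smul, add_smul]
    abel
  obtain ⟨e1, e2⟩ := hLI _ _ h1
  have f1 : (a * d - b * c) * s = 0 := by linear_combination d * e1 - c * e2
  have f2 : (a * d - b * c) * t = 0 := by linear_combination a * e2 - b * e1
  exact ⟨(mul_eq_zero.1 f1).resolve_left hdet, (mul_eq_zero.1 f2).resolve_left hdet⟩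

theorem sgM_comm (p r p₂ r₂ : Fin n ⊕ Fin n → F) (h11 : sw p₂ ⬝ᵥ p = 0) (h12 : sw r₂ ⬝ᵥ p = 0)
    (h21 : sw p₂ ⬝ᵥ r = 0) (h22 : sw r₂ ⬝ᵥ r = 0) (c d : F) :
    sgM p r c * sgM p₂ r₂ d = sgM p₂ r₂ d * sgM p r c := by
  have g11 : sw p ⬝ᵥ p₂ = 0 := by
    rw [sw_dot_comm]
    exact h11
  have g12 : sw p ⬝ᵥ r₂ = 0 := by
    rw [sw_dot_comm]
    exact h12
  have g21 : sw r ⬝ᵥ p₂ = 0 := by
    rw [sw_dot_comm]
    exact h21
  have g22 : sw r ⬝ᵥ r₂ = 0 := by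
    rw [sw_dot_comm]
    exact h22
  apply Matrix.mulVec_injective
  funext x
  rw [← Matrix.mulVec_mulVec, ← Matrix.mulVec_mulVec]
  simp only [sgM_mulVec, dotProduct_add, dotProduct_sub, dotProduct_smul, h11, h12, h21, h22,
    g11, g12, g21, g22, smul_eq_mul, mul_zero, add_zero, sub_zero]
  ext i
  simp only [Pi.add_apply, Pi.sub_apply, Pi.smul_apply, smul_eq_mul]
  ring

theorem osTG_comm (p r p₂ r₂ : Fin n ⊕ Fin n → F) (hL₁ : SLine p r)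
    (hLI₁ : LinearIndependent F ![p, r]) (hL₂ : SLine p₂ r₂)
    (hLI₂ : LinearIndependent F ![p₂, r₂]) (h11 : sw p₂ ⬝ᵥ p = 0) (h12 : sw r₂ ⬝ᵥ p = 0)
    (h21 : sw p₂ ⬝ᵥ r = 0) (h22 : sw r₂ ⬝ᵥ r = 0) :
    ⁅osTG n F p r, osTG n F p₂ r₂⁆ = ⊥ := by
  rw [Subgroup.commutator_eq_bot_iff_le_centralizer]
  intro x hx
  obtain ⟨c, hc⟩ := (mem_osTG_iff' p r hL₁ hLI₁ x).1 hx
  rw [Subgroup.mem_centralizer_iff]
  intro y hy
  obtain ⟨d, hd⟩ := (mem_osTG_iff' p₂ r₂ hL₂ hLI₂ y).1 hy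
  apply os_ext
  show y.1.1 * x.1.1 = x.1.1 * y.1.1
  rw [hc, hd]
  exact (sgM_comm p r p₂ r₂ h11 h12 h21 h22 c d).symm

theorem os_ne (p r p' r' : Fin n ⊕ Fin n → F) (hL₁ : SLine p r)
    (hLI₁ : LinearIndependent F ![p, r]) (hL₂ : SLine p' r')
    (g11 : sw p ⬝ᵥ p' = 1) (g21 : sw r ⬝ᵥ p' = 0) : osTG n F p r ≠ osTG n F p' r' := by
  intro heq
  have h1 := sgO_mem p r hL₁ 1
  rw [heq, mem_osTG_iff] at h1
  have h2 := h1 p' hL₂.pp hL₂.pr
  rw [sgO_val, sgM_mulVec, g11, g21] at h2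
  apply li_right_ne hLI₁
  have h9 := congrArg (fun y => p' - y) h2
  simpa using h9

theorem os_rankOneCond (p r p' r' : Fin n ⊕ Fin n → F) (hL₁ : SLine p r)
    (hLI₁ : LinearIndependent F ![p, r]) (hL₂ : SLine p' r')
    (hLI₂ : LinearIndependent F ![p', r'])
    (m11 : sw p' ⬝ᵥ p = 1) (m12 : sw r' ⬝ᵥ p = 0) (m21 : sw p' ⬝ᵥ r = 0)
    (m22 : sw r' ⬝ᵥ r = 1) :
    Cfsg.RankOneCondition (osTG n F p r) (osTG n F p' r') := by
  intro a ha ha1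
  obtain ⟨c, hc⟩ := (mem_osTG_iff' p r hL₁ hLI₁ a).1 ha
  have hae : a = sgO p r hL₁ c := os_ext _ _ hc
  have hc0 : c ≠ 0 := by
    intro h0
    apply ha1
    rw [hae, h0, sgO_zero]
  have g11 : sw p ⬝ᵥ p' = 1 := by
    rw [sw_dot_comm]
    exact m11
  have g12 : sw p ⬝ᵥ r' = 0 := by
    rw [sw_dot_comm]
    exact m12
  have g21 : sw r ⬝ᵥ p' = 0 := by
    rw [sw_dot_comm]
    exact m21
  have g22 : sw r ⬝ᵥ r' = 1 := by
    rw [sw_dot_comm]
    exact m22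
  refine ⟨sgO p' r' hL₂ (-c⁻¹), sgO_mem p' r' hL₂ _, ?_, ?_⟩
  · intro h1
    have h2 : sgM p' r' (-c⁻¹) = 1 :=
      congrArg (fun g : ↥(Cfsg.isometryGroup F (Cfsg.quadFormPlus n F)) => g.1.1) h1
    exact (neg_ne_zero.2 (inv_ne_zero hc0)) ((sgM_eq_one_iff p' r' hLI₂ _).1 h2)
  · have e1 : ((sgO p' r' hL₂ (-c⁻¹))⁻¹).1.1 *ᵥ p
        = (0 : F) • (p' + c • r) + (-c⁻¹) • (r' - c • p) := by
      rw [sgO_inv, sgO_val, sgM_mulVec, m12, m11]
      ext i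
      simp only [Pi.add_apply, Pi.sub_apply, Pi.smul_apply, smul_eq_mul]
      linear_combination (-(p i)) * (inv_mul_cancel₀ hc0)
    have e2 : ((sgO p' r' hL₂ (-c⁻¹))⁻¹).1.1 *ᵥ r
        = c⁻¹ • (p' + c • r) + (0 : F) • (r' - c • p) := by
      rw [sgO_inv, sgO_val, sgM_mulVec, m22, m21]
      ext i
      simp only [Pi.add_apply, Pi.sub_apply, Pi.smul_apply, smul_eq_mul]
      linear_combination (-(r i)) * (inv_mul_cancel₀ hc0)
    have e3 : (a⁻¹).1.1 *ᵥ p' = p' + c • r := by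
      rw [hae, sgO_inv, sgO_val, sgM_mulVec, g21, g11]
      ext i
      simp only [Pi.add_apply, Pi.sub_apply, Pi.smul_apply, smul_eq_mul]
      ring
    have e4 : (a⁻¹).1.1 *ᵥ r' = r' - c • p := by
      rw [hae, sgO_inv, sgO_val, sgM_mulVec, g22, g12]
      ext i
      simp only [Pi.add_apply, Pi.sub_apply, Pi.smul_apply, smul_eq_mul]
      ring
    rw [osTG_conj, osTG_conj, e1, e2, e3, e4]
    refine osTG_span (p' + c • r) (r' - c • p) _ _ 0 (-c⁻¹) c⁻¹ 0 ?_ rfl rfl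
    have h9 : (0 : F) * 0 - -c⁻¹ * c⁻¹ = c⁻¹ * c⁻¹ := by ring
    rw [h9]
    exact mul_ne_zero (inv_ne_zero hc0) (inv_ne_zero hc0)

theorem os_rankOne_norm (p r p' r' : Fin n ⊕ Fin n → F) (hL₁ : SLine p r)
    (hLI₁ : LinearIndependent F ![p, r]) (hL₂ : SLine p' r')
    (hLI₂ : LinearIndependent F ![p', r'])
    (m11 : sw p' ⬝ᵥ p = 1) (m12 : sw r' ⬝ᵥ p = 0) (m21 : sw p' ⬝ᵥ r = 0)
    (m22 : sw r' ⬝ᵥ r = 1) :
    Cfsg.IsRankOnePair (osTG n F p r) (osTG n F p' r') := by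
  have g11 : sw p ⬝ᵥ p' = 1 := by
    rw [sw_dot_comm]
    exact m11
  have g12 : sw p ⬝ᵥ r' = 0 := by
    rw [sw_dot_comm]
    exact m12
  have g21 : sw r ⬝ᵥ p' = 0 := by
    rw [sw_dot_comm]
    exact m21
  have g22 : sw r ⬝ᵥ r' = 1 := by
    rw [sw_dot_comm]
    exact m22
  exact ⟨os_ne p r p' r' hL₁ hLI₁ hL₂ g11 g21,
    ⟨⟨1, Subgroup.upperCentralSeries_one_eq_top_iff.2 (osTG_isComm p r hL₁ hLI₁)⟩⟩,
    ⟨⟨1, Subgroup.upperCentralSeries_one_eq_top_iff.2 (osTG_isComm p' r' hL₂ hLI₂)⟩⟩,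
    os_rankOneCond p r p' r' hL₁ hLI₁ hL₂ hLI₂ m11 m12 m21 m22,
    os_rankOneCond p' r' p r hL₂ hLI₂ hL₁ hLI₁ g11 g21 g12 g22⟩

end

section

variable {F : Type u} [Field F] {n : ℕ}

theorem li_swap {p r : Fin n ⊕ Fin n → F} (hLI : LinearIndependent F ![p, r]) :
    LinearIndependent F ![r, p] := by
  rw [LinearIndependent.pair_iff] at hLI ⊢
  intro s t hst
  have h1 := hLI t s (by rw [add_comm]; exact hst)
  exact ⟨h1.2, h1.1⟩

theorem os_rankOne (p r p₂ r₂ : Fin n ⊕ Fin n → F) (hL₁ : SLine p r)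
    (hLI₁ : LinearIndependent F ![p, r]) (hL₂ : SLine p₂ r₂)
    (hLI₂ : LinearIndependent F ![p₂, r₂])
    (hdet : (sw p₂ ⬝ᵥ p) * (sw r₂ ⬝ᵥ r) - (sw r₂ ⬝ᵥ p) * (sw p₂ ⬝ᵥ r) ≠ 0) :
    Cfsg.IsRankOnePair (osTG n F p r) (osTG n F p₂ r₂) := by
  obtain ⟨m11, h11⟩ : ∃ m, m = sw p₂ ⬝ᵥ p := ⟨_, rfl⟩
  obtain ⟨m12, h12⟩ : ∃ m, m = sw r₂ ⬝ᵥ p := ⟨_, rfl⟩
  obtain ⟨m21, h21⟩ : ∃ m, m = sw p₂ ⬝ᵥ r := ⟨_, rfl⟩
  obtain ⟨m22, h22⟩ : ∃ m, m = sw r₂ ⬝ᵥ r := ⟨_, rfl⟩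
  rw [← h11, ← h12, ← h21, ← h22] at hdet
  obtain ⟨Δ, hΔ⟩ : ∃ Δ, Δ = m11 * m22 - m12 * m21 := ⟨_, rfl⟩
  have hΔ0 : Δ ≠ 0 := by
    rw [hΔ]
    exact hdet
  have hd : m22 / Δ * (m11 / Δ) - -m21 / Δ * (-m12 / Δ) ≠ 0 := by
    have e : m22 / Δ * (m11 / Δ) - -m21 / Δ * (-m12 / Δ) = Δ⁻¹ := by
      first
        | (field_simp; first | ring1 | (rw [hΔ]; ring1))
        | field_simp
    rw [e]
    exact inv_ne_zero hΔ0
  have hsp := osTG_span p₂ r₂ ((m22 / Δ) • p₂ + (-m21 / Δ) • r₂)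
    ((-m12 / Δ) • p₂ + (m11 / Δ) • r₂) (m22 / Δ) (-m21 / Δ) (-m12 / Δ) (m11 / Δ) hd rfl rfl
  rw [← hsp]
  refine os_rankOne_norm p r _ _ hL₁ hLI₁ (hL₂.span _ _ _ _) (li_span hLI₂ _ _ _ _ hd)
    ?_ ?_ ?_ ?_
  all_goals
    rw [sw_add, sw_smul, sw_smul, add_dotProduct, smul_dotProduct, smul_dotProduct]
    simp only [← h11, ← h12, ← h21, ← h22, smul_eq_mul]
    first
      | (field_simp; first | ring1 | (rw [hΔ]; ring1))
      | field_simp

theorem sgM_commutator (u v w z : Fin n ⊕ Fin n → F) (hL₁ : SLine u v) (hL₂ : SLine w z)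
    (a1 : sw w ⬝ᵥ u = 0) (a2 : sw z ⬝ᵥ u = 0) (a3 : sw w ⬝ᵥ v = 0) (a4 : sw z ⬝ᵥ v = 1)
    (c d : F) :
    sgM u v c * sgM w z d * sgM u v (-c) * sgM w z (-d) = sgM w u (c * d) := by
  have b1 : sw u ⬝ᵥ w = 0 := by
    rw [sw_dot_comm]
    exact a1
  have b2 : sw u ⬝ᵥ z = 0 := by
    rw [sw_dot_comm]
    exact a2
  have b3 : sw v ⬝ᵥ w = 0 := by
    rw [sw_dot_comm]
    exact a3
  have b4 : sw v ⬝ᵥ z = 1 := by
    rw [sw_dot_comm]
    exact a4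
  apply Matrix.mulVec_injective
  funext x
  rw [← Matrix.mulVec_mulVec, ← Matrix.mulVec_mulVec, ← Matrix.mulVec_mulVec]
  simp only [sgM_mulVec, dotProduct_add, dotProduct_sub, dotProduct_smul, a1, a2, a3, a4, b1, b2,
    b3, b4, hL₁.pp, hL₁.rr, hL₁.rp, hL₁.pr, hL₂.pp, hL₂.rr, hL₂.rp, hL₂.pr, smul_eq_mul,
    mul_zero, mul_one, add_zero, sub_zero]
  ext i
  simp only [Pi.add_apply, Pi.sub_apply, Pi.smul_apply, smul_eq_mul]
  ring

theorem sgM_dep (w u : Fin n ⊕ Fin n → F) (h : ¬ LinearIndependent F ![w, u]) (hu : u ≠ 0)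
    (e : F) : sgM w u e = 1 := by
  rw [LinearIndependent.pair_iff] at h
  push Not at h
  obtain ⟨s, t, hst, hne⟩ := h
  have hs : s ≠ 0 := by
    intro hs0
    rw [hs0, zero_smul, zero_add] at hst
    rcases smul_eq_zero.1 hst with h1 | h1
    · exact hne hs0 h1
    · exact hu h1
  have h2 : s • w = -(t • u) := eq_neg_of_add_eq_zero_left hst
  have hw : w = (-t / s) • u := by
    calc w = s⁻¹ • (s • w) := by rw [smul_smul, inv_mul_cancel₀ hs, one_smul]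
      _ = (-t / s) • u := by
        rw [h2, smul_neg, smul_smul, ← neg_smul]
        congr 1
        ring
  apply Matrix.mulVec_injective
  funext x
  rw [sgM_mulVec, Matrix.one_mulVec, hw, sw_smul, smul_dotProduct]
  ext i
  simp only [Pi.add_apply, Pi.sub_apply, Pi.smul_apply, smul_eq_mul]
  ring

theorem os_comm_elt (u v w z : Fin n ⊕ Fin n → F) (hL₁ : SLine u v) (hL₂ : SLine w z)
    (hL₃ : SLine w u)
    (a1 : sw w ⬝ᵥ u = 0) (a2 : sw z ⬝ᵥ u = 0) (a3 : sw w ⬝ᵥ v = 0) (a4 : sw z ⬝ᵥ v = 1)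
    (c d : F) :
    sgO u v hL₁ c * sgO w z hL₂ d * (sgO u v hL₁ c)⁻¹ * (sgO w z hL₂ d)⁻¹
      = sgO w u hL₃ (c * d) := by
  rw [sgO_inv, sgO_inv]
  exact os_ext _ _ (sgM_commutator u v w z hL₁ hL₂ a1 a2 a3 a4 c d)

theorem os_rank1_norm (S : Set (Subgroup ↥(Cfsg.isometryGroup F (Cfsg.quadFormPlus n F))))
    (hS : ∀ p r : Fin n ⊕ Fin n → F, SLine p r → LinearIndependent F ![p, r] →
      osTG n F p r ∈ S)
    (u v w z : Fin n ⊕ Fin n → F) (hL₁ : SLine u v) (hLI₁ : LinearIndependent F ![u, v])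
    (hL₂ : SLine w z) (hLI₂ : LinearIndependent F ![w, z])
    (a1 : sw w ⬝ᵥ u = 0) (a2 : sw z ⬝ᵥ u = 0) (a3 : sw w ⬝ᵥ v = 0) (a4 : sw z ⬝ᵥ v = 1) :
    ⁅osTG n F u v, osTG n F w z⁆ = ⊥ ∨
      Cfsg.RootCommutatorCase S (osTG n F u v) (osTG n F w z) := by
  have b1 : sw u ⬝ᵥ w = 0 := by
    rw [sw_dot_comm]
    exact a1
  have b2 : sw u ⬝ᵥ z = 0 := by
    rw [sw_dot_comm]
    exact a2
  have hL₃ : SLine w u := ⟨hL₂.1, hL₁.1, b1⟩
  have hcomm := os_comm_elt u v w z hL₁ hL₂ hL₃ a1 a2 a3 a4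
  by_cases hLI₃ : LinearIndependent F ![w, u]
  · right
    have hAC : osTG n F u v ≤ Subgroup.centralizer (osTG n F w u : Set _) :=
      Subgroup.commutator_eq_bot_iff_le_centralizer.1
        (osTG_comm u v w u hL₁ hLI₁ hL₃ hLI₃ a1 hL₁.pp a3 hL₁.rp)
    have hBC : osTG n F w z ≤ Subgroup.centralizer (osTG n F w u : Set _) :=
      Subgroup.commutator_eq_bot_iff_le_centralizer.1
        (osTG_comm w z w u hL₂ hLI₂ hL₃ hLI₃ hL₂.pp b1 hL₂.rp b2)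
    have hEq : ⁅osTG n F u v, osTG n F w z⁆ = osTG n F w u := by
      apply le_antisymm
      · rw [Subgroup.commutator_le]
        intro a ha b hb
        obtain ⟨c, hc⟩ := (mem_osTG_iff' u v hL₁ hLI₁ a).1 ha
        obtain ⟨d, hd⟩ := (mem_osTG_iff' w z hL₂ hLI₂ b).1 hb
        have hae : a = sgO u v hL₁ c := os_ext _ _ hc
        have hbe : b = sgO w z hL₂ d := os_ext _ _ hd
        show a * b * a⁻¹ * b⁻¹ ∈ osTG n F w u
        rw [hae, hbe, hcomm]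
        exact sgO_mem w u hL₃ _
      · intro x hx
        obtain ⟨e, he⟩ := (mem_osTG_iff' w u hL₃ hLI₃ x).1 hx
        have hxe : x = sgO w u hL₃ e := os_ext _ _ he
        have h1 := Subgroup.commutator_mem_commutator (sgO_mem u v hL₁ 1) (sgO_mem w z hL₂ e)
        have h2 : sgO u v hL₁ 1 * sgO w z hL₂ e * (sgO u v hL₁ 1)⁻¹ * (sgO w z hL₂ e)⁻¹
            ∈ ⁅osTG n F u v, osTG n F w z⁆ := h1
        rw [hcomm, one_mul] at h2
        rw [hxe]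
        exact h2
    refine ⟨?_, ?_, ?_, ?_⟩
    · rw [hEq]
      exact hS w u hL₃ hLI₃
    · intro c hc x hx
      rw [hEq] at hc
      have hx' : x ∈ Subgroup.centralizer (osTG n F w u : Set _) := (sup_le hAC hBC) hx
      exact (Subgroup.mem_centralizer_iff.1 hx') c hc
    · intro a ha ha1
      obtain ⟨c, hc⟩ := (mem_osTG_iff' u v hL₁ hLI₁ a).1 ha
      have hae : a = sgO u v hL₁ c := os_ext _ _ hc
      have hc0 : c ≠ 0 := by
        intro h0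
        apply ha1
        rw [hae, h0, sgO_zero]
      rw [hEq]
      apply le_antisymm
      · rw [Subgroup.closure_le]
        rintro _ ⟨b, hb, rfl⟩
        obtain ⟨d, hd⟩ := (mem_osTG_iff' w z hL₂ hLI₂ b).1 hb
        have hbe : b = sgO w z hL₂ d := os_ext _ _ hd
        show a * b * a⁻¹ * b⁻¹ ∈ osTG n F w u
        rw [hae, hbe, hcomm]
        exact sgO_mem w u hL₃ _
      · intro x hx
        obtain ⟨e, he⟩ := (mem_osTG_iff' w u hL₃ hLI₃ x).1 hx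
        have hxe : x = sgO w u hL₃ e := os_ext _ _ he
        apply Subgroup.subset_closure
        refine ⟨sgO w z hL₂ (e / c), sgO_mem w z hL₂ _, ?_⟩
        show a * sgO w z hL₂ (e / c) * a⁻¹ * (sgO w z hL₂ (e / c))⁻¹ = x
        rw [hae, hcomm, hxe, mul_div_cancel₀ e hc0]
    · intro b hb hb1
      obtain ⟨d, hd⟩ := (mem_osTG_iff' w z hL₂ hLI₂ b).1 hb
      have hbe : b = sgO w z hL₂ d := os_ext _ _ hd
      have hd0 : d ≠ 0 := by
        intro h0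
        apply hb1
        rw [hbe, h0, sgO_zero]
      rw [hEq]
      apply le_antisymm
      · rw [Subgroup.closure_le]
        rintro _ ⟨a, ha, rfl⟩
        obtain ⟨c, hc⟩ := (mem_osTG_iff' u v hL₁ hLI₁ a).1 ha
        have hae : a = sgO u v hL₁ c := os_ext _ _ hc
        show a * b * a⁻¹ * b⁻¹ ∈ osTG n F w u
        rw [hae, hbe, hcomm]
        exact sgO_mem w u hL₃ _
      · intro x hx
        obtain ⟨e, he⟩ := (mem_osTG_iff' w u hL₃ hLI₃ x).1 hx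
        have hxe : x = sgO w u hL₃ e := os_ext _ _ he
        apply Subgroup.subset_closure
        refine ⟨sgO u v hL₁ (e / d), sgO_mem u v hL₁ _, ?_⟩
        show sgO u v hL₁ (e / d) * b * (sgO u v hL₁ (e / d))⁻¹ * b⁻¹ = x
        rw [hbe, hcomm, hxe, div_mul_cancel₀ e hd0]
  · left
    rw [Subgroup.commutator_eq_bot_iff_le_centralizer]
    intro a ha
    obtain ⟨c, hc⟩ := (mem_osTG_iff' u v hL₁ hLI₁ a).1 ha
    have hae : a = sgO u v hL₁ c := os_ext _ _ hc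
    rw [Subgroup.mem_centralizer_iff]
    intro b hb
    obtain ⟨d, hd⟩ := (mem_osTG_iff' w z hL₂ hLI₂ b).1 hb
    have hbe : b = sgO w z hL₂ d := os_ext _ _ hd
    have h1 : a * b * a⁻¹ * b⁻¹ = 1 := by
      rw [hae, hbe, hcomm]
      exact os_ext _ _ (sgM_dep w u hLI₃ (li_left_ne hLI₁) _)
    have h2 : a * b = (a * b * a⁻¹ * b⁻¹) * (b * a) := by group
    rw [h2, h1, one_mul]

end

section

variable {F : Type u} [Field F] {n : ℕ}

theorem os_rank1_not_cond (u v w z : Fin n ⊕ Fin n → F) (hL₁ : SLine u v)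
    (hLI₁ : LinearIndependent F ![u, v]) (hL₂ : SLine w z)
    (hLI₂ : LinearIndependent F ![w, z])
    (a1 : sw w ⬝ᵥ u = 0) (a2 : sw z ⬝ᵥ u = 0) (a3 : sw w ⬝ᵥ v = 0) (a4 : sw z ⬝ᵥ v = 1) :
    ¬ Cfsg.RankOneCondition (osTG n F u v) (osTG n F w z) := by
  intro hcond
  have b1 : sw u ⬝ᵥ w = 0 := by
    rw [sw_dot_comm]
    exact a1
  have b2 : sw u ⬝ᵥ z = 0 := by
    rw [sw_dot_comm]
    exact a2
  have b3 : sw v ⬝ᵥ w = 0 := by
    rw [sw_dot_comm]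
    exact a3
  have b4 : sw v ⬝ᵥ z = 1 := by
    rw [sw_dot_comm]
    exact a4
  have ha1 : sgO u v hL₁ 1 ≠ 1 := fun h => one_ne_zero ((sgM_eq_one_iff u v hLI₁ 1).1
    (congrArg (fun g : ↥(Cfsg.isometryGroup F (Cfsg.quadFormPlus n F)) => g.1.1) h))
  obtain ⟨b, hb, -, hconj⟩ := hcond _ (sgO_mem u v hL₁ 1) ha1
  obtain ⟨d, hd⟩ := (mem_osTG_iff' w z hL₂ hLI₂ b).1 hb
  have hbe : b = sgO w z hL₂ d := os_ext _ _ hd
  have hmem : b⁻¹ * sgO u v hL₁ 1 * (b⁻¹)⁻¹ ∈ Cfsg.conjBy (osTG n F u v) b⁻¹ :=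
    Subgroup.mem_map.2 ⟨_, sgO_mem u v hL₁ 1, rfl⟩
  rw [hconj, osTG_conj, mem_osTG_iff] at hmem
  have e1 : ((sgO u v hL₁ 1)⁻¹).1.1 *ᵥ w = w := by
    rw [sgO_inv, sgO_val, sgM_mulVec, b3, b1]
    simp
  have e2 : ((sgO u v hL₁ 1)⁻¹).1.1 *ᵥ z = z - u := by
    rw [sgO_inv, sgO_val, sgM_mulVec, b4, b2]
    ext i
    simp only [Pi.add_apply, Pi.sub_apply, Pi.smul_apply, smul_eq_mul]
    ring
  rw [e1, e2] at hmem
  have h1 := hmem (z - u) (by rw [dotProduct_sub, hL₂.rp, a1, sub_zero])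
    (by rw [sw_sub, sub_dotProduct, dotProduct_sub, dotProduct_sub, hL₂.rr, a2, b2, hL₁.pp]; simp)
  have h2 : (b⁻¹ * sgO u v hL₁ 1 * (b⁻¹)⁻¹).1.1 *ᵥ (z - u)
      = (b⁻¹).1.1 *ᵥ ((sgO u v hL₁ 1).1.1 *ᵥ (b.1.1 *ᵥ (z - u))) := by
    rw [inv_inv, Matrix.mulVec_mulVec, Matrix.mulVec_mulVec]
    rfl
  rw [h2, hbe, sgO_inv, sgO_val, sgO_val, sgO_val] at h1
  have f1 : sgM w z d *ᵥ (z - u) = z - u := by
    rw [sgM_mulVec, dotProduct_sub, dotProduct_sub, hL₂.rr, a2, hL₂.rp, a1]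
    simp
  have f2 : sgM u v 1 *ᵥ (z - u) = z := by
    rw [sgM_mulVec, dotProduct_sub, dotProduct_sub, b4, hL₁.pr, b2, hL₁.pp]
    simp
  have f3 : sgM w z (-d) *ᵥ z = z := by
    rw [sgM_mulVec, hL₂.rr, hL₂.rp]
    simp
  rw [f1, f2, f3] at h1
  exact li_left_ne hLI₁ (sub_eq_self.1 h1.symm)

theorem os_rank1 (S : Set (Subgroup ↥(Cfsg.isometryGroup F (Cfsg.quadFormPlus n F))))
    (hS : ∀ p r : Fin n ⊕ Fin n → F, SLine p r → LinearIndependent F ![p, r] →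
      osTG n F p r ∈ S)
    (p r p₂ r₂ : Fin n ⊕ Fin n → F) (hL₁ : SLine p r) (hLI₁ : LinearIndependent F ![p, r])
    (hL₂ : SLine p₂ r₂) (hLI₂ : LinearIndependent F ![p₂, r₂])
    (hdet : (sw p₂ ⬝ᵥ p) * (sw r₂ ⬝ᵥ r) - (sw r₂ ⬝ᵥ p) * (sw p₂ ⬝ᵥ r) = 0)
    (h22 : sw r₂ ⬝ᵥ r ≠ 0) :
    ¬ Cfsg.RankOneCondition (osTG n F p r) (osTG n F p₂ r₂) ∧
      (⁅osTG n F p r, osTG n F p₂ r₂⁆ = ⊥ ∨
        Cfsg.RootCommutatorCase S (osTG n F p r) (osTG n F p₂ r₂)) := by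
  obtain ⟨m11, h11⟩ : ∃ m, m = sw p₂ ⬝ᵥ p := ⟨_, rfl⟩
  obtain ⟨m12, h12⟩ : ∃ m, m = sw r₂ ⬝ᵥ p := ⟨_, rfl⟩
  obtain ⟨m21, h21⟩ : ∃ m, m = sw p₂ ⬝ᵥ r := ⟨_, rfl⟩
  obtain ⟨m22, h22'⟩ : ∃ m, m = sw r₂ ⬝ᵥ r := ⟨_, rfl⟩
  rw [← h11, ← h12, ← h21, ← h22'] at hdet
  rw [← h22'] at h22
  have hm : m22 * m22⁻¹ = 1 := mul_inv_cancel₀ h22
  have hd1 : (1 : F) * (1 / m22) - (-m12 / m22) * 0 ≠ 0 := by
    rw [mul_zero, sub_zero, one_mul]
    exact one_div_ne_zero h22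
  have hd2 : (1 : F) * 1 - (-m21 / m22) * 0 ≠ 0 := by
    rw [mul_zero, sub_zero, one_mul]
    exact one_ne_zero
  have hsp1 := osTG_span p r ((1 : F) • p + (-m12 / m22) • r) ((0 : F) • p + (1 / m22) • r)
    1 (-m12 / m22) 0 (1 / m22) hd1 rfl rfl
  have hsp2 := osTG_span p₂ r₂ ((1 : F) • p₂ + (-m21 / m22) • r₂) ((0 : F) • p₂ + (1 : F) • r₂)
    1 (-m21 / m22) 0 1 hd2 rfl rfl
  rw [← hsp1, ← hsp2]
  have A1 : sw ((1 : F) • p₂ + (-m21 / m22) • r₂) ⬝ᵥ ((1 : F) • p + (-m12 / m22) • r) = 0 := by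
    simp only [sw_add, sw_smul, add_dotProduct, smul_dotProduct, dotProduct_add, dotProduct_smul,
      ← h11, ← h12, ← h21, ← h22', smul_eq_mul]
    linear_combination m22⁻¹ * hdet + (m12 * m21 * m22⁻¹ - m11) * hm
  have A2 : sw ((0 : F) • p₂ + (1 : F) • r₂) ⬝ᵥ ((1 : F) • p + (-m12 / m22) • r) = 0 := by
    simp only [sw_add, sw_smul, add_dotProduct, smul_dotProduct, dotProduct_add, dotProduct_smul,
      ← h11, ← h12, ← h21, ← h22', smul_eq_mul]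
    linear_combination (-m12) * hm
  have A3 : sw ((1 : F) • p₂ + (-m21 / m22) • r₂) ⬝ᵥ ((0 : F) • p + (1 / m22) • r) = 0 := by
    simp only [sw_add, sw_smul, add_dotProduct, smul_dotProduct, dotProduct_add, dotProduct_smul,
      ← h11, ← h12, ← h21, ← h22', smul_eq_mul]
    linear_combination (-m21 * m22⁻¹) * hm
  have A4 : sw ((0 : F) • p₂ + (1 : F) • r₂) ⬝ᵥ ((0 : F) • p + (1 / m22) • r) = 1 := by
    simp only [sw_add, sw_smul, add_dotProduct, smul_dotProduct, dotProduct_add, dotProduct_smul,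
      ← h11, ← h12, ← h21, ← h22', smul_eq_mul]
    linear_combination hm
  exact ⟨os_rank1_not_cond _ _ _ _ (hL₁.span _ _ _ _) (li_span hLI₁ _ _ _ _ hd1)
      (hL₂.span _ _ _ _) (li_span hLI₂ _ _ _ _ hd2) A1 A2 A3 A4,
    os_rank1_norm S hS _ _ _ _ (hL₁.span _ _ _ _) (li_span hLI₁ _ _ _ _ hd1)
      (hL₂.span _ _ _ _) (li_span hLI₂ _ _ _ _ hd2) A1 A2 A3 A4⟩

theorem os_pair (S : Set (Subgroup ↥(Cfsg.isometryGroup F (Cfsg.quadFormPlus n F))))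
    (hS : ∀ p r : Fin n ⊕ Fin n → F, SLine p r → LinearIndependent F ![p, r] →
      osTG n F p r ∈ S)
    (p r p₂ r₂ : Fin n ⊕ Fin n → F) (hL₁ : SLine p r) (hLI₁ : LinearIndependent F ![p, r])
    (hL₂ : SLine p₂ r₂) (hLI₂ : LinearIndependent F ![p₂, r₂]) :
    ((sw p₂ ⬝ᵥ p) * (sw r₂ ⬝ᵥ r) - (sw r₂ ⬝ᵥ p) * (sw p₂ ⬝ᵥ r) ≠ 0 ∧
        Cfsg.IsRankOnePair (osTG n F p r) (osTG n F p₂ r₂)) ∨
      ⁅osTG n F p r, osTG n F p₂ r₂⁆ = ⊥ ∨
      (¬ Cfsg.RankOneCondition (osTG n F p r) (osTG n F p₂ r₂) ∧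
        Cfsg.RootCommutatorCase S (osTG n F p r) (osTG n F p₂ r₂)) := by
  have fin : ∀ {A B : Subgroup ↥(Cfsg.isometryGroup F (Cfsg.quadFormPlus n F))},
      (¬ Cfsg.RankOneCondition A B ∧ (⁅A, B⁆ = ⊥ ∨ Cfsg.RootCommutatorCase S A B)) →
      (⁅A, B⁆ = ⊥ ∨ (¬ Cfsg.RankOneCondition A B ∧ Cfsg.RootCommutatorCase S A B)) := by
    rintro A B ⟨h1, h2 | h2⟩
    · exact Or.inl h2
    · exact Or.inr ⟨h1, h2⟩
  by_cases hdet : (sw p₂ ⬝ᵥ p) * (sw r₂ ⬝ᵥ r) - (sw r₂ ⬝ᵥ p) * (sw p₂ ⬝ᵥ r) = 0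
  · right
    by_cases h22 : sw r₂ ⬝ᵥ r = 0
    · by_cases h21 : sw p₂ ⬝ᵥ r = 0
      · by_cases h12 : sw r₂ ⬝ᵥ p = 0
        · by_cases h11 : sw p₂ ⬝ᵥ p = 0
          · exact Or.inl (osTG_comm p r p₂ r₂ hL₁ hLI₁ hL₂ hLI₂ h11 h12 h21 h22)
          · have h := os_rank1 S hS r p r₂ p₂ hL₁.symm (li_swap hLI₁) hL₂.symm (li_swap hLI₂)
              (by linear_combination hdet) h11
            rw [osTG_swap p r, osTG_swap p₂ r₂] at h
            exact fin h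
        · have h := os_rank1 S hS r p p₂ r₂ hL₁.symm (li_swap hLI₁) hL₂ hLI₂
            (by linear_combination (-1 : F) * hdet) h12
          rw [osTG_swap p r] at h
          exact fin h
      · have h := os_rank1 S hS p r r₂ p₂ hL₁ hLI₁ hL₂.symm (li_swap hLI₂)
          (by linear_combination (-1 : F) * hdet) h21
        rw [osTG_swap p₂ r₂] at h
        exact fin h
    · exact fin (os_rank1 S hS p r p₂ r₂ hL₁ hLI₁ hL₂ hLI₂ hdet h22)
  · exact Or.inl ⟨hdet, os_rankOne p r p₂ r₂ hL₁ hLI₁ hL₂ hLI₂ hdet⟩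

theorem mem_osRootSet (A : Subgroup ↥(Cfsg.isometryGroup F (Cfsg.quadFormPlus n F))) :
    A ∈ osRootSet n F ↔ ∃ p r : Fin n ⊕ Fin n → F, SLine p r ∧ LinearIndependent F ![p, r] ∧
      A = osTG n F p r := by
  constructor
  · rintro ⟨p, r, hLI, hp, hr, hpr, rfl⟩
    refine ⟨p, r, ⟨hp, hr, ?_⟩, hLI, rfl⟩
    rw [quad_add, hp, hr, zero_add, zero_add] at hpr
    exact hpr
  · rintro ⟨p, r, ⟨hp, hr, hpr⟩, hLI, rfl⟩
    refine ⟨p, r, hLI, hp, hr, ?_, rfl⟩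
    rw [quad_add, hp, hr, hpr]
    simp

theorem os_conj_mem (A : Subgroup ↥(Cfsg.isometryGroup F (Cfsg.quadFormPlus n F)))
    (hA : A ∈ osRootSet n F) (g : ↥(Cfsg.isometryGroup F (Cfsg.quadFormPlus n F))) :
    Cfsg.conjBy A g ∈ osRootSet n F := by
  rw [mem_osRootSet] at hA ⊢
  obtain ⟨p, r, hL, hLI, rfl⟩ := hA
  have hiso : ∀ u, Cfsg.quadFormPlus n F (g.1.1 *ᵥ u) = Cfsg.quadFormPlus n F u :=
    fun u => g.2 u u
  refine ⟨g.1.1 *ᵥ p, g.1.1 *ᵥ r, ⟨by rw [hiso]; exact hL.1, by rw [hiso]; exact hL.2.1, ?_⟩,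
    ?_, osTG_conj g p r⟩
  · have h1 := hiso (p + r)
    rw [Matrix.mulVec_add, quad_add, quad_add, hiso p, hiso r] at h1
    have h2 := hL.2.2
    linear_combination h1 + h2
  · rw [LinearIndependent.pair_iff] at hLI ⊢
    intro s t hst
    apply hLI
    have h1 : g.1.1 *ᵥ (s • p + t • r) = 0 := by
      rw [Matrix.mulVec_add, Matrix.mulVec_smul, Matrix.mulVec_smul]
      exact hst
    have h2 : (g⁻¹).1.1 *ᵥ (g.1.1 *ᵥ (s • p + t • r)) = s • p + t • r := by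
      rw [Matrix.mulVec_mulVec, inv_mul_val, Matrix.one_mulVec]
    rw [h1, Matrix.mulVec_zero] at h2
    exact h2.symm

end

section transfer3

variable {G : Type*} [Group G]

theorem sub_commCase (H : Subgroup G) (S : Set (Subgroup G)) (A B : Subgroup G) (hA : A ≤ H)
    (hB : B ≤ H) (h : Cfsg.RootCommutatorCase S A B) :
    Cfsg.RootCommutatorCase ((fun A : Subgroup G => A.subgroupOf H) '' S) (A.subgroupOf H)
      (B.subgroupOf H) := by
  obtain ⟨hmem, hcent, hcl1, hcl2⟩ := h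
  have hAB : ⁅A, B⁆ ≤ H := Subgroup.commutator_le.2 (fun a ha b hb =>
    H.mul_mem (H.mul_mem (H.mul_mem (hA ha) (hB hb)) (H.inv_mem (hA ha))) (H.inv_mem (hB hb)))
  have hcomm : ⁅A.subgroupOf H, B.subgroupOf H⁆ = (⁅A, B⁆).subgroupOf H := by
    apply sub_inj
    rw [Subgroup.map_commutator, sub_map H A hA, sub_map H B hB, sub_map H _ hAB]
  have hsup : ∀ x : ↥H, x ∈ A.subgroupOf H ⊔ B.subgroupOf H → x.1 ∈ A ⊔ B := by
    intro x hx
    have h1 : (A.subgroupOf H ⊔ B.subgroupOf H).map H.subtype = A ⊔ B := by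
      rw [Subgroup.map_sup, sub_map H A hA, sub_map H B hB]
    rw [← h1]
    exact Subgroup.mem_map.2 ⟨x, hx, rfl⟩
  refine ⟨?_, ?_, ?_, ?_⟩
  · rw [hcomm]
    exact Set.mem_image_of_mem _ hmem
  · intro c hc x hx
    rw [hcomm] at hc
    exact Subtype.ext (hcent c.1 (Subgroup.mem_subgroupOf.1 hc) x.1 (hsup x hx))
  · intro a ha ha1
    rw [hcomm]
    apply sub_inj
    rw [sub_map H _ hAB, MonoidHom.map_closure,
      ← hcl1 a.1 (Subgroup.mem_subgroupOf.1 ha) (fun h0 => ha1 (Subtype.ext h0))]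
    congr 1
    ext y
    constructor
    · rintro ⟨_, ⟨b, hb, rfl⟩, rfl⟩
      exact ⟨b.1, Subgroup.mem_subgroupOf.1 hb, rfl⟩
    · rintro ⟨b, hb, rfl⟩
      exact ⟨_, ⟨⟨b, hB hb⟩, Subgroup.mem_subgroupOf.2 hb, rfl⟩, rfl⟩
  · intro b hb hb1
    rw [hcomm]
    apply sub_inj
    rw [sub_map H _ hAB, MonoidHom.map_closure,
      ← hcl2 b.1 (Subgroup.mem_subgroupOf.1 hb) (fun h0 => hb1 (Subtype.ext h0))]
    congr 1
    ext y
    constructor
    · rintro ⟨_, ⟨a, ha, rfl⟩, rfl⟩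
      exact ⟨a.1, Subgroup.mem_subgroupOf.1 ha, rfl⟩
    · rintro ⟨a, ha, rfl⟩
      exact ⟨_, ⟨⟨a, hA ha⟩, Subgroup.mem_subgroupOf.2 ha, rfl⟩, rfl⟩

theorem sub_rankOneCond_back (H A B : Subgroup G) (hA : A ≤ H) (hB : B ≤ H)
    (h : Cfsg.RankOneCondition (A.subgroupOf H) (B.subgroupOf H)) :
    Cfsg.RankOneCondition A B := by
  intro a ha ha1
  obtain ⟨b, hb, hb1, hconj⟩ := h ⟨a, hA ha⟩ (Subgroup.mem_subgroupOf.2 ha)
    (fun h0 => ha1 (congrArg Subtype.val h0))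
  refine ⟨b.1, Subgroup.mem_subgroupOf.1 hb, fun h0 => hb1 (Subtype.ext h0), ?_⟩
  have h1 := congrArg (Subgroup.map H.subtype) hconj
  rw [map_conjBy, map_conjBy, sub_map H A hA, sub_map H B hB] at h1
  exact h1

end transfer3

section

variable {F : Type u} [Field F] {n : ℕ}

/-- The subgroup generated by the Siegel transvection groups. -/
def osH (n : ℕ) (F : Type u) [Field F] :
    Subgroup ↥(Cfsg.isometryGroup F (Cfsg.quadFormPlus n F)) :=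
  ⨆ B ∈ osRootSet n F, B

/-- The Siegel transvection groups inside the subgroup they generate. -/
def osRootSet' (n : ℕ) (F : Type u) [Field F] : Set (Subgroup ↥(osH n F)) :=
  (fun A : Subgroup ↥(Cfsg.isometryGroup F (Cfsg.quadFormPlus n F)) =>
    A.subgroupOf (osH n F)) '' osRootSet n F

theorem os_le (A : Subgroup ↥(Cfsg.isometryGroup F (Cfsg.quadFormPlus n F)))
    (hA : A ∈ osRootSet n F) : A ≤ osH n F := le_biSup (fun A => A) hA

theorem os'_isRootSet : Cfsg.IsRootSubgroupSet (osRootSet' n F) where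
  commutative := by
    rintro _ ⟨A, hA, rfl⟩
    obtain ⟨p, r, hL, hLI, rfl⟩ := (mem_osRootSet A).1 hA
    exact sub_isComm _ _ (osTG_isComm p r hL hLI)
  ne_bot := by
    rintro _ ⟨A, hA, rfl⟩
    have hle := os_le A hA
    obtain ⟨p, r, hL, hLI, rfl⟩ := (mem_osRootSet A).1 hA
    exact sub_ne_bot _ _ hle (osTG_ne_bot p r hL hLI)
  generates := sub_gen (osRootSet n F) (osH n F) rfl
  conj_mem := by
    rintro _ ⟨A, hA, rfl⟩ g
    exact ⟨Cfsg.conjBy A g.1, os_conj_mem A hA g.1, (sub_conj _ A (os_le A hA) g).symm⟩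
  pair := by
    rintro _ ⟨A, hA, rfl⟩ _ ⟨B, hB, rfl⟩
    have hAle := os_le A hA
    have hBle := os_le B hB
    obtain ⟨p, r, hL₁, hLI₁, rfl⟩ := (mem_osRootSet A).1 hA
    obtain ⟨p₂, r₂, hL₂, hLI₂, rfl⟩ := (mem_osRootSet B).1 hB
    rcases os_pair (osRootSet n F)
      (fun p r hL hLI => (mem_osRootSet _).2 ⟨p, r, hL, hLI, rfl⟩) p r p₂ r₂ hL₁ hLI₁ hL₂ hLI₂
      with ⟨-, h⟩ | h | ⟨-, h⟩
    · exact Or.inr (Or.inl (sub_rankOne _ _ _ hAle hBle (osTG_isComm p r hL₁ hLI₁)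
        (osTG_isComm p₂ r₂ hL₂ hLI₂) h))
    · exact Or.inl (sub_comm _ _ _ h)
    · exact Or.inr (Or.inr (sub_commCase _ _ _ _ hAle hBle h))

end

section psl2

variable {F : Type u} [Field F] {n : ℕ}

theorem rk1_mulVec {ι : Type*} [Fintype ι] [DecidableEq ι] (u φ : ι → F) (c : F) (w : ι → F) :
    (1 + c • vecMulVec u φ) *ᵥ w = w + (c * (φ ⬝ᵥ w)) • u := by
  rw [Matrix.add_mulVec, Matrix.one_mulVec, Matrix.smul_mulVec, Matrix.vecMulVec_mulVec,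
    op_smul_eq_smul, smul_smul]

theorem sg_split (p r : Fin n ⊕ Fin n → F) (hL : SLine p r) (c : F) :
    (1 + c • vecMulVec p (sw r)) * (1 + c • vecMulVec r (-sw p)) = sgM p r c := by
  apply Matrix.mulVec_injective
  funext x
  rw [← Matrix.mulVec_mulVec]
  simp only [rk1_mulVec, sgM_mulVec, dotProduct_add, dotProduct_smul, neg_dotProduct,
    dotProduct_neg, hL.pp, hL.rr, hL.rp, hL.pr, smul_eq_mul, mul_zero, add_zero, neg_zero]
  ext i
  simp only [Pi.add_apply, Pi.sub_apply, Pi.smul_apply, Pi.neg_apply, smul_eq_mul]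
  ring

theorem sg_split' (p r : Fin n ⊕ Fin n → F) (hL : SLine p r) (d : F) :
    (1 + d • vecMulVec r (sw p)) * (1 + d • vecMulVec (-p) (sw r)) = sgM p r (-d) := by
  apply Matrix.mulVec_injective
  funext x
  rw [← Matrix.mulVec_mulVec]
  simp only [rk1_mulVec, sgM_mulVec, dotProduct_add, dotProduct_smul, neg_dotProduct,
    dotProduct_neg, hL.pp, hL.rr, hL.rp, hL.pr, smul_eq_mul, mul_zero, add_zero, neg_zero]
  ext i
  simp only [Pi.add_apply, Pi.sub_apply, Pi.smul_apply, Pi.neg_apply, smul_eq_mul]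
  ring

theorem qMat_mul_pMat_zero {ι : Type*} [Fintype ι] [DecidableEq ι] (α β u v : ι → F)
    (h00 : α ⬝ᵥ u = 0) (h01 : α ⬝ᵥ v = 0) (h10 : β ⬝ᵥ u = 0) (h11 : β ⬝ᵥ v = 0) :
    qMat α β * pMat u v = 0 := by
  have h : qMat α β * pMat u v = !![α ⬝ᵥ u, α ⬝ᵥ v; β ⬝ᵥ u, β ⬝ᵥ v] := by
    ext i j
    fin_cases i <;> fin_cases j <;> simp [Matrix.mul_apply, qMat, pMat, dotProduct]
  rw [h, h00, h01, h10, h11]
  ext i j
  fin_cases i <;> fin_cases j <;> simp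

theorem rk_comm {ι : Type*} [Fintype ι] [DecidableEq ι] (P₁ P₂ : Matrix ι (Fin 2) F)
    (Q₁ Q₂ : Matrix (Fin 2) ι F) (h12 : Q₁ * P₂ = 0) (h21 : Q₂ * P₁ = 0)
    (X Y : Matrix (Fin 2) (Fin 2) F) :
    (1 + P₁ * X * Q₁) * (1 + P₂ * Y * Q₂) = (1 + P₂ * Y * Q₂) * (1 + P₁ * X * Q₁) := by
  have e1 : P₁ * X * Q₁ * (P₂ * Y * Q₂) = 0 := by
    calc P₁ * X * Q₁ * (P₂ * Y * Q₂) = P₁ * X * (Q₁ * P₂) * Y * Q₂ := by
          simp only [Matrix.mul_assoc]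
      _ = 0 := by rw [h12, Matrix.mul_zero, Matrix.zero_mul, Matrix.zero_mul]
  have e2 : P₂ * Y * Q₂ * (P₁ * X * Q₁) = 0 := by
    calc P₂ * Y * Q₂ * (P₁ * X * Q₁) = P₂ * Y * (Q₂ * P₁) * X * Q₁ := by
          simp only [Matrix.mul_assoc]
      _ = 0 := by rw [h21, Matrix.mul_zero, Matrix.zero_mul, Matrix.zero_mul]
  have l : (1 + P₁ * X * Q₁) * (1 + P₂ * Y * Q₂) = 1 + P₁ * X * Q₁ + P₂ * Y * Q₂ := by
    rw [Matrix.add_mul, Matrix.mul_add, Matrix.mul_add, e1, Matrix.one_mul, Matrix.mul_one,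
      Matrix.one_mul, add_zero]
    abel
  have l' : (1 + P₂ * Y * Q₂) * (1 + P₁ * X * Q₁) = 1 + P₁ * X * Q₁ + P₂ * Y * Q₂ := by
    rw [Matrix.add_mul, Matrix.mul_add, Matrix.mul_add, e2, Matrix.one_mul, Matrix.mul_one,
      Matrix.one_mul, add_zero]
  rw [l, l']

theorem rk_prod_inj {ι : Type*} [Fintype ι] [DecidableEq ι] (P₁ P₂ : Matrix ι (Fin 2) F)
    (Q₁ Q₂ : Matrix (Fin 2) ι F) (h11 : Q₁ * P₁ = 1) (h12 : Q₁ * P₂ = 0)
    (X : Matrix (Fin 2) (Fin 2) F)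
    (h : (1 + P₁ * X * Q₁) * (1 + P₂ * X * Q₂) = 1) : X = 0 := by
  have e1 : P₁ * X * Q₁ * (P₂ * X * Q₂) = 0 := by
    calc P₁ * X * Q₁ * (P₂ * X * Q₂) = P₁ * X * (Q₁ * P₂) * X * Q₂ := by
          simp only [Matrix.mul_assoc]
      _ = 0 := by rw [h12, Matrix.mul_zero, Matrix.zero_mul, Matrix.zero_mul]
  have h3 : (1 + P₁ * X * Q₁) * (1 + P₂ * X * Q₂) = 1 + (P₁ * X * Q₁ + P₂ * X * Q₂) := by
    rw [Matrix.add_mul, Matrix.mul_add, Matrix.mul_add, e1, Matrix.one_mul, Matrix.mul_one,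
      Matrix.one_mul, add_zero]
    abel
  rw [h3] at h
  have h2 : P₁ * X * Q₁ + P₂ * X * Q₂ = 0 := add_left_cancel (h.trans (add_zero 1).symm)
  have h4 : Q₁ * (P₁ * X * Q₁ + P₂ * X * Q₂) * P₁ = X := by
    calc Q₁ * (P₁ * X * Q₁ + P₂ * X * Q₂) * P₁
        = (Q₁ * P₁) * X * (Q₁ * P₁) + (Q₁ * P₂) * X * Q₂ * P₁ := by
          simp only [Matrix.mul_add, Matrix.add_mul, Matrix.mul_assoc]
      _ = X := by
          rw [h11, h12, Matrix.one_mul, Matrix.mul_one, Matrix.zero_mul, Matrix.zero_mul,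
            Matrix.zero_mul, add_zero]
  rw [← h4, h2, Matrix.mul_zero, Matrix.zero_mul]

theorem mul_swap_mid {G : Type*} [Group G] (x y z w : G) (h : y * z = z * y) :
    x * y * (z * w) = x * z * (y * w) := by
  calc x * y * (z * w) = x * (y * z) * w := by simp only [mul_assoc]
    _ = x * (z * y) * w := by rw [h]
    _ = x * z * (y * w) := by simp only [mul_assoc]

theorem os_psl2_norm (p r p' r' : Fin n ⊕ Fin n → F) (hL₁ : SLine p r)
    (hLI₁ : LinearIndependent F ![p, r]) (hL₂ : SLine p' r')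
    (hLI₂ : LinearIndependent F ![p', r'])
    (m11 : sw p' ⬝ᵥ p = 1) (m12 : sw r' ⬝ᵥ p = 0) (m21 : sw p' ⬝ᵥ r = 0)
    (m22 : sw r' ⬝ᵥ r = 1) :
    Cfsg.IsPSL2PairOver F (osTG n F p r) (osTG n F p' r') := by
  have g11 : sw p ⬝ᵥ p' = 1 := by
    rw [sw_dot_comm]
    exact m11
  have g12 : sw p ⬝ᵥ r' = 0 := by
    rw [sw_dot_comm]
    exact m12
  have g21 : sw r ⬝ᵥ p' = 0 := by
    rw [sw_dot_comm]
    exact m21
  have g22 : sw r ⬝ᵥ r' = 1 := by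
    rw [sw_dot_comm]
    exact m22
  have hQP₁ : qMat (sw p') (sw r) * pMat p r' = 1 :=
    qMat_mul_pMat _ _ _ _ m11 hL₂.rp hL₁.pr g22
  have hQP₂ : qMat (sw r') (-sw p) * pMat r (-p') = 1 := by
    apply qMat_mul_pMat
    · exact m22
    · rw [dotProduct_neg, hL₂.pr, neg_zero]
    · rw [neg_dotProduct, hL₁.rp, neg_zero]
    · rw [neg_dotProduct, dotProduct_neg, neg_neg, g11]
  have h12 : qMat (sw p') (sw r) * pMat r (-p') = 0 := by
    apply qMat_mul_pMat_zero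
    · exact m21
    · rw [dotProduct_neg, hL₂.pp, neg_zero]
    · exact hL₁.rr
    · rw [dotProduct_neg, g21, neg_zero]
  have h21 : qMat (sw r') (-sw p) * pMat p r' = 0 := by
    apply qMat_mul_pMat_zero
    · exact m12
    · exact hL₂.rr
    · rw [neg_dotProduct, hL₁.pp, neg_zero]
    · rw [neg_dotProduct, g12, neg_zero]
  obtain ⟨R₁, hR₁⟩ : ∃ R₁ : SpecialLinearGroup (Fin 2) F →*
      SpecialLinearGroup (Fin n ⊕ Fin n) F,
      ∀ g, (R₁ g).1 = 1 + pMat p r' * (g.1 - 1) * qMat (sw p') (sw r) :=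
    ⟨rkEmb _ _ hQP₁, fun g => rfl⟩
  obtain ⟨R₂, hR₂⟩ : ∃ R₂ : SpecialLinearGroup (Fin 2) F →*
      SpecialLinearGroup (Fin n ⊕ Fin n) F,
      ∀ g, (R₂ g).1 = 1 + pMat r (-p') * (g.1 - 1) * qMat (sw r') (-sw p) :=
    ⟨rkEmb _ _ hQP₂, fun g => rfl⟩
  have hc : ∀ a b, R₁ b * R₂ a = R₂ a * R₁ b := by
    intro a b
    apply Subtype.ext
    show (R₁ b).1 * (R₂ a).1 = (R₂ a).1 * (R₁ b).1
    rw [hR₁, hR₂]
    exact rk_comm _ _ _ _ h12 h21 _ _
  obtain ⟨Φ₀, hΦ₀⟩ : ∃ Φ₀ : SpecialLinearGroup (Fin 2) F →*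
      SpecialLinearGroup (Fin n ⊕ Fin n) F, ∀ g, Φ₀ g = R₁ g * R₂ g := by
    refine ⟨MonoidHom.mk' (fun g => R₁ g * R₂ g) ?_, fun g => rfl⟩
    intro a b
    show R₁ (a * b) * R₂ (a * b) = R₁ a * R₂ a * (R₁ b * R₂ b)
    rw [map_mul, map_mul]
    exact mul_swap_mid _ _ _ _ (hc a b)
  have hval : ∀ g, (Φ₀ g).1 = (1 + pMat p r' * (g.1 - 1) * qMat (sw p') (sw r)) *
      (1 + pMat r (-p') * (g.1 - 1) * qMat (sw r') (-sw p)) := by
    intro g
    rw [hΦ₀ g]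
    show (R₁ g).1 * (R₂ g).1 = _
    rw [hR₁ g, hR₂ g]
  have hinj : ∀ g : SpecialLinearGroup (Fin 2) F, Φ₀ g = 1 → g = 1 := by
    intro g hg
    have h1 : (Φ₀ g).1 = 1 := congrArg Subtype.val hg
    rw [hval g] at h1
    have h2 := rk_prod_inj (pMat p r') (pMat r (-p')) (qMat (sw p') (sw r))
      (qMat (sw r') (-sw p)) hQP₁ h12 (g.1 - 1) h1
    exact Subtype.ext (sub_eq_zero.1 h2)
  have hU : ∀ g : SpecialLinearGroup (Fin 2) F, g.1 1 0 = 0 → g.1 0 0 = 1 → g.1 1 1 = 1 →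
      (Φ₀ g).1 = sgM p r (g.1 0 1) := by
    intro g h10 h00 h11
    rw [hval, rk_upper p r' (sw p') (sw r) g.1 h10 h00 h11,
      rk_upper r (-p') (sw r') (-sw p) g.1 h10 h00 h11]
    exact sg_split p r hL₁ (g.1 0 1)
  have hLw : ∀ g : SpecialLinearGroup (Fin 2) F, g.1 0 1 = 0 → g.1 0 0 = 1 → g.1 1 1 = 1 →
      (Φ₀ g).1 = sgM p' r' (-(g.1 1 0)) := by
    intro g h01 h00 h11
    rw [hval, rk_lower p r' (sw p') (sw r) g.1 h01 h00 h11,
      rk_lower r (-p') (sw r') (-sw p) g.1 h01 h00 h11]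
    exact sg_split' p' r' hL₂ (g.1 1 0)
  have hiso : ∀ g, SpecialLinearGroup.toGL (Φ₀ g) ∈
      Cfsg.isometryGroup F (Cfsg.quadFormPlus n F) := by
    have htop : (Cfsg.isometryGroup F (Cfsg.quadFormPlus n F)).comap
        ((SpecialLinearGroup.toGL).comp Φ₀) = ⊤ := by
      rw [eq_top_iff, ← sl2_gen F, sup_le_iff]
      constructor
      · unfold Cfsg.upperUnipotentSL2
        rw [Subgroup.closure_le]
        rintro g ⟨h10, h00, h11⟩
        show SpecialLinearGroup.toGL (Φ₀ g) ∈ Cfsg.isometryGroup F (Cfsg.quadFormPlus n F)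
        have h9 : SpecialLinearGroup.toGL (Φ₀ g) = (sgO p r hL₁ (g.1 0 1)).1 :=
          Units.ext (hU g h10 h00 h11)
        rw [h9]
        exact (sgO p r hL₁ (g.1 0 1)).2
      · unfold Cfsg.lowerUnipotentSL2
        rw [Subgroup.closure_le]
        rintro g ⟨h01, h00, h11⟩
        show SpecialLinearGroup.toGL (Φ₀ g) ∈ Cfsg.isometryGroup F (Cfsg.quadFormPlus n F)
        have h9 : SpecialLinearGroup.toGL (Φ₀ g) = (sgO p' r' hL₂ (-(g.1 1 0))).1 :=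
          Units.ext (hLw g h01 h00 h11)
        rw [h9]
        exact (sgO p' r' hL₂ (-(g.1 1 0))).2
    intro g
    have h9 : g ∈ (Cfsg.isometryGroup F (Cfsg.quadFormPlus n F)).comap
        ((SpecialLinearGroup.toGL).comp Φ₀) := by
      rw [htop]
      trivial
    exact h9
  obtain ⟨Φ, hΦ⟩ : ∃ Φ : SpecialLinearGroup (Fin 2) F →*
      ↥(Cfsg.isometryGroup F (Cfsg.quadFormPlus n F)), ∀ g, (Φ g).1.1 = (Φ₀ g).1 :=
    ⟨((SpecialLinearGroup.toGL).comp Φ₀).codRestrict _ hiso, fun g => rfl⟩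
  have hUmap : (Cfsg.upperUnipotentSL2 F).map Φ = osTG n F p r := by
    apply le_antisymm
    · rw [Subgroup.map_le_iff_le_comap]
      unfold Cfsg.upperUnipotentSL2
      rw [Subgroup.closure_le]
      rintro g ⟨h10, h00, h11⟩
      show Φ g ∈ osTG n F p r
      exact (mem_osTG_iff' p r hL₁ hLI₁ _).2 ⟨g.1 0 1, (hΦ g).trans (hU g h10 h00 h11)⟩
    · intro x hx
      obtain ⟨c, hc'⟩ := (mem_osTG_iff' p r hL₁ hLI₁ x).1 hx
      refine ⟨⟨!![1, c; 0, 1], by simp [Matrix.det_fin_two]⟩,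
        Subgroup.subset_closure ⟨rfl, rfl, rfl⟩, ?_⟩
      apply os_ext
      rw [hc']
      refine (hΦ _).trans ?_
      exact hU _ rfl rfl rfl
  have hLmap : (Cfsg.lowerUnipotentSL2 F).map Φ = osTG n F p' r' := by
    apply le_antisymm
    · rw [Subgroup.map_le_iff_le_comap]
      unfold Cfsg.lowerUnipotentSL2
      rw [Subgroup.closure_le]
      rintro g ⟨h01, h00, h11⟩
      show Φ g ∈ osTG n F p' r'
      exact (mem_osTG_iff' p' r' hL₂ hLI₂ _).2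
        ⟨-(g.1 1 0), (hΦ g).trans (hLw g h01 h00 h11)⟩
    · intro x hx
      obtain ⟨c, hc'⟩ := (mem_osTG_iff' p' r' hL₂ hLI₂ x).1 hx
      refine ⟨⟨!![1, 0; -c, 1], by simp [Matrix.det_fin_two]⟩,
        Subgroup.subset_closure ⟨rfl, rfl, rfl⟩, ?_⟩
      apply os_ext
      rw [hc']
      refine (hΦ _).trans ?_
      refine (hLw _ rfl rfl rfl).trans ?_
      show sgM p' r' (- -c) = sgM p' r' c
      rw [neg_neg]
  refine ⟨Φ, ?_, ?_, hUmap, hLmap⟩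
  · rw [MonoidHom.range_eq_map, ← sl2_gen F, Subgroup.map_sup, hUmap, hLmap]
  · intro x hx
    have h1 : Φ x = 1 := MonoidHom.mem_ker.1 hx
    have h2 : Φ₀ x = 1 := by
      apply Subtype.ext
      rw [← hΦ x, h1]
      rfl
    rw [hinj x h2]
    exact Subgroup.one_mem _

theorem os_psl2 (p r p₂ r₂ : Fin n ⊕ Fin n → F) (hL₁ : SLine p r)
    (hLI₁ : LinearIndependent F ![p, r]) (hL₂ : SLine p₂ r₂)
    (hLI₂ : LinearIndependent F ![p₂, r₂])
    (hdet : (sw p₂ ⬝ᵥ p) * (sw r₂ ⬝ᵥ r) - (sw r₂ ⬝ᵥ p) * (sw p₂ ⬝ᵥ r) ≠ 0) :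
    Cfsg.IsPSL2PairOver F (osTG n F p r) (osTG n F p₂ r₂) := by
  obtain ⟨m11, h11⟩ : ∃ m, m = sw p₂ ⬝ᵥ p := ⟨_, rfl⟩
  obtain ⟨m12, h12⟩ : ∃ m, m = sw r₂ ⬝ᵥ p := ⟨_, rfl⟩
  obtain ⟨m21, h21⟩ : ∃ m, m = sw p₂ ⬝ᵥ r := ⟨_, rfl⟩
  obtain ⟨m22, h22⟩ : ∃ m, m = sw r₂ ⬝ᵥ r := ⟨_, rfl⟩
  rw [← h11, ← h12, ← h21, ← h22] at hdet
  obtain ⟨Δ, hΔ⟩ : ∃ Δ, Δ = m11 * m22 - m12 * m21 := ⟨_, rfl⟩
  have hΔ0 : Δ ≠ 0 := by
    rw [hΔ]
    exact hdet
  have hd : m22 / Δ * (m11 / Δ) - -m21 / Δ * (-m12 / Δ) ≠ 0 := by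
    have e : m22 / Δ * (m11 / Δ) - -m21 / Δ * (-m12 / Δ) = Δ⁻¹ := by
      first
        | (field_simp; first | ring1 | (rw [hΔ]; ring1))
        | field_simp
    rw [e]
    exact inv_ne_zero hΔ0
  have hsp := osTG_span p₂ r₂ ((m22 / Δ) • p₂ + (-m21 / Δ) • r₂)
    ((-m12 / Δ) • p₂ + (m11 / Δ) • r₂) (m22 / Δ) (-m21 / Δ) (-m12 / Δ) (m11 / Δ) hd rfl rfl
  rw [← hsp]
  refine os_psl2_norm p r _ _ hL₁ hLI₁ (hL₂.span _ _ _ _) (li_span hLI₂ _ _ _ _ hd)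
    ?_ ?_ ?_ ?_
  all_goals
    rw [sw_add, sw_smul, sw_smul, add_dotProduct, smul_dotProduct, smul_dotProduct]
    simp only [← h11, ← h12, ← h21, ← h22, smul_eq_mul]
    first
      | (field_simp; first | ring1 | (rw [hΔ]; ring1))
      | field_simp

theorem os'_kroot : Cfsg.IsKRootSubgroupSet F (osRootSet' n F) := by
  refine ⟨os'_isRootSet, ?_⟩
  rintro _ ⟨A, hA, rfl⟩ _ ⟨B, hB, rfl⟩ hpair
  have hAle := os_le A hA
  have hBle := os_le B hB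
  obtain ⟨p, r, hL₁, hLI₁, rfl⟩ := (mem_osRootSet A).1 hA
  obtain ⟨p₂, r₂, hL₂, hLI₂, rfl⟩ := (mem_osRootSet B).1 hB
  rcases os_pair (osRootSet n F)
    (fun p r hL hLI => (mem_osRootSet _).2 ⟨p, r, hL, hLI, rfl⟩) p r p₂ r₂ hL₁ hLI₁ hL₂ hLI₂
    with ⟨hdet, -⟩ | h | ⟨h, -⟩
  · exact sub_psl2 F _ _ _ hAle hBle (os_psl2 p r p₂ r₂ hL₁ hLI₁ hL₂ hLI₂ hdet)
  · exact (rankOne_not_comm _ _ hpair (sub_ne_bot _ _ hAle (osTG_ne_bot p r hL₁ hLI₁))
      (sub_comm _ _ _ h)).elim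
  · exact (h (sub_rankOneCond_back _ _ _ hAle hBle hpair.cond_left)).elim

end psl2

section conn

variable {F : Type u} [Field F] {n : ℕ}

/-- The class of an index. -/
def cl (i : Fin n ⊕ Fin n) : Fin n := Sum.elim id id i

theorem cl_swap (i : Fin n ⊕ Fin n) : cl (Sum.swap i) = cl i := by
  cases i <;> rfl

theorem cl_ne {i j : Fin n ⊕ Fin n} (h : cl i ≠ cl j) :
    i ≠ j ∧ Sum.swap i ≠ j ∧ i ≠ Sum.swap j := by
  refine ⟨fun e => h (congrArg cl e), fun e => h ?_, fun e => h ?_⟩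
  · rw [← e, cl_swap]
  · rw [e, cl_swap]

/-- Basis vector. -/
def eP (i : Fin n ⊕ Fin n) : Fin n ⊕ Fin n → F := Pi.single i 1

/-- Basis vector at the swapped index. -/
def stdP (i : Fin n ⊕ Fin n) : Fin n ⊕ Fin n → F := eP (Sum.swap i)

theorem eP_apply (i k : Fin n ⊕ Fin n) :
    (eP i : Fin n ⊕ Fin n → F) k = if k = i then 1 else 0 := by
  rw [eP, Pi.single_apply]

theorem sw_eP (w : Fin n ⊕ Fin n → F) (i : Fin n ⊕ Fin n) :
    sw w ⬝ᵥ eP i = w (Sum.swap i) := by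
  have h := sw_single w (Sum.swap i) 1
  rw [Sum.swap_swap, mul_one] at h
  exact h

theorem sw_std (w : Fin n ⊕ Fin n → F) (i : Fin n ⊕ Fin n) : sw w ⬝ᵥ stdP i = w i := by
  rw [stdP, eP, sw_single, mul_one]

theorem sw_std' (w : Fin n ⊕ Fin n → F) (i : Fin n ⊕ Fin n) : sw (stdP i) ⬝ᵥ w = w i := by
  rw [sw_dot_comm, sw_std]

theorem quad_eP (i : Fin n ⊕ Fin n) : Cfsg.quadFormPlus n F (eP i) = 0 := by
  unfold Cfsg.quadFormPlus eP
  apply Finset.sum_eq_zero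
  intro a _
  rcases i with b | b <;> simp [Pi.single_apply]

theorem supp_contra (p r : Fin n ⊕ Fin n → F) (a : Fin n)
    (hz : ∀ b, b ≠ a → p (Sum.inl b) = 0 ∧ p (Sum.inr b) = 0 ∧ r (Sum.inl b) = 0 ∧
      r (Sum.inr b) = 0)
    (hQ : Cfsg.quadFormPlus n F p = 0) (hB : sw r ⬝ᵥ p = 0) :
    p (Sum.inl a) * r (Sum.inr a) - p (Sum.inr a) * r (Sum.inl a) = 0 := by
  have h1 : Cfsg.quadFormPlus n F p = p (Sum.inl a) * p (Sum.inr a) := by
    unfold Cfsg.quadFormPlus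
    rw [Finset.sum_eq_single a]
    · intro b _ hb
      rw [(hz b hb).1, zero_mul]
    · intro h
      exact absurd (Finset.mem_univ a) h
  have h2 : sw r ⬝ᵥ p = p (Sum.inl a) * r (Sum.inr a) + r (Sum.inl a) * p (Sum.inr a) := by
    rw [sw_dot, Finset.sum_eq_single a]
    · intro b _ hb
      rw [(hz b hb).1, (hz b hb).2.2.1, zero_mul, zero_mul, add_zero]
    · intro h
      exact absurd (Finset.mem_univ a) h
  rw [h1] at hQ
  rw [h2] at hB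
  have h3 : (p (Sum.inl a) * r (Sum.inr a) - p (Sum.inr a) * r (Sum.inl a)) ^ 2 = 0 := by
    linear_combination (p (Sum.inl a) * r (Sum.inr a) + r (Sum.inl a) * p (Sum.inr a)) * hB
      - 4 * r (Sum.inl a) * r (Sum.inr a) * hQ
  exact (pow_eq_zero_iff (n := 2) (by norm_num)).1 h3

theorem exists_opp (p r : Fin n ⊕ Fin n → F) (hL : SLine p r)
    (hLI : LinearIndependent F ![p, r]) :
    ∃ i j, cl i ≠ cl j ∧ p i * r j - p j * r i ≠ 0 := by
  by_contra hcon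
  push Not at hcon
  obtain ⟨i, j, hμ⟩ := exists_minor p r hLI
  have hcl : cl i = cl j := by
    by_contra h
    exact hμ (hcon i j h)
  have hz' : ∀ k, cl k ≠ cl i → p k = 0 ∧ r k = 0 := by
    intro k hk
    have h1 := hcon i k (Ne.symm hk)
    have h2 := hcon j k (by rw [← hcl]; exact Ne.symm hk)
    constructor
    · have h3 : (p i * r j - p j * r i) * p k = 0 := by
        linear_combination p j * h1 - p i * h2
      exact (mul_eq_zero.1 h3).resolve_left hμ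
    · have h3 : (p i * r j - p j * r i) * r k = 0 := by
        linear_combination r j * h1 - r i * h2
      exact (mul_eq_zero.1 h3).resolve_left hμ
  have hsupp := supp_contra p r (cl i)
    (fun b hb => ⟨(hz' (Sum.inl b) hb).1, (hz' (Sum.inr b) hb).1, (hz' (Sum.inl b) hb).2,
      (hz' (Sum.inr b) hb).2⟩) hL.1 hL.2.2
  rcases i with i | i <;> rcases j with j | j <;>
  (have hij : i = j := hcl
   subst hij
   have hsupp' : p (Sum.inl i) * r (Sum.inr i) - p (Sum.inr i) * r (Sum.inl i) = 0 := hsupp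
   first
     | exact hμ (by linear_combination hsupp')
     | exact hμ (by linear_combination -hsupp')
     | exact hμ (by ring1))

theorem os_adj (p r p₂ r₂ : Fin n ⊕ Fin n → F) (hL₁ : SLine p r)
    (hLI₁ : LinearIndependent F ![p, r]) (hL₂ : SLine p₂ r₂)
    (hLI₂ : LinearIndependent F ![p₂, r₂])
    (hdet : (sw p₂ ⬝ᵥ p) * (sw r₂ ⬝ᵥ r) - (sw r₂ ⬝ᵥ p) * (sw p₂ ⬝ᵥ r) ≠ 0) :
    Cfsg.FAdj (osRootSet n F) (osTG n F p r) (osTG n F p₂ r₂) :=
  ⟨(mem_osRootSet _).2 ⟨p, r, hL₁, hLI₁, rfl⟩, (mem_osRootSet _).2 ⟨p₂, r₂, hL₂, hLI₂, rfl⟩,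
    os_rankOne p r p₂ r₂ hL₁ hLI₁ hL₂ hLI₂ hdet⟩

theorem std_line (i j : Fin n ⊕ Fin n) (h : cl i ≠ cl j) :
    SLine (stdP i : Fin n ⊕ Fin n → F) (stdP j) := by
  refine ⟨quad_eP _, quad_eP _, ?_⟩
  rw [sw_std, stdP, eP_apply, if_neg (cl_ne h).2.2]

theorem std_li (i j : Fin n ⊕ Fin n) (h : i ≠ j) :
    LinearIndependent F ![(stdP i : Fin n ⊕ Fin n → F), stdP j] := by
  have e : Sum.swap i ≠ Sum.swap j := by
    intro e
    have h3 := congrArg Sum.swap e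
    rw [Sum.swap_swap, Sum.swap_swap] at h3
    exact h h3
  rw [LinearIndependent.pair_iff]
  intro s t hst
  have h1 := congrFun hst (Sum.swap i)
  have h2 := congrFun hst (Sum.swap j)
  simp [stdP, eP_apply, e, Ne.symm e, h, Ne.symm h] at h1 h2
  exact ⟨h1, h2⟩

theorem os_std_adj (p r : Fin n ⊕ Fin n → F) (hL : SLine p r)
    (hLI : LinearIndependent F ![p, r]) (i j : Fin n ⊕ Fin n) (hij : cl i ≠ cl j)
    (hμ : p i * r j - p j * r i ≠ 0) :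
    Cfsg.FAdj (osRootSet n F) (osTG n F p r) (osTG n F (stdP i) (stdP j)) ∧
      Cfsg.FAdj (osRootSet n F) (osTG n F (stdP i) (stdP j)) (osTG n F p r) := by
  constructor
  · apply os_adj p r _ _ hL hLI (std_line i j hij) (std_li i j (cl_ne hij).1)
    rw [sw_std', sw_std', sw_std', sw_std']
    exact hμ
  · apply os_adj _ _ p r (std_line i j hij) (std_li i j (cl_ne hij).1) hL hLI
    rw [sw_std, sw_std, sw_std, sw_std]
    intro h
    exact hμ (by linear_combination h)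

theorem std_step (i j k : Fin n ⊕ Fin n) (hij : cl i ≠ cl j) (hik : cl i ≠ cl k)
    (hjk : cl j ≠ cl k) :
    Relation.ReflTransGen (Cfsg.FAdj (osRootSet n F)) (osTG n F (stdP i) (stdP j))
      (osTG n F (stdP i) (stdP k)) := by
  obtain ⟨a1, a2, a3⟩ := cl_ne hij
  obtain ⟨b1, b2, b3⟩ := cl_ne hik
  obtain ⟨c1, c2, c3⟩ := cl_ne hjk
  have hL : SLine (eP i : Fin n ⊕ Fin n → F) (eP j + eP k) := by
    refine ⟨quad_eP i, ?_, ?_⟩
    · rw [quad_add, quad_eP, quad_eP, sw_eP, eP_apply, if_neg c2, add_zero, add_zero]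
    · rw [sw_eP, Pi.add_apply, eP_apply, eP_apply, if_neg a2, if_neg b2, add_zero]
  have hLI : LinearIndependent F ![(eP i : Fin n ⊕ Fin n → F), eP j + eP k] := by
    rw [LinearIndependent.pair_iff]
    intro s t hst
    have h1 := congrFun hst i
    have h2 := congrFun hst j
    simp [eP_apply, a1, b1, c1, Ne.symm a1] at h1 h2
    exact ⟨h1, h2⟩
  have m1 : (eP i : Fin n ⊕ Fin n → F) i * (eP j + eP k : Fin n ⊕ Fin n → F) j
      - (eP i : Fin n ⊕ Fin n → F) j * (eP j + eP k : Fin n ⊕ Fin n → F) i ≠ 0 := by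
    simp [eP_apply, a1, b1, c1, Ne.symm a1]
  have m2 : (eP i : Fin n ⊕ Fin n → F) i * (eP j + eP k : Fin n ⊕ Fin n → F) k
      - (eP i : Fin n ⊕ Fin n → F) k * (eP j + eP k : Fin n ⊕ Fin n → F) i ≠ 0 := by
    simp [eP_apply, a1, b1, c1, Ne.symm a1, Ne.symm b1, Ne.symm c1]
  have s1 := (os_std_adj (eP i) (eP j + eP k) hL hLI i j hij m1).2
  have s2 := (os_std_adj (eP i) (eP j + eP k) hL hLI i k hik m2).1
  exact (Relation.ReflTransGen.single s1).trans (Relation.ReflTransGen.single s2)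

theorem exists_third (hn : 3 ≤ n) (a b : Fin n) : ∃ c : Fin n, c ≠ a ∧ c ≠ b := by
  have h : ({a, b} : Finset (Fin n)) ≠ Finset.univ := by
    intro h
    have h1 := congrArg Finset.card h
    have h2 : ({a, b} : Finset (Fin n)).card ≤ 2 := Finset.card_le_two
    rw [Finset.card_univ, Fintype.card_fin] at h1
    omega
  obtain ⟨c, hc⟩ : ∃ c, c ∉ ({a, b} : Finset (Fin n)) := by
    by_contra hcon
    push Not at hcon
    exact h (Finset.eq_univ_iff_forall.2 hcon)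
  simp only [Finset.mem_insert, Finset.mem_singleton, not_or] at hc
  exact ⟨c, hc.1, hc.2⟩

theorem std_fix (hn : 3 ≤ n) (i j k : Fin n ⊕ Fin n) (hij : cl i ≠ cl j) (hik : cl i ≠ cl k) :
    Relation.ReflTransGen (Cfsg.FAdj (osRootSet n F)) (osTG n F (stdP i) (stdP j))
      (osTG n F (stdP i) (stdP k)) := by
  by_cases hjk : cl j = cl k
  · obtain ⟨c, hc1, hc2⟩ := exists_third hn (cl i) (cl j)
    have e1 : cl i ≠ cl (Sum.inl c : Fin n ⊕ Fin n) := Ne.symm hc1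
    have e2 : cl j ≠ cl (Sum.inl c : Fin n ⊕ Fin n) := Ne.symm hc2
    have e3 : cl (Sum.inl c : Fin n ⊕ Fin n) ≠ cl k := by
      rw [← hjk]
      exact hc2
    exact (std_step i j (Sum.inl c) hij e1 e2).trans (std_step i (Sum.inl c) k e1 hik e3)
  · exact std_step i j k hij hik hjk

theorem std_conn (hn : 3 ≤ n) (i j i' j' : Fin n ⊕ Fin n) (hij : cl i ≠ cl j)
    (hij' : cl i' ≠ cl j') :
    Relation.ReflTransGen (Cfsg.FAdj (osRootSet n F)) (osTG n F (stdP i) (stdP j))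
      (osTG n F (stdP i') (stdP j')) := by
  obtain ⟨c, hc1, hc2⟩ := exists_third hn (cl i) (cl i')
  have e1 : cl i ≠ cl (Sum.inl c : Fin n ⊕ Fin n) := Ne.symm hc1
  have e2 : cl (Sum.inl c : Fin n ⊕ Fin n) ≠ cl i := hc1
  have e3 : cl (Sum.inl c : Fin n ⊕ Fin n) ≠ cl i' := hc2
  have e4 : cl i' ≠ cl (Sum.inl c : Fin n ⊕ Fin n) := Ne.symm hc2
  have h1 := std_fix (F := F) hn i j (Sum.inl c) hij e1
  have h2 := std_fix (F := F) hn (Sum.inl c) i i' e2 e3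
  have h3 := std_fix (F := F) hn i' (Sum.inl c) j' e4 hij'
  have w1 : osTG n F (stdP i) (stdP (Sum.inl c)) = osTG n F (stdP (Sum.inl c)) (stdP i) :=
    osTG_swap (stdP (Sum.inl c)) (stdP i)
  have w2 : osTG n F (stdP (Sum.inl c)) (stdP i') = osTG n F (stdP i') (stdP (Sum.inl c)) :=
    osTG_swap (stdP i') (stdP (Sum.inl c))
  rw [w1] at h1
  rw [w2] at h2
  exact (h1.trans h2).trans h3

theorem os_connected (hn : 3 ≤ n) :
    Cfsg.IsConnectedFamily (Cfsg.FAdj (osRootSet n F)) (osRootSet n F) := by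
  intro A hA B hB
  obtain ⟨p, r, hL₁, hLI₁, rfl⟩ := (mem_osRootSet A).1 hA
  obtain ⟨p₂, r₂, hL₂, hLI₂, rfl⟩ := (mem_osRootSet B).1 hB
  obtain ⟨i, j, hij, hμ⟩ := exists_opp p r hL₁ hLI₁
  obtain ⟨i', j', hij', hμ'⟩ := exists_opp p₂ r₂ hL₂ hLI₂
  have a1 := (os_std_adj p r hL₁ hLI₁ i j hij hμ).1
  have a2 := (os_std_adj p₂ r₂ hL₂ hLI₂ i' j' hij' hμ').2
  exact ((Relation.ReflTransGen.single a1).trans (std_conn hn i j i' j' hij hij')).trans
    (Relation.ReflTransGen.single a2)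

theorem os_main (F : Type u) [Field F] (m : ℕ) :
    Cfsg.IsKRootSubgroupSet F (osRootSet' (m + 3) F) ∧
      Cfsg.IsConnectedFamily (Cfsg.FAdj (osRootSet (m + 3) F)) (osRootSet (m + 3) F) :=
  ⟨os'_kroot, os_connected (by omega)⟩

end conn

end Cfsg.Agent.Lib.Helper4.OS
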