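import Mathlib
import Cfsg.Prelude.Def_Classical
import Cfsg.Prelude.Def_ClassicalGeometry
import Cfsg.Agent.Lib.Helper4.SpQuadCharTwo
import Cfsg.Agent.Lib.Helper4.SpTransvGen

set_option autoImplicit false

namespace Cfsg.Agent.Lib.Helper4

open Matrix

section

variable {F : Type*} [Field F] {m : ℕ}

theorem quadFormOdd_eq (v : Unit ⊕ (Fin m ⊕ Fin m) → F) :
    Cfsg.quadFormOdd m F v = v (Sum.inl ()) ^ 2 + stdQuad m F (v ∘ Sum.inr) := by
  rw [stdQuad_apply]; rfl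

theorem mulVec_inr' (M : Matrix (Unit ⊕ (Fin m ⊕ Fin m)) (Unit ⊕ (Fin m ⊕ Fin m)) F)
    (v : Unit ⊕ (Fin m ⊕ Fin m) → F) :
    (M *ᵥ v) ∘ Sum.inr = v (Sum.inl ()) • (fun j => M (Sum.inr j) (Sum.inl ())) +
      M.toBlocks₂₂ *ᵥ (v ∘ Sum.inr) := by
  funext j
  simp only [Function.comp_apply, Matrix.mulVec, dotProduct, Fintype.sum_sum_type, Pi.add_apply,
    Pi.smul_apply, smul_eq_mul, Matrix.toBlocks₂₂, Matrix.of_apply]
  rw [Fintype.sum_unique, mul_comm]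

theorem mulVec_inl' (M : Matrix (Unit ⊕ (Fin m ⊕ Fin m)) (Unit ⊕ (Fin m ⊕ Fin m)) F)
    (v : Unit ⊕ (Fin m ⊕ Fin m) → F) :
    (M *ᵥ v) (Sum.inl ()) = M (Sum.inl ()) (Sum.inl ()) * v (Sum.inl ()) +
      (fun k => M (Sum.inl ()) (Sum.inr k)) ⬝ᵥ (v ∘ Sum.inr) := by
  simp only [Matrix.mulVec, dotProduct, Fintype.sum_sum_type, Function.comp_apply]
  rw [Fintype.sum_unique]

theorem quadFormOdd_polar [CharP F 2] (u v : Unit ⊕ (Fin m ⊕ Fin m) → F) :
    Cfsg.quadFormOdd m F (u + v) = Cfsg.quadFormOdd m F u + Cfsg.quadFormOdd m F v +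
      Cfsg.sympForm m F (u ∘ Sum.inr) (v ∘ Sum.inr) := by
  have h2 : (2 : F) = 0 := CharTwo.two_eq_zero
  rw [quadFormOdd_eq, quadFormOdd_eq, quadFormOdd_eq, ← stdQuad_polar, QuadraticMap.polar]
  have h3 : (u + v) ∘ Sum.inr = u ∘ Sum.inr + v ∘ Sum.inr := rfl
  rw [h3, Pi.add_apply]
  linear_combination (u (Sum.inl ()) * v (Sum.inl ())) * h2

theorem sf_zero_left' (w : Fin m ⊕ Fin m → F) : Cfsg.sympForm m F 0 w = 0 := by
  rw [sympForm_eq_sum]
  simp

theorem odd_iso_symp [CharP F 2] (g : GL (Unit ⊕ (Fin m ⊕ Fin m)) F)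
    (hg : ∀ u, Cfsg.quadFormOdd m F (g.1 *ᵥ u) = Cfsg.quadFormOdd m F u)
    (u v : Unit ⊕ (Fin m ⊕ Fin m) → F) :
    Cfsg.sympForm m F ((g.1 *ᵥ u) ∘ Sum.inr) ((g.1 *ᵥ v) ∘ Sum.inr) =
      Cfsg.sympForm m F (u ∘ Sum.inr) (v ∘ Sum.inr) := by
  have h1 := quadFormOdd_polar (g.1 *ᵥ u) (g.1 *ᵥ v)
  rw [← Matrix.mulVec_add, hg, hg, hg, quadFormOdd_polar u v] at h1
  exact (add_left_cancel h1).symm

theorem odd_iso_col [CharP F 2] (g : GL (Unit ⊕ (Fin m ⊕ Fin m)) F)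
    (hg : ∀ u, Cfsg.quadFormOdd m F (g.1 *ᵥ u) = Cfsg.quadFormOdd m F u) :
    ∀ j, g.1 (Sum.inr j) (Sum.inl ()) = 0 := by
  classical
  have hc : (fun j => g.1 (Sum.inr j) (Sum.inl ())) = 0 := by
    apply sympForm_nondeg
    intro w
    have h1 := odd_iso_symp g hg (Pi.single (Sum.inl ()) 1) ((g⁻¹).1 *ᵥ (Sum.elim 0 w))
    rw [Matrix.mulVec_mulVec, ← Units.val_mul, mul_inv_cancel, Units.val_one, Matrix.one_mulVec,
      Matrix.mulVec_single_one] at h1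
    have h2 : (Pi.single (Sum.inl ()) (1 : F) : Unit ⊕ (Fin m ⊕ Fin m) → F) ∘ Sum.inr = 0 := by
      funext j; simp
    rw [h2, sf_zero_left', Sum.elim_comp_inr] at h1
    exact h1
  intro j
  exact congrFun hc j

theorem odd_iso_a [CharP F 2] (g : GL (Unit ⊕ (Fin m ⊕ Fin m)) F)
    (hg : ∀ u, Cfsg.quadFormOdd m F (g.1 *ᵥ u) = Cfsg.quadFormOdd m F u) :
    g.1 (Sum.inl ()) (Sum.inl ()) = 1 := by
  classical
  have h2' : (2 : F) = 0 := CharTwo.two_eq_zero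
  have h1 := hg (Pi.single (Sum.inl ()) 1)
  rw [quadFormOdd_eq, quadFormOdd_eq, Matrix.mulVec_single_one] at h1
  have h2 : (g.1.col (Sum.inl ())) ∘ Sum.inr = 0 := by
    funext j; exact odd_iso_col g hg j
  have h3 : (Pi.single (Sum.inl ()) (1 : F) : Unit ⊕ (Fin m ⊕ Fin m) → F) ∘ Sum.inr = 0 := by
    funext j; simp
  rw [h2, h3, map_zero, add_zero, add_zero, Pi.single_eq_same, one_pow] at h1
  have h1' : g.1 (Sum.inl ()) (Sum.inl ()) ^ 2 = 1 := h1
  have h4 : (g.1 (Sum.inl ()) (Sum.inl ()) - 1) ^ 2 = 0 := by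
    linear_combination h1' + (1 - g.1 (Sum.inl ()) (Sum.inl ())) * h2'
  exact sub_eq_zero.mp (pow_eq_zero_iff two_ne_zero |>.mp h4)

theorem odd_iso_block [CharP F 2] (g : GL (Unit ⊕ (Fin m ⊕ Fin m)) F)
    (hg : ∀ u, Cfsg.quadFormOdd m F (g.1 *ᵥ u) = Cfsg.quadFormOdd m F u) :
    g.1.toBlocks₂₂ ∈ Matrix.symplecticGroup (Fin m) F := by
  classical
  rw [SymplecticGroup.mem_iff']
  have key : ∀ w w' : Fin m ⊕ Fin m → F,
      Cfsg.sympForm m F (g.1.toBlocks₂₂ *ᵥ w) (g.1.toBlocks₂₂ *ᵥ w') = Cfsg.sympForm m F w w' := by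
    intro w w'
    have h1 := odd_iso_symp g hg (Sum.elim 0 w) (Sum.elim 0 w')
    rw [mulVec_inr', mulVec_inr'] at h1
    simp only [Sum.elim_inl, Pi.zero_apply, zero_smul, zero_add, Sum.elim_comp_inr] at h1
    exact h1
  have e1 : ∀ i, (Pi.single i (1 : F) : Fin m ⊕ Fin m → F) =
      fun r => (1 : Matrix (Fin m ⊕ Fin m) (Fin m ⊕ Fin m) F) r i := by
    intro i; funext r; rw [Matrix.one_apply, Pi.single_apply]
  ext i j
  have h1 := key (Pi.single i 1) (Pi.single j 1)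
  rw [Matrix.mulVec_single_one, Matrix.mulVec_single_one] at h1
  have h2 := sympForm_col g.1.toBlocks₂₂ i j
  have h3 := sympForm_col (1 : Matrix (Fin m ⊕ Fin m) (Fin m ⊕ Fin m) F) i j
  rw [Matrix.transpose_one, Matrix.one_mul, Matrix.mul_one] at h3
  rw [← h2, ← h3, ← e1, ← e1]
  exact h1

theorem sp_char_two_lam [Finite F] [CharP F 2]
    (A : Matrix (Fin m ⊕ Fin m) (Fin m ⊕ Fin m) F)
    (hA : A ∈ Matrix.symplecticGroup (Fin m) F) :
    ∃ b : Fin m ⊕ Fin m → F, ∀ x, (b ⬝ᵥ x) ^ 2 = stdQuad m F (A *ᵥ x) + stdQuad m F x := by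
  classical
  have h2 : (2 : F) = 0 := CharTwo.two_eq_zero
  haveI : ExpChar F 2 := ExpChar.prime Nat.prime_two
  haveI : PerfectRing F 2 := PerfectRing.ofFiniteOfIsReduced 2 F
  set σ := (frobeniusEquiv F 2).symm with hσ
  have hσsq : ∀ a : F, σ a ^ 2 = a := fun a => frobeniusEquiv_symm_pow_p F 2 a
  have hσ2 : ∀ c : F, σ (c ^ 2) = c := fun c => by
    have := (frobeniusEquiv F 2).symm_apply_apply c
    rwa [coe_frobeniusEquiv, frobenius_def] at this
  set g : (Fin m ⊕ Fin m → F) → F := fun x => stdQuad m F (A *ᵥ x) + stdQuad m F x with hg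
  have hgadd : ∀ x y, g (x + y) = g x + g y := by
    intro x y
    have h1 := stdQuad_polar (F := F) (A *ᵥ x) (A *ᵥ y)
    have h3 := stdQuad_polar (F := F) x y
    rw [sympForm_mulVec A hA, ← h3, QuadraticMap.polar, QuadraticMap.polar] at h1
    simp only [hg, Matrix.mulVec_add]
    linear_combination h1 + (stdQuad m F (x + y) - stdQuad m F x - stdQuad m F y) * h2
  have hgsmul : ∀ (c : F) x, g (c • x) = c ^ 2 * g x := by
    intro c x
    simp only [hg, Matrix.mulVec_smul, QuadraticMap.map_smul, smul_eq_mul]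
    ring
  let lam : (Fin m ⊕ Fin m → F) →ₗ[F] F :=
    { toFun := fun x => σ (g x)
      map_add' := fun x y => by rw [hgadd, map_add]
      map_smul' := fun c x => by
        simp only [RingHom.id_apply, smul_eq_mul]
        rw [hgsmul, map_mul, hσ2] }
  have hlam : ∀ x, lam x ^ 2 = g x := fun x => hσsq (g x)
  refine ⟨fun k => lam (Pi.single k 1), fun x => ?_⟩
  have h8 : (fun k => lam (Pi.single k 1)) ⬝ᵥ x = lam x := by
    have h7 := LinearMap.pi_apply_eq_sum_univ lam x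
    rw [h7, dotProduct]
    refine Finset.sum_congr rfl fun i _ => ?_
    rw [smul_eq_mul, mul_comm]
    congr 2
    funext j
    rw [Pi.single_apply]
    simp only [eq_comm]
  rw [h8]
  exact hlam x

theorem odd_char_two_iso [Fintype F] [CharP F 2] (m : ℕ) :
    Nonempty (Cfsg.isometryGroup F (Cfsg.quadFormOdd m F) ≃* Matrix.symplecticGroup (Fin m) F) := by
  classical
  have h2 : (2 : F) = 0 := CharTwo.two_eq_zero
  have hmemO : ∀ g : GL (Unit ⊕ (Fin m ⊕ Fin m)) F,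
      g ∈ Cfsg.isometryGroup F (Cfsg.quadFormOdd m F) ↔
        ∀ u, Cfsg.quadFormOdd m F (g.1 *ᵥ u) = Cfsg.quadFormOdd m F u :=
    fun g => ⟨fun h u => h u u, fun h u _ => h u⟩
  let Φ : ↥(Cfsg.isometryGroup F (Cfsg.quadFormOdd m F)) →* ↥(Matrix.symplecticGroup (Fin m) F) :=
    MonoidHom.mk' (fun g => ⟨g.1.1.toBlocks₂₂, odd_iso_block g.1 ((hmemO g.1).mp g.2)⟩) (by
      intro g h
      apply Subtype.ext
      show (g.1.1 * h.1.1).toBlocks₂₂ = g.1.1.toBlocks₂₂ * h.1.1.toBlocks₂₂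
      ext i j
      simp only [Matrix.toBlocks₂₂, Matrix.of_apply, Matrix.mul_apply, Fintype.sum_sum_type]
      rw [Fintype.sum_unique, odd_iso_col g.1 ((hmemO g.1).mp g.2) i, zero_mul, zero_add])
  have hinj : Function.Injective Φ := by
    intro g h hgh
    have hD : g.1.1.toBlocks₂₂ = h.1.1.toBlocks₂₂ := congrArg Subtype.val hgh
    have hg := (hmemO g.1).mp g.2
    have hh := (hmemO h.1).mp h.2
    apply Subtype.ext
    apply Units.ext
    ext i j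
    rcases i with ⟨⟩ | i
    · rcases j with ⟨⟩ | j
      · rw [odd_iso_a g.1 hg, odd_iso_a h.1 hh]
      · have h1 := hg (Sum.elim 0 (Pi.single j 1))
        have h3 := hh (Sum.elim 0 (Pi.single j 1))
        rw [quadFormOdd_eq, quadFormOdd_eq, mulVec_inr', mulVec_inl'] at h1 h3
        simp only [Sum.elim_inl, Pi.zero_apply, zero_smul, zero_add, mul_zero, Sum.elim_comp_inr,
          dotProduct_single_one] at h1 h3
        rw [hD] at h1
        have h4 : (g.1.1 (Sum.inl ()) (Sum.inr j) - h.1.1 (Sum.inl ()) (Sum.inr j)) ^ 2 = 0 := by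
          linear_combination h1 - h3 + (h.1.1 (Sum.inl ()) (Sum.inr j) ^ 2 -
            g.1.1 (Sum.inl ()) (Sum.inr j) * h.1.1 (Sum.inl ()) (Sum.inr j)) * h2
        exact sub_eq_zero.mp (pow_eq_zero_iff two_ne_zero |>.mp h4)
    · rcases j with ⟨⟩ | j
      · rw [odd_iso_col g.1 hg i, odd_iso_col h.1 hh i]
      · exact congrFun (congrFun hD i) j
  have hsurj : Function.Surjective Φ := by
    intro A
    obtain ⟨b, hb⟩ := sp_char_two_lam A.1 A.2
    obtain ⟨G, hG⟩ : ∃ G : Matrix (Unit ⊕ (Fin m ⊕ Fin m)) (Unit ⊕ (Fin m ⊕ Fin m)) F,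
        G = Matrix.fromBlocks (1 : Matrix Unit Unit F) (Matrix.of fun _ k => b k) 0 A.1 := ⟨_, rfl⟩
    have hGdet : G.det ≠ 0 := by
      rw [hG, Matrix.det_fromBlocks_zero₂₁, Matrix.det_one, one_mul]
      exact (SymplecticGroup.symplectic_det A.2).ne_zero
    have hGO : ∀ u, Cfsg.quadFormOdd m F (G *ᵥ u) = Cfsg.quadFormOdd m F u := by
      intro u
      rw [quadFormOdd_eq, quadFormOdd_eq, mulVec_inr', mulVec_inl']
      have e1 : G.toBlocks₂₂ = A.1 := by rw [hG, Matrix.toBlocks_fromBlocks₂₂]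
      have e2 : (fun j => G (Sum.inr j) (Sum.inl ())) = 0 := by rw [hG]; rfl
      have e3 : G (Sum.inl ()) (Sum.inl ()) = 1 := by rw [hG]; rfl
      have e4 : (fun k => G (Sum.inl ()) (Sum.inr k)) = b := by rw [hG]; rfl
      rw [e1, e2, e3, e4, smul_zero, zero_add, one_mul]
      have h5 := hb (u ∘ Sum.inr)
      linear_combination h5 + (stdQuad m F (A.1 *ᵥ (u ∘ Sum.inr)) +
        u (Sum.inl ()) * (b ⬝ᵥ (u ∘ Sum.inr))) * h2
    refine ⟨⟨Matrix.GeneralLinearGroup.mkOfDetNeZero G hGdet, (hmemO _).mpr hGO⟩, ?_⟩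
    apply Subtype.ext
    show G.toBlocks₂₂ = A.1
    rw [hG, Matrix.toBlocks_fromBlocks₂₂]
  exact ⟨MulEquiv.ofBijective Φ ⟨hinj, hsurj⟩⟩

end

end Cfsg.Agent.Lib.Helper4
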