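import Mathlib

set_option autoImplicit false

namespace Cfsg.Agent.Lib.Helper4

open LinearMap (BilinForm)
open LinearMap.BilinForm

universe u v

section

variable {F : Type u} {V : Type v} [Field F] [AddCommGroup V] [Module F V]

theorem mem_orth_singleton (B : BilinForm F V) (v x : V) :
    x ∈ B.orthogonal (Submodule.span F {v}) ↔ B v x = 0 := by
  rw [mem_orthogonal_iff]
  constructor
  · intro h
    exact h v (Submodule.mem_span_singleton_self v)
  · intro h n hn
    obtain ⟨a, rfl⟩ := Submodule.mem_span_singleton.1 hn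
    rw [map_smul, LinearMap.smul_apply, h, smul_zero]

theorem orthonormal_cons (B : BilinForm F V) (hS : B.IsSymm) (v : V) (hv : B v v = 1) {k : ℕ}
    (b' : Module.Basis (Fin k) F (B.orthogonal (Submodule.span F {v})))
    (hb' : ∀ i j, B (b' i : V) (b' j : V) = if i = j then 1 else 0) :
    ∃ b : Module.Basis (Fin (k + 1)) F V, ∀ i j, B (b i) (b j) = if i = j then 1 else 0 := by
  have hmem : ∀ x ∈ B.orthogonal (Submodule.span F {v}), B v x = 0 := fun x hx =>
    (mem_orth_singleton B v x).1 hx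
  have hli : ∀ (c : F), ∀ x ∈ B.orthogonal (Submodule.span F {v}), c • v + x = 0 → c = 0 := by
    intro c x hx h
    have := congrArg (B v) h
    rw [map_add, map_smul, hv, hmem x hx, map_zero, smul_eq_mul, mul_one, add_zero] at this
    exact this
  have hsp : ∀ z : V, ∃ c : F, z + c • v ∈ B.orthogonal (Submodule.span F {v}) := by
    intro z
    refine ⟨-(B v z), ?_⟩
    rw [mem_orth_singleton, map_add, map_smul, hv, smul_eq_mul, mul_one, add_neg_cancel]
  refine ⟨Module.Basis.mkFinCons v b' hli hsp, ?_⟩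
  intro i j
  rw [Module.Basis.coe_mkFinCons]
  refine Fin.cases ?_ (fun i' => ?_) i <;> refine Fin.cases ?_ (fun j' => ?_) j
  · simp [hv]
  · simp only [Fin.cons_zero, Fin.cons_succ, Function.comp_apply]
    rw [hmem _ (b' j').2, if_neg (Fin.succ_ne_zero j').symm]
  · simp only [Fin.cons_zero, Fin.cons_succ, Function.comp_apply]
    rw [hS.eq, hmem _ (b' i').2, if_neg (Fin.succ_ne_zero i')]
  · simp only [Fin.cons_succ, Function.comp_apply]
    rw [hb']
    simp [Fin.succ_inj]

theorem finrank_orth_singleton [FiniteDimensional F V] (B : BilinForm F V) (v : V)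
    (hv : B v v = 1) {m : ℕ} (hV : Module.finrank F V = m + 1) :
    Module.finrank F (B.orthogonal (Submodule.span F {v})) = m := by
  have hne : B v v ≠ 0 := by rw [hv]; exact one_ne_zero
  have h1 := Submodule.finrank_add_eq_of_isCompl (isCompl_span_singleton_orthogonal hne)
  have hv0 : v ≠ 0 := by
    intro h
    simp [h] at hne
  rw [finrank_span_singleton hv0, hV] at h1
  omega

theorem exists_unit_vec [Finite F] [CharP F 2] (B : BilinForm F V) (v : V) (hv : B v v ≠ 0) :
    ∃ v₁ : V, B v₁ v₁ = 1 := by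
  haveI := Fintype.ofFinite F
  obtain ⟨s, hs⟩ := FiniteField.isSquare_of_char_two (ringChar.eq F 2) (B v v)⁻¹
  refine ⟨s • v, ?_⟩
  simp only [map_smul, LinearMap.smul_apply, smul_eq_mul]
  rw [← mul_assoc, ← hs, inv_mul_cancel₀ hv]

theorem exists_good_vec [Finite F] [CharP F 2] [FiniteDimensional F V] (B : BilinForm F V)
    (hS : B.IsSymm) (hB : B.Nondegenerate) {m : ℕ} (hV : Module.finrank F V = m + 2)
    (v₁ : V) (hv₁ : B v₁ v₁ = 1) :
    ∃ v : V, B v v = 1 ∧ ∃ x ∈ B.orthogonal (Submodule.span F {v}), B x x ≠ 0 := by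
  by_cases h : ∃ x ∈ B.orthogonal (Submodule.span F {v₁}), B x x ≠ 0
  · exact ⟨v₁, hv₁, h⟩
  push Not at h
  have hfr := finrank_orth_singleton B v₁ hv₁ hV
  have hne : B.orthogonal (Submodule.span F {v₁}) ≠ ⊥ := by
    intro hbot
    rw [hbot, finrank_bot] at hfr
    omega
  obtain ⟨w, hw, hw0⟩ := Submodule.exists_mem_ne_zero_of_ne_bot hne
  have hvw : B v₁ w = 0 := (mem_orth_singleton B v₁ w).1 hw
  have hwv : B w v₁ = 0 := by rw [hS.eq]; exact hvw
  obtain ⟨y, hy⟩ : ∃ y, B w y ≠ 0 := by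
    by_contra hcon
    push Not at hcon
    exact hw0 (hB.1 w hcon)
  set w'' : V := y - (B v₁ y) • v₁ with hw''
  have hw''mem : w'' ∈ B.orthogonal (Submodule.span F {v₁}) := by
    rw [mem_orth_singleton, hw'', map_sub, map_smul, hv₁, smul_eq_mul, mul_one, sub_self]
  have hww'' : B w w'' = B w y := by
    rw [hw'', map_sub, map_smul, hwv, smul_zero, sub_zero]
  set w' : V := (B w y)⁻¹ • w'' with hw'
  have hw'mem : w' ∈ B.orthogonal (Submodule.span F {v₁}) := Submodule.smul_mem _ _ hw''mem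
  have hww' : B w w' = 1 := by
    rw [hw', map_smul, hww'', smul_eq_mul, inv_mul_cancel₀ hy]
  have hvw' : B v₁ w' = 0 := (mem_orth_singleton B v₁ w').1 hw'mem
  have hw'v : B w' v₁ = 0 := by rw [hS.eq]; exact hvw'
  refine ⟨v₁ + w, ?_, v₁ + w', ?_, ?_⟩
  · simp only [map_add, LinearMap.add_apply, hv₁, hvw, hwv, h w hw, add_zero]
  · rw [mem_orth_singleton]
    simp only [map_add, LinearMap.add_apply, hv₁, hvw', hwv, hww', add_zero, zero_add]
    exact CharTwo.add_self_eq_zero 1
  · simp only [map_add, LinearMap.add_apply, hv₁, hvw', hw'v, h w' hw'mem, add_zero]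
    exact one_ne_zero

end

theorem char_two_orthonormal_aux (F : Type u) [Field F] [Finite F] [CharP F 2] :
    ∀ (m : ℕ) (V : Type v) [AddCommGroup V] [Module F V] [FiniteDimensional F V],
      Module.finrank F V = m + 1 → ∀ B : BilinForm F V, B.IsSymm → B.Nondegenerate →
      (∃ v : V, B v v ≠ 0) →
      ∃ b : Module.Basis (Fin (m + 1)) F V, ∀ i j, B (b i) (b j) = if i = j then 1 else 0 := by
  intro m
  induction m with
  | zero =>
    intro V _ _ _ hV B hS hB hna
    obtain ⟨v, hv⟩ := hna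
    obtain ⟨v₁, hv₁⟩ := exists_unit_vec B v hv
    have hW := finrank_orth_singleton B v₁ hv₁ hV
    exact orthonormal_cons B hS v₁ hv₁ (Module.finBasisOfFinrankEq F _ hW) (fun i => i.elim0)
  | succ m ih =>
    intro V _ _ _ hV B hS hB hna
    obtain ⟨v, hv⟩ := hna
    obtain ⟨v₀, hv₀⟩ := exists_unit_vec B v hv
    obtain ⟨v₁, hv₁, x, hx, hxx⟩ := exists_good_vec B hS hB hV v₀ hv₀
    have hW := finrank_orth_singleton B v₁ hv₁ hV
    have hne : B v₁ v₁ ≠ 0 := by rw [hv₁]; exact one_ne_zero
    obtain ⟨b', hb'⟩ := ih (B.orthogonal (Submodule.span F {v₁})) hW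
      (B.restrict (B.orthogonal (Submodule.span F {v₁}))) (hS.restrict _)
      (restrict_nondegenerate_orthogonal_spanSingleton B hB hS.isRefl hne) ⟨⟨x, hx⟩, hxx⟩
    exact orthonormal_cons B hS v₁ hv₁ b' (fun i j => hb' i j)

end Cfsg.Agent.Lib.Helper4
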