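import Mathlib
import Cfsg.Prelude.Def_Classical
import Cfsg.Agent.Lib.Helper4.QuadEmb

set_option autoImplicit false

namespace Cfsg.Agent.Lib.Helper4

open QuadraticMap Polynomial

section

variable {F K : Type*} [Field F] [Fintype F] [Field K] [Fintype K] [Algebra F K] {q : ℕ}

theorem mem_range_of_frob_fixed (hF : Fintype.card F = q) (x : K) (hx : x ^ q = x) :
    ∃ s : F, algebraMap F K s = x := by
  classical
  have hq : 1 < q := by
    rw [← hF]
    exact Fintype.one_lt_card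
  have hp0 : (X ^ q - X : K[X]) ≠ 0 := FiniteField.X_pow_card_sub_X_ne_zero K hq
  let S : Finset K := Finset.univ.image (algebraMap F K)
  have hS : S.card = q := by
    rw [Finset.card_image_of_injective _ (algebraMap F K).injective, Finset.card_univ, hF]
  have hsub : S ⊆ (X ^ q - X : K[X]).roots.toFinset := by
    intro y hy
    obtain ⟨s, _, rfl⟩ := Finset.mem_image.1 hy
    rw [Multiset.mem_toFinset, Polynomial.mem_roots hp0]
    have h1 : s ^ q = s := by
      rw [← hF]
      exact FiniteField.pow_card s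
    simp only [Polynomial.IsRoot, Polynomial.eval_sub, Polynomial.eval_pow, Polynomial.eval_X]
    rw [← map_pow, h1, sub_self]
  have hcard : (X ^ q - X : K[X]).roots.toFinset.card ≤ S.card := by
    rw [hS]
    calc (X ^ q - X : K[X]).roots.toFinset.card
        ≤ Multiset.card (X ^ q - X : K[X]).roots := Multiset.toFinset_card_le _
      _ ≤ (X ^ q - X : K[X]).natDegree := Polynomial.card_roots' _
      _ = q := FiniteField.X_pow_card_sub_X_natDegree_eq K hq
  have heq := Finset.eq_of_subset_of_card_le hsub hcard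
  have hxmem : x ∈ (X ^ q - X : K[X]).roots.toFinset := by
    rw [Multiset.mem_toFinset, Polynomial.mem_roots hp0]
    simp only [Polynomial.IsRoot, Polynomial.eval_sub, Polynomial.eval_pow, Polynomial.eval_X]
    rw [hx, sub_self]
  rw [← heq] at hxmem
  obtain ⟨s, _, hs⟩ := Finset.mem_image.1 hxmem
  exact ⟨s, hs⟩

theorem exists_root_of_anisotropic (hF : Fintype.card F = q) (hK : Fintype.card K = q ^ 2)
    (a c : F) (hac : ∀ z₁ z₂ : F, z₁ ^ 2 + a * z₁ * z₂ + c * z₂ ^ 2 = 0 → z₁ = 0 ∧ z₂ = 0) :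
    ∃ θ : K, θ ^ 2 - algebraMap F K a * θ + algebraMap F K c = 0 := by
  classical
  obtain ⟨f, hf⟩ : ∃ f : F[X], f = C 1 * X ^ 2 + C (-a) * X + C c := ⟨_, rfl⟩
  have hdeg : f.natDegree = 2 := by
    rw [hf]
    exact Polynomial.natDegree_quadratic one_ne_zero
  have hnr : ∀ x : F, ¬ f.IsRoot x := by
    intro x hx
    rw [hf] at hx
    simp only [Polynomial.IsRoot, Polynomial.eval_add, Polynomial.eval_mul, Polynomial.eval_C,
      Polynomial.eval_pow, Polynomial.eval_X] at hx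
    have := (hac x (-1) (by linear_combination hx)).2
    simp at this
  have hirr : Irreducible f :=
    Polynomial.irreducible_of_degree_le_three_of_not_isRoot (by rw [hdeg]; decide) hnr
  haveI : Fact (Irreducible f) := ⟨hirr⟩
  have hf0 : f ≠ 0 := hirr.ne_zero
  have h1 : Module.finrank F (AdjoinRoot f) = 2 := by
    rw [(AdjoinRoot.powerBasis hf0).finrank, AdjoinRoot.powerBasis_dim, hdeg]
  have h2 : Module.finrank F K = 2 := finrank_eq_two_of_card_sq hF hK
  obtain ⟨φ⟩ := FiniteField.nonempty_algHom_of_finrank_dvd (F := F) (K := AdjoinRoot f) (L := K)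
    (by rw [h1, h2])
  refine ⟨φ (AdjoinRoot.root f), ?_⟩
  have h3 : Polynomial.aeval (φ (AdjoinRoot.root f)) f = 0 := by
    rw [Polynomial.aeval_algHom_apply, AdjoinRoot.aeval_eq, AdjoinRoot.mk_self, map_zero]
  obtain ⟨θ, hθdef⟩ : ∃ θ, θ = φ (AdjoinRoot.root f) := ⟨_, rfl⟩
  rw [← hθdef] at h3 ⊢
  rw [hf] at h3
  simp only [map_add, map_mul, Polynomial.aeval_C, map_pow, Polynomial.aeval_X, map_one, one_mul,
    map_neg] at h3
  linear_combination h3

theorem root_conj (hF : Fintype.card F = q) (a c : F)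
    (hac : ∀ z₁ z₂ : F, z₁ ^ 2 + a * z₁ * z₂ + c * z₂ ^ 2 = 0 → z₁ = 0 ∧ z₂ = 0)
    (θ : K) (hθ : θ ^ 2 - algebraMap F K a * θ + algebraMap F K c = 0) :
    θ ^ q = algebraMap F K a - θ ∧ θ ^ q ≠ θ := by
  have hne : θ ^ q ≠ θ := by
    intro h
    obtain ⟨s, hs⟩ := mem_range_of_frob_fixed hF θ h
    rw [← hs, ← map_pow, ← map_mul, ← map_sub, ← map_add] at hθ
    have h0 : s ^ 2 - a * s + c = 0 := (algebraMap F K).injective (by rw [hθ, map_zero])
    have := (hac s (-1) (by linear_combination h0)).2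
    simp at this
  refine ⟨?_, hne⟩
  have hfa : ∀ s : F, (algebraMap F K s) ^ q = algebraMap F K s := by
    intro s
    rw [← map_pow, ← hF, FiniteField.pow_card]
  have h1 : (θ ^ q) ^ 2 - algebraMap F K a * θ ^ q + algebraMap F K c = 0 := by
    have h2 := congrArg (fun x => x ^ q) hθ
    have hq0 : q ≠ 0 := by
      rw [← hF]
      exact Fintype.card_ne_zero
    rw [zero_pow hq0, frob_add hF, sub_eq_add_neg, frob_add hF, hfa, neg_pow, mul_pow, hfa,
      ← pow_mul, mul_comm 2 q, pow_mul] at h2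
    have h3 : ((-1 : K)) ^ q = -1 := by
      have := hfa (-1)
      simpa using this
    rw [h3] at h2
    linear_combination h2
  have h4 : (θ ^ q - θ) * (θ ^ q - (algebraMap F K a - θ)) = 0 := by
    linear_combination h1 - hθ
  rcases mul_eq_zero.1 h4 with h5 | h5
  · exact absurd (sub_eq_zero.1 h5) hne
  · exact sub_eq_zero.1 h5

end

end Cfsg.Agent.Lib.Helper4

namespace Cfsg.Agent.Lib.Helper4

open QuadraticMap

theorem ortho_minus_plus_embedding {F K : Type*} [Field F] [Fintype F] [Field K] [Fintype K]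
    {q : ℕ} (hF : Fintype.card F = q) (hK : Fintype.card K = q ^ 2) (k : ℕ) (a c : F)
    (hac : ∀ z₁ z₂ : F, z₁ ^ 2 + a * z₁ * z₂ + c * z₂ ^ 2 = 0 → z₁ = 0 ∧ z₂ = 0) :
    ∃ φ : ↥(Cfsg.isometryGroup F (Cfsg.quadFormMinus k F a c)) →*
      ↥(Cfsg.isometryGroup K (Cfsg.quadFormPlus (k + 1) K)), Function.Injective φ := by
  classical
  obtain ⟨ι⟩ := exists_ringHom_of_card_sq hF hK
  letI : Algebra F K := ι.toAlgebra
  obtain ⟨θ, hθ⟩ := exists_root_of_anisotropic (K := K) hF hK a c hac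
  obtain ⟨hconj, hne⟩ := root_conj hF a c hac θ hθ
  let T : ((Fin k ⊕ Fin k) ⊕ Fin 2 → K) →ₗ[K] (Fin (k + 1) ⊕ Fin (k + 1) → K) :=
    LinearMap.pi (Sum.elim
      (Fin.lastCases (motive := fun _ => (((Fin k ⊕ Fin k) ⊕ Fin 2 → K) →ₗ[K] K))
        (LinearMap.proj (Sum.inr 0) + θ • LinearMap.proj (Sum.inr 1))
        (fun i => LinearMap.proj (Sum.inl (Sum.inl i))))
      (Fin.lastCases (motive := fun _ => (((Fin k ⊕ Fin k) ⊕ Fin 2 → K) →ₗ[K] K))
        (LinearMap.proj (Sum.inr 0) + θ ^ q • LinearMap.proj (Sum.inr 1))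
        (fun i => LinearMap.proj (Sum.inl (Sum.inr i)))))
  have hT1 : ∀ v i, T v (Sum.inl (Fin.castSucc i)) = v (Sum.inl (Sum.inl i)) := by
    intro v i
    simp [T]
  have hT2 : ∀ v, T v (Sum.inl (Fin.last k)) = v (Sum.inr 0) + θ * v (Sum.inr 1) := by
    intro v
    simp [T]
  have hT3 : ∀ v i, T v (Sum.inr (Fin.castSucc i)) = v (Sum.inl (Sum.inr i)) := by
    intro v i
    simp [T]
  have hT4 : ∀ v, T v (Sum.inr (Fin.last k)) = v (Sum.inr 0) + θ ^ q * v (Sum.inr 1) := by
    intro v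
    simp [T]
  have hTQ : ∀ v, Cfsg.quadFormPlus (k + 1) K (T v) =
      Cfsg.quadFormMinus k K (algebraMap F K a) (algebraMap F K c) v := by
    intro v
    unfold Cfsg.quadFormPlus Cfsg.quadFormMinus
    rw [Fin.sum_univ_castSucc, hT2, hT4]
    simp only [hT1, hT3]
    rw [hconj]
    linear_combination (-(v (Sum.inr 1)) ^ 2) * hθ
  have hTinj : Function.Injective T := by
    rw [← LinearMap.ker_eq_bot, LinearMap.ker_eq_bot']
    intro v hv
    have e1 := hT2 v
    have e2 := hT4 v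
    rw [hv] at e1 e2
    simp only [Pi.zero_apply] at e1 e2
    have h1 : v (Sum.inr 1) = 0 := by
      have h3 : (θ ^ q - θ) * v (Sum.inr 1) = 0 := by linear_combination e1 - e2
      exact (mul_eq_zero.1 h3).resolve_left (sub_ne_zero.2 hne)
    have h0 : v (Sum.inr 0) = 0 := by
      rw [h1] at e1
      simpa using e1.symm
    funext j
    rcases j with (j | j) | j
    · rw [← hT1 v j, hv]
      rfl
    · rw [← hT3 v j, hv]
      rfl
    · fin_cases j
      · exact h0
      · exact h1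
  have hdim : Module.finrank K ((Fin k ⊕ Fin k) ⊕ Fin 2 → K) =
      Module.finrank K (Fin (k + 1) ⊕ Fin (k + 1) → K) := by
    rw [Module.finrank_fintype_fun_eq_card, Module.finrank_fintype_fun_eq_card]
    simp
    ring
  let Te := LinearMap.linearEquivOfInjective T hTinj hdim
  let b : Module.Basis (Fin (k + 1) ⊕ Fin (k + 1)) K ((Fin k ⊕ Fin k) ⊕ Fin 2 → K) :=
    Module.Basis.ofEquivFun Te
  have hb : ∀ v, Cfsg.quadFormPlus (k + 1) K (b.equivFun v) =
      Cfsg.quadFormMinus k K (algebraMap F K a) (algebraMap F K c) v := by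
    intro v
    have h1 : b.equivFun v = T v := by
      show (Module.Basis.ofEquivFun Te).equivFun v = T v
      rw [Module.Basis.equivFun_ofEquivFun]
      rfl
    rw [h1, hTQ]
  let ψ : ↥(Cfsg.isometryGroup F (Cfsg.quadFormMinus k F a c)) →*
      (((Fin k ⊕ Fin k) ⊕ Fin 2 → K) →ₗ[K] ((Fin k ⊕ Fin k) ⊕ Fin 2 → K)) :=
    (MonoidHomClass.toMonoidHom (Matrix.toLinAlgEquiv' (R := K)
      (n := (Fin k ⊕ Fin k) ⊕ Fin 2))).comp
      ((ι.mapMatrix.toMonoidHom).comp
        ((Units.coeHom (Matrix ((Fin k ⊕ Fin k) ⊕ Fin 2) ((Fin k ⊕ Fin k) ⊕ Fin 2) F)).comp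
          (Subgroup.subtype _)))
  have hψapp : ∀ g v, ψ g v =
      ((g.1 : Matrix ((Fin k ⊕ Fin k) ⊕ Fin 2) ((Fin k ⊕ Fin k) ⊕ Fin 2) F).map ι).mulVec v := by
    intro g v
    rfl
  refine exists_isometry_embedding b
    (Cfsg.quadFormMinus k K (algebraMap F K a) (algebraMap F K c))
    (Cfsg.quadFormPlus (k + 1) K) hb ψ ?_ ?_
  · intro g h hgh
    apply Subtype.ext
    apply Units.ext
    have h1 : (g.1 : Matrix ((Fin k ⊕ Fin k) ⊕ Fin 2) ((Fin k ⊕ Fin k) ⊕ Fin 2) F).map ι =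
        (h.1 : Matrix ((Fin k ⊕ Fin k) ⊕ Fin 2) ((Fin k ⊕ Fin k) ⊕ Fin 2) F).map ι :=
      (Matrix.toLinAlgEquiv' (R := K) (n := (Fin k ⊕ Fin k) ⊕ Fin 2)).injective hgh
    exact Matrix.map_injective ι.injective h1
  · intro g v
    rw [hψapp, ← minusQuad_apply, ← minusQuad_apply]
    refine isometry_map ι (Cfsg.quadFormMinus k F a c)
      (minusQuad k K (algebraMap F K a) (algebraMap F K c)) ?_ _ ?_ v
    · intro u
      rw [minusQuad_apply]
      unfold Cfsg.quadFormMinus
      simp only [map_add, map_sum, map_mul, map_pow]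
      rfl
    · intro u
      exact g.2 u u

end Cfsg.Agent.Lib.Helper4
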