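import Mathlib

namespace Cfsg.Agent.Lib.Helper4

open Matrix

theorem two_eq_zero_of_card_four {F : Type*} [Field F] [Fintype F] (hF : Fintype.card F = 4) :
    (2 : F) = 0 := by
  obtain ⟨p, hp⟩ := CharP.exists F
  haveI := hp
  haveI : Fact p.Prime := ⟨CharP.char_is_prime F p⟩
  obtain ⟨n, hprime, hcard⟩ := FiniteField.card F p
  rw [hF] at hcard
  have hdvd : p ∣ 2 ^ 2 := by
    have : p ∣ 4 := by rw [hcard]; exact dvd_pow_self p n.ne_zero
    simpa using this
  have hp2 : p = 2 :=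
    (Nat.prime_dvd_prime_iff_eq hprime Nat.prime_two).mp (hprime.dvd_of_dvd_pow hdvd)
  subst hp2
  exact_mod_cast CharP.cast_eq_zero F 2

theorem nilp_sq_zero_normal_form {F : Type*} [Field F]
    (N : Matrix (Fin 3) (Fin 3) F) (hN2 : N * N = 0) (hN : N ≠ 0) :
    ∃ P : Matrix (Fin 3) (Fin 3) F, P.det = 1 ∧ N * P = P * !![0,1,0;0,0,0;0,0,0] := by
  classical
  have hex : ∃ j, N *ᵥ Pi.single j 1 ≠ 0 := by
    by_contra hcon
    push Not at hcon
    apply hN
    ext i j
    have := congrFun (hcon j) i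
    rw [Matrix.mulVec_single_one] at this
    simpa using this
  obtain ⟨j, hu⟩ := hex
  obtain ⟨v, hv⟩ : ∃ v : Fin 3 → F, v = Pi.single j 1 := ⟨_, rfl⟩
  obtain ⟨u, hudef⟩ : ∃ u : Fin 3 → F, u = N *ᵥ v := ⟨_, rfl⟩
  rw [← hv, ← hudef] at hu
  have hNu : N *ᵥ u = 0 := by
    rw [hudef, Matrix.mulVec_mulVec, hN2, Matrix.zero_mulVec]
  have hker : 2 ≤ Module.finrank F (LinearMap.ker N.mulVecLin) := by
    have h1 := LinearMap.finrank_range_add_finrank_ker N.mulVecLin
    rw [Module.finrank_fin_fun] at h1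
    have h2 : LinearMap.range N.mulVecLin ≤ LinearMap.ker N.mulVecLin := by
      rintro _ ⟨z, rfl⟩
      rw [LinearMap.mem_ker]
      simp only [Matrix.mulVecLin_apply]
      rw [Matrix.mulVec_mulVec, hN2, Matrix.zero_mulVec]
    have h3 := Submodule.finrank_mono h2
    omega
  have hspan : Module.finrank F (Submodule.span F {u}) = 1 := finrank_span_singleton hu
  have hle : Submodule.span F {u} ≤ LinearMap.ker N.mulVecLin := by
    rw [Submodule.span_singleton_le_iff_mem, LinearMap.mem_ker]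
    exact hNu
  have hlt : Submodule.span F {u} < LinearMap.ker N.mulVecLin := by
    refine lt_of_le_of_ne hle ?_
    intro heq
    rw [heq] at hspan
    omega
  obtain ⟨w, hwker, hwspan⟩ := SetLike.exists_of_lt hlt
  have hNw : N *ᵥ w = 0 := hwker
  obtain ⟨P, hP⟩ : ∃ P : Matrix (Fin 3) (Fin 3) F,
      P = Matrix.of (fun i k => ![u i, v i, w i] k) := ⟨_, rfl⟩
  have hP0 : ∀ i, P i 0 = u i := fun i => by rw [hP]; rfl
  have hP1 : ∀ i, P i 1 = v i := fun i => by rw [hP]; rfl
  have hP2 : ∀ i, P i 2 = w i := fun i => by rw [hP]; rfl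
  have hPc : ∀ c : Fin 3 → F, P *ᵥ c = c 0 • u + c 1 • v + c 2 • w := by
    intro c
    ext i
    simp only [Matrix.mulVec, dotProduct, Fin.sum_univ_three, hP0, hP1, hP2, Pi.add_apply,
      Pi.smul_apply, smul_eq_mul]
    ring
  have hdet : P.det ≠ 0 := by
    intro h0
    obtain ⟨c, hc, hPc0⟩ := Matrix.exists_mulVec_eq_zero_iff.mpr h0
    rw [hPc] at hPc0
    have h1 : c 1 = 0 := by
      have := congrArg (fun z => N *ᵥ z) hPc0
      simp only [Matrix.mulVec_add, Matrix.mulVec_smul, hNu, hNw, ← hudef, Matrix.mulVec_zero,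
        smul_zero, zero_add, add_zero] at this
      exact (smul_eq_zero.mp this).resolve_right hu
    have h2 : c 2 = 0 := by
      by_contra h2
      apply hwspan
      rw [Submodule.mem_span_singleton]
      refine ⟨-(c 2)⁻¹ * c 0, ?_⟩
      rw [h1, zero_smul, add_zero] at hPc0
      have h3 : c 2 • w = -(c 0 • u) := eq_neg_of_add_eq_zero_right hPc0
      have : w = -(c 2)⁻¹ • (c 0 • u) := by
        rw [neg_smul, ← smul_neg, ← h3, smul_smul, inv_mul_cancel₀ h2, one_smul]
      rw [this, smul_smul]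
    have h0' : c 0 = 0 := by
      rw [h1, h2, zero_smul, zero_smul, add_zero, add_zero] at hPc0
      exact (smul_eq_zero.mp hPc0).resolve_right hu
    apply hc
    ext i
    fin_cases i
    · exact h0'
    · exact h1
    · exact h2
  have hNP : N * P = P * !![0,1,0;0,0,0;0,0,0] := by
    ext i k
    have hl : (N * P) i k = (N *ᵥ fun l => P l k) i := rfl
    rw [hl]
    fin_cases k
    · have : (fun l => P l 0) = u := funext hP0
      simp [this, hNu, Matrix.mul_apply, Fin.sum_univ_three]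
    · have : (fun l => P l 1) = v := funext hP1
      simp [this, ← hudef, Matrix.mul_apply, Fin.sum_univ_three, hP0]
    · have : (fun l => P l 2) = w := funext hP2
      simp [this, hNw, Matrix.mul_apply, Fin.sum_univ_three]
  refine ⟨P * Matrix.diagonal ![1, 1, (P.det)⁻¹], ?_, ?_⟩
  · rw [Matrix.det_mul, Matrix.det_diagonal, Fin.prod_univ_three]
    simp [mul_inv_cancel₀ hdet]
  · rw [← Matrix.mul_assoc, hNP, Matrix.mul_assoc, Matrix.mul_assoc]
    congr 1
    ext i k
    fin_cases i <;> fin_cases k <;> simp [Matrix.mul_apply, Fin.sum_univ_three, Matrix.diagonal]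

/-- The standard involution. -/
def psl3J (F : Type*) [Field F] : Matrix.SpecialLinearGroup (Fin 3) F :=
  ⟨!![1,1,0;0,1,0;0,0,1], by simp [Matrix.det_fin_three]⟩

theorem sl3_invol_conj {F : Type*} [Field F] (h2 : (2 : F) = 0)
    (g : Matrix.SpecialLinearGroup (Fin 3) F) (hg : g.1 * g.1 = 1) (hg1 : g.1 ≠ 1) :
    IsConj (psl3J F) g := by
  have hN2 : (g.1 - 1) * (g.1 - 1) = 0 := by
    rw [Matrix.sub_mul, Matrix.mul_sub, Matrix.mul_sub, hg, Matrix.mul_one, Matrix.one_mul,
      Matrix.one_mul]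
    have : (1 : Matrix (Fin 3) (Fin 3) F) - g.1 - (g.1 - 1) = (2 : F) • (1 - g.1) := by
      rw [two_smul]; abel
    rw [this, h2, zero_smul]
  have hN : g.1 - 1 ≠ 0 := sub_ne_zero.mpr hg1
  obtain ⟨P, hdet, hNP⟩ := nilp_sq_zero_normal_form _ hN2 hN
  obtain ⟨Pg, hPg⟩ : ∃ Pg : Matrix.SpecialLinearGroup (Fin 3) F, Pg.1 = P := ⟨⟨P, hdet⟩, rfl⟩
  rw [isConj_iff]
  refine ⟨Pg, ?_⟩
  rw [mul_inv_eq_iff_eq_mul]
  apply Subtype.ext
  show Pg.1 * !![1,1,0;0,1,0;0,0,1] = g.1 * Pg.1
  rw [hPg]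
  have e1 : g.1 * P = P + (g.1 - 1) * P := by rw [Matrix.sub_mul, Matrix.one_mul]; abel
  rw [e1, hNP]
  have e2 : (!![1,1,0;0,1,0;0,0,1] : Matrix (Fin 3) (Fin 3) F) = 1 + !![0,1,0;0,0,0;0,0,0] := by
    ext i k; fin_cases i <;> fin_cases k <;> simp
  rw [e2, Matrix.mul_add, Matrix.mul_one]

theorem psl3_invol_conj {F : Type*} [Field F] (h2 : (2 : F) = 0)
    (x : Matrix.ProjectiveSpecialLinearGroup (Fin 3) F) (hx : orderOf x = 2) :
    IsConj (QuotientGroup.mk (psl3J F) : Matrix.ProjectiveSpecialLinearGroup (Fin 3) F) x := by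
  obtain ⟨g, rfl⟩ := QuotientGroup.mk_surjective x
  have hx2 : (QuotientGroup.mk g : Matrix.ProjectiveSpecialLinearGroup (Fin 3) F) ^ 2 = 1 := by
    rw [← hx]; exact pow_orderOf_eq_one _
  have hx1 : (QuotientGroup.mk g : Matrix.ProjectiveSpecialLinearGroup (Fin 3) F) ≠ 1 := by
    intro h
    rw [h, orderOf_one] at hx
    omega
  have hmem : g ^ 2 ∈ Subgroup.center (Matrix.SpecialLinearGroup (Fin 3) F) := by
    rw [← QuotientGroup.eq_one_iff]
    exact hx2
  rw [Matrix.SpecialLinearGroup.mem_center_iff] at hmem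
  obtain ⟨c, hc3, hc⟩ := hmem
  have hc3' : c ^ 3 = 1 := by simpa using hc3
  have hdz : (Matrix.scalar (Fin 3) c).det = 1 := by
    simp [hc3']
  obtain ⟨z, hzval⟩ : ∃ z : Matrix.SpecialLinearGroup (Fin 3) F, z.1 = Matrix.scalar (Fin 3) c :=
    ⟨⟨_, hdz⟩, rfl⟩
  have hz : z ∈ Subgroup.center (Matrix.SpecialLinearGroup (Fin 3) F) := by
    rw [Matrix.SpecialLinearGroup.mem_center_iff]
    exact ⟨c, hc3, hzval.symm⟩
  have hq : (QuotientGroup.mk (z * g) :
      Matrix.ProjectiveSpecialLinearGroup (Fin 3) F) = QuotientGroup.mk g := by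
    rw [QuotientGroup.mk_mul, (QuotientGroup.eq_one_iff _).mpr hz, one_mul]
  rw [← hq]
  apply MonoidHom.map_isConj (QuotientGroup.mk' (Subgroup.center (Matrix.SpecialLinearGroup (Fin 3) F)))
  apply sl3_invol_conj h2
  · show z.1 * g.1 * (z.1 * g.1) = 1
    rw [hzval]
    have hc' : g.1 * g.1 = Matrix.scalar (Fin 3) c := by
      rw [hc]; simp [pow_two]
    have hcomm : g.1 * Matrix.scalar (Fin 3) c = Matrix.scalar (Fin 3) c * g.1 :=
      (Matrix.scalar_commute c (fun r' => Commute.all _ _) g.1).symm.eq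
    calc Matrix.scalar (Fin 3) c * g.1 * (Matrix.scalar (Fin 3) c * g.1)
        = Matrix.scalar (Fin 3) c * (g.1 * Matrix.scalar (Fin 3) c) * g.1 := by
          simp only [Matrix.mul_assoc]
      _ = Matrix.scalar (Fin 3) c * Matrix.scalar (Fin 3) c * (g.1 * g.1) := by
          rw [hcomm]; simp only [Matrix.mul_assoc]
      _ = 1 := by
          rw [hc', ← map_mul, ← map_mul]
          have : c * c * c = 1 := by rw [← hc3']; ring
          rw [this, map_one]
  · intro h1
    apply hx1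
    rw [← hq]
    have : z * g = 1 := Subtype.ext h1
    rw [this]
    rfl

end Cfsg.Agent.Lib.Helper4
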