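import Mathlib
import Cfsg.Agent.Lib.Helper4.PSL34Inv

set_option autoImplicit false

namespace Cfsg.Agent.Lib.Helper4

section

open Matrix

variable {F : Type*} [Field F] [Fintype F]

theorem f4_cube (hF : Fintype.card F = 4) (a : F) (ha : a ≠ 0) : a ^ 3 = 1 := by
  have := FiniteField.pow_card_sub_one_eq_one a ha
  rw [hF] at this
  exact this

theorem f4_exists_omega (hF : Fintype.card F = 4) :
    ∃ ω : F, ω ^ 2 + ω + 1 = 0 ∧ ω ≠ 1 ∧ ω ≠ 0 := by
  classical
  have : ∃ ω : F, ω ∉ ({0, 1} : Finset F) := by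
    by_contra hcon
    push Not at hcon
    have h1 : ({0, 1} : Finset F) = Finset.univ := Finset.eq_univ_iff_forall.2 hcon
    have h2 := Finset.card_le_two (a := (0 : F)) (b := 1)
    rw [h1, Finset.card_univ, hF] at h2
    omega
  obtain ⟨ω, hω⟩ := this
  simp only [Finset.mem_insert, Finset.mem_singleton, not_or] at hω
  refine ⟨ω, ?_, hω.2, hω.1⟩
  have h3 := f4_cube hF ω hω.1
  have h4 : (ω - 1) * (ω ^ 2 + ω + 1) = 0 := by linear_combination h3
  exact (mul_eq_zero.1 h4).resolve_left (sub_ne_zero.2 hω.2)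

/-- A determinant-one matrix whose cube is scalar has cube one. -/
theorem sl3_cube_scalar_one (hF : Fintype.card F = 4) (G : Matrix (Fin 3) (Fin 3) F)
    (hdet : G.det = 1) (c : F) (hc : c ^ 3 = 1) (hG : G ^ 3 = Matrix.scalar (Fin 3) c) :
    c = 1 := by
  classical
  by_contra hc1
  obtain ⟨p, hp⟩ : ∃ p : Polynomial F, p = Polynomial.X ^ 3 - Polynomial.C c := ⟨_, rfl⟩
  have hpm : p.Monic := by rw [hp]; exact Polynomial.monic_X_pow_sub_C c (by norm_num)
  have hpd : p.natDegree = 3 := by rw [hp]; exact Polynomial.natDegree_X_pow_sub_C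
  have hpa : Polynomial.aeval G p = 0 := by
    rw [hp]
    simp only [map_sub, map_pow, Polynomial.aeval_X, Polynomial.aeval_C]
    rw [hG]
    exact sub_self _
  have hroots : p.roots = 0 := by
    rw [Multiset.eq_zero_iff_forall_notMem]
    intro a ha
    rw [Polynomial.mem_roots hpm.ne_zero, Polynomial.IsRoot.def, hp] at ha
    simp only [Polynomial.eval_sub, Polynomial.eval_pow, Polynomial.eval_X,
      Polynomial.eval_C] at ha
    have ha3 : a ^ 3 = c := sub_eq_zero.1 ha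
    by_cases ha0 : a = 0
    · rw [ha0] at ha3
      have hc0 : c = 0 := by rw [← ha3]; ring
      rw [hc0] at hc
      simp at hc
    · exact hc1 (by rw [← ha3]; exact f4_cube hF a ha0)
  have hirr : Irreducible p :=
    (hpm.irreducible_iff_roots_eq_zero_of_degree_le_three (by omega) (by omega)).2 hroots
  have hmin : p = minpoly F G := minpoly.eq_of_irreducible_of_monic hirr hpa hpm
  have hdvd : p ∣ G.charpoly := by rw [hmin]; exact Matrix.minpoly_dvd_charpoly G
  have hchar : G.charpoly = p := by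
    apply Polynomial.eq_of_monic_of_dvd_of_natDegree_le hpm (Matrix.charpoly_monic G) hdvd
    rw [Matrix.charpoly_natDegree_eq_dim, hpd, Fintype.card_fin]
  have hdet' := Matrix.det_eq_sign_charpoly_coeff G
  rw [hchar, hdet, hp, Fintype.card_fin] at hdet'
  simp at hdet'
  exact hc1 (by linear_combination -hdet')

theorem prod3_expand (G : Matrix (Fin 3) (Fin 3) F) (x y z : F) :
    (G - x • 1) * (G - y • 1) * (G - z • 1) =
      G * G * G - (x + y + z) • (G * G) + (x * y + x * z + y * z) • G - (x * y * z) • 1 := by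
  simp only [Matrix.sub_mul, Matrix.mul_sub, Matrix.smul_mul, Matrix.mul_smul, Matrix.one_mul,
    Matrix.mul_one, smul_sub, smul_smul, Matrix.mul_assoc]
  module

theorem det_sum_roots (G : Matrix (Fin 3) (Fin 3) F) (ω : F) (hω : ω ^ 2 + ω + 1 = 0) :
    (G - (1 : F) • 1).det + (G - ω • 1).det + (G - (ω ^ 2) • 1).det = 3 * G.det - 3 := by
  simp only [Matrix.det_fin_three, Matrix.sub_apply, Matrix.smul_apply, Matrix.one_apply,
    smul_eq_mul]
  simp
  linear_combination (-(G 0 0 * G 1 1 - G 0 1 * G 1 0 + G 0 0 * G 2 2 - G 0 2 * G 2 0 +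
    G 1 1 * G 2 2 - G 1 2 * G 2 1) + (G 0 0 + G 1 1 + G 2 2) * (ω ^ 2 - ω + 1) -
    (ω - 1) * (ω ^ 3 + 2)) * hω


theorem sl3_ord3_normal_form (hF : Fintype.card F = 4) (ω : F) (hω : ω ^ 2 + ω + 1 = 0)
    (G : Matrix (Fin 3) (Fin 3) F) (hdet : G.det = 1) (hG3 : G * G * G = 1)
    (hns : ∀ μ : F, G ≠ μ • 1) :
    ∃ P : Matrix (Fin 3) (Fin 3) F, P.det = 1 ∧ G * P = P * Matrix.diagonal ![1, ω, ω ^ 2] := by
  classical
  have h2 : (2 : F) = 0 := two_eq_zero_of_card_four hF
  have hω3 : ω ^ 3 = 1 := by linear_combination (ω - 1) * hω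
  have hprod : ∀ x y z : F, x + y + z = 0 → x * y + x * z + y * z = 0 → x * y * z = 1 →
      (G - x • 1) * (G - y • 1) * (G - z • 1) = 0 := by
    intro x y z h1 h2' h3
    rw [prod3_expand, h1, h2', h3, hG3]
    simp
  have hkill : ∀ x y z : F, x + y + z = 0 → x * y + x * z + y * z = 0 → x * y * z = 1 →
      (G - x • 1).det ≠ 0 → (G - y • 1).det ≠ 0 → False := by
    intro x y z h1 h2' h3 hx hy
    have hM : ((G - x • 1) * (G - y • 1)).det ≠ 0 := by
      rw [Matrix.det_mul]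
      exact mul_ne_zero hx hy
    have h0 := hprod x y z h1 h2' h3
    have hz : G - z • 1 = 0 := by
      have h := congrArg (fun N => ((G - x • 1) * (G - y • 1))⁻¹ * N) h0
      simp only [Matrix.mul_zero] at h
      rw [← Matrix.mul_assoc, Matrix.nonsing_inv_mul _ (Ne.isUnit hM), Matrix.one_mul] at h
      exact h
    exact hns z (sub_eq_zero.1 hz)
  have hsum := det_sum_roots G ω hω
  rw [hdet] at hsum
  have hs1 : (1 : F) + ω + ω ^ 2 = 0 := by linear_combination hω
  have hs2 : (1 : F) * ω + 1 * ω ^ 2 + ω * ω ^ 2 = 0 := by linear_combination ω * hω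
  have hs3 : (1 : F) * ω * ω ^ 2 = 1 := by linear_combination hω3
  have hd1 : (G - (1 : F) • 1).det = 0 := by
    by_contra h
    by_cases hb : (G - ω • 1).det = 0
    · by_cases hc : (G - (ω ^ 2) • 1).det = 0
      · rw [hb, hc] at hsum
        apply h
        linear_combination hsum
      · exact hkill 1 (ω ^ 2) ω (by linear_combination hs1) (by linear_combination hs2)
          (by linear_combination hs3) h hc
    · exact hkill 1 ω (ω ^ 2) hs1 hs2 hs3 h hb
  have hd2 : (G - ω • 1).det = 0 := by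
    by_contra h
    by_cases hc : (G - (ω ^ 2) • 1).det = 0
    · rw [hd1, hc] at hsum
      apply h
      linear_combination hsum
    · exact hkill ω (ω ^ 2) 1 (by linear_combination hs1) (by linear_combination hs2)
        (by linear_combination hs3) h hc
  have hd3 : (G - (ω ^ 2) • 1).det = 0 := by
    rw [hd1, hd2] at hsum
    linear_combination hsum
  have hev : ∀ μ : F, (G - μ • 1).det = 0 → ∃ v : Fin 3 → F, v ≠ 0 ∧ G *ᵥ v = μ • v := by
    intro μ h
    obtain ⟨v, hv0, hv⟩ := Matrix.exists_mulVec_eq_zero_iff.mpr h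
    refine ⟨v, hv0, ?_⟩
    rw [Matrix.sub_mulVec, Matrix.smul_mulVec, Matrix.one_mulVec] at hv
    exact sub_eq_zero.1 hv
  obtain ⟨v1, hv10, hv1⟩ := hev 1 hd1
  obtain ⟨v2, hv20, hv2⟩ := hev ω hd2
  obtain ⟨v3, hv30, hv3⟩ := hev (ω ^ 2) hd3
  rw [one_smul] at hv1
  obtain ⟨P, hP⟩ : ∃ P : Matrix (Fin 3) (Fin 3) F,
      P = Matrix.of (fun i k => ![v1 i, v2 i, v3 i] k) := ⟨_, rfl⟩
  have hP0 : ∀ i, P i 0 = v1 i := fun i => by rw [hP]; rfl
  have hP1 : ∀ i, P i 1 = v2 i := fun i => by rw [hP]; rfl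
  have hP2 : ∀ i, P i 2 = v3 i := fun i => by rw [hP]; rfl
  have hPc : ∀ c : Fin 3 → F, P *ᵥ c = c 0 • v1 + c 1 • v2 + c 2 • v3 := by
    intro c
    ext i
    simp only [Matrix.mulVec, dotProduct, Fin.sum_univ_three, hP0, hP1, hP2, Pi.add_apply,
      Pi.smul_apply, smul_eq_mul]
    ring
  have hdetP : P.det ≠ 0 := by
    intro h0
    obtain ⟨c, hc, hPc0⟩ := Matrix.exists_mulVec_eq_zero_iff.mpr h0
    rw [hPc] at hPc0
    have E1 := congrArg (fun w => G *ᵥ w) hPc0
    simp only [Matrix.mulVec_add, Matrix.mulVec_smul, hv1, hv2, hv3, Matrix.mulVec_zero] at E1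
    have E2 := congrArg (fun w => G *ᵥ w) E1
    simp only [Matrix.mulVec_add, Matrix.mulVec_smul, hv1, hv2, hv3, Matrix.mulVec_zero] at E2
    have key : ∀ i, c 0 * v1 i = 0 ∧ c 1 * v2 i = 0 ∧ c 2 * v3 i = 0 := by
      intro i
      have e0 := congrFun hPc0 i
      have e1 := congrFun E1 i
      have e2 := congrFun E2 i
      simp only [Pi.add_apply, Pi.smul_apply, smul_eq_mul, Pi.zero_apply] at e0 e1 e2
      refine ⟨?_, ?_, ?_⟩
      · linear_combination e0 + e1 + e2 - (c 0 * v1 i) * h2 - (c 1 * v2 i) * hω -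
          (c 2 * v3 i) * (ω ^ 2 - ω + 1) * hω
      · linear_combination e0 + ω ^ 2 * e1 + ω * e2 - (c 0 * v1 i) * hω -
          (c 1 * v2 i * ω ^ 3) * h2 - (c 2 * v3 i) * (ω ^ 3 - ω + 1) * hω
      · linear_combination e0 + ω * e1 + ω ^ 2 * e2 - (c 0 * v1 i) * hω -
          (c 1 * v2 i) * (ω ^ 2 - ω + 1) * hω - (c 2 * v3 i * ω ^ 3 * (ω - 1)) * hω -
          (c 2 * v3 i * ω ^ 3) * h2
    have hnz : ∀ v : Fin 3 → F, v ≠ 0 → ∃ i, v i ≠ 0 := by
      intro v hv
      by_contra hcon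
      push Not at hcon
      exact hv (funext hcon)
    apply hc
    ext i
    fin_cases i
    · obtain ⟨i, hi⟩ := hnz v1 hv10
      exact (mul_eq_zero.1 (key i).1).resolve_right hi
    · obtain ⟨i, hi⟩ := hnz v2 hv20
      exact (mul_eq_zero.1 (key i).2.1).resolve_right hi
    · obtain ⟨i, hi⟩ := hnz v3 hv30
      exact (mul_eq_zero.1 (key i).2.2).resolve_right hi
  have hGP : G * P = P * Matrix.diagonal ![1, ω, ω ^ 2] := by
    ext i k
    have hl : (G * P) i k = (G *ᵥ fun l => P l k) i := rfl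
    rw [hl, Matrix.mul_diagonal]
    fin_cases k
    · have : (fun l => P l 0) = v1 := funext hP0
      simp [this, hv1, hP0]
    · have : (fun l => P l 1) = v2 := funext hP1
      simp [this, hv2, hP1, mul_comm]
    · have : (fun l => P l 2) = v3 := funext hP2
      simp [this, hv3, hP2, mul_comm]
  refine ⟨P * Matrix.diagonal ![1, 1, (P.det)⁻¹], ?_, ?_⟩
  · rw [Matrix.det_mul, Matrix.det_diagonal, Fin.prod_univ_three]
    simp [mul_inv_cancel₀ hdetP]
  · rw [← Matrix.mul_assoc, hGP, Matrix.mul_assoc, Matrix.mul_assoc]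
    congr 1
    rw [Matrix.diagonal_mul_diagonal, Matrix.diagonal_mul_diagonal]
    congr 1
    funext i
    exact mul_comm _ _

theorem sl3_ord3_conj (hF : Fintype.card F = 4) (ω : F) (hω : ω ^ 2 + ω + 1 = 0)
    (D' : Matrix.SpecialLinearGroup (Fin 3) F) (hD' : D'.1 = Matrix.diagonal ![1, ω, ω ^ 2])
    (g : Matrix.SpecialLinearGroup (Fin 3) F) (hg : g.1 * g.1 * g.1 = 1)
    (hns : ∀ μ : F, g.1 ≠ μ • 1) : IsConj D' g := by
  obtain ⟨P, hdet, hGP⟩ := sl3_ord3_normal_form hF ω hω g.1 g.2 hg hns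
  obtain ⟨Pg, hPg⟩ : ∃ Pg : Matrix.SpecialLinearGroup (Fin 3) F, Pg.1 = P := ⟨⟨P, hdet⟩, rfl⟩
  rw [isConj_iff]
  refine ⟨Pg, ?_⟩
  rw [mul_inv_eq_iff_eq_mul]
  apply Subtype.ext
  show Pg.1 * D'.1 = g.1 * Pg.1
  rw [hPg, hD', hGP]

theorem psl3_ord3_conj (hF : Fintype.card F = 4) (ω : F) (hω : ω ^ 2 + ω + 1 = 0)
    (D' : Matrix.SpecialLinearGroup (Fin 3) F) (hD' : D'.1 = Matrix.diagonal ![1, ω, ω ^ 2])
    (x : Matrix.ProjectiveSpecialLinearGroup (Fin 3) F) (hx : orderOf x = 3) :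
    IsConj (QuotientGroup.mk D' : Matrix.ProjectiveSpecialLinearGroup (Fin 3) F) x := by
  obtain ⟨g, rfl⟩ := QuotientGroup.mk_surjective x
  have hx3 : (QuotientGroup.mk g : Matrix.ProjectiveSpecialLinearGroup (Fin 3) F) ^ 3 = 1 := by
    have h := pow_orderOf_eq_one (QuotientGroup.mk g : Matrix.ProjectiveSpecialLinearGroup (Fin 3) F)
    rw [hx] at h
    exact h
  have hx1 : (QuotientGroup.mk g : Matrix.ProjectiveSpecialLinearGroup (Fin 3) F) ≠ 1 := by
    intro h
    rw [h, orderOf_one] at hx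
    omega
  have hmem : g ^ 3 ∈ Subgroup.center (Matrix.SpecialLinearGroup (Fin 3) F) := by
    rw [← QuotientGroup.eq_one_iff]
    exact hx3
  rw [Matrix.SpecialLinearGroup.mem_center_iff] at hmem
  obtain ⟨c, hc3, hc⟩ := hmem
  have hc3' : c ^ 3 = 1 := by simpa using hc3
  have hG3 : g.1 ^ 3 = Matrix.scalar (Fin 3) c := by
    rw [hc]
    rfl
  have hc1 : c = 1 := sl3_cube_scalar_one hF g.1 g.2 c hc3' hG3
  apply MonoidHom.map_isConj (QuotientGroup.mk' (Subgroup.center (Matrix.SpecialLinearGroup (Fin 3) F)))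
  apply sl3_ord3_conj hF ω hω D' hD'
  · rw [hc1, map_one] at hG3
    rw [← hG3]
    simp only [pow_succ, pow_zero, Matrix.one_mul]
  · intro μ hμ
    apply hx1
    rw [QuotientGroup.eq_one_iff, Matrix.SpecialLinearGroup.mem_center_iff]
    refine ⟨μ, ?_, ?_⟩
    · have h := g.2
      rw [hμ, Matrix.det_smul, Matrix.det_one, mul_one] at h
      exact h
    · rw [hμ, Matrix.scalar_apply, Matrix.smul_one_eq_diagonal]

end

end Cfsg.Agent.Lib.Helper4
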