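import Mathlib
import Cfsg.Agent.Lib.Helper4.PSL34Ord3

set_option autoImplicit false

namespace Cfsg.Agent.Lib.Helper4

section

open Matrix

variable {F : Type*} [Field F] [Fintype F]

theorem sl3_ord3_of_psl (hF : Fintype.card F = 4) (ω : F) (hω : ω ^ 2 + ω + 1 = 0)
    (D' : Matrix.SpecialLinearGroup (Fin 3) F) (hD' : D'.1 = Matrix.diagonal ![1, ω, ω ^ 2])
    (g : Matrix.SpecialLinearGroup (Fin 3) F)
    (hx : orderOf (QuotientGroup.mk g : Matrix.ProjectiveSpecialLinearGroup (Fin 3) F) = 3) :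
    IsConj D' g := by
  have hx3 : (QuotientGroup.mk g : Matrix.ProjectiveSpecialLinearGroup (Fin 3) F) ^ 3 = 1 := by
    have h := pow_orderOf_eq_one (QuotientGroup.mk g : Matrix.ProjectiveSpecialLinearGroup (Fin 3) F)
    rw [hx] at h
    exact h
  have hx1 : (QuotientGroup.mk g : Matrix.ProjectiveSpecialLinearGroup (Fin 3) F) ≠ 1 := by
    intro h
    rw [h, orderOf_one] at hx
    omega
  have hmem : g ^ 3 ∈ Subgroup.center (Matrix.SpecialLinearGroup (Fin 3) F) := by
    rw [← QuotientGroup.eq_one_iff]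
    exact hx3
  rw [Matrix.SpecialLinearGroup.mem_center_iff] at hmem
  obtain ⟨c, hc3, hc⟩ := hmem
  have hc3' : c ^ 3 = 1 := by simpa using hc3
  have hG3 : g.1 ^ 3 = Matrix.scalar (Fin 3) c := by
    rw [hc]
    rfl
  have hc1 : c = 1 := sl3_cube_scalar_one hF g.1 g.2 c hc3' hG3
  apply sl3_ord3_conj hF ω hω D' hD'
  · rw [hc1, map_one] at hG3
    rw [← hG3]
    simp only [pow_succ, pow_zero, Matrix.one_mul]
  · intro μ hμ
    apply hx1
    rw [QuotientGroup.eq_one_iff, Matrix.SpecialLinearGroup.mem_center_iff]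
    refine ⟨μ, ?_, ?_⟩
    · have h := g.2
      rw [hμ, Matrix.det_smul, Matrix.det_one, mul_one] at h
      exact h
    · rw [hμ, Matrix.scalar_apply, Matrix.smul_one_eq_diagonal]

theorem psl3_no_ord15 (hF : Fintype.card F = 4)
    (x : Matrix.ProjectiveSpecialLinearGroup (Fin 3) F) : orderOf x ≠ 15 := by
  classical
  intro hx
  have h2 : (2 : F) = 0 := two_eq_zero_of_card_four hF
  obtain ⟨ω, hω, hω1, hω0⟩ := f4_exists_omega hF
  have hω3 : ω ^ 3 = 1 := by linear_combination (ω - 1) * hω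
  have hω2 : ω ^ 2 ≠ 1 := by
    intro h
    apply hω0
    linear_combination hω - h - h2
  have hωω : ω ^ 2 ≠ ω := by
    intro h
    have h' : ω * (ω - 1) = 0 := by linear_combination h
    rcases mul_eq_zero.1 h' with h0 | h0
    · exact hω0 h0
    · exact hω1 (sub_eq_zero.1 h0)
  obtain ⟨D', hD'⟩ : ∃ D' : Matrix.SpecialLinearGroup (Fin 3) F,
      D'.1 = Matrix.diagonal ![1, ω, ω ^ 2] :=
    ⟨⟨Matrix.diagonal ![1, ω, ω ^ 2], by
      rw [Matrix.det_diagonal, Fin.prod_univ_three]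
      simp
      linear_combination hω3⟩, rfl⟩
  obtain ⟨g, rfl⟩ := QuotientGroup.mk_surjective x
  have h5 : orderOf (QuotientGroup.mk (g ^ 5) :
      Matrix.ProjectiveSpecialLinearGroup (Fin 3) F) = 3 := by
    rw [QuotientGroup.mk_pow, orderOf_pow' _ (by norm_num), hx]
    rfl
  obtain ⟨c, hc⟩ := isConj_iff.1 (sl3_ord3_of_psl hF ω hω D' hD' (g ^ 5) h5)
  obtain ⟨g', hg'⟩ : ∃ g' : Matrix.SpecialLinearGroup (Fin 3) F, g' = c⁻¹ * g * c := ⟨_, rfl⟩
  have hcomm : g' * D' = D' * g' := by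
    have hD : D' = c⁻¹ * g ^ 5 * c := by
      rw [← hc]
      group
    rw [hg', hD]
    group
  have hcommM : g'.1 * Matrix.diagonal ![1, ω, ω ^ 2] = Matrix.diagonal ![1, ω, ω ^ 2] * g'.1 := by
    have h := congrArg (fun s : Matrix.SpecialLinearGroup (Fin 3) F =>
      (s : Matrix (Fin 3) (Fin 3) F)) hcomm
    simp only [Matrix.SpecialLinearGroup.coe_mul, hD'] at h
    exact h
  have hent : ∀ i j, g'.1 i j * ![1, ω, ω ^ 2] j = ![1, ω, ω ^ 2] i * g'.1 i j := by
    intro i j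
    have h := congrFun (congrFun hcommM i) j
    rw [Matrix.mul_diagonal, Matrix.diagonal_mul] at h
    exact h
  have h01 : g'.1 0 1 = 0 := by
    have h : g'.1 0 1 * ω = 1 * g'.1 0 1 := hent 0 1
    have h' : (ω - 1) * g'.1 0 1 = 0 := by linear_combination h
    exact (mul_eq_zero.1 h').resolve_left (sub_ne_zero.2 hω1)
  have h02 : g'.1 0 2 = 0 := by
    have h : g'.1 0 2 * ω ^ 2 = 1 * g'.1 0 2 := hent 0 2
    have h' : (ω ^ 2 - 1) * g'.1 0 2 = 0 := by linear_combination h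
    exact (mul_eq_zero.1 h').resolve_left (sub_ne_zero.2 hω2)
  have h10 : g'.1 1 0 = 0 := by
    have h : g'.1 1 0 * 1 = ω * g'.1 1 0 := hent 1 0
    have h' : (ω - 1) * g'.1 1 0 = 0 := by linear_combination -h
    exact (mul_eq_zero.1 h').resolve_left (sub_ne_zero.2 hω1)
  have h12 : g'.1 1 2 = 0 := by
    have h : g'.1 1 2 * ω ^ 2 = ω * g'.1 1 2 := hent 1 2
    have h' : (ω ^ 2 - ω) * g'.1 1 2 = 0 := by linear_combination h
    exact (mul_eq_zero.1 h').resolve_left (sub_ne_zero.2 hωω)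
  have h20 : g'.1 2 0 = 0 := by
    have h : g'.1 2 0 * 1 = ω ^ 2 * g'.1 2 0 := hent 2 0
    have h' : (ω ^ 2 - 1) * g'.1 2 0 = 0 := by linear_combination -h
    exact (mul_eq_zero.1 h').resolve_left (sub_ne_zero.2 hω2)
  have h21 : g'.1 2 1 = 0 := by
    have h : g'.1 2 1 * ω = ω ^ 2 * g'.1 2 1 := hent 2 1
    have h' : (ω ^ 2 - ω) * g'.1 2 1 = 0 := by linear_combination -h
    exact (mul_eq_zero.1 h').resolve_left (sub_ne_zero.2 hωω)
  have hdg : g'.1 = Matrix.diagonal ![g'.1 0 0, g'.1 1 1, g'.1 2 2] := by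
    ext i j
    fin_cases i <;> fin_cases j <;> simp [h01, h02, h10, h12, h20, h21]
  have hdet := g'.2
  rw [hdg, Matrix.det_diagonal, Fin.prod_univ_three] at hdet
  simp only [Matrix.cons_val_zero, Matrix.cons_val_one, Matrix.cons_val_two] at hdet
  have ha0 : g'.1 0 0 ≠ 0 := by
    intro h
    rw [h] at hdet
    simp at hdet
  have ha1 : g'.1 1 1 ≠ 0 := by
    intro h
    rw [h] at hdet
    simp at hdet
  have ha2 : g'.1 2 2 ≠ 0 := by
    intro h
    rw [h] at hdet
    simp at hdet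
  have hg'3 : g' ^ 3 = 1 := by
    apply Subtype.ext
    show (g' ^ 3).1 = 1
    rw [Matrix.SpecialLinearGroup.coe_pow, hdg, Matrix.diagonal_pow, ← Matrix.diagonal_one]
    congr 1
    funext i
    fin_cases i
    · exact f4_cube hF _ ha0
    · exact f4_cube hF _ ha1
    · exact f4_cube hF _ ha2
  have hg3 : g ^ 3 = 1 := by
    have hg : g = c * g' * c⁻¹ := by
      rw [hg']
      group
    rw [hg, conj_pow, hg'3]
    group
  have hx3 : (QuotientGroup.mk g : Matrix.ProjectiveSpecialLinearGroup (Fin 3) F) ^ 3 = 1 := by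
    rw [← QuotientGroup.mk_pow, hg3]
    rfl
  have hdvd := orderOf_dvd_of_pow_eq_one hx3
  rw [hx] at hdvd
  omega

end

end Cfsg.Agent.Lib.Helper4
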