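import Mathlib
import Cfsg.Prelude.Def_ClassicalGeometry

set_option autoImplicit false

namespace Cfsg.Agent.Lib.Helper4

open Matrix

theorem parabolic_mem_iff {F : Type*} [Field F] [Fintype F] (k m : ℕ) (g : GL (Fin (k + m)) F) :
    g ∈ Cfsg.stabilizing (Cfsg.glToMat (Fin (k + m)) F)
        {v : Fin (k + m) → F | ∀ i : Fin (k + m), k ≤ (i : ℕ) → v i = 0} ↔
      ∀ (b : Fin m) (a : Fin k), g.1 (finSumFinEquiv (Sum.inr b)) (finSumFinEquiv (Sum.inl a)) = 0 := by
  classical
  constructor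
  · intro hg b a
    have h1 := (hg (Pi.single (finSumFinEquiv (Sum.inl a)) 1)).mp (by
      intro i hi
      apply Pi.single_eq_of_ne
      intro h
      rw [h, finSumFinEquiv_apply_left] at hi
      simp at hi
      omega)
    have h2 := h1 (finSumFinEquiv (Sum.inr b)) (by rw [finSumFinEquiv_apply_right]; simp)
    have h3 : (Cfsg.glToMat (Fin (k + m)) F g) = g.1 := rfl
    rw [h3, Matrix.mulVec_single_one] at h2
    exact h2
  · intro hg
    have hW : ∀ v : Fin (k + m) → F, (∀ i : Fin (k + m), k ≤ (i : ℕ) → v i = 0) →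
        ∀ i : Fin (k + m), k ≤ (i : ℕ) → (g.1 *ᵥ v) i = 0 := by
      intro v hv i hi
      rw [Matrix.mulVec, dotProduct]
      apply Finset.sum_eq_zero
      intro j _
      obtain ⟨x, rfl⟩ := finSumFinEquiv.surjective i
      obtain ⟨y, rfl⟩ := finSumFinEquiv.surjective j
      rcases x with a | b
      · rw [finSumFinEquiv_apply_left] at hi
        simp at hi
        omega
      · rcases y with a' | b'
        · rw [hg b a', zero_mul]
        · rw [hv _ (by rw [finSumFinEquiv_apply_right]; simp), mul_zero]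
    intro v
    constructor
    · intro hv
      exact hW v hv
    · intro hv
      have hinj : Function.Injective (fun w : {v : Fin (k + m) → F // ∀ i : Fin (k + m), k ≤ (i : ℕ) → v i = 0} =>
          (⟨g.1 *ᵥ w.1, hW w.1 w.2⟩ : {v : Fin (k + m) → F // ∀ i : Fin (k + m), k ≤ (i : ℕ) → v i = 0})) := by
        intro w w' hww
        have h1 : g.1 *ᵥ w.1 = g.1 *ᵥ w'.1 := congrArg Subtype.val hww
        have h2 := congrArg (fun u => (g⁻¹).1 *ᵥ u) h1
        simp only [Matrix.mulVec_mulVec] at h2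
        rw [← Units.val_mul, inv_mul_cancel] at h2
        simp only [Units.val_one, Matrix.one_mulVec] at h2
        exact Subtype.ext h2
      obtain ⟨w, hw⟩ := Finite.surjective_of_injective hinj ⟨_, hv⟩
      have h1 : g.1 *ᵥ w.1 = g.1 *ᵥ v := congrArg Subtype.val hw
      have h2 := congrArg (fun u => (g⁻¹).1 *ᵥ u) h1
      simp only [Matrix.mulVec_mulVec] at h2
      rw [← Units.val_mul, inv_mul_cancel] at h2
      simp only [Units.val_one, Matrix.one_mulVec] at h2
      rw [← h2]
      exact w.2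

theorem parabolic_card {F : Type*} [Field F] [Fintype F] (k m : ℕ) :
    Nat.card ↥(Cfsg.stabilizing (Cfsg.glToMat (Fin (k + m)) F)
        {v : Fin (k + m) → F | ∀ i : Fin (k + m), k ≤ (i : ℕ) → v i = 0}) =
      Fintype.card F ^ (k * m) * Nat.card (GL (Fin k) F) * Nat.card (GL (Fin m) F) := by
  classical
  have hdet : ∀ (A : GL (Fin k) F) (D : GL (Fin m) F) (B : Matrix (Fin k) (Fin m) F),
      ((Matrix.fromBlocks A.1 B 0 D.1).submatrix finSumFinEquiv.symm finSumFinEquiv.symm).det ≠ 0 := by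
    intro A D B
    rw [Matrix.det_submatrix_equiv_self, Matrix.det_fromBlocks_zero₂₁]
    exact mul_ne_zero (Matrix.GeneralLinearGroup.det A).ne_zero (Matrix.GeneralLinearGroup.det D).ne_zero
  have hval : ∀ (M : Matrix (Fin (k + m)) (Fin (k + m)) F) (h : M.det ≠ 0),
      (Matrix.GeneralLinearGroup.mkOfDetNeZero M h).1 = M := fun M h => rfl
  let Φ : GL (Fin k) F × GL (Fin m) F × Matrix (Fin k) (Fin m) F →
      ↥(Cfsg.stabilizing (Cfsg.glToMat (Fin (k + m)) F)
        {v : Fin (k + m) → F | ∀ i : Fin (k + m), k ≤ (i : ℕ) → v i = 0}) :=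
    fun x => ⟨Matrix.GeneralLinearGroup.mkOfDetNeZero _ (hdet x.1 x.2.1 x.2.2), by
      rw [parabolic_mem_iff]
      intro b a
      rw [hval]
      simp⟩
  have hΦ : Function.Bijective Φ := by
    constructor
    · rintro ⟨A, D, B⟩ ⟨A', D', B'⟩ h
      have h1 : (Φ (A, D, B)).1.1 = (Φ (A', D', B')).1.1 := by rw [h]
      have h2 : (Matrix.fromBlocks A.1 B 0 D.1).submatrix finSumFinEquiv.symm finSumFinEquiv.symm =
          (Matrix.fromBlocks A'.1 B' 0 D'.1).submatrix finSumFinEquiv.symm finSumFinEquiv.symm := h1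
      have h3 := congrArg (fun M => M.submatrix (finSumFinEquiv (m := k) (n := m)) finSumFinEquiv) h2
      simp only [Matrix.submatrix_submatrix, Equiv.symm_comp_self, Matrix.submatrix_id_id] at h3
      obtain ⟨hA, hB, -, hD⟩ := Matrix.fromBlocks_inj.mp h3
      rw [Units.ext hA, Units.ext hD, hB]
    · rintro ⟨g, hg⟩
      have hg' := (parabolic_mem_iff k m g).mp hg
      obtain ⟨N, hN⟩ : ∃ N : Matrix (Fin k ⊕ Fin m) (Fin k ⊕ Fin m) F,
          N = g.1.submatrix finSumFinEquiv finSumFinEquiv := ⟨_, rfl⟩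
      have hN21 : N.toBlocks₂₁ = 0 := by
        ext b a
        rw [hN]
        exact hg' b a
      have hNdet : N.det ≠ 0 := by
        rw [hN, Matrix.det_submatrix_equiv_self]
        exact (Matrix.GeneralLinearGroup.det g).ne_zero
      have hNb : N = Matrix.fromBlocks N.toBlocks₁₁ N.toBlocks₁₂ 0 N.toBlocks₂₂ := by
        rw [← hN21]
        exact (Matrix.fromBlocks_toBlocks N).symm
      have hNdet2 : N.toBlocks₁₁.det * N.toBlocks₂₂.det ≠ 0 := by
        rw [← Matrix.det_fromBlocks_zero₂₁ _ N.toBlocks₁₂, ← hNb]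
        exact hNdet
      refine ⟨(Matrix.GeneralLinearGroup.mkOfDetNeZero _ (left_ne_zero_of_mul hNdet2),
        Matrix.GeneralLinearGroup.mkOfDetNeZero _ (right_ne_zero_of_mul hNdet2), N.toBlocks₁₂), ?_⟩
      apply Subtype.ext
      apply Units.ext
      show (Matrix.fromBlocks N.toBlocks₁₁ N.toBlocks₁₂ 0 N.toBlocks₂₂).submatrix
        finSumFinEquiv.symm finSumFinEquiv.symm = g.1
      rw [← hNb, hN]
      simp only [Matrix.submatrix_submatrix, Equiv.self_comp_symm, Matrix.submatrix_id_id]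
  rw [← Nat.card_congr (Equiv.ofBijective Φ hΦ), Nat.card_prod, Nat.card_prod,
    Nat.card_eq_fintype_card (α := Matrix (Fin k) (Fin m) F)]
  have hc : Fintype.card (Matrix (Fin k) (Fin m) F) = Fintype.card F ^ (k * m) := by
    show Fintype.card (Fin k → Fin m → F) = _
    rw [Fintype.card_fun, Fintype.card_fun, Fintype.card_fin, Fintype.card_fin, ← pow_mul, mul_comm]
  rw [hc]
  ring

theorem parabolic_card' {F : Type*} [Field F] [Fintype F] {q : ℕ} (hF : Fintype.card F = q)
    (n k : ℕ) (hk : k ≤ n) :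
    Nat.card ↥(Cfsg.stabilizing (Cfsg.glToMat (Fin n) F)
        {v : Fin n → F | ∀ i : Fin n, k ≤ (i : ℕ) → v i = 0}) =
      q ^ (k * (n - k)) * (∏ i : Fin k, (q ^ k - q ^ (i : ℕ))) *
        ∏ i : Fin (n - k), (q ^ (n - k) - q ^ (i : ℕ)) := by
  obtain ⟨m, rfl⟩ : ∃ m, n = k + m := ⟨n - k, by omega⟩
  rw [Nat.add_sub_cancel_left, parabolic_card, Matrix.card_GL_field, Matrix.card_GL_field, hF]

end Cfsg.Agent.Lib.Helper4
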