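import Mathlib
import Cfsg.Prelude.Def_ClassicalGeometry

set_option autoImplicit false

namespace Cfsg.Agent.Lib.Helper4

open Matrix

/-- coordinate subspace -/
def coordSub (F : Type*) [Field F] (n j : ℕ) : Submodule F (Fin n → F) where
  carrier := {v | ∀ i : Fin n, j ≤ (i : ℕ) → v i = 0}
  add_mem' := by
    intro a b ha hb i hi
    simp [ha i hi, hb i hi]
  zero_mem' := by intro i _; rfl
  smul_mem' := by
    intro c a ha i hi
    simp [ha i hi]

theorem pk_mem_iff {F : Type*} [Field F] [Finite F] (n j : ℕ) (g : GL (Fin n) F) :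
    g ∈ Cfsg.stabilizing (Cfsg.glToMat (Fin n) F)
        {v : Fin n → F | ∀ i : Fin n, j ≤ (i : ℕ) → v i = 0} ↔
      ∀ a b : Fin n, j ≤ (a : ℕ) → (b : ℕ) < j → g.1 a b = 0 := by
  classical
  constructor
  · intro hg a b ha hb
    have h1 := (hg (Pi.single b 1)).mp (by
      intro i hi
      apply Pi.single_eq_of_ne
      intro h
      rw [h] at hi
      omega)
    have h2 := h1 a ha
    have h3 : (Cfsg.glToMat (Fin n) F g) = g.1 := rfl
    rw [h3, Matrix.mulVec_single_one] at h2
    exact h2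
  · intro hg
    have hW : ∀ v : Fin n → F, (∀ i : Fin n, j ≤ (i : ℕ) → v i = 0) →
        ∀ i : Fin n, j ≤ (i : ℕ) → (g.1 *ᵥ v) i = 0 := by
      intro v hv i hi
      rw [Matrix.mulVec, dotProduct]
      apply Finset.sum_eq_zero
      intro l _
      by_cases hl : (l : ℕ) < j
      · rw [hg i l hi hl, zero_mul]
      · rw [hv l (by omega), mul_zero]
    intro v
    constructor
    · intro hv
      exact hW v hv
    · intro hv
      have hinj : Function.Injective (fun w : {v : Fin n → F // ∀ i : Fin n, j ≤ (i : ℕ) → v i = 0} =>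
          (⟨g.1 *ᵥ w.1, hW w.1 w.2⟩ : {v : Fin n → F // ∀ i : Fin n, j ≤ (i : ℕ) → v i = 0})) := by
        intro w w' hww
        have h1 : g.1 *ᵥ w.1 = g.1 *ᵥ w'.1 := congrArg Subtype.val hww
        have h2 := congrArg (fun u => (g⁻¹).1 *ᵥ u) h1
        simp only [Matrix.mulVec_mulVec] at h2
        rw [← Units.val_mul, inv_mul_cancel] at h2
        simp only [Units.val_one, Matrix.one_mulVec] at h2
        exact Subtype.ext h2
      obtain ⟨w, hw⟩ := Finite.surjective_of_injective hinj ⟨_, hv⟩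
      have h1 : g.1 *ᵥ w.1 = g.1 *ᵥ v := congrArg Subtype.val hw
      have h2 := congrArg (fun u => (g⁻¹).1 *ᵥ u) h1
      simp only [Matrix.mulVec_mulVec] at h2
      rw [← Units.val_mul, inv_mul_cancel] at h2
      simp only [Units.val_one, Matrix.one_mulVec] at h2
      rw [← h2]
      exact w.2

theorem transv_mulVec {F : Type*} [Field F] {n : ℕ} (a b : Fin n) (u : Fin n → F) :
    (Matrix.transvection a b (1:F)) *ᵥ u = u + u b • Pi.single a (1:F) := by
  rw [Matrix.transvection, Matrix.add_mulVec, Matrix.one_mulVec, Matrix.single_mulVec]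
  ext i
  by_cases h : i = a
  · subst h; simp
  · simp [Function.update_of_ne h, Pi.single_eq_of_ne h]

theorem coord_ncard_lt {F : Type*} [Field F] [Finite F] (n j j' : ℕ) (hjj : j < j') (hj' : j' ≤ n) :
    ({v : Fin n → F | ∀ i : Fin n, j ≤ (i : ℕ) → v i = 0}).ncard <
      ({v : Fin n → F | ∀ i : Fin n, j' ≤ (i : ℕ) → v i = 0}).ncard := by
  classical
  apply Set.ncard_lt_ncard _ (Set.toFinite _)
  rw [Set.ssubset_iff_of_subset]
  · refine ⟨Pi.single ⟨j, by omega⟩ 1, ?_, ?_⟩
    · intro i hi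
      apply Pi.single_eq_of_ne
      intro h
      rw [h] at hi
      simp at hi
      omega
    · intro h
      have := h ⟨j, by omega⟩ (le_refl _)
      simp at this
  · intro v hv i hi
    exact hv i (by omega)

theorem pk_not_conj {F : Type*} [Field F] [Finite F] (n k : ℕ) (hk0 : 0 < k) (hkn : k < n)
    (h2 : 2 * k ≠ n) (g : GL (Fin n) F) :
    (Cfsg.stabilizing (Cfsg.glToMat (Fin n) F)
        {v : Fin n → F | ∀ i : Fin n, k ≤ (i : ℕ) → v i = 0}).map (MulAut.conj g).toMonoidHom ≠
      Cfsg.stabilizing (Cfsg.glToMat (Fin n) F)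
        {v : Fin n → F | ∀ i : Fin n, n - k ≤ (i : ℕ) → v i = 0} := by
  classical
  intro heq
  obtain ⟨m, hm⟩ : ∃ m, m = n - k := ⟨_, rfl⟩
  rw [← hm] at heq
  have hmk : m ≠ k := by omega
  have hm0 : 0 < m := by omega
  have hmn : m < n := by omega
  obtain ⟨U, hU⟩ : ∃ U : Submodule F (Fin n → F),
      U = Submodule.comap (g⁻¹).1.mulVecLin (coordSub F n k) := ⟨_, rfl⟩
  have hUmem : ∀ u, u ∈ U ↔ ∀ i : Fin n, k ≤ (i:ℕ) → ((g⁻¹).1 *ᵥ u) i = 0 := by
    intro u; rw [hU]; rfl
  have hinv : ∀ p ∈ Cfsg.stabilizing (Cfsg.glToMat (Fin n) F)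
      {v : Fin n → F | ∀ i : Fin n, m ≤ (i : ℕ) → v i = 0}, ∀ u ∈ U, p.1 *ᵥ u ∈ U := by
    intro p hp u hu
    rw [← heq, Subgroup.mem_map] at hp
    obtain ⟨q, hq, hqp⟩ := hp
    have hqp' : g * q * g⁻¹ = p := hqp
    rw [hUmem] at hu ⊢
    have e1 : (g⁻¹).1 *ᵥ (p.1 *ᵥ u) = q.1 *ᵥ ((g⁻¹).1 *ᵥ u) := by
      rw [Matrix.mulVec_mulVec, Matrix.mulVec_mulVec, ← Units.val_mul, ← Units.val_mul, ← hqp']
      congr 2
      group
    rw [e1]
    exact (hq _).mp hu
  have htr : ∀ a b : Fin n, a ≠ b → ((a:ℕ) < m ∨ m ≤ (b:ℕ)) → ∀ u ∈ U, u b ≠ 0 →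
      Pi.single a (1:F) ∈ U := by
    intro a b hab hcond u hu hub
    have hdet : (Matrix.transvection a b (1:F)).det ≠ 0 := by
      rw [Matrix.det_transvection_of_ne _ _ hab]; exact one_ne_zero
    have hmem : Matrix.GeneralLinearGroup.mkOfDetNeZero _ hdet ∈
        Cfsg.stabilizing (Cfsg.glToMat (Fin n) F)
          {v : Fin n → F | ∀ i : Fin n, m ≤ (i : ℕ) → v i = 0} := by
      rw [pk_mem_iff]
      intro i j hi hj
      show (Matrix.transvection a b (1:F)) i j = 0
      rw [Matrix.transvection, Matrix.add_apply,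
        Matrix.one_apply_ne (by intro h; rw [h] at hi; omega), zero_add, Matrix.single_apply,
        if_neg]
      rintro ⟨rfl, rfl⟩
      omega
    have h1 := hinv _ hmem u hu
    have h2 : (Matrix.GeneralLinearGroup.mkOfDetNeZero _ hdet).1 = Matrix.transvection a b (1:F) :=
      rfl
    rw [h2, transv_mulVec] at h1
    have h3 : u b • Pi.single a (1:F) ∈ U := by
      have := U.sub_mem h1 hu
      rwa [add_sub_cancel_left] at this
    have h4 := U.smul_mem (u b)⁻¹ h3
    rwa [smul_smul, inv_mul_cancel₀ hub, one_smul] at h4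
  have hkey : ∀ b : Fin n, ∀ u ∈ U, u b ≠ 0 →
      (∀ a : Fin n, a ≠ b → u a ≠ 0 → ((a:ℕ) < m ∨ m ≤ (b:ℕ))) → Pi.single b (1:F) ∈ U := by
    intro b u hu hub hcond
    have hsum : u b • Pi.single b (1:F) =
        u - ∑ a ∈ Finset.univ.erase b, u a • Pi.single a (1:F) := by
      rw [eq_sub_iff_add_eq,
        Finset.add_sum_erase Finset.univ (fun a => u a • Pi.single a (1:F)) (Finset.mem_univ b)]
      exact (pi_eq_sum_univ' u).symm
    have h3 : u b • Pi.single b (1:F) ∈ U := by
      rw [hsum]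
      apply U.sub_mem hu
      apply U.sum_mem
      intro a ha
      by_cases hua : u a = 0
      · rw [hua, zero_smul]; exact U.zero_mem
      · exact U.smul_mem _ (htr a b (Finset.ne_of_mem_erase ha)
          (hcond a (Finset.ne_of_mem_erase ha) hua) u hu hub)
    have h4 := U.smul_mem (u b)⁻¹ h3
    rwa [smul_smul, inv_mul_cancel₀ hub, one_smul] at h4
  have hgU : ∀ v : Fin n → F, (∀ i : Fin n, k ≤ (i:ℕ) → v i = 0) → g.1 *ᵥ v ∈ U := by
    intro v hv
    rw [hUmem, Matrix.mulVec_mulVec, ← Units.val_mul, inv_mul_cancel, Units.val_one,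
      Matrix.one_mulVec]
    exact hv
  have hUg : ∀ u ∈ U, ∃ v : Fin n → F, (∀ i : Fin n, k ≤ (i:ℕ) → v i = 0) ∧ g.1 *ᵥ v = u := by
    intro u hu
    refine ⟨(g⁻¹).1 *ᵥ u, (hUmem u).mp hu, ?_⟩
    rw [Matrix.mulVec_mulVec, ← Units.val_mul, mul_inv_cancel, Units.val_one, Matrix.one_mulVec]
  have hginj : Function.Injective (fun v : Fin n → F => g.1 *ᵥ v) := by
    intro v w hvw
    have h1 := congrArg (fun u => (g⁻¹).1 *ᵥ u) hvw
    simp only [Matrix.mulVec_mulVec] at h1
    rw [← Units.val_mul, inv_mul_cancel] at h1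
    simpa using h1
  by_cases hc1 : ∃ u ∈ U, ∃ b : Fin n, m ≤ (b:ℕ) ∧ u b ≠ 0
  · obtain ⟨u, hu, b, hb, hub⟩ := hc1
    have hall : ∀ a : Fin n, Pi.single a (1:F) ∈ U := by
      intro a
      by_cases hab : a = b
      · subst hab
        exact hkey a u hu hub (fun _ _ _ => Or.inr hb)
      · exact htr a b hab (Or.inr hb) u hu hub
    have htop : ∀ x : Fin n → F, x ∈ U := by
      intro x
      rw [pi_eq_sum_univ' x]
      exact U.sum_mem (fun a _ => U.smul_mem _ (hall a))
    have h1 := htop (g.1 *ᵥ Pi.single ⟨n - 1, by omega⟩ 1)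
    rw [hUmem, Matrix.mulVec_mulVec, ← Units.val_mul, inv_mul_cancel, Units.val_one,
      Matrix.one_mulVec] at h1
    have h2 := h1 ⟨n - 1, by omega⟩ (by simp; omega)
    simp at h2
  · push Not at hc1
    by_cases hc2 : ∃ u ∈ U, u ≠ 0
    · obtain ⟨u, hu, hu0⟩ := hc2
      obtain ⟨b, hub⟩ : ∃ b, u b ≠ 0 := by
        by_contra hcon
        push Not at hcon
        exact hu0 (funext hcon)
      have hbm : (b:ℕ) < m := by
        by_contra hbm
        exact hub (hc1 u hu b (by omega))
      have hall : ∀ a : Fin n, (a:ℕ) < m → Pi.single a (1:F) ∈ U := by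
        intro a ha
        by_cases hab : a = b
        · subst hab
          refine hkey a u hu hub (fun a' _ hua' => Or.inl ?_)
          by_contra hcon
          exact hua' (hc1 u hu a' (by omega))
        · exact htr a b hab (Or.inl ha) u hu hub
      have hWU : ∀ x : Fin n → F, (∀ i : Fin n, m ≤ (i:ℕ) → x i = 0) → x ∈ U := by
        intro x hx
        rw [pi_eq_sum_univ' x]
        apply U.sum_mem
        intro a _
        by_cases ha : (a:ℕ) < m
        · exact U.smul_mem _ (hall a ha)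
        · rw [hx a (by omega), zero_smul]; exact U.zero_mem
      have hset : (fun v : Fin n → F => g.1 *ᵥ v) ''
          {v : Fin n → F | ∀ i : Fin n, k ≤ (i : ℕ) → v i = 0} =
          {v : Fin n → F | ∀ i : Fin n, m ≤ (i : ℕ) → v i = 0} := by
        ext x
        constructor
        · rintro ⟨v, hv, rfl⟩
          exact fun i hi => hc1 _ (hgU v hv) i hi
        · intro hx
          obtain ⟨v, hv, hvx⟩ := hUg x (hWU x hx)
          exact ⟨v, hv, hvx⟩
      have hcard := Set.ncard_image_of_injective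
        {v : Fin n → F | ∀ i : Fin n, k ≤ (i : ℕ) → v i = 0} hginj
      rw [hset] at hcard
      rcases Nat.lt_or_gt_of_ne hmk with h | h
      · have := coord_ncard_lt (F := F) n m k h (by omega)
        omega
      · have := coord_ncard_lt (F := F) n k m h (by omega)
        omega
    · push Not at hc2
      have h1 := hc2 _ (hgU (Pi.single ⟨0, by omega⟩ 1) (by
        intro i hi
        apply Pi.single_eq_of_ne
        intro h
        rw [h] at hi
        simp at hi
        omega))
      have h2 := hginj (h1.trans (Matrix.mulVec_zero _).symm)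
      have h3 := congrFun h2 ⟨0, by omega⟩
      simp at h3

/-- transpose along the anti-diagonal -/
def revT {F : Type*} [Field F] {n : ℕ} (M : Matrix (Fin n) (Fin n) F) : Matrix (Fin n) (Fin n) F :=
  Mᵀ.submatrix (Fin.revPerm : Fin n → Fin n) (Fin.revPerm : Fin n → Fin n)

theorem revT_apply {F : Type*} [Field F] {n : ℕ} (M : Matrix (Fin n) (Fin n) F) (i j : Fin n) :
    revT M i j = M (Fin.rev j) (Fin.rev i) := rfl

theorem revT_mul {F : Type*} [Field F] {n : ℕ} (A B : Matrix (Fin n) (Fin n) F) :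
    revT (A * B) = revT B * revT A := by
  unfold revT
  rw [Matrix.transpose_mul]
  exact (Matrix.submatrix_mul_equiv Bᵀ Aᵀ _ Fin.revPerm _).symm

theorem revT_one {F : Type*} [Field F] {n : ℕ} : revT (1 : Matrix (Fin n) (Fin n) F) = 1 := by
  unfold revT
  rw [Matrix.transpose_one]
  exact Matrix.submatrix_one_equiv Fin.revPerm

theorem revT_revT {F : Type*} [Field F] {n : ℕ} (M : Matrix (Fin n) (Fin n) F) :
    revT (revT M) = M := by
  ext i j
  rw [revT_apply, revT_apply, Fin.rev_rev, Fin.rev_rev]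

/-- the inverse-transpose automorphism twisted by the reversal -/
def revInvT {F : Type*} [Field F] {n : ℕ} (g : GL (Fin n) F) : GL (Fin n) F :=
  ⟨revT (g⁻¹).1, revT g.1,
    by rw [← revT_mul, ← Units.val_mul, mul_inv_cancel, Units.val_one, revT_one],
    by rw [← revT_mul, ← Units.val_mul, inv_mul_cancel, Units.val_one, revT_one]⟩

theorem revInvT_mul {F : Type*} [Field F] {n : ℕ} (g h : GL (Fin n) F) :
    revInvT (g * h) = revInvT g * revInvT h := by
  apply Units.ext
  show revT ((g * h)⁻¹).1 = revT (g⁻¹).1 * revT (h⁻¹).1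
  rw [_root_.mul_inv_rev, Units.val_mul, revT_mul]

theorem revInvT_invol {F : Type*} [Field F] {n : ℕ} (g : GL (Fin n) F) :
    revInvT (revInvT g) = g := by
  apply Units.ext
  show revT (revT g.1) = g.1
  exact revT_revT _

theorem revInvT_mem {F : Type*} [Field F] [Finite F] (n k : ℕ) (hkn : k ≤ n) (g : GL (Fin n) F)
    (hg : g ∈ Cfsg.stabilizing (Cfsg.glToMat (Fin n) F)
        {v : Fin n → F | ∀ i : Fin n, k ≤ (i : ℕ) → v i = 0}) :
    revInvT g ∈ Cfsg.stabilizing (Cfsg.glToMat (Fin n) F)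
        {v : Fin n → F | ∀ i : Fin n, n - k ≤ (i : ℕ) → v i = 0} := by
  rw [pk_mem_iff]
  intro a b ha hb
  show revT (g⁻¹).1 a b = 0
  rw [revT_apply]
  have h1 := (pk_mem_iff n k g⁻¹).mp (inv_mem hg)
  apply h1
  · rw [Fin.val_rev]; omega
  · rw [Fin.val_rev]; have := a.2; omega

theorem pk_iso {F : Type*} [Field F] [Finite F] (n k : ℕ) (hkn : k ≤ n) :
    Nonempty (↥(Cfsg.stabilizing (Cfsg.glToMat (Fin n) F)
        {v : Fin n → F | ∀ i : Fin n, k ≤ (i : ℕ) → v i = 0}) ≃*
      ↥(Cfsg.stabilizing (Cfsg.glToMat (Fin n) F)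
        {v : Fin n → F | ∀ i : Fin n, n - k ≤ (i : ℕ) → v i = 0})) := by
  classical
  have hnk : n - (n - k) = k := by omega
  exact ⟨{ toFun := fun g => ⟨revInvT g.1, revInvT_mem n k hkn g.1 g.2⟩
           invFun := fun g => ⟨revInvT g.1, by
              have := revInvT_mem n (n - k) (by omega) g.1 g.2
              rwa [hnk] at this⟩
           left_inv := fun g => Subtype.ext (revInvT_invol g.1)
           right_inv := fun g => Subtype.ext (revInvT_invol g.1)
           map_mul' := fun g h => Subtype.ext (revInvT_mul g.1 h.1) }⟩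

end Cfsg.Agent.Lib.Helper4
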