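import Mathlib
import Cfsg.Prelude.Def_ClassicalGeometry
import Cfsg.Agent.Lib.Helper4.ParabolicDual

set_option autoImplicit false

namespace Cfsg.Agent.Lib.Helper4

open Matrix

theorem transv_mulVec' {F : Type*} [Field F] {n : ℕ} (a b : Fin n) (c : F) (u : Fin n → F) :
    (Matrix.transvection a b c) *ᵥ u = u + (c * u b) • Pi.single a (1:F) := by
  rw [Matrix.transvection, Matrix.add_mulVec, Matrix.one_mulVec, Matrix.single_mulVec]
  ext i
  by_cases h : i = a
  · subst h; simp
  · simp [Function.update_of_ne h, Pi.single_eq_of_ne h]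

/-- elementary transvection as an element of the general linear group -/
def glTransv {F : Type*} [Field F] {n : ℕ} (a b : Fin n) (hab : a ≠ b) (c : F) : GL (Fin n) F :=
  Matrix.GeneralLinearGroup.mkOfDetNeZero (Matrix.transvection a b c)
    (by rw [Matrix.det_transvection_of_ne _ _ hab]; exact one_ne_zero)

theorem glTransv_val {F : Type*} [Field F] {n : ℕ} (a b : Fin n) (hab : a ≠ b) (c : F) :
    (glTransv a b hab c).1 = Matrix.transvection a b c := rfl

theorem glTransv_mem_pk {F : Type*} [Field F] [Finite F] (n k : ℕ) (a b : Fin n) (hab : a ≠ b)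
    (c : F) (h : (a:ℕ) < k ∨ k ≤ (b:ℕ)) :
    glTransv a b hab c ∈ Cfsg.stabilizing (Cfsg.glToMat (Fin n) F)
      {v : Fin n → F | ∀ i : Fin n, k ≤ (i : ℕ) → v i = 0} := by
  rw [pk_mem_iff]
  intro i j hi hj
  show (Matrix.transvection a b c) i j = 0
  rw [Matrix.transvection, Matrix.add_apply,
    Matrix.one_apply_ne (by intro h; rw [h] at hi; omega), zero_add, Matrix.single_apply, if_neg]
  rintro ⟨rfl, rfl⟩
  omega

theorem pk_isCoatom {F : Type*} [Field F] [Finite F] (n k : ℕ) (hk0 : 0 < k) (hkn : k < n) :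
    IsCoatom (Cfsg.stabilizing (Cfsg.glToMat (Fin n) F)
      {v : Fin n → F | ∀ i : Fin n, k ≤ (i : ℕ) → v i = 0}) := by
  classical
  obtain ⟨P, hP⟩ : ∃ P : Subgroup (GL (Fin n) F), P = Cfsg.stabilizing (Cfsg.glToMat (Fin n) F)
      {v : Fin n → F | ∀ i : Fin n, k ≤ (i : ℕ) → v i = 0} := ⟨_, rfl⟩
  rw [← hP]
  have hPmem : ∀ g : GL (Fin n) F, g ∈ P ↔
      ∀ a b : Fin n, k ≤ (a : ℕ) → (b : ℕ) < k → g.1 a b = 0 := by
    intro g; rw [hP]; exact pk_mem_iff n k g
  have hPstab : ∀ g : GL (Fin n) F, g ∈ P ↔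
      ∀ v : Fin n → F, v ∈ coordSub F n k ↔ g.1 *ᵥ v ∈ coordSub F n k := by
    intro g; rw [hP]; rfl
  constructor
  · intro htop
    have hne : (⟨k, hkn⟩ : Fin n) ≠ ⟨0, by omega⟩ := by
      intro h; have := congrArg Fin.val h; simp at this; omega
    have h1 : glTransv (⟨k, hkn⟩ : Fin n) ⟨0, by omega⟩ hne (1:F) ∈ P := by rw [htop]; trivial
    rw [hPmem] at h1
    have h2 := h1 ⟨k, hkn⟩ ⟨0, by omega⟩ (le_refl _) hk0
    rw [glTransv_val, Matrix.transvection, Matrix.add_apply, Matrix.one_apply_ne hne, zero_add,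
      Matrix.single_apply_same] at h2
    exact one_ne_zero h2
  · intro H hPH
    rw [eq_top_iff]
    obtain ⟨h, hhH, hhP⟩ := SetLike.exists_of_lt hPH
    have hPle : P ≤ H := hPH.le
    rw [hPmem] at hhP
    push Not at hhP
    obtain ⟨a₀, b₀, ha₀, hb₀, hab₀⟩ := hhP
    have hstep1 : ∀ a : Fin n, k ≤ (a:ℕ) →
        ∃ g ∈ H, g.1 *ᵥ Pi.single a (1:F) ∈ coordSub F n k := by
      intro a ha
      obtain ⟨τ, hτP, hτ⟩ : ∃ τ ∈ P, ((τ * h).1 *ᵥ Pi.single b₀ (1:F)) a ≠ 0 := by
        by_cases hva : (h.1 *ᵥ Pi.single b₀ (1:F)) a = 0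
        · have haa : a ≠ a₀ := by
            rintro rfl
            rw [Matrix.mulVec_single_one] at hva
            exact hab₀ hva
          refine ⟨glTransv a a₀ haa 1, ?_, ?_⟩
          · rw [hP]; exact glTransv_mem_pk n k a a₀ haa 1 (Or.inr ha₀)
          · rw [Units.val_mul, ← Matrix.mulVec_mulVec, glTransv_val, transv_mulVec', Pi.add_apply,
              hva, zero_add, Pi.smul_apply, Pi.single_eq_same, one_mul, smul_eq_mul, mul_one,
              Matrix.mulVec_single_one]
            exact hab₀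
        · exact ⟨1, P.one_mem, by rwa [one_mul]⟩
      obtain ⟨v₁, hv₁⟩ : ∃ v₁ : Fin n → F, v₁ = (τ * h).1 *ᵥ Pi.single b₀ (1:F) := ⟨_, rfl⟩
      rw [← hv₁] at hτ
      have hdet : ((1 : Matrix (Fin n) (Fin n) F).updateCol a v₁).det ≠ 0 := by
        rw [← Matrix.cramer_apply, Matrix.cramer_one]; exact hτ
      obtain ⟨M, hM⟩ : ∃ M : GL (Fin n) F,
          M.1 = (1 : Matrix (Fin n) (Fin n) F).updateCol a v₁ :=
        ⟨Matrix.GeneralLinearGroup.mkOfDetNeZero _ hdet, rfl⟩
      have hMP : M ∈ P := by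
        rw [hPmem]
        intro i j hi hj
        rw [hM, Matrix.updateCol_apply, if_neg (by intro h; rw [h] at hj; omega),
          Matrix.one_apply_ne (by intro h; rw [h] at hi; omega)]
      have hMa : M.1 *ᵥ Pi.single a (1:F) = v₁ := by
        rw [Matrix.mulVec_single_one, hM]
        ext i
        simp [Matrix.updateCol_apply]
      refine ⟨(τ * h)⁻¹ * M, H.mul_mem (H.inv_mem (H.mul_mem (hPle hτP) hhH)) (hPle hMP), ?_⟩
      rw [Units.val_mul, ← Matrix.mulVec_mulVec, hMa, hv₁, Matrix.mulVec_mulVec, ← Units.val_mul,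
        inv_mul_cancel, Units.val_one, Matrix.one_mulVec]
      intro i hi
      apply Pi.single_eq_of_ne
      intro h'
      rw [h'] at hi
      omega
    have hstep2 : ∀ (a b : Fin n) (hab : a ≠ b) (c : F), glTransv a b hab c ∈ H := by
      intro a b hab c
      by_cases ha : (a:ℕ) < k
      · apply hPle; rw [hP]; exact glTransv_mem_pk n k a b hab c (Or.inl ha)
      · obtain ⟨g, hgH, hga⟩ := hstep1 a (by omega)
        have hconj : g * glTransv a b hab c * g⁻¹ ∈ P := by
          rw [hPstab]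
          intro v
          have e1 : (g * glTransv a b hab c * g⁻¹).1 *ᵥ v =
              v + (c * ((g⁻¹).1 *ᵥ v) b) • (g.1 *ᵥ Pi.single a (1:F)) := by
            rw [Units.val_mul, Units.val_mul, ← Matrix.mulVec_mulVec, ← Matrix.mulVec_mulVec,
              glTransv_val, transv_mulVec', Matrix.mulVec_add, Matrix.mulVec_smul,
              Matrix.mulVec_mulVec, ← Units.val_mul, mul_inv_cancel, Units.val_one,
              Matrix.one_mulVec]
          rw [e1]
          exact (Submodule.add_mem_iff_left _ (Submodule.smul_mem _ _ hga)).symm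
        have e2 : glTransv a b hab c = g⁻¹ * (g * glTransv a b hab c * g⁻¹) * g := by group
        rw [e2]
        exact H.mul_mem (H.mul_mem (H.inv_mem hgH) (hPle hconj)) hgH
    have hlist : ∀ L : List (Matrix.TransvectionStruct (Fin n) F),
        ∃ x ∈ H, x.1 = (L.map Matrix.TransvectionStruct.toMatrix).prod := by
      intro L
      induction L with
      | nil => exact ⟨1, H.one_mem, by simp⟩
      | cons t L ih =>
        obtain ⟨x, hx, hxe⟩ := ih
        refine ⟨glTransv t.i t.j t.hij t.c * x, H.mul_mem (hstep2 _ _ _ _) hx, ?_⟩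
        rw [List.map_cons, List.prod_cons, Units.val_mul, hxe]
        rfl
    intro g _
    obtain ⟨L, L', D, hD⟩ := Matrix.Pivot.exists_list_transvec_mul_diagonal_mul_list_transvec g.1
    obtain ⟨x, hx, hxe⟩ := hlist L
    obtain ⟨x', hx', hxe'⟩ := hlist L'
    have hd : (x⁻¹ * g * x'⁻¹).1 = Matrix.diagonal D := by
      rw [← hxe, ← hxe'] at hD
      rw [Units.val_mul, Units.val_mul, hD]
      simp only [← Matrix.mul_assoc]
      rw [← Units.val_mul, inv_mul_cancel, Units.val_one, Matrix.one_mul, Matrix.mul_assoc,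
        ← Units.val_mul, mul_inv_cancel, Units.val_one, Matrix.mul_one]
    have hdP : x⁻¹ * g * x'⁻¹ ∈ P := by
      rw [hPmem]
      intro i j hi hj
      rw [hd, Matrix.diagonal_apply_ne]
      intro h; rw [h] at hi; omega
    have e3 : g = x * (x⁻¹ * g * x'⁻¹) * x' := by group
    rw [e3]
    exact H.mul_mem (H.mul_mem hx (hPle hdP)) hx'

end Cfsg.Agent.Lib.Helper4
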