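import Mathlib
import Cfsg.Agent.Lib.Helper4.QuadSim

set_option autoImplicit false

namespace Cfsg.Agent.Lib.Helper4

open QuadraticMap

universe u v

section

variable {F : Type u} [Field F] {V : Type v} [AddCommGroup V] [Module F V]

theorem exists_repr_one [Fintype F] [FiniteDimensional F V] (Q : QuadraticForm F V)
    (hQ : (polarBilin Q).Nondegenerate) (h : 2 ≤ Module.finrank F V) : ∃ x : V, Q x = 1 := by
  classical
  let b := Module.finBasis F V
  let e : Fin 2 → V := fun i => b (Fin.castLE h i)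
  have he : LinearIndependent F e := b.linearIndependent.comp _ (Fin.castLE_injective h)
  by_cases han : ∀ a c : F, Q (a • e 0 + c • e 1) = 0 → a = 0 ∧ c = 0
  · obtain ⟨a, c, hac⟩ := exists_repr_of_anisotropic Q (e 0) (e 1) han 1
    exact ⟨_, hac⟩
  · push Not at han
    obtain ⟨a, c, hq, hne⟩ := han
    have hv0 : a • e 0 + c • e 1 ≠ 0 := by
      intro h0
      have := Fintype.linearIndependent_iff.1 he ![a, c] (by simpa [Fin.sum_univ_two] using h0)
      exact hne (this 0) (this 1)
    obtain ⟨w, hw, hvw⟩ := exists_hyp_partner Q hQ _ hv0 hq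
    refine ⟨a • e 0 + c • e 1 + w, ?_⟩
    rw [quad_add2, hq, hw, hvw]
    simp

theorem equiv_of_isometry [FiniteDimensional F V] (Q₁ Q₂ : QuadraticForm F V)
    (hQ : (polarBilin Q₁).Nondegenerate) (g : V →ₗ[F] V)
    (h : ∀ v, Q₂ (g v) = Q₁ v) :
    ∃ g' : V ≃ₗ[F] V, ∀ v, Q₂ (g' v) = Q₁ v := by
  have hinj : Function.Injective g := by
    rw [← LinearMap.ker_eq_bot, LinearMap.ker_eq_bot']
    intro u hu
    apply hQ.1
    intro w
    have h3 : polar Q₂ (g u) (g w) = polar Q₁ u w := by
      simp only [polar, ← map_add, h]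
    rw [hu, polar_zero_left] at h3
    exact h3.symm
  exact ⟨LinearEquiv.ofInjectiveEndo g hinj, fun v => h v⟩

theorem polarBilin_isRefl (Q : QuadraticForm F V) : (polarBilin Q).IsRefl := by
  intro x y hxy
  show polar Q y x = 0
  rw [polar_comm]
  exact hxy

end

theorem quad_diag_struct (F : Type u) [Field F] [Fintype F] (h2 : (2 : F) ≠ 0) :
    ∀ (m : ℕ) (V : Type v) [AddCommGroup V] [Module F V] [FiniteDimensional F V]
      (Q : QuadraticForm F V), Module.finrank F V = m + 1 →
      (polarBilin Q).Nondegenerate →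
      ∃ (b : Module.Basis (Fin (m + 1)) F V) (d : F), d ≠ 0 ∧
        (∀ i j, i ≠ j → polar Q (b i) (b j) = 0) ∧
        (∀ i, i ≠ Fin.last m → Q (b i) = 1) ∧ Q (b (Fin.last m)) = d := by
  intro m
  induction m with
  | zero =>
    intro V _ _ _ Q hV hB
    have hV1 : Module.finrank F V = 1 := by simpa using hV
    let b := Module.finBasisOfFinrankEq F V hV
    have hall : ∀ i : Fin (0 + 1), i = Fin.last 0 := fun i => by
      apply Fin.ext
      have := i.2
      simp only [Fin.val_last]
      omega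
    have hd : Q (b (Fin.last 0)) ≠ 0 := by
      intro h
      apply b.ne_zero (Fin.last 0)
      apply hB.1
      intro y
      obtain ⟨c, rfl⟩ := exists_smul_eq_of_finrank_eq_one hV1 (b.ne_zero (Fin.last 0)) y
      show polar Q _ (c • _) = 0
      rw [polar_smul_right, polar_self, h, smul_zero, smul_zero]
    refine ⟨b, Q (b (Fin.last 0)), hd, ?_, ?_, rfl⟩
    · intro i j hij
      exact absurd ((hall i).trans (hall j).symm) hij
    · intro i hi
      exact absurd (hall i) hi
  | succ m ih =>
    intro V _ _ _ Q hV hB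
    obtain ⟨x, hx⟩ := exists_repr_one Q hB (by omega)
    have hxx : polar Q x x = 2 := by
      rw [polar_self, hx]
      simp
    have hxx' : (polarBilin Q) x x ≠ 0 := by
      show polar Q x x ≠ 0
      rw [hxx]
      exact h2
    have hx0 : x ≠ 0 := by
      intro h
      rw [h, QuadraticMap.map_zero] at hx
      exact zero_ne_one hx
    set W : Submodule F V := LinearMap.BilinForm.orthogonal (polarBilin Q) (Submodule.span F {x})
      with hW
    have hmemW : ∀ z, z ∈ W ↔ polar Q x z = 0 := by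
      intro z
      rw [hW, LinearMap.BilinForm.mem_orthogonal_iff]
      constructor
      · intro h
        exact h x (Submodule.mem_span_singleton_self x)
      · intro h n hn
        obtain ⟨a, rfl⟩ := Submodule.mem_span_singleton.1 hn
        show polar Q (a • x) z = 0
        rw [polar_smul_left, h, smul_zero]
    have hfr : Module.finrank F W = m + 1 := by
      have h1 := Submodule.finrank_add_eq_of_isCompl
        (LinearMap.BilinForm.isCompl_span_singleton_orthogonal hxx')
      rw [finrank_span_singleton hx0, hV] at h1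
      have h3 : Module.finrank F W = Module.finrank F
          (LinearMap.BilinForm.orthogonal (polarBilin Q) (Submodule.span F {x})) := rfl
      omega
    have hnd : (polarBilin (Q.restrict W)).Nondegenerate :=
      LinearMap.BilinForm.restrict_nondegenerate_orthogonal_spanSingleton (polarBilin Q) hB
        (polarBilin_isRefl Q) hxx'
    obtain ⟨b', d, hd, horth, hone, hlast⟩ := ih W (Q.restrict W) hfr hnd
    have hli : ∀ (c : F), ∀ w ∈ W, c • x + w = 0 → c = 0 := by
      intro c w hw h
      have h3 := congrArg (polar Q x) h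
      rw [polar_add_right, polar_smul_right, hxx, (hmemW w).1 hw, polar_zero_right] at h3
      simp only [smul_eq_mul, add_zero] at h3
      exact (mul_eq_zero.1 h3).resolve_right h2
    have hsp : ∀ z : V, ∃ c : F, z + c • x ∈ W := by
      intro z
      refine ⟨-(polar Q x z) / 2, ?_⟩
      rw [hmemW, polar_add_right, polar_smul_right, hxx, smul_eq_mul]
      field_simp
      ring
    refine ⟨Module.Basis.mkFinCons x b' hli hsp, d, hd, ?_, ?_, ?_⟩
    · intro i j hij
      rw [Module.Basis.coe_mkFinCons]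
      revert hij
      refine Fin.cases ?_ (fun i' => ?_) i <;> refine Fin.cases ?_ (fun j' => ?_) j
      · intro hij
        exact absurd rfl hij
      · intro _
        simp only [Fin.cons_zero, Fin.cons_succ, Function.comp_apply]
        exact (hmemW _).1 (b' j').2
      · intro _
        simp only [Fin.cons_zero, Fin.cons_succ, Function.comp_apply]
        rw [polar_comm]
        exact (hmemW _).1 (b' i').2
      · intro hij
        simp only [Fin.cons_succ, Function.comp_apply]
        exact horth i' j' (fun h => hij (by rw [h]))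
    · intro i
      rw [Module.Basis.coe_mkFinCons]
      refine Fin.cases ?_ (fun i' => ?_) i
      · intro _
        simp only [Fin.cons_zero]
        exact hx
      · intro hi
        simp only [Fin.cons_succ, Function.comp_apply]
        exact hone i' (fun h => hi (by rw [h, Fin.succ_last]))
    · rw [Module.Basis.coe_mkFinCons, ← Fin.succ_last]
      simp only [Fin.cons_succ, Function.comp_apply]
      exact hlast

end Cfsg.Agent.Lib.Helper4

namespace Cfsg.Agent.Lib.Helper4

open QuadraticMap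

universe u

theorem gram_eq_toMatrix' {F : Type u} [Field F] {n : ℕ} (Q : QuadraticForm F (Fin n → F)) :
    (Matrix.of (fun i j : Fin n => QuadraticMap.polar ⇑Q (Pi.single i 1) (Pi.single j 1)))
      = LinearMap.BilinForm.toMatrix' (polarBilin Q) := by
  ext i j
  rw [LinearMap.BilinForm.toMatrix'_apply]
  rfl

theorem gram_det_of_diag {F : Type u} [Field F] {n : ℕ} (Q : QuadraticForm F (Fin n → F))
    (b : Module.Basis (Fin n) F (Fin n → F))
    (horth : ∀ i j, i ≠ j → polar Q (b i) (b j) = 0) :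
    ∃ p : F, p ≠ 0 ∧
      p ^ 2 * (Matrix.of (fun i j : Fin n =>
        QuadraticMap.polar ⇑Q (Pi.single i 1) (Pi.single j 1))).det = ∏ i, (2 * Q (b i)) := by
  classical
  have h1 := LinearMap.BilinForm.toMatrix_mul_basis_toMatrix (Pi.basisFun F (Fin n)) b
    (polarBilin Q)
  rw [LinearMap.BilinForm.toMatrix_basisFun] at h1
  have h2 : LinearMap.BilinForm.toMatrix b (polarBilin Q)
      = Matrix.diagonal (fun i => 2 * Q (b i)) := by
    ext i j
    rw [LinearMap.BilinForm.toMatrix_apply, Matrix.diagonal_apply]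
    by_cases hij : i = j
    · subst hij
      rw [if_pos rfl]
      show polar Q (b i) (b i) = _
      rw [polar_self]
      simp
    · rw [if_neg hij]
      exact horth i j hij
  refine ⟨((Pi.basisFun F (Fin n)).toMatrix b).det, ?_, ?_⟩
  · have h3 := Module.Basis.toMatrix_mul_toMatrix_flip (Pi.basisFun F (Fin n)) b
    intro h0
    have h4 := congrArg Matrix.det h3
    rw [Matrix.det_mul, h0, zero_mul, Matrix.det_one] at h4
    exact zero_ne_one h4
  · rw [gram_eq_toMatrix']
    have h5 := congrArg Matrix.det h1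
    rw [h2, Matrix.det_mul, Matrix.det_mul, Matrix.det_transpose, Matrix.det_diagonal] at h5
    rw [← h5]
    ring

theorem isometry_of_disc {F : Type u} [Field F] [Fintype F] (h2 : (2 : F) ≠ 0) {n : ℕ}
    (Q₁ Q₂ : QuadraticForm F (Fin n → F))
    (h₁ : (QuadraticMap.polarBilin Q₁).Nondegenerate)
    (h₂ : (QuadraticMap.polarBilin Q₂).Nondegenerate)
    (hsq : IsSquare ((Matrix.of (fun i j : Fin n =>
        QuadraticMap.polar ⇑Q₁ (Pi.single i 1) (Pi.single j 1))).det *
      (Matrix.of (fun i j : Fin n =>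
        QuadraticMap.polar ⇑Q₂ (Pi.single i 1) (Pi.single j 1))).det)) :
    ∃ g : (Fin n → F) ≃ₗ[F] (Fin n → F), ∀ v, Q₂ (g v) = Q₁ v := by
  classical
  rcases Nat.eq_zero_or_pos n with hn | hn
  · subst hn
    refine ⟨LinearEquiv.refl F _, fun v => ?_⟩
    have hv : v = 0 := Subsingleton.elim _ _
    rw [hv]
    show Q₂ 0 = Q₁ 0
    rw [QuadraticMap.map_zero, QuadraticMap.map_zero]
  obtain ⟨m, rfl⟩ : ∃ m, n = m + 1 := ⟨n - 1, by omega⟩
  have hfin : Module.finrank F (Fin (m + 1) → F) = m + 1 := by simp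
  obtain ⟨b₁, d₁, hd₁, horth₁, hone₁, hlast₁⟩ := quad_diag_struct F h2 m _ Q₁ hfin h₁
  obtain ⟨b₂, d₂, hd₂, horth₂, hone₂, hlast₂⟩ := quad_diag_struct F h2 m _ Q₂ hfin h₂
  obtain ⟨p₁, hp₁, hg₁⟩ := gram_det_of_diag Q₁ b₁ horth₁
  obtain ⟨p₂, hp₂, hg₂⟩ := gram_det_of_diag Q₂ b₂ horth₂
  have hprod : ∀ (Q : QuadraticForm F (Fin (m + 1) → F))
      (b : Module.Basis (Fin (m + 1)) F (Fin (m + 1) → F)) (d : F),
      (∀ i, i ≠ Fin.last m → Q (b i) = 1) → Q (b (Fin.last m)) = d →
      ∏ i, (2 * Q (b i)) = 2 ^ (m + 1) * d := by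
    intro Q b d hone hlast
    rw [Fin.prod_univ_castSucc, hlast]
    have : ∀ i : Fin m, 2 * Q (b (Fin.castSucc i)) = 2 := by
      intro i
      rw [hone _ (Fin.castSucc_lt_last i).ne]
      simp
    simp only [this, Finset.prod_const, Finset.card_univ, Fintype.card_fin]
    ring
  rw [hprod Q₁ b₁ d₁ hone₁ hlast₁] at hg₁
  rw [hprod Q₂ b₂ d₂ hone₂ hlast₂] at hg₂
  obtain ⟨s, hs⟩ := hsq
  have h2m : (2 : F) ^ (m + 1) ≠ 0 := pow_ne_zero _ h2
  have hdd : d₁ * d₂ = (p₁ * p₂ * s / 2 ^ (m + 1)) ^ 2 := by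
    have e1 : d₁ = p₁ ^ 2 * (Matrix.of (fun i j : Fin (m + 1) =>
        QuadraticMap.polar ⇑Q₁ (Pi.single i 1) (Pi.single j 1))).det / 2 ^ (m + 1) := by
      rw [hg₁]
      field_simp
    have e2 : d₂ = p₂ ^ 2 * (Matrix.of (fun i j : Fin (m + 1) =>
        QuadraticMap.polar ⇑Q₂ (Pi.single i 1) (Pi.single j 1))).det / 2 ^ (m + 1) := by
      rw [hg₂]
      field_simp
    rw [e1, e2]
    have : p₁ ^ 2 * (Matrix.of (fun i j : Fin (m + 1) =>
        QuadraticMap.polar ⇑Q₁ (Pi.single i 1) (Pi.single j 1))).det / 2 ^ (m + 1) *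
        (p₂ ^ 2 * (Matrix.of (fun i j : Fin (m + 1) =>
        QuadraticMap.polar ⇑Q₂ (Pi.single i 1) (Pi.single j 1))).det / 2 ^ (m + 1))
        = p₁ ^ 2 * p₂ ^ 2 * ((Matrix.of (fun i j : Fin (m + 1) =>
        QuadraticMap.polar ⇑Q₁ (Pi.single i 1) (Pi.single j 1))).det *
        (Matrix.of (fun i j : Fin (m + 1) =>
        QuadraticMap.polar ⇑Q₂ (Pi.single i 1) (Pi.single j 1))).det) / (2 ^ (m + 1)) ^ 2 := by
      field_simp
    rw [this, hs]
    field_simp
  obtain ⟨r, hr⟩ : ∃ r, r = p₁ * p₂ * s / 2 ^ (m + 1) := ⟨_, rfl⟩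
  rw [← hr] at hdd
  have ht : (r / d₂) ^ 2 * d₂ = d₁ := by
    field_simp
    rw [← hdd]
    ring
  obtain ⟨t, htdef⟩ : ∃ t, t = r / d₂ := ⟨_, rfl⟩
  rw [← htdef] at ht
  let G : Fin (m + 1) → (Fin (m + 1) → F) :=
    fun i => if i = Fin.last m then t • b₂ i else b₂ i
  have hG1 : ∀ i, Q₂ (G i) = Q₁ (b₁ i) := by
    intro i
    by_cases hi : i = Fin.last m
    · subst hi
      simp only [G, if_pos rfl]
      rw [QuadraticMap.map_smul, hlast₂, hlast₁, smul_eq_mul, ← ht]
      ring
    · simp only [G, if_neg hi]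
      rw [hone₂ i hi, hone₁ i hi]
  have hG2 : ∀ i j, i ≠ j → polar Q₂ (G i) (G j) = 0 := by
    intro i j hij
    simp only [G]
    split_ifs <;> simp [polar_smul_left, polar_smul_right, horth₂ i j hij]
  have key : ∀ v, Q₂ (b₁.constr F G v) = Q₁ v := by
    intro v
    refine quad_ext_basis b₁ (Q₂.comp (b₁.constr F G)) Q₁ (fun i => ?_) (fun i j => ?_) v
    · rw [QuadraticMap.comp_apply, Module.Basis.constr_basis, hG1]
    · rw [polar_comp_apply, Module.Basis.constr_basis, Module.Basis.constr_basis]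
      by_cases hij : i = j
      · subst hij
        rw [polar_self, polar_self, hG1]
      · rw [hG2 i j hij, horth₁ i j hij]
  exact equiv_of_isometry Q₁ Q₂ h₁ _ key

theorem disc_of_isometry {F : Type u} [Field F] {n : ℕ}
    (Q₁ Q₂ : QuadraticForm F (Fin n → F))
    (g : (Fin n → F) ≃ₗ[F] (Fin n → F)) (hg : ∀ v, Q₂ (g v) = Q₁ v) :
    IsSquare ((Matrix.of (fun i j : Fin n =>
        QuadraticMap.polar ⇑Q₁ (Pi.single i 1) (Pi.single j 1))).det *
      (Matrix.of (fun i j : Fin n =>
        QuadraticMap.polar ⇑Q₂ (Pi.single i 1) (Pi.single j 1))).det) := by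
  classical
  rw [gram_eq_toMatrix', gram_eq_toMatrix']
  have h1 : polarBilin Q₁ = LinearMap.BilinForm.comp (polarBilin Q₂) g.toLinearMap g.toLinearMap := by
    ext u w
    show polar Q₁ _ _ = polar Q₂ (g _) (g _)
    simp only [polar, ← map_add, hg]
  rw [h1, LinearMap.BilinForm.toMatrix'_comp, Matrix.det_mul, Matrix.det_mul,
    Matrix.det_transpose]
  exact ⟨(LinearMap.toMatrix' g.toLinearMap).det *
    (LinearMap.BilinForm.toMatrix' (polarBilin Q₂)).det, by ring⟩

end Cfsg.Agent.Lib.Helper4
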