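import Mathlib
import Cfsg.Agent.S2617
import Cfsg.Agent.Lib.Helper4.QuadF2

set_option autoImplicit false

namespace Cfsg.Agent.Lib.Helper4

open QuadraticMap

theorem plus_zeros_equiv (F : Type*) [Field F] (k : ℕ) :
    Nonempty ({v : Fin k ⊕ Fin k → F // Cfsg.quadFormPlus k F v = 0} ≃
      {p : (Fin k → F × F) × Unit // ∑ i, (p.1 i).1 * (p.1 i).2 + (0 : F) = 0}) :=
  ⟨Equiv.subtypeEquiv
      { toFun := fun v => (fun i => (v (Sum.inl i), v (Sum.inr i)), ())
        invFun := fun p => Sum.elim (fun i => (p.1 i).1) (fun i => (p.1 i).2)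
        left_inv := fun v => by
          funext j
          rcases j with j | j <;> rfl
        right_inv := fun p => rfl }
      (fun v => by
        unfold Cfsg.quadFormPlus
        simp only [add_zero]
        exact Iff.rfl)⟩

theorem minus_zeros_equiv (F : Type*) [Field F] (k : ℕ) (ζ : F) :
    Nonempty ({w : (Fin k ⊕ Fin k) ⊕ Fin 2 → F // Cfsg.quadFormMinus k F 1 ζ w = 0} ≃
      {p : (Fin k → F × F) × (Fin 2 → F) //
        ∑ i, (p.1 i).1 * (p.1 i).2 + (p.2 0 ^ 2 + 1 * p.2 0 * p.2 1 + ζ * p.2 1 ^ 2) = 0}) :=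
  ⟨Equiv.subtypeEquiv
      { toFun := fun w => (fun i => (w (Sum.inl (Sum.inl i)), w (Sum.inl (Sum.inr i))),
          fun j => w (Sum.inr j))
        invFun := fun p => Sum.elim (Sum.elim (fun i => (p.1 i).1) (fun i => (p.1 i).2)) p.2
        left_inv := fun w => by
          funext j
          rcases j with (j | j) | j <;> rfl
        right_inv := fun p => rfl }
      (fun w => by
        unfold Cfsg.quadFormMinus
        exact Iff.rfl)⟩

theorem plus_count (k : ℕ) :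
    2 * Nat.card {v : Fin k ⊕ Fin k → ZMod 2 // Cfsg.quadFormPlus k (ZMod 2) v = 0} =
      2 ^ (2 * k) + 2 ^ k := by
  obtain ⟨e⟩ := plus_zeros_equiv (ZMod 2) k
  rw [Nat.card_congr e]
  have key : ∀ k : ℕ, 2 * Cfsg.Agent.S2617.cnt (ZMod 2) Unit (fun _ => (0 : ZMod 2)) k =
      2 ^ (2 * k) + 2 ^ k := by
    intro k
    induction k with
    | zero =>
      rw [Cfsg.Agent.S2617.cnt_zero_unit]
      norm_num
    | succ k ih =>
      have h1 := Cfsg.Agent.S2617.cnt_succ (ZMod 2) Unit (fun _ => (0 : ZMod 2)) k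
      rw [ZMod.card] at h1
      simp only [Fintype.card_unit, mul_one] at h1
      have e1 : 2 ^ (2 * (k + 1)) = 4 * 2 ^ (2 * k) := by ring
      have e2 : 2 ^ (k + 1) = 2 * 2 ^ k := by ring
      rw [e1, e2]
      omega
  exact key k

theorem minus_count (k : ℕ) :
    2 * Nat.card {v : (Fin k ⊕ Fin k) ⊕ Fin 2 → ZMod 2 //
      Cfsg.quadFormMinus k (ZMod 2) 1 1 v = 0} + 2 ^ (k + 1) = 2 ^ (2 * k + 2) := by
  obtain ⟨e⟩ := minus_zeros_equiv (ZMod 2) k 1
  rw [Nat.card_congr e]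
  have hζ : ∀ t : ZMod 2, t ^ 2 + t + 1 ≠ 0 := by decide
  have hZ : Fintype.card (Fin 2 → ZMod 2) = 4 := by
    rw [Fintype.card_fun, ZMod.card, Fintype.card_fin]
    norm_num
  have key : ∀ k : ℕ, 2 * Cfsg.Agent.S2617.cnt (ZMod 2) (Fin 2 → ZMod 2)
      (fun z => z 0 ^ 2 + 1 * z 0 * z 1 + 1 * z 1 ^ 2) k + 2 ^ (k + 1) = 2 ^ (2 * k + 2) := by
    intro k
    induction k with
    | zero =>
      rw [Cfsg.Agent.S2617.cnt_zero_minus (ZMod 2) 1 hζ]
      norm_num
    | succ k ih =>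
      have h1 := Cfsg.Agent.S2617.cnt_succ (ZMod 2) (Fin 2 → ZMod 2)
        (fun z => z 0 ^ 2 + 1 * z 0 * z 1 + 1 * z 1 ^ 2) k
      rw [ZMod.card, hZ] at h1
      have e1 : 2 ^ (2 * (k + 1) + 2) = 16 * 2 ^ (2 * k) := by ring
      have e2 : 2 ^ (k + 1 + 1) = 4 * 2 ^ k := by ring
      have e3 : 2 ^ (2 * k + 2) = 4 * 2 ^ (2 * k) := by ring
      have e4 : 2 ^ (k + 1) = 2 * 2 ^ k := by ring
      rw [e1, e2]
      rw [e3, e4] at ih
      omega
  exact key k

/-- A function polarizing to the standard alternating form, as a quadratic form. -/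
noncomputable def f2Quad (m : ℕ) (q : (Fin m ⊕ Fin m → ZMod 2) → ZMod 2)
    (hq : ∀ u v : (Fin m ⊕ Fin m → ZMod 2), q (u + v) = q u + q v +
      (Cfsg.quadFormPlus m (ZMod 2) (u + v) - Cfsg.quadFormPlus m (ZMod 2) u -
        Cfsg.quadFormPlus m (ZMod 2) v)) :
    QuadraticForm (ZMod 2) (Fin m ⊕ Fin m → ZMod 2) :=
  have hpol : ∀ u v, polar q u v = polar (stdQuad m (ZMod 2)) u v := by
    intro u v
    rw [polar, hq, polar, stdQuad_apply', stdQuad_apply', stdQuad_apply']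
    ring
  have hq0 : q 0 = 0 := by
    have h := hq 0 0
    have h0 : Cfsg.quadFormPlus m (ZMod 2) 0 = 0 := by
      rw [← stdQuad_apply', QuadraticMap.map_zero]
    rw [add_zero, h0] at h
    linear_combination -h
  QuadraticMap.ofPolar q
    (fun a x => by
      have ha : a = 0 ∨ a = 1 := by
        revert a
        decide
      rcases ha with rfl | rfl
      · rw [zero_smul, hq0, zero_mul, zero_smul]
      · rw [one_smul, one_mul, one_smul])
    (fun x x' y => by
      rw [hpol, hpol, hpol, QuadraticMap.polar_add_left])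
    (fun a x y => by
      rw [hpol, hpol, QuadraticMap.polar_smul_left])

theorem f2Quad_apply (m : ℕ) (q : (Fin m ⊕ Fin m → ZMod 2) → ZMod 2)
    (hq : ∀ u v : (Fin m ⊕ Fin m → ZMod 2), q (u + v) = q u + q v +
      (Cfsg.quadFormPlus m (ZMod 2) (u + v) - Cfsg.quadFormPlus m (ZMod 2) u -
        Cfsg.quadFormPlus m (ZMod 2) v)) (v : Fin m ⊕ Fin m → ZMod 2) :
    f2Quad m q hq v = q v := rfl

theorem f2Quad_polar (m : ℕ) (q : (Fin m ⊕ Fin m → ZMod 2) → ZMod 2)
    (hq : ∀ u v : (Fin m ⊕ Fin m → ZMod 2), q (u + v) = q u + q v +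
      (Cfsg.quadFormPlus m (ZMod 2) (u + v) - Cfsg.quadFormPlus m (ZMod 2) u -
        Cfsg.quadFormPlus m (ZMod 2) v)) (u v : Fin m ⊕ Fin m → ZMod 2) :
    polar (f2Quad m q hq) u v = polar (stdQuad m (ZMod 2)) u v := by
  show polar q u v = _
  rw [polar, hq, polar, stdQuad_apply', stdQuad_apply', stdQuad_apply']
  ring

theorem f2Quad_nondeg (m : ℕ) (q : (Fin m ⊕ Fin m → ZMod 2) → ZMod 2)
    (hq : ∀ u v : (Fin m ⊕ Fin m → ZMod 2), q (u + v) = q u + q v +
      (Cfsg.quadFormPlus m (ZMod 2) (u + v) - Cfsg.quadFormPlus m (ZMod 2) u -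
        Cfsg.quadFormPlus m (ZMod 2) v)) :
    (polarBilin (f2Quad m q hq)).Nondegenerate := by
  have h := stdQuad_nondeg (F := ZMod 2) m
  have key : ∀ x, (∀ y, polar (f2Quad m q hq) x y = 0) → x = 0 := by
    intro x hx
    apply h.1
    intro y
    show polar (stdQuad m (ZMod 2)) x y = 0
    rw [← f2Quad_polar m q hq]
    exact hx y
  refine ⟨fun x hx => key x (fun y => hx y), fun y hy => key y (fun x => ?_)⟩
  rw [polar_comm]
  exact hy x

theorem zmod2_cases (c : ZMod 2) : c = 0 ∨ c = 1 := by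
  revert c
  decide

theorem f2_zero_count (k : ℕ)
    (Q : QuadraticForm (ZMod 2) (Fin (k + 1) ⊕ Fin (k + 1) → ZMod 2))
    (hB : (polarBilin Q).Nondegenerate) :
    ((∃ g : (Fin (k + 1) ⊕ Fin (k + 1) → ZMod 2) ≃ₗ[ZMod 2]
        (Fin (k + 1) ⊕ Fin (k + 1) → ZMod 2),
        ∀ v, Q v = Cfsg.quadFormPlus (k + 1) (ZMod 2) (g v)) ∧
      2 * Nat.card {v // Q v = 0} = 2 ^ (2 * (k + 1)) + 2 ^ (k + 1)) ∨
    ((∃ g : (Fin (k + 1) ⊕ Fin (k + 1) → ZMod 2) ≃ₗ[ZMod 2]
        ((Fin k ⊕ Fin k) ⊕ Fin 2 → ZMod 2),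
        ∀ v, Q v = Cfsg.quadFormMinus k (ZMod 2) 1 1 (g v)) ∧
      2 * Nat.card {v // Q v = 0} + 2 ^ (k + 1) = 2 ^ (2 * (k + 1))) := by
  classical
  have hV : Module.finrank (ZMod 2) (Fin (k + 1) ⊕ Fin (k + 1) → ZMod 2) = 2 * k + 2 := by
    simp
    omega
  rcases quad_even_struct (ZMod 2) k _ Q hV hB with
    ⟨e, f, hfam⟩ | ⟨e, f, x, y, ζ, hζ, hfam, horth, hx, hxy, hy⟩
  · left
    obtain ⟨b, hb⟩ := hyp_basis Q (k := k + 1) (by rw [hV]; ring) e f hfam
    have hc := hyp_coord Q b e f hb hfam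
    refine ⟨⟨b.equivFun, fun v => (hc v).symm⟩, ?_⟩
    have e1 : {v // Q v = 0} ≃ {w : Fin (k + 1) ⊕ Fin (k + 1) → ZMod 2 //
        Cfsg.quadFormPlus (k + 1) (ZMod 2) w = 0} :=
      Equiv.subtypeEquiv b.equivFun.toEquiv (fun v => by rw [← hc v]; rfl)
    rw [Nat.card_congr e1]
    exact plus_count (k + 1)
  · right
    have hζ1 : ζ = 1 := by
      rcases zmod2_cases ζ with h0 | h1
      · exfalso
        apply hζ 0
        rw [h0]
        simp
      · exact h1
    rw [hζ1] at hζ hy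
    obtain ⟨b, hb⟩ := ell_basis Q hV e f x y 1 hζ hfam horth hx hxy hy
    have hc := ell_coord Q b e f x y 1 1 hb hfam horth hx hxy hy
    refine ⟨⟨b.equivFun, fun v => (hc v).symm⟩, ?_⟩
    have e1 : {v // Q v = 0} ≃ {w : (Fin k ⊕ Fin k) ⊕ Fin 2 → ZMod 2 //
        Cfsg.quadFormMinus k (ZMod 2) 1 1 w = 0} :=
      Equiv.subtypeEquiv b.equivFun.toEquiv (fun v => by rw [← hc v]; rfl)
    rw [Nat.card_congr e1]
    have h3 := minus_count k
    have e3 : 2 ^ (2 * (k + 1)) = 2 ^ (2 * k + 2) := by ring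
    rw [e3]
    exact h3

theorem f2_card_split (m : ℕ) (q : (Fin m ⊕ Fin m → ZMod 2) → ZMod 2) :
    Nat.card {v // q v = 0} + Nat.card {v // q v = 1} = 2 ^ (2 * m) := by
  classical
  have h1 : {v // q v = 1} ≃ {v // ¬ q v = 0} := Equiv.subtypeEquivRight (fun v => by
    rcases zmod2_cases (q v) with h | h
    · rw [h]
      simp
    · rw [h]
      simp)
  rw [Nat.card_congr h1, Nat.card_eq_fintype_card, Nat.card_eq_fintype_card,
    Fintype.card_subtype_compl]
  have h2 := Fintype.card_subtype_le (fun v : Fin m ⊕ Fin m → ZMod 2 => q v = 0)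
  have h3 : Fintype.card (Fin m ⊕ Fin m → ZMod 2) = 2 ^ (2 * m) := by
    rw [Fintype.card_fun, ZMod.card, Fintype.card_sum, Fintype.card_fin]
    congr 1
    omega
  omega

theorem f2_translate (m : ℕ) (hm : 1 ≤ m) (q : (Fin m ⊕ Fin m → ZMod 2) → ZMod 2)
    (hq : ∀ u v : (Fin m ⊕ Fin m → ZMod 2), q (u + v) = q u + q v +
      (Cfsg.quadFormPlus m (ZMod 2) (u + v) - Cfsg.quadFormPlus m (ZMod 2) u -
        Cfsg.quadFormPlus m (ZMod 2) v)) (w : Fin m ⊕ Fin m → ZMod 2) :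
    (∃ g : (Fin m ⊕ Fin m → ZMod 2) ≃ₗ[ZMod 2] (Fin m ⊕ Fin m → ZMod 2),
      ∀ v, q v + (Cfsg.quadFormPlus m (ZMod 2) (v + w) - Cfsg.quadFormPlus m (ZMod 2) v -
        Cfsg.quadFormPlus m (ZMod 2) w) = q (g v)) ↔ q w = 0 := by
  classical
  have hP : ∀ u v : Fin m ⊕ Fin m → ZMod 2,
      Cfsg.quadFormPlus m (ZMod 2) (u + v) - Cfsg.quadFormPlus m (ZMod 2) u -
        Cfsg.quadFormPlus m (ZMod 2) v = polar (stdQuad m (ZMod 2)) u v := by
    intro u v
    rw [polar, stdQuad_apply', stdQuad_apply', stdQuad_apply']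
  have hq' : ∀ u v, q (u + v) = q u + q v + polar (stdQuad m (ZMod 2)) u v := by
    intro u v
    rw [hq, hP]
  simp only [hP]
  have hzmod : ∀ c : ZMod 2, c * c = c := by decide
  have hadd : ∀ c : ZMod 2, c + c = 0 := by decide
  have hq0 : q 0 = 0 := by
    have h := hq' 0 0
    rw [add_zero, polar_zero_left] at h
    linear_combination -h
  have hqsmul : ∀ (c : ZMod 2) x, q (c • x) = c * q x := by
    intro c x
    rcases zmod2_cases c with rfl | rfl
    · rw [zero_smul, hq0, zero_mul]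
    · rw [one_smul, one_mul]
  constructor
  · rintro ⟨g, hg⟩
    by_contra hw
    have hw1 : q w = 1 := by
      rcases zmod2_cases (q w) with h | h
      · exact absurd h hw
      · exact h
    obtain ⟨k, rfl⟩ : ∃ k, m = k + 1 := ⟨m - 1, by omega⟩
    have hcount := f2_zero_count k (f2Quad (k + 1) q hq) (f2Quad_nondeg (k + 1) q hq)
    have e1 : {v // q v + polar (stdQuad (k + 1) (ZMod 2)) v w = 0} ≃ {v // q v = 0} :=
      Equiv.subtypeEquiv g.toEquiv (fun v => by rw [hg v]; rfl)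
    have e2 : {v // q v + polar (stdQuad (k + 1) (ZMod 2)) v w = 0} ≃ {v // q v = 1} :=
      Equiv.subtypeEquiv (Equiv.addRight w) (fun v => by
        show _ ↔ q (v + w) = 1
        rw [hq' v w, hw1]
        constructor
        · intro h
          linear_combination h
        · intro h
          linear_combination h)
    have h3 := f2_card_split (k + 1) q
    rw [← Nat.card_congr e2, Nat.card_congr e1] at h3
    have h4 : Nat.card {v // (f2Quad (k + 1) q hq) v = 0} = Nat.card {v // q v = 0} := rfl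
    rw [h4] at hcount
    have hpos : 0 < 2 ^ (k + 1) := by positivity
    rcases hcount with ⟨_, h5⟩ | ⟨_, h5⟩ <;> omega
  · intro hw
    obtain ⟨G, hG⟩ : ∃ G : (Fin m ⊕ Fin m → ZMod 2) →ₗ[ZMod 2] (Fin m ⊕ Fin m → ZMod 2),
        ∀ v, G v = v + polar (stdQuad m (ZMod 2)) v w • w :=
      ⟨LinearMap.id + (LinearMap.flip (polarBilin (stdQuad m (ZMod 2))) w).smulRight w,
        fun v => rfl⟩
    have hinv : Function.Involutive G := by
      intro v
      rw [hG, hG, polar_add_left, polar_smul_left, polar_self, add_smul, add_assoc,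
        ← add_assoc (polar (stdQuad m (ZMod 2)) v w • w)]
      have h2 : (2 : ZMod 2) = 0 := by decide
      rw [← two_smul (ZMod 2) (polar (stdQuad m (ZMod 2)) v w • w), h2, zero_smul, zero_add,
        two_smul, hadd, smul_zero, zero_smul, add_zero]
    refine ⟨LinearEquiv.ofInvolutive G hinv, fun v => ?_⟩
    show q v + polar (stdQuad m (ZMod 2)) v w = q (G v)
    rw [hG, hq', hqsmul, hw, polar_smul_right, smul_eq_mul, mul_zero, add_zero, hzmod]

end Cfsg.Agent.Lib.Helper4
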