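import Mathlib
import Cfsg.Agent.S2617
import Cfsg.Agent.Lib.Helper4.QuadF2b

set_option autoImplicit false

namespace Cfsg.Agent.Lib.Helper4

open QuadraticMap

/-- `q` polarizes to the standard alternating form. -/
abbrev PolF2 (m : ℕ) (q : (Fin m ⊕ Fin m → ZMod 2) → ZMod 2) : Prop :=
  ∀ u v : (Fin m ⊕ Fin m → ZMod 2), q (u + v) = q u + q v +
    (Cfsg.quadFormPlus m (ZMod 2) (u + v) - Cfsg.quadFormPlus m (ZMod 2) u -
      Cfsg.quadFormPlus m (ZMod 2) v)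

/-- plus type -/
abbrev PlusF2 (m : ℕ) (q : (Fin m ⊕ Fin m → ZMod 2) → ZMod 2) : Prop :=
  ∃ g : (Fin m ⊕ Fin m → ZMod 2) ≃ₗ[ZMod 2] (Fin m ⊕ Fin m → ZMod 2),
    ∀ v, q v = Cfsg.quadFormPlus m (ZMod 2) (g v)

/-- minus type -/
abbrev MinusF2 (m : ℕ) (q : (Fin m ⊕ Fin m → ZMod 2) → ZMod 2) : Prop :=
  ∃ g : (Fin m ⊕ Fin m → ZMod 2) ≃ₗ[ZMod 2] ((Fin (m - 1) ⊕ Fin (m - 1)) ⊕ Fin 2 → ZMod 2),
    ∀ v, q v = Cfsg.quadFormMinus (m - 1) (ZMod 2) 1 1 (g v)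

theorem f2_dichotomy (m : ℕ) (hm : 1 ≤ m) (q : (Fin m ⊕ Fin m → ZMod 2) → ZMod 2)
    (hq : PolF2 m q) : PlusF2 m q ∨ MinusF2 m q := by
  obtain ⟨k, rfl⟩ : ∃ k, m = k + 1 := ⟨m - 1, by omega⟩
  rcases f2_zero_count k (f2Quad (k + 1) q hq) (f2Quad_nondeg (k + 1) q hq) with
    ⟨⟨g, hg⟩, _⟩ | ⟨⟨g, hg⟩, _⟩
  · left
    exact ⟨g, hg⟩
  · right
    exact ⟨g, hg⟩

theorem f2_exclusive (m : ℕ) (hm : 1 ≤ m) (q : (Fin m ⊕ Fin m → ZMod 2) → ZMod 2)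
    (h₁ : PlusF2 m q) (h₂ : MinusF2 m q) : False := by
  obtain ⟨g₁, hg₁⟩ := h₁
  obtain ⟨g₂, hg₂⟩ := h₂
  have hζ : ∀ t : ZMod 2, t ^ 2 + t + 1 ≠ 0 := by decide
  refine Cfsg.Agent.S2617.result hm (1 : ZMod 2) hζ (g₁.symm.trans g₂) ?_
  intro v
  show Cfsg.quadFormMinus (m - 1) (ZMod 2) 1 1 (g₂ (g₁.symm v)) = _
  rw [← hg₂, hg₁, LinearEquiv.apply_symm_apply]

theorem polF2_std (m : ℕ) : PolF2 m (Cfsg.quadFormPlus m (ZMod 2)) := by
  intro u v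
  ring

theorem f2_hP (m : ℕ) (u v : Fin m ⊕ Fin m → ZMod 2) :
    Cfsg.quadFormPlus m (ZMod 2) (u + v) - Cfsg.quadFormPlus m (ZMod 2) u -
      Cfsg.quadFormPlus m (ZMod 2) v = polar (stdQuad m (ZMod 2)) u v := by
  rw [polar, stdQuad_apply', stdQuad_apply', stdQuad_apply']

theorem polF2_translate (m : ℕ) (w : Fin m ⊕ Fin m → ZMod 2) :
    PolF2 m (fun v => Cfsg.quadFormPlus m (ZMod 2) v +
      (Cfsg.quadFormPlus m (ZMod 2) (v + w) - Cfsg.quadFormPlus m (ZMod 2) v -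
        Cfsg.quadFormPlus m (ZMod 2) w)) := by
  intro u v
  simp only [f2_hP]
  rw [polar_add_left]
  have h := f2_hP m u v
  linear_combination h

/-- the parametrization by vectors -/
noncomputable def phiF2 (m : ℕ) (w : Fin m ⊕ Fin m → ZMod 2) :
    {q : (Fin m ⊕ Fin m → ZMod 2) → ZMod 2 // PolF2 m q} :=
  ⟨fun v => Cfsg.quadFormPlus m (ZMod 2) v +
      (Cfsg.quadFormPlus m (ZMod 2) (v + w) - Cfsg.quadFormPlus m (ZMod 2) v -
        Cfsg.quadFormPlus m (ZMod 2) w), polF2_translate m w⟩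

theorem phiF2_injective (m : ℕ) : Function.Injective (phiF2 m) := by
  intro w w' h
  have h1 : ∀ v, polar (stdQuad m (ZMod 2)) v w = polar (stdQuad m (ZMod 2)) v w' := by
    intro v
    have h2 := congrFun (congrArg Subtype.val h) v
    simp only [phiF2, f2_hP] at h2
    exact add_left_cancel h2
  have h3 := (stdQuad_nondeg (F := ZMod 2) m).2 (w - w') (fun v => by
    show polar (stdQuad m (ZMod 2)) v (w - w') = 0
    rw [polar_sub_right, h1 v, sub_self])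
  exact sub_eq_zero.1 h3

theorem polF2_card (m : ℕ) :
    Nat.card {q : (Fin m ⊕ Fin m → ZMod 2) → ZMod 2 // PolF2 m q} = 2 ^ (2 * m) := by
  classical
  have hV : Nat.card (Fin m ⊕ Fin m → ZMod 2) = 2 ^ (2 * m) := by
    rw [Nat.card_eq_fintype_card, Fintype.card_fun, ZMod.card, Fintype.card_sum,
      Fintype.card_fin]
    congr 1
    omega
  have h1 : Nat.card (Fin m ⊕ Fin m → ZMod 2) ≤
      Nat.card {q : (Fin m ⊕ Fin m → ZMod 2) → ZMod 2 // PolF2 m q} :=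
    Nat.card_le_card_of_injective _ (phiF2_injective m)
  have h2 : Nat.card {q : (Fin m ⊕ Fin m → ZMod 2) → ZMod 2 // PolF2 m q} ≤
      Nat.card (Fin m ⊕ Fin m → ZMod 2) := by
    refine Nat.card_le_card_of_injective
      (fun q : {q : (Fin m ⊕ Fin m → ZMod 2) → ZMod 2 // PolF2 m q} =>
        fun j : Fin m ⊕ Fin m => q.1 (Pi.single j 1)) ?_
    intro q q' h
    apply Subtype.ext
    funext v
    have key := quad_ext_basis (Pi.basisFun (ZMod 2) (Fin m ⊕ Fin m)) (f2Quad m q.1 q.2)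
      (f2Quad m q'.1 q'.2)
      (fun j => by
        rw [Pi.basisFun_apply, f2Quad_apply, f2Quad_apply]
        exact congrFun h j)
      (fun i j => by rw [f2Quad_polar, f2Quad_polar]) v
    exact key
  rw [hV] at h1 h2
  omega

theorem phiF2_bijective (m : ℕ) : Function.Bijective (phiF2 m) := by
  refine (phiF2_injective m).bijective_of_nat_card_le ?_
  rw [polF2_card]
  rw [Nat.card_eq_fintype_card, Fintype.card_fun, ZMod.card, Fintype.card_sum,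
    Fintype.card_fin]
  apply le_of_eq
  congr 1
  omega

theorem plusF2_card (m : ℕ) (hm : 1 ≤ m) :
    Nat.card {q : (Fin m ⊕ Fin m → ZMod 2) → ZMod 2 // PolF2 m q ∧ PlusF2 m q} =
      2 ^ (2 * m - 1) + 2 ^ (m - 1) := by
  classical
  have e1 : {w : Fin m ⊕ Fin m → ZMod 2 // Cfsg.quadFormPlus m (ZMod 2) w = 0} ≃
      {x : {q : (Fin m ⊕ Fin m → ZMod 2) → ZMod 2 // PolF2 m q} // PlusF2 m x.1} :=
    Equiv.subtypeEquiv (Equiv.ofBijective (phiF2 m) (phiF2_bijective m)) (fun w =>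
      (f2_translate m hm (Cfsg.quadFormPlus m (ZMod 2)) (polF2_std m) w).symm)
  have e2 : {x : {q : (Fin m ⊕ Fin m → ZMod 2) → ZMod 2 // PolF2 m q} // PlusF2 m x.1} ≃
      {q : (Fin m ⊕ Fin m → ZMod 2) → ZMod 2 // PolF2 m q ∧ PlusF2 m q} :=
    Equiv.subtypeSubtypeEquivSubtypeInter (PolF2 m) (PlusF2 m)
  rw [← Nat.card_congr e2, ← Nat.card_congr e1]
  have h := plus_count m
  obtain ⟨k, rfl⟩ : ∃ k, m = k + 1 := ⟨m - 1, by omega⟩
  have e3 : 2 ^ (2 * (k + 1)) = 2 * 2 ^ (2 * (k + 1) - 1) := by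
    have : 2 * (k + 1) = (2 * (k + 1) - 1) + 1 := by omega
    conv_lhs => rw [this, pow_succ]
    ring
  have e4 : 2 ^ (k + 1) = 2 * 2 ^ (k + 1 - 1) := by
    rw [Nat.add_sub_cancel, pow_succ]
    ring
  rw [e3, e4] at h
  omega

theorem minusF2_card (m : ℕ) (hm : 1 ≤ m) :
    Nat.card {q : (Fin m ⊕ Fin m → ZMod 2) → ZMod 2 // PolF2 m q ∧ MinusF2 m q} =
      2 ^ (2 * m - 1) - 2 ^ (m - 1) := by
  classical
  have e0 : {q : (Fin m ⊕ Fin m → ZMod 2) → ZMod 2 // PolF2 m q ∧ MinusF2 m q} ≃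
      {q : (Fin m ⊕ Fin m → ZMod 2) → ZMod 2 // PolF2 m q ∧ ¬ PlusF2 m q} :=
    Equiv.subtypeEquivRight (fun q => and_congr_right (fun hP =>
      ⟨fun h₂ h₁ => f2_exclusive m hm q h₁ h₂,
        fun hn => (f2_dichotomy m hm q hP).resolve_left hn⟩))
  have e2 : {x : {q : (Fin m ⊕ Fin m → ZMod 2) → ZMod 2 // PolF2 m q} // ¬ PlusF2 m x.1} ≃
      {q : (Fin m ⊕ Fin m → ZMod 2) → ZMod 2 // PolF2 m q ∧ ¬ PlusF2 m q} :=
    Equiv.subtypeSubtypeEquivSubtypeInter (PolF2 m) (fun q => ¬ PlusF2 m q)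
  have e3 : {x : {q : (Fin m ⊕ Fin m → ZMod 2) → ZMod 2 // PolF2 m q} // PlusF2 m x.1} ≃
      {q : (Fin m ⊕ Fin m → ZMod 2) → ZMod 2 // PolF2 m q ∧ PlusF2 m q} :=
    Equiv.subtypeSubtypeEquivSubtypeInter (PolF2 m) (PlusF2 m)
  rw [Nat.card_congr e0, ← Nat.card_congr e2, Nat.card_eq_fintype_card,
    Fintype.card_subtype_compl, ← Nat.card_eq_fintype_card, ← Nat.card_eq_fintype_card,
    Nat.card_congr e3, plusF2_card m hm, polF2_card]
  obtain ⟨k, rfl⟩ : ∃ k, m = k + 1 := ⟨m - 1, by omega⟩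
  have e4 : 2 ^ (2 * (k + 1)) = 2 * 2 ^ (2 * (k + 1) - 1) := by
    have : 2 * (k + 1) = (2 * (k + 1) - 1) + 1 := by omega
    conv_lhs => rw [this, pow_succ]
    ring
  rw [e4]
  omega

end Cfsg.Agent.Lib.Helper4
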