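import Mathlib
import Cfsg.Agent.Lib.Helper4.QuadTwoMax

set_option autoImplicit false

namespace Cfsg.Agent.Lib.Helper4

open QuadraticMap

theorem card_two_third {α : Type*} (h : Nat.card α = 2) (u w y : α) (huw : u ≠ w) :
    y = u ∨ y = w := by
  obtain ⟨a, b, hab, huniv⟩ := Nat.card_eq_two_iff.mp h
  have hmem : ∀ z : α, z = a ∨ z = b := by
    intro z
    have h1 := Set.mem_univ z
    rw [← huniv] at h1
    simpa using h1
  rcases hmem u with hu | hu <;> rcases hmem w with hw | hw <;> rcases hmem y with hy | hy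
  · exact Or.inl (hy.trans hu.symm)
  · exact absurd (hu.trans hw.symm) huw
  · exact Or.inl (hy.trans hu.symm)
  · exact Or.inr (hy.trans hw.symm)
  · exact Or.inr (hy.trans hw.symm)
  · exact Or.inl (hy.trans hu.symm)
  · exact absurd (hu.trans hw.symm) huw
  · exact Or.inl (hy.trans hu.symm)

section

variable {F : Type*} [Field F] {V : Type*} [AddCommGroup V] [Module F V] [FiniteDimensional F V]

theorem ts_polar_zero (Q : QuadraticForm F V) (W : Submodule F V) (hW : ∀ w ∈ W, Q w = 0)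
    (a b : V) (ha : a ∈ W) (hb : b ∈ W) : polarBilin Q a b = 0 := by
  have h := ts_le_orth Q W hW hb
  exact h a ha

theorem ts_self_orth (Q : QuadraticForm F V) (B : LinearMap.BilinForm F V)
    (hBdef : B = polarBilin Q) (hBnd : B.Nondegenerate) (m : ℕ)
    (hV : Module.finrank F V = 2 * m) (X : Submodule F V) (hXm : Module.finrank F X = m)
    (hX : ∀ w ∈ X, Q w = 0) : B.orthogonal X = X := by
  symm
  have h1 : X ≤ B.orthogonal X := by rw [hBdef]; exact ts_le_orth Q X hX
  apply Submodule.eq_of_le_of_finrank_le h1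
  rw [LinearMap.BilinForm.finrank_orthogonal hBnd, hV, hXm]
  omega

theorem ts_core (Q : QuadraticForm F V) (B : LinearMap.BilinForm F V)
    (hBdef : B = polarBilin Q) (hBnd : B.Nondegenerate) (m : ℕ)
    (hV : Module.finrank F V = 2 * m)
    (D : Submodule F V) (hDm : Module.finrank F D + 1 = m) (hD : ∀ w ∈ D, Q w = 0)
    (X : Submodule F V) (hXm : Module.finrank F X = m) (hX : ∀ w ∈ X, Q w = 0) :
    Module.finrank F ↥(X ⊓ B.orthogonal D) = Module.finrank F ↥(X ⊓ D) + 1 ∧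
    Module.finrank F ↥((X ⊓ B.orthogonal D) ⊔ D) = m ∧
    (∀ w ∈ (X ⊓ B.orthogonal D) ⊔ D, Q w = 0) := by
  have hXo : B.orthogonal X = X := ts_self_orth Q B hBdef hBnd m hV X hXm hX
  have hDo : D ≤ B.orthogonal D := by rw [hBdef]; exact ts_le_orth Q D hD
  have h1 : X ⊓ B.orthogonal D = B.orthogonal (X ⊔ D) := by
    rw [orth_sup, hXo]
  have h2 := Submodule.finrank_sup_add_finrank_inf_eq X D
  have h3 : Module.finrank F ↥(X ⊓ B.orthogonal D) = Module.finrank F ↥(X ⊓ D) + 1 := by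
    rw [h1, LinearMap.BilinForm.finrank_orthogonal hBnd, hV]
    omega
  have h5 : (X ⊓ B.orthogonal D) ⊓ D = X ⊓ D := by rw [inf_assoc, inf_eq_right.mpr hDo]
  have h6 := Submodule.finrank_sup_add_finrank_inf_eq (X ⊓ B.orthogonal D) D
  rw [h5] at h6
  refine ⟨h3, by omega, ?_⟩
  intro w hw
  obtain ⟨t, ht, d, hd, rfl⟩ := Submodule.mem_sup.mp hw
  have e : Q (t + d) = Q t + Q d + polar Q t d := by rw [polar]; ring
  have hp : polar Q t d = 0 := by
    rw [polar_comm]
    have h7 : B d t = 0 := ht.2 d hd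
    rw [hBdef] at h7
    exact h7
  rw [e, hX t ht.1, hD d hd, hp]; simp

theorem ts_adjacent (Q : QuadraticForm F V) (B : LinearMap.BilinForm F V)
    (hBdef : B = polarBilin Q) (hBnd : B.Nondegenerate) (m : ℕ)
    (hV : Module.finrank F V = 2 * m)
    (L : Submodule F V) (hL : ∀ w ∈ L, Q w = 0) (hLm : m ≤ Module.finrank F L)
    (D : Submodule F V) (hDm : Module.finrank F D + 1 = m) (hD : ∀ w ∈ D, Q w = 0)
    (U : Submodule F V) (hUm : Module.finrank F U = m) (hU : ∀ w ∈ U, Q w = 0)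
    (W : Submodule F V) (hWm : Module.finrank F W = m) (hW : ∀ w ∈ W, Q w = 0)
    (hDU : D ≤ U) (hDW : D ≤ W) (hUW : U ≠ W)
    (X : Submodule F V) (hXm : Module.finrank F X = m) (hX : ∀ w ∈ X, Q w = 0) :
    (Module.finrank F ↥(X ⊓ U) = Module.finrank F ↥(X ⊓ D) + 1 ∧
      Module.finrank F ↥(X ⊓ W) = Module.finrank F ↥(X ⊓ D)) ∨
    (Module.finrank F ↥(X ⊓ U) = Module.finrank F ↥(X ⊓ D) ∧
      Module.finrank F ↥(X ⊓ W) = Module.finrank F ↥(X ⊓ D) + 1) := by
  obtain ⟨hT, hYm, hY⟩ := ts_core Q B hBdef hBnd m hV D hDm hD X hXm hX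
  have hQ : (polarBilin Q).Nondegenerate := by rw [← hBdef]; exact hBnd
  have hc := two_max_ts Q hQ m hV L hL hLm D hDm hD
  have hDY : D ≤ (X ⊓ B.orthogonal D) ⊔ D := le_sup_right
  have h3 := card_two_third hc ⟨U, hUm, hU, hDU⟩ ⟨W, hWm, hW, hDW⟩ ⟨_, hYm, hY, hDY⟩
    (by intro h; exact hUW (congrArg Subtype.val h))
  have hUWD : U ⊓ W = D := by
    symm
    apply Submodule.eq_of_le_of_finrank_le (le_inf hDU hDW)
    by_contra hcon
    push Not at hcon
    have h4 := Submodule.finrank_mono (inf_le_left : U ⊓ W ≤ U)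
    have e1 : U ⊓ W = U := Submodule.eq_of_le_of_finrank_le inf_le_left (by omega)
    have e2 : U ⊓ W = W := Submodule.eq_of_le_of_finrank_le inf_le_right (by omega)
    exact hUW (e1.symm.trans e2)
  have hoD : ∀ Z : Submodule F V, (∀ w ∈ Z, Q w = 0) → D ≤ Z → Z ≤ B.orthogonal D := by
    intro Z hZ hDZ
    have h5 : Z ≤ B.orthogonal Z := by rw [hBdef]; exact ts_le_orth Q Z hZ
    exact h5.trans (LinearMap.BilinForm.orthogonal_le hDZ)
  rcases h3 with h | h
  · have hYU : (X ⊓ B.orthogonal D) ⊔ D = U := congrArg Subtype.val h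
    left
    have e1 : X ⊓ U = X ⊓ B.orthogonal D := by
      apply le_antisymm
      · exact inf_le_inf_left X (hoD U hU hDU)
      · apply le_inf inf_le_left
        rw [← hYU]; exact le_sup_left
    have e2 : X ⊓ W = X ⊓ D := by
      apply le_antisymm
      · apply le_inf inf_le_left
        rw [← hUWD]
        apply le_inf
        · calc X ⊓ W ≤ X ⊓ B.orthogonal D := inf_le_inf_left X (hoD W hW hDW)
            _ = X ⊓ U := e1.symm
            _ ≤ U := inf_le_right
        · exact inf_le_right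
      · exact inf_le_inf_left X hDW
    rw [e1, e2]; exact ⟨hT, rfl⟩
  · have hYW : (X ⊓ B.orthogonal D) ⊔ D = W := congrArg Subtype.val h
    right
    have e1 : X ⊓ W = X ⊓ B.orthogonal D := by
      apply le_antisymm
      · exact inf_le_inf_left X (hoD W hW hDW)
      · apply le_inf inf_le_left
        rw [← hYW]; exact le_sup_left
    have e2 : X ⊓ U = X ⊓ D := by
      apply le_antisymm
      · apply le_inf inf_le_left
        rw [← hUWD]
        apply le_inf
        · exact inf_le_right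
        · calc X ⊓ U ≤ X ⊓ B.orthogonal D := inf_le_inf_left X (hoD U hU hDU)
            _ = X ⊓ W := e1.symm
            _ ≤ W := inf_le_right
      · exact inf_le_inf_left X hDU
    rw [e1, e2]; exact ⟨rfl, hT⟩

theorem ts_step (Q : QuadraticForm F V) (B : LinearMap.BilinForm F V)
    (hBdef : B = polarBilin Q) (hBnd : B.Nondegenerate) (m : ℕ)
    (hV : Module.finrank F V = 2 * m)
    (U : Submodule F V) (hUm : Module.finrank F U = m) (hU : ∀ w ∈ U, Q w = 0)
    (W : Submodule F V) (hWm : Module.finrank F W = m) (hW : ∀ w ∈ W, Q w = 0)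
    (hUW : U ≠ W) :
    ∃ W' : Submodule F V, Module.finrank F W' = m ∧ (∀ w ∈ W', Q w = 0) ∧
      Module.finrank F ↥(W ⊓ W') + 1 = m ∧
      Module.finrank F ↥(U ⊓ W') = Module.finrank F ↥(U ⊓ W) + 1 := by
  have hsymm : ∀ a b, B a b = B b a := by
    intro a b; rw [hBdef]; exact polar_comm Q a b
  obtain ⟨u₀, hu₀U, hu₀W⟩ : ∃ u₀ ∈ U, u₀ ∉ W := by
    by_contra hcon
    push Not at hcon
    exact hUW (Submodule.eq_of_le_of_finrank_le hcon (by omega))
  have hWo : B.orthogonal W = W := ts_self_orth Q B hBdef hBnd m hV W hWm hW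
  obtain ⟨D, hDdef⟩ : ∃ D : Submodule F V,
      D = W ⊓ B.orthogonal (Submodule.span F {u₀}) := ⟨_, rfl⟩
  have hDW : D ≤ W := by rw [hDdef]; exact inf_le_left
  have hD : ∀ w ∈ D, Q w = 0 := fun w hw => hW w (hDW hw)
  have hDm : Module.finrank F D + 1 = m := by
    have h1 : D = B.orthogonal (W ⊔ Submodule.span F {u₀}) := by rw [orth_sup, hWo, hDdef]
    have h2 := finrank_sup_span_singleton W u₀ hu₀W
    have h3 := Submodule.finrank_le (W ⊔ Submodule.span F {u₀})
    rw [h1, LinearMap.BilinForm.finrank_orthogonal hBnd, hV, h2, hWm]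
    omega
  have hUWD : U ⊓ W ≤ D := by
    intro v hv
    rw [hDdef]
    refine ⟨hv.2, ?_⟩
    show ∀ n ∈ Submodule.span F {u₀}, B n v = 0
    intro n hn
    obtain ⟨c, rfl⟩ := Submodule.mem_span_singleton.mp hn
    show B (c • u₀) v = 0
    rw [map_smul, LinearMap.smul_apply, hBdef, ts_polar_zero Q U hU u₀ v hu₀U hv.1, smul_zero]
  have hUD : U ⊓ D = U ⊓ W :=
    le_antisymm (inf_le_inf_left U hDW) (le_inf inf_le_left hUWD)
  obtain ⟨hT, hYm, hY⟩ := ts_core Q B hBdef hBnd m hV D hDm hD U hUm hU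
  rw [hUD] at hT
  have hu₀T : u₀ ∈ U ⊓ B.orthogonal D := by
    refine ⟨hu₀U, ?_⟩
    show ∀ n ∈ D, B n u₀ = 0
    intro n hn
    rw [hDdef] at hn
    have h1 : B u₀ n = 0 := hn.2 u₀ (Submodule.mem_span_singleton_self u₀)
    show B n u₀ = 0
    rw [hsymm]; exact h1
  refine ⟨(U ⊓ B.orthogonal D) ⊔ D, hYm, hY, ?_, ?_⟩
  · have h1 : D ≤ W ⊓ ((U ⊓ B.orthogonal D) ⊔ D) := le_inf hDW le_sup_right
    have h2 := Submodule.finrank_mono h1
    have h3 : Module.finrank F ↥(W ⊓ ((U ⊓ B.orthogonal D) ⊔ D)) < m := by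
      by_contra hcon
      push Not at hcon
      have e1 : W ⊓ ((U ⊓ B.orthogonal D) ⊔ D) = (U ⊓ B.orthogonal D) ⊔ D :=
        Submodule.eq_of_le_of_finrank_le inf_le_right (by omega)
      apply hu₀W
      have h4 : u₀ ∈ W ⊓ ((U ⊓ B.orthogonal D) ⊔ D) := by
        rw [e1]; exact Submodule.mem_sup_left hu₀T
      exact h4.1
    omega
  · have hYo : (U ⊓ B.orthogonal D) ⊔ D ≤ B.orthogonal D := by
      have h5 : (U ⊓ B.orthogonal D) ⊔ D ≤ B.orthogonal ((U ⊓ B.orthogonal D) ⊔ D) := by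
        have h6 := ts_le_orth Q _ hY
        rw [← hBdef] at h6
        exact h6
      exact h5.trans (LinearMap.BilinForm.orthogonal_le le_sup_right)
    have e1 : U ⊓ ((U ⊓ B.orthogonal D) ⊔ D) = U ⊓ B.orthogonal D :=
      le_antisymm (inf_le_inf_left U hYo) (le_inf inf_le_left le_sup_left)
    rw [e1]; exact hT

theorem ts_parity (Q : QuadraticForm F V) (B : LinearMap.BilinForm F V)
    (hBdef : B = polarBilin Q) (hBnd : B.Nondegenerate) (m : ℕ)
    (hV : Module.finrank F V = 2 * m)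
    (L : Submodule F V) (hL : ∀ w ∈ L, Q w = 0) (hLm : m ≤ Module.finrank F L) :
    ∀ (d : ℕ) (U W X : Submodule F V), Module.finrank F U = m → (∀ w ∈ U, Q w = 0) →
      Module.finrank F W = m → (∀ w ∈ W, Q w = 0) →
      Module.finrank F X = m → (∀ w ∈ X, Q w = 0) →
      m - Module.finrank F ↥(U ⊓ W) = d →
      ((m - Module.finrank F ↥(X ⊓ U)) + (m - Module.finrank F ↥(X ⊓ W)) + d) % 2 = 0 := by
  intro d
  induction d with
  | zero =>
    intro U W X hUm hU hWm hW hXm hX hd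
    have h1 := Submodule.finrank_mono (inf_le_left : U ⊓ W ≤ U)
    have e1 : U ⊓ W = U := Submodule.eq_of_le_of_finrank_le inf_le_left (by omega)
    have e2 : U ⊓ W = W := Submodule.eq_of_le_of_finrank_le inf_le_right (by omega)
    have e3 : U = W := e1.symm.trans e2
    rw [e3]
    omega
  | succ d ih =>
    intro U W X hUm hU hWm hW hXm hX hd
    have hUW : U ≠ W := by
      intro h
      rw [h, inf_idem, hWm] at hd
      omega
    obtain ⟨W', hW'm, hW', h1, h2⟩ := ts_step Q B hBdef hBnd m hV U hUm hU W hWm hW hUW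
    have h3 := ih U W' X hUm hU hW'm hW' hXm hX (by omega)
    have hWW' : W ≠ W' := by
      intro h
      rw [← h, inf_idem, hWm] at h1
      omega
    have h4 := ts_adjacent Q B hBdef hBnd m hV L hL hLm (W ⊓ W') h1 (fun w hw => hW w hw.1)
      W hWm hW W' hW'm hW' inf_le_left inf_le_right hWW' X hXm hX
    have h5 := Submodule.finrank_mono (inf_le_left : X ⊓ W ≤ X)
    have h6 := Submodule.finrank_mono (inf_le_left : X ⊓ W' ≤ X)
    rcases h4 with ⟨h7, h8⟩ | ⟨h7, h8⟩ <;> omega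

theorem ts_three (Q : QuadraticForm F V) (B : LinearMap.BilinForm F V)
    (hBdef : B = polarBilin Q) (hBnd : B.Nondegenerate) (m : ℕ)
    (hV : Module.finrank F V = 2 * m)
    (L : Submodule F V) (hL : ∀ w ∈ L, Q w = 0) (hLm : m ≤ Module.finrank F L)
    (U W X : Submodule F V) (hUm : Module.finrank F U = m) (hU : ∀ w ∈ U, Q w = 0)
    (hWm : Module.finrank F W = m) (hW : ∀ w ∈ W, Q w = 0)
    (hXm : Module.finrank F X = m) (hX : ∀ w ∈ X, Q w = 0) :
    Even ((m - Module.finrank F ↥(U ⊓ W)) + (m - Module.finrank F ↥(W ⊓ X)) +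
      (m - Module.finrank F ↥(U ⊓ X))) := by
  have h := ts_parity Q B hBdef hBnd m hV L hL hLm _ U W X hUm hU hWm hW hXm hX rfl
  rw [Nat.even_iff]
  rw [inf_comm X U, inf_comm X W] at h
  omega

end

theorem plus_families {F : Type*} [Field F] (m : ℕ) (hm : 1 ≤ m) :
    (∀ U W X : Submodule F (Fin m ⊕ Fin m → F),
      (Module.finrank F U = m ∧ ∀ w ∈ U, Cfsg.quadFormPlus m F w = 0) →
      (Module.finrank F W = m ∧ ∀ w ∈ W, Cfsg.quadFormPlus m F w = 0) →
      (Module.finrank F X = m ∧ ∀ w ∈ X, Cfsg.quadFormPlus m F w = 0) →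
      Even ((m - Module.finrank F ↥(U ⊓ W)) + (m - Module.finrank F ↥(W ⊓ X)) +
        (m - Module.finrank F ↥(U ⊓ X)))) ∧
    ∃ U W : Submodule F (Fin m ⊕ Fin m → F),
      (Module.finrank F U = m ∧ ∀ w ∈ U, Cfsg.quadFormPlus m F w = 0) ∧
      (Module.finrank F W = m ∧ ∀ w ∈ W, Cfsg.quadFormPlus m F w = 0) ∧
      Module.finrank F ↥(U ⊓ W) + 1 = m := by
  classical
  obtain ⟨π, hπ⟩ : ∃ π : (Fin m ⊕ Fin m → F) →ₗ[F] (Fin m → F),
      ∀ v i, π v i = v (Sum.inr i) :=
    ⟨LinearMap.funLeft F F (Sum.inr : Fin m → Fin m ⊕ Fin m), fun v i => rfl⟩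
  obtain ⟨π', hπ'⟩ : ∃ π' : (Fin m ⊕ Fin m → F) →ₗ[F] (Fin m → F),
      ∀ v i, π' v i = v (Sum.inl i) :=
    ⟨LinearMap.funLeft F F (Sum.inl : Fin m → Fin m ⊕ Fin m), fun v i => rfl⟩
  have hL : ∀ w ∈ LinearMap.ker π, stdQuad m F w = 0 := by
    intro w hw
    rw [stdQuad_apply']
    unfold Cfsg.quadFormPlus
    apply Finset.sum_eq_zero
    intro i _
    have h1 : π w i = 0 := by rw [LinearMap.mem_ker.mp hw]; rfl
    rw [hπ] at h1
    rw [h1, mul_zero]
  have hL' : ∀ w ∈ LinearMap.ker π', stdQuad m F w = 0 := by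
    intro w hw
    rw [stdQuad_apply']
    unfold Cfsg.quadFormPlus
    apply Finset.sum_eq_zero
    intro i _
    have h1 : π' w i = 0 := by rw [LinearMap.mem_ker.mp hw]; rfl
    rw [hπ'] at h1
    rw [h1, zero_mul]
  have hVdim : Module.finrank F (Fin m ⊕ Fin m → F) = 2 * m := by
    rw [Module.finrank_fintype_fun_eq_card]; simp; omega
  have hLm : m ≤ Module.finrank F (LinearMap.ker π) := by
    have h1 := LinearMap.finrank_range_add_finrank_ker π
    have h2 := Submodule.finrank_le (LinearMap.range π)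
    rw [Module.finrank_fin_fun] at h2
    omega
  have hLm' : m ≤ Module.finrank F (LinearMap.ker π') := by
    have h1 := LinearMap.finrank_range_add_finrank_ker π'
    have h2 := Submodule.finrank_le (LinearMap.range π')
    rw [Module.finrank_fin_fun] at h2
    omega
  obtain ⟨B, hBdef⟩ : ∃ B : LinearMap.BilinForm F (Fin m ⊕ Fin m → F),
      B = polarBilin (stdQuad m F) := ⟨_, rfl⟩
  have hBnd : B.Nondegenerate := by rw [hBdef]; exact stdQuad_nondeg m
  have hconv : ∀ Z : Submodule F (Fin m ⊕ Fin m → F),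
      (∀ w ∈ Z, Cfsg.quadFormPlus m F w = 0) → ∀ w ∈ Z, stdQuad m F w = 0 := by
    intro Z hZ w hw
    rw [stdQuad_apply']; exact hZ w hw
  have hconv' : ∀ Z : Submodule F (Fin m ⊕ Fin m → F),
      (∀ w ∈ Z, stdQuad m F w = 0) → ∀ w ∈ Z, Cfsg.quadFormPlus m F w = 0 := by
    intro Z hZ w hw
    rw [← stdQuad_apply']; exact hZ w hw
  constructor
  · intro U W X hU hW hX
    exact ts_three (stdQuad m F) B hBdef hBnd m hVdim (LinearMap.ker π) hL hLm U W X hU.1
      (hconv U hU.2) hW.1 (hconv W hW.2) hX.1 (hconv X hX.2)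
  · have hts_le : ∀ Z : Submodule F (Fin m ⊕ Fin m → F), (∀ w ∈ Z, stdQuad m F w = 0) →
        Module.finrank F Z ≤ m := by
      intro Z hZ
      have h1 : Z ≤ B.orthogonal Z := by rw [hBdef]; exact ts_le_orth _ Z hZ
      have h2 := Submodule.finrank_mono h1
      rw [LinearMap.BilinForm.finrank_orthogonal hBnd, hVdim] at h2
      omega
    have hLm1 : Module.finrank F (LinearMap.ker π) = m := le_antisymm (hts_le _ hL) hLm
    have hLm2 : Module.finrank F (LinearMap.ker π') = m := le_antisymm (hts_le _ hL') hLm'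
    have hne : LinearMap.ker π' ≠ LinearMap.ker π := by
      intro h
      have h1 : (Pi.single (Sum.inl (⟨0, by omega⟩ : Fin m)) (1 : F) : Fin m ⊕ Fin m → F) ∈
          LinearMap.ker π := by
        rw [LinearMap.mem_ker]
        funext i
        rw [hπ]
        simp
      rw [← h, LinearMap.mem_ker] at h1
      have h2 := congrFun h1 ⟨0, by omega⟩
      rw [hπ'] at h2
      simp at h2
    obtain ⟨W', hW'm, hW', h1, -⟩ := ts_step (stdQuad m F) B hBdef hBnd m hVdim
      (LinearMap.ker π') hLm2 hL' (LinearMap.ker π) hLm1 hL hne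
    exact ⟨LinearMap.ker π, W', ⟨hLm1, hconv' _ hL⟩, ⟨hW'm, hconv' _ hW'⟩, h1⟩

end Cfsg.Agent.Lib.Helper4
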