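import Mathlib

set_option autoImplicit false

namespace Cfsg.Agent.Lib.Helper4

section

variable {F : Type*} [Field F] {V : Type*} [AddCommGroup V] [Module F V]

theorem symm_exists_aniso [FiniteDimensional F V] (h2 : (2 : F) ≠ 0)
    (B : LinearMap.BilinForm F V) (hS : B.IsSymm)
    (hB : B.Nondegenerate) (k : ℕ) (c : Fin k → V)
    (hc : ∀ i j, i ≠ j → B (c i) (c j) = 0) (hc0 : ∀ i, B (c i) (c i) ≠ 0)
    (hk : k < Module.finrank F V) :
    ∃ v, (∀ i, B (c i) v = 0) ∧ B v v ≠ 0 := by
  classical
  have hproj : ∀ x : V, ∀ j, B (c j) (x - ∑ i, (B (c i) x / B (c i) (c i)) • c i) = 0 := by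
    intro x j
    rw [map_sub, map_sum, Finset.sum_eq_single j]
    · rw [map_smul, smul_eq_mul, div_mul_cancel₀ _ (hc0 j), sub_self]
    · intro i _ hij
      rw [map_smul, hc j i (Ne.symm hij), smul_zero]
    · intro h; exact absurd (Finset.mem_univ _) h
  have hsymm0 : ∀ w : V, (∀ i, B (c i) w = 0) → ∀ i, B w (c i) = 0 := by
    intro w hw i
    rw [hS.eq w (c i)]
    exact hw i
  obtain ⟨x, hx⟩ : ∃ x : V, x ∉ Submodule.span F (Set.range c) := by
    by_contra hcon
    push Not at hcon
    have htop : Submodule.span F (Set.range c) = ⊤ := (Submodule.eq_top_iff').mpr hcon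
    have h1 := finrank_range_le_card (R := F) c
    rw [Set.finrank, htop, finrank_top, Fintype.card_fin] at h1
    omega
  have hx' : x - ∑ i, (B (c i) x / B (c i) (c i)) • c i ≠ 0 := by
    intro h
    apply hx
    rw [sub_eq_zero.mp h]
    exact Submodule.sum_mem _ (fun i _ => Submodule.smul_mem _ _ (Submodule.subset_span ⟨i, rfl⟩))
  obtain ⟨y, hy⟩ : ∃ y, B (x - ∑ i, (B (c i) x / B (c i) (c i)) • c i) y ≠ 0 := by
    by_contra hcon
    push Not at hcon
    exact hx' (hB.1 _ hcon)
  obtain ⟨u, hu⟩ : ∃ u, u = x - ∑ i, (B (c i) x / B (c i) (c i)) • c i := ⟨_, rfl⟩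
  obtain ⟨w, hw⟩ : ∃ w, w = y - ∑ i, (B (c i) y / B (c i) (c i)) • c i := ⟨_, rfl⟩
  have huW : ∀ i, B (c i) u = 0 := by rw [hu]; exact hproj x
  have hwW : ∀ i, B (c i) w = 0 := by rw [hw]; exact hproj y
  have huw : B u w ≠ 0 := by
    rw [hw, map_sub, map_sum]
    simp only [map_smul, smul_eq_mul, hsymm0 u huW, mul_zero, Finset.sum_const_zero, sub_zero]
    rw [hu]; exact hy
  by_cases h1 : B u u = 0
  · by_cases h3 : B w w = 0
    · refine ⟨u + w, fun i => by rw [map_add, huW i, hwW i, add_zero], ?_⟩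
      have e : B (u + w) (u + w) = 2 * B u w := by
        simp only [map_add, LinearMap.add_apply, h1, h3, hS.eq w u]
        ring
      rw [e]
      exact mul_ne_zero h2 huw
    · exact ⟨w, hwW, h3⟩
  · exact ⟨u, huW, h1⟩

theorem symm_exists_unit [Fintype F] [FiniteDimensional F V] (h2 : (2 : F) ≠ 0)
    (B : LinearMap.BilinForm F V) (hS : B.IsSymm)
    (hB : B.Nondegenerate) (k : ℕ) (c : Fin k → V)
    (hc : ∀ i j, i ≠ j → B (c i) (c j) = 0) (hc0 : ∀ i, B (c i) (c i) ≠ 0)
    (hk : k + 2 ≤ Module.finrank F V) : ∃ v, (∀ i, B (c i) v = 0) ∧ B v v = 1 := by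
  classical
  obtain ⟨u, hu, hu0⟩ := symm_exists_aniso h2 B hS hB k c hc hc0 (by omega)
  have hc' : ∀ i j : Fin (k + 1), i ≠ j →
      B (Fin.snoc (α := fun _ => V) c u i) (Fin.snoc (α := fun _ => V) c u j) = 0 := by
    intro i j hij
    induction i using Fin.lastCases with
    | last =>
      induction j using Fin.lastCases with
      | last => exact absurd rfl hij
      | cast j => rw [Fin.snoc_last, Fin.snoc_castSucc, hS.eq]; exact hu j
    | cast i =>
      induction j using Fin.lastCases with
      | last => rw [Fin.snoc_last, Fin.snoc_castSucc]; exact hu i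
      | cast j =>
        rw [Fin.snoc_castSucc, Fin.snoc_castSucc]
        exact hc i j (fun h => hij (by rw [h]))
  have hc0' : ∀ i : Fin (k + 1),
      B (Fin.snoc (α := fun _ => V) c u i) (Fin.snoc (α := fun _ => V) c u i) ≠ 0 := by
    intro i
    induction i using Fin.lastCases with
    | last => rw [Fin.snoc_last]; exact hu0
    | cast i => rw [Fin.snoc_castSucc]; exact hc0 i
  obtain ⟨w, hw, hw0⟩ := symm_exists_aniso h2 B hS hB (k + 1) _ hc' hc0' (by omega)
  have hwc : ∀ i, B (c i) w = 0 := by
    intro i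
    have h3 := hw (Fin.castSucc i)
    rwa [Fin.snoc_castSucc] at h3
  have huw : B u w = 0 := by
    have h3 := hw (Fin.last k)
    rwa [Fin.snoc_last] at h3
  have hch : ringChar F ≠ 2 := fun h => h2 (by
    haveI := ringChar.of_eq h
    exact CharTwo.two_eq_zero)
  have hodd := FiniteField.odd_card_of_char_ne_two hch
  obtain ⟨a, b, hab⟩ := FiniteField.exists_root_sum_quadratic
    (f := Polynomial.C (B u u) * Polynomial.X ^ 2)
    (g := Polynomial.C (B w w) * Polynomial.X ^ 2 - Polynomial.C 1)
    (by rw [Polynomial.degree_C_mul_X_pow 2 hu0]; norm_num)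
    (by rw [Polynomial.degree_sub_C (by rw [Polynomial.degree_C_mul_X_pow 2 hw0]; norm_num),
      Polynomial.degree_C_mul_X_pow 2 hw0]; norm_num) hodd
  simp only [Polynomial.eval_mul, Polynomial.eval_C, Polynomial.eval_pow, Polynomial.eval_X,
    Polynomial.eval_sub] at hab
  refine ⟨a • u + b • w, fun i => by
    rw [map_add, map_smul, map_smul, hu i, hwc i, smul_zero, smul_zero, add_zero], ?_⟩
  simp only [map_add, map_smul, LinearMap.add_apply, LinearMap.smul_apply, smul_eq_mul, huw,
    hS.eq w u]
  linear_combination hab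

theorem symm_orthonormal_family [Fintype F] [FiniteDimensional F V] (h2 : (2 : F) ≠ 0)
    (B : LinearMap.BilinForm F V) (hS : B.IsSymm)
    (hB : B.Nondegenerate) (k : ℕ)
    (hk : k + 1 ≤ Module.finrank F V) :
    ∃ b : Fin k → V, ∀ i j, B (b i) (b j) = if i = j then 1 else 0 := by
  classical
  induction k with
  | zero => exact ⟨Fin.elim0, fun i => i.elim0⟩
  | succ k ih =>
    obtain ⟨b, hb⟩ := ih (by omega)
    obtain ⟨v, hv0, hv1⟩ := symm_exists_unit h2 B hS hB k b
      (fun i j hij => by rw [hb, if_neg hij])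
      (fun i => by rw [hb, if_pos rfl]; exact one_ne_zero) (by omega)
    refine ⟨Fin.snoc (α := fun _ => V) b v, ?_⟩
    intro i j
    induction i using Fin.lastCases with
    | last =>
      induction j using Fin.lastCases with
      | last => rw [Fin.snoc_last, if_pos rfl]; exact hv1
      | cast j =>
        rw [Fin.snoc_last, Fin.snoc_castSucc, if_neg (Fin.castSucc_lt_last j).ne', hS.eq, hv0 j]
    | cast i =>
      induction j using Fin.lastCases with
      | last =>
        rw [Fin.snoc_last, Fin.snoc_castSucc, if_neg (Fin.castSucc_lt_last i).ne]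
        exact hv0 i
      | cast j =>
        rw [Fin.snoc_castSucc, Fin.snoc_castSucc, hb i j]
        simp only [Fin.castSucc_inj]

theorem symm_normal_basis [Finite F] [FiniteDimensional F V] (h2 : (2 : F) ≠ 0)
    (B : LinearMap.BilinForm F V) (hS : B.IsSymm) (hB : B.Nondegenerate) {n : ℕ}
    (hn : Module.finrank F V = n + 1) (α : F) (hα : ¬ IsSquare α) :
    ∃ b : Module.Basis (Fin (n + 1)) F V, (∀ i j, i ≠ j → B (b i) (b j) = 0) ∧
      (∀ i, i ≠ Fin.last n → B (b i) (b i) = 1) ∧
      (B (b (Fin.last n)) (b (Fin.last n)) = 1 ∨ B (b (Fin.last n)) (b (Fin.last n)) = α) := by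
  classical
  haveI := Fintype.ofFinite F
  have hα0 : α ≠ 0 := by
    rintro rfl
    exact hα ⟨0, by simp⟩
  obtain ⟨b, hb⟩ := symm_orthonormal_family h2 B hS hB n (by omega)
  obtain ⟨v, hv0, hvv⟩ := symm_exists_aniso h2 B hS hB n b
    (fun i j hij => by rw [hb, if_neg hij])
    (fun i => by rw [hb, if_pos rfl]; exact one_ne_zero) (by omega)
  obtain ⟨v', hv'0, hv'⟩ : ∃ v', (∀ i, B (b i) v' = 0) ∧ (B v' v' = 1 ∨ B v' v' = α) := by
    by_cases hsq : IsSquare (B v v)
    · obtain ⟨s, hs⟩ := hsq
      have hs0 : s ≠ 0 := by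
        rintro rfl
        rw [mul_zero] at hs
        exact hvv hs
      refine ⟨s⁻¹ • v, fun i => by rw [map_smul, hv0 i, smul_zero], Or.inl ?_⟩
      have e1 : B (s⁻¹ • v) = s⁻¹ • B v := map_smul B s⁻¹ v
      rw [e1, LinearMap.smul_apply, map_smul, smul_eq_mul, smul_eq_mul, hs]
      field_simp
    · have h1 : quadraticChar F (B v v * α) = 1 := by
        rw [map_mul, quadraticChar_neg_one_iff_not_isSquare.mpr hsq,
          quadraticChar_neg_one_iff_not_isSquare.mpr hα]
        norm_num
      obtain ⟨t, ht⟩ := (quadraticChar_one_iff_isSquare (mul_ne_zero hvv hα0)).mp h1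
      have ht0 : t ≠ 0 := by
        rintro rfl
        rw [mul_zero] at ht
        exact (mul_ne_zero hvv hα0) ht
      refine ⟨(α / t) • v, fun i => by rw [map_smul, hv0 i, smul_zero], Or.inr ?_⟩
      have e1 : B ((α / t) • v) = (α / t) • B v := map_smul B (α / t) v
      rw [e1, LinearMap.smul_apply, map_smul, smul_eq_mul, smul_eq_mul]
      have h3 : B v v = t * t / α := by rw [← ht, mul_div_cancel_right₀ _ hα0]
      rw [h3]
      field_simp
  obtain ⟨bb, hbb⟩ : ∃ bb : Fin (n + 1) → V, bb = Fin.snoc (α := fun _ => V) b v' := ⟨_, rfl⟩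
  have hlast : bb (Fin.last n) = v' := by rw [hbb, Fin.snoc_last]
  have hcast : ∀ i : Fin n, bb (Fin.castSucc i) = b i := by
    intro i; rw [hbb, Fin.snoc_castSucc]
  have horth : ∀ i j, i ≠ j → B (bb i) (bb j) = 0 := by
    intro i j hij
    induction i using Fin.lastCases with
    | last =>
      induction j using Fin.lastCases with
      | last => exact absurd rfl hij
      | cast j => rw [hlast, hcast, hS.eq]; exact hv'0 j
    | cast i =>
      induction j using Fin.lastCases with
      | last => rw [hlast, hcast]; exact hv'0 i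
      | cast j =>
        rw [hcast, hcast, hb, if_neg (fun h => hij (by rw [h]))]
  have hnorm : ∀ i, i ≠ Fin.last n → B (bb i) (bb i) = 1 := by
    intro i hi
    induction i using Fin.lastCases with
    | last => exact absurd rfl hi
    | cast i => rw [hcast, hb, if_pos rfl]
  have hnorm0 : ∀ i, B (bb i) (bb i) ≠ 0 := by
    intro i
    by_cases hi : i = Fin.last n
    · rw [hi, hlast]
      rcases hv' with h | h <;> rw [h]
      · exact one_ne_zero
      · exact hα0
    · rw [hnorm i hi]; exact one_ne_zero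
  have hli : LinearIndependent F bb := by
    rw [Fintype.linearIndependent_iff]
    intro c hc j
    have h1 := congrArg (B (bb j)) hc
    rw [map_sum, map_zero, Finset.sum_eq_single j] at h1
    · rw [map_smul, smul_eq_mul] at h1
      exact (mul_eq_zero.mp h1).resolve_right (hnorm0 j)
    · intro i _ hij
      rw [map_smul, horth j i (Ne.symm hij), smul_zero]
    · intro h; exact absurd (Finset.mem_univ _) h
  refine ⟨basisOfLinearIndependentOfCardEqFinrank' bb hli (by rw [Fintype.card_fin, hn]),
    ?_, ?_, ?_⟩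
  · intro i j hij
    rw [coe_basisOfLinearIndependentOfCardEqFinrank']
    exact horth i j hij
  · intro i hi
    rw [coe_basisOfLinearIndependentOfCardEqFinrank']
    exact hnorm i hi
  · rw [coe_basisOfLinearIndependentOfCardEqFinrank', hlast]
    exact hv'

end

end Cfsg.Agent.Lib.Helper4
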