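import Mathlib
import Cfsg.Agent.Lib.Helper4.SymmNormal

set_option autoImplicit false

namespace Cfsg.Agent.Lib.Helper4

section

variable {F : Type*} [Field F] {V : Type*} [AddCommGroup V] [Module F V]

theorem gram_det_rel {ι : Type*} [Fintype ι] [DecidableEq ι]
    (B : LinearMap.BilinForm F V) (b b' : Module.Basis ι F V) :
    (LinearMap.BilinForm.toMatrix b' B).det =
      (b.toMatrix b').det ^ 2 * (LinearMap.BilinForm.toMatrix b B).det := by
  rw [← LinearMap.BilinForm.toMatrix_mul_basis_toMatrix b b' B, Matrix.det_mul, Matrix.det_mul,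
    Matrix.det_transpose]
  ring

theorem gram_det_diag {k : ℕ} (B : LinearMap.BilinForm F V) (b : Module.Basis (Fin (k + 1)) F V)
    (d : F) (h0 : ∀ i j, i ≠ j → B (b i) (b j) = 0)
    (h1 : ∀ i, i ≠ Fin.last k → B (b i) (b i) = 1)
    (hd : B (b (Fin.last k)) (b (Fin.last k)) = d) :
    (LinearMap.BilinForm.toMatrix b B).det = d := by
  have e : LinearMap.BilinForm.toMatrix b B =
      Matrix.diagonal (fun i => if i = Fin.last k then d else 1) := by
    ext i j
    rw [LinearMap.BilinForm.toMatrix_apply, Matrix.diagonal_apply]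
    by_cases hij : i = j
    · subst hij
      rw [if_pos rfl]
      by_cases hi : i = Fin.last k
      · rw [if_pos hi, hi, hd]
      · rw [if_neg hi, h1 i hi]
    · rw [if_neg hij, h0 i j hij]
  rw [e, Matrix.det_diagonal, Finset.prod_ite_eq' Finset.univ (Fin.last k) (fun _ => d),
    if_pos (Finset.mem_univ _)]

theorem quad_iso_of_gram (h2 : (2 : F) ≠ 0) {ι : Type*} [Fintype ι]
    (Q₁ Q₂ : QuadraticForm F V) (c : F) (b₁ b₂ : Module.Basis ι F V)
    (h : ∀ i j, QuadraticMap.polar Q₂ (b₂ i) (b₂ j) = c * QuadraticMap.polar Q₁ (b₁ i) (b₁ j)) :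
    ∀ v, Q₂ (b₁.equiv b₂ (Equiv.refl ι) v) = c * Q₁ v := by
  have hB : LinearMap.BilinForm.comp (QuadraticMap.polarBilin Q₂)
      (b₁.equiv b₂ (Equiv.refl ι)).toLinearMap
      (b₁.equiv b₂ (Equiv.refl ι)).toLinearMap =
        c • (QuadraticMap.polarBilin Q₁ : LinearMap.BilinForm F V) := by
    apply LinearMap.BilinForm.ext_basis b₁
    intro i j
    simp only [LinearMap.BilinForm.comp_apply, LinearEquiv.coe_coe, Module.Basis.equiv_apply,
      Equiv.refl_apply, LinearMap.smul_apply, QuadraticMap.polarBilin_apply_apply, smul_eq_mul]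
    exact h i j
  intro v
  have h3 := congrArg (fun B : LinearMap.BilinForm F V => B v v) hB
  simp only [LinearMap.BilinForm.comp_apply, LinearEquiv.coe_coe, LinearMap.smul_apply,
    QuadraticMap.polarBilin_apply_apply, smul_eq_mul, QuadraticMap.polar_self, nsmul_eq_mul,
    Nat.cast_ofNat] at h3
  have h4 : (2 : F) * Q₂ (b₁.equiv b₂ (Equiv.refl ι) v) = 2 * (c * Q₁ v) := by
    rw [h3]; ring
  exact mul_left_cancel₀ h2 h4

theorem quad_similar_odd [Fintype F] (h2 : (2 : F) ≠ 0) {n : ℕ} (hn : Odd n)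
    (Q₁ Q₂ : QuadraticForm F (Fin n → F))
    (h₁ : (QuadraticMap.polarBilin Q₁).Nondegenerate)
    (h₂ : (QuadraticMap.polarBilin Q₂).Nondegenerate) :
    ∃ (g : (Fin n → F) ≃ₗ[F] (Fin n → F)) (c : F), c ≠ 0 ∧ ∀ v, Q₂ (g v) = c * Q₁ v := by
  classical
  obtain ⟨j, rfl⟩ := hn
  have hch : ringChar F ≠ 2 := fun h => h2 (by
    haveI := ringChar.of_eq h
    exact CharTwo.two_eq_zero)
  obtain ⟨α, hα⟩ := FiniteField.exists_nonsquare hch
  have hα0 : α ≠ 0 := by
    rintro rfl
    exact hα ⟨0, by simp⟩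
  have hfin : Module.finrank F (Fin (2 * j + 1) → F) = 2 * j + 1 := by simp
  have hS : ∀ Q : QuadraticForm F (Fin (2 * j + 1) → F),
      LinearMap.BilinForm.IsSymm (QuadraticMap.polarBilin Q) := by
    intro Q
    exact ⟨fun x y => by
      rw [QuadraticMap.polarBilin_apply_apply, QuadraticMap.polarBilin_apply_apply,
        QuadraticMap.polar_comm]⟩
  obtain ⟨b₁, h10, h11, h1d⟩ :=
    symm_normal_basis h2 (QuadraticMap.polarBilin Q₁) (hS Q₁) h₁ hfin α hα
  obtain ⟨b₂, h20, h21, h2d⟩ :=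
    symm_normal_basis h2 (QuadraticMap.polarBilin Q₂) (hS Q₂) h₂ hfin α hα
  obtain ⟨d₁, hd₁⟩ : ∃ d, QuadraticMap.polarBilin Q₁ (b₁ (Fin.last (2 * j)))
      (b₁ (Fin.last (2 * j))) = d := ⟨_, rfl⟩
  obtain ⟨d₂, hd₂⟩ : ∃ d, QuadraticMap.polarBilin Q₂ (b₂ (Fin.last (2 * j)))
      (b₂ (Fin.last (2 * j))) = d := ⟨_, rfl⟩
  rw [hd₁] at h1d
  rw [hd₂] at h2d
  by_cases hdd : d₁ = d₂
  · refine ⟨b₁.equiv b₂ (Equiv.refl _), 1, one_ne_zero, quad_iso_of_gram h2 Q₁ Q₂ 1 b₁ b₂ ?_⟩
    intro i k
    rw [one_mul, ← QuadraticMap.polarBilin_apply_apply, ← QuadraticMap.polarBilin_apply_apply]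
    by_cases hik : i = k
    · subst hik
      by_cases hi : i = Fin.last _
      · rw [hi, hd₁, hd₂, hdd]
      · rw [h21 i hi, h11 i hi]
    · rw [h20 i k hik, h10 i k hik]
  · have hS' : LinearMap.BilinForm.IsSymm (α • QuadraticMap.polarBilin Q₁) :=
      ⟨fun x y => by simp only [LinearMap.smul_apply]; rw [(hS Q₁).eq]⟩
    have hB' : LinearMap.Nondegenerate (α • QuadraticMap.polarBilin Q₁) := by
      constructor
      · intro x hx
        apply h₁.1 x
        intro y
        have h3 := hx y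
        simp only [LinearMap.smul_apply, smul_eq_mul] at h3
        exact (mul_eq_zero.mp h3).resolve_left hα0
      · intro y hy
        apply h₁.2 y
        intro x
        have h3 := hy x
        simp only [LinearMap.smul_apply, smul_eq_mul] at h3
        exact (mul_eq_zero.mp h3).resolve_left hα0
    obtain ⟨b₁', h10', h11', h1d'⟩ :=
      symm_normal_basis h2 (α • QuadraticMap.polarBilin Q₁) hS' hB' hfin α hα
    obtain ⟨d₁', hd₁'⟩ : ∃ d, (α • QuadraticMap.polarBilin Q₁) (b₁' (Fin.last (2 * j)))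
        (b₁' (Fin.last (2 * j))) = d := ⟨_, rfl⟩
    rw [hd₁'] at h1d'
    have hd₁0 : d₁ ≠ 0 := by
      rcases h1d with h | h <;> rw [h]
      · exact one_ne_zero
      · exact hα0
    have hne : d₁' ≠ d₁ := by
      intro heq
      have hdet1 := gram_det_diag (QuadraticMap.polarBilin Q₁) b₁ d₁ h10 h11 hd₁
      have hdet1' := gram_det_diag (α • QuadraticMap.polarBilin Q₁) b₁' d₁' h10' h11' hd₁'
      have hrel := gram_det_rel (QuadraticMap.polarBilin Q₁) b₁ b₁'
      have hsm : LinearMap.BilinForm.toMatrix b₁' (α • QuadraticMap.polarBilin Q₁) =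
          α • LinearMap.BilinForm.toMatrix b₁' (QuadraticMap.polarBilin Q₁) := map_smul _ _ _
      rw [hsm, Matrix.det_smul, Fintype.card_fin, hrel, hdet1, heq] at hdet1'
      obtain ⟨t, ht⟩ : ∃ t : F, t = α ^ j * (b₁.toMatrix b₁').det := ⟨_, rfl⟩
      have key : α * t ^ 2 = 1 := by
        have h5 : α * t ^ 2 * d₁ = 1 * d₁ := by
          rw [one_mul, ht]
          linear_combination hdet1'
        exact mul_right_cancel₀ hd₁0 h5
      have ht0 : t ≠ 0 := by
        rintro rfl
        simp at key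
      apply hα
      refine ⟨t⁻¹, ?_⟩
      field_simp
      linear_combination key
    have hd' : d₁' = d₂ := by
      rcases h1d with a | a <;> rcases h2d with b | b <;> rcases h1d' with c | c
      all_goals first
        | exact c.trans b.symm
        | exact absurd (a.trans b.symm) hdd
        | exact absurd (c.trans a.symm) hne
    refine ⟨b₁'.equiv b₂ (Equiv.refl _), α, hα0, quad_iso_of_gram h2 Q₁ Q₂ α b₁' b₂ ?_⟩
    intro i k
    have e : α * QuadraticMap.polar Q₁ (b₁' i) (b₁' k) =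
        (α • QuadraticMap.polarBilin Q₁) (b₁' i) (b₁' k) := by
      simp only [LinearMap.smul_apply, smul_eq_mul, QuadraticMap.polarBilin_apply_apply]
    rw [e, ← QuadraticMap.polarBilin_apply_apply]
    by_cases hik : i = k
    · subst hik
      by_cases hi : i = Fin.last _
      · rw [hi, hd₂, hd₁', hd']
      · rw [h21 i hi, h11' i hi]
    · rw [h20 i k hik, h10' i k hik]

end

end Cfsg.Agent.Lib.Helper4
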