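import Mathlib

set_option autoImplicit false

namespace Cfsg.Agent.Lib.Helper4

/-- `dim ker f^j ≤ j · dim ker f` -/
theorem finrank_ker_pow_le_mul {K V : Type*} [Field K] [AddCommGroup V] [Module K V]
    [FiniteDimensional K V] (f : Module.End K V) (j : ℕ) :
    Module.finrank K (LinearMap.ker (f ^ j)) ≤ j * Module.finrank K (LinearMap.ker f) := by
  induction j with
  | zero =>
    have : LinearMap.ker (f ^ 0) = ⊥ := by
      rw [pow_zero]; exact LinearMap.ker_id
    rw [this]; simp
  | succ j ih =>
    have hmem : ∀ v : LinearMap.ker (f ^ (j + 1)),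
        ((f ^ j).comp (LinearMap.ker (f ^ (j + 1))).subtype) v ∈ LinearMap.ker f := by
      intro v
      rw [LinearMap.mem_ker]
      have h0 := v.2
      rw [LinearMap.mem_ker] at h0
      have e : ∀ x : V, (f ^ (j + 1)) x = f ((f ^ j) x) := fun x => by
        rw [pow_succ', Module.End.mul_apply]
      rw [e] at h0
      exact h0
    let g : LinearMap.ker (f ^ (j + 1)) →ₗ[K] LinearMap.ker f :=
      LinearMap.codRestrict (LinearMap.ker f)
        ((f ^ j).comp (LinearMap.ker (f ^ (j + 1))).subtype) hmem
    have h1 := LinearMap.finrank_range_add_finrank_ker g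
    have h2 : Module.finrank K (LinearMap.range g) ≤ Module.finrank K (LinearMap.ker f) :=
      Submodule.finrank_le _
    have h3 : Module.finrank K (LinearMap.ker g) ≤ Module.finrank K (LinearMap.ker (f ^ j)) := by
      let e : LinearMap.ker g →ₗ[K] LinearMap.ker (f ^ j) :=
        LinearMap.codRestrict (LinearMap.ker (f ^ j))
          ((LinearMap.ker (f ^ (j + 1))).subtype.comp (LinearMap.ker g).subtype) (by
            intro v
            rw [LinearMap.mem_ker]
            have h := v.2
            rw [LinearMap.mem_ker] at h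
            exact congrArg Subtype.val h)
      apply LinearMap.finrank_le_finrank_of_injective (f := e)
      intro a b hab
      have h := congrArg Subtype.val hab
      exact Subtype.ext (Subtype.ext h)
    rw [Nat.succ_mul]
    omega

section
variable {F : Type*} [Field F] {ι : Type*} [Fintype ι] [DecidableEq ι]

theorem mulVecLin_pow_eq (A : Matrix ι ι F) (k : ℕ) :
    Matrix.mulVecLin (A ^ k) = (Matrix.mulVecLin A : Module.End F (ι → F)) ^ k := by
  induction k with
  | zero => rw [pow_zero, pow_zero, Matrix.mulVecLin_one]; rfl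
  | succ k ih => rw [pow_succ, pow_succ, Matrix.mulVecLin_mul, ih]; rfl

/-- a regular unipotent matrix has a one-dimensional fixed space -/
theorem regUnipotent_ker_le_one (u : Matrix ι ι F)
    (hreg : (u - 1).rank = Fintype.card ι - 1) :
    Module.finrank F (LinearMap.ker (Matrix.mulVecLin (u - 1))) ≤ 1 := by
  have h1 := LinearMap.finrank_range_add_finrank_ker (Matrix.mulVecLin (u - 1))
  rw [Module.finrank_fintype_fun_eq_card] at h1
  have h2 : Module.finrank F (LinearMap.range (Matrix.mulVecLin (u - 1))) = Fintype.card ι - 1 :=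
    hreg
  omega

/-- the invariant subspaces of a regular unipotent matrix are the kernels of the powers of `u - 1` -/
theorem regUnipotent_invariant (u : Matrix ι ι F) (hnil : (u - 1) ^ Fintype.card ι = 0)
    (hreg : (u - 1).rank = Fintype.card ι - 1) (W : Submodule F (ι → F))
    (hW : ∀ v ∈ W, u.mulVec v ∈ W) :
    W = LinearMap.ker (Matrix.mulVecLin ((u - 1) ^ Module.finrank F W)) := by
  obtain ⟨N, hN⟩ : ∃ N : Module.End F (ι → F), N = Matrix.mulVecLin (u - 1) := ⟨_, rfl⟩
  have hNk : ∀ k : ℕ, Matrix.mulVecLin ((u - 1) ^ k) = N ^ k := by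
    intro k; rw [hN]; exact mulVecLin_pow_eq _ k
  rw [hNk]
  have hWN : ∀ v ∈ W, N v ∈ W := by
    intro v hv
    rw [hN, Matrix.mulVecLin_apply, Matrix.sub_mulVec, Matrix.one_mulVec]
    exact W.sub_mem (hW v hv) hv
  have hNn : N ^ Fintype.card ι = 0 := by
    rw [← hNk, hnil]; ext; simp
  have hle : W ≤ LinearMap.ker (N ^ Module.finrank F W) := by
    intro w hw
    have h1 : (N.restrict hWN) ^ Fintype.card ι = 0 := by
      rw [Module.End.pow_restrict _ hWN]
      ext x
      simp [hNn]
    have h2 : Module.finrank F W ≤ Fintype.card ι := by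
      have := Submodule.finrank_le W
      rw [Module.finrank_fintype_fun_eq_card] at this
      exact this
    have h3 := Module.End.ker_pow_eq_ker_pow_finrank_of_le (f := N.restrict hWN) h2
    rw [h1] at h3
    have h4 : (⟨w, hw⟩ : W) ∈ LinearMap.ker ((N.restrict hWN) ^ Module.finrank F W) := by
      rw [← h3]; simp
    rw [LinearMap.mem_ker, Module.End.pow_restrict _ hWN] at h4
    have := congrArg Subtype.val h4
    rw [LinearMap.mem_ker]
    simpa using this
  have hker1 : Module.finrank F (LinearMap.ker N) ≤ 1 := by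
    rw [hN]; exact regUnipotent_ker_le_one u hreg
  have hdim := finrank_ker_pow_le_mul N (Module.finrank F W)
  apply Submodule.eq_of_le_of_finrank_le hle
  calc _ ≤ Module.finrank F W * Module.finrank F (LinearMap.ker N) := hdim
    _ ≤ Module.finrank F W * 1 := Nat.mul_le_mul_left _ hker1
    _ = _ := mul_one _

/-- for a regular unipotent matrix, `ker (u-1)^k = im (u-1)^(n-k)` -/
theorem regUnipotent_range_eq_ker (u : Matrix ι ι F) (hnil : (u - 1) ^ Fintype.card ι = 0)
    (hreg : (u - 1).rank = Fintype.card ι - 1) (k : ℕ) (hk : k ≤ Fintype.card ι) :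
    LinearMap.range (Matrix.mulVecLin ((u - 1) ^ (Fintype.card ι - k))) =
      LinearMap.ker (Matrix.mulVecLin ((u - 1) ^ k)) := by
  have hle : LinearMap.range (Matrix.mulVecLin ((u - 1) ^ (Fintype.card ι - k))) ≤
      LinearMap.ker (Matrix.mulVecLin ((u - 1) ^ k)) := by
    rintro _ ⟨x, rfl⟩
    rw [LinearMap.mem_ker, Matrix.mulVecLin_apply, Matrix.mulVecLin_apply, Matrix.mulVec_mulVec,
      ← pow_add, Nat.add_sub_cancel' hk, hnil, Matrix.zero_mulVec]
  apply Submodule.eq_of_le_of_finrank_le hle
  have h1 := LinearMap.finrank_range_add_finrank_ker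
    (Matrix.mulVecLin ((u - 1) ^ (Fintype.card ι - k)))
  rw [Module.finrank_fintype_fun_eq_card] at h1
  have h2 := finrank_ker_pow_le_mul (Matrix.mulVecLin (u - 1) : Module.End F (ι → F))
    (Fintype.card ι - k)
  rw [← mulVecLin_pow_eq] at h2
  have h3 := finrank_ker_pow_le_mul (Matrix.mulVecLin (u - 1) : Module.End F (ι → F)) k
  rw [← mulVecLin_pow_eq] at h3
  have h4 := regUnipotent_ker_le_one u hreg
  have h5 : (Fintype.card ι - k) * Module.finrank F (LinearMap.ker (Matrix.mulVecLin (u - 1)))
      ≤ (Fintype.card ι - k) * 1 := Nat.mul_le_mul_left _ h4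
  have h6 : k * Module.finrank F (LinearMap.ker (Matrix.mulVecLin (u - 1))) ≤ k * 1 :=
    Nat.mul_le_mul_left _ h4
  omega

end

end Cfsg.Agent.Lib.Helper4
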