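import Mathlib
import Cfsg.Agent.Lib.Helper4.RegUnipotent

set_option autoImplicit false

namespace Cfsg.Agent.Lib.Helper4

section
variable {F : Type*} [Field F] {ι : Type*} [Fintype ι] [DecidableEq ι]

theorem ker_mulVecLin_pow_mono (A : Matrix ι ι F) {i j : ℕ} (h : i ≤ j) :
    LinearMap.ker (Matrix.mulVecLin (A ^ i)) ≤ LinearMap.ker (Matrix.mulVecLin (A ^ j)) := by
  intro v hv
  rw [LinearMap.mem_ker, Matrix.mulVecLin_apply] at hv ⊢
  have e : A ^ j = A ^ (j - i) * A ^ i := by rw [← pow_add, Nat.sub_add_cancel h]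
  rw [e, ← Matrix.mulVec_mulVec, hv, Matrix.mulVec_zero]

/-- exact dimension of the kernels of the powers of `u - 1` for a regular unipotent `u` -/
theorem regUnipotent_finrank_ker_pow (u : Matrix ι ι F) (hnil : (u - 1) ^ Fintype.card ι = 0)
    (hreg : (u - 1).rank = Fintype.card ι - 1) (k : ℕ) (hk : k ≤ Fintype.card ι) :
    Module.finrank F (LinearMap.ker (Matrix.mulVecLin ((u - 1) ^ k))) = k := by
  have h4 := regUnipotent_ker_le_one u hreg
  have h3 := finrank_ker_pow_le_mul (Matrix.mulVecLin (u - 1) : Module.End F (ι → F)) k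
  rw [← mulVecLin_pow_eq] at h3
  have h6 : k * Module.finrank F (LinearMap.ker (Matrix.mulVecLin (u - 1))) ≤ k * 1 :=
    Nat.mul_le_mul_left _ h4
  have h1 := LinearMap.finrank_range_add_finrank_ker (Matrix.mulVecLin ((u - 1) ^ k))
  rw [Module.finrank_fintype_fun_eq_card] at h1
  have h2 := regUnipotent_range_eq_ker u hnil hreg (Fintype.card ι - k) (Nat.sub_le _ _)
  rw [Nat.sub_sub_self hk] at h2
  rw [h2] at h1
  have h7 := finrank_ker_pow_le_mul (Matrix.mulVecLin (u - 1) : Module.End F (ι → F))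
    (Fintype.card ι - k)
  rw [← mulVecLin_pow_eq] at h7
  have h8 : (Fintype.card ι - k) * Module.finrank F (LinearMap.ker (Matrix.mulVecLin (u - 1)))
      ≤ (Fintype.card ι - k) * 1 := Nat.mul_le_mul_left _ h4
  omega

/-- an invariant subspace containing a cyclic vector is everything -/
theorem regUnipotent_invariant_eq_top (u : Matrix ι ι F) (hnil : (u - 1) ^ Fintype.card ι = 0)
    (hreg : (u - 1).rank = Fintype.card ι - 1) (W : Submodule F (ι → F))
    (hW : ∀ v ∈ W, u.mulVec v ∈ W) (e : ι → F) (heW : e ∈ W)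
    (he : Matrix.mulVec ((u - 1) ^ (Fintype.card ι - 1)) e ≠ 0) : W = ⊤ := by
  have hWk := regUnipotent_invariant u hnil hreg W hW
  have h2 : Module.finrank F W ≤ Fintype.card ι := by
    have := Submodule.finrank_le W
    rw [Module.finrank_fintype_fun_eq_card] at this
    exact this
  by_cases hlt : Module.finrank F W ≤ Fintype.card ι - 1
  · exfalso
    apply he
    have h3 := ker_mulVecLin_pow_mono (u - 1) hlt (hWk.le heW)
    rw [LinearMap.mem_ker, Matrix.mulVecLin_apply] at h3
    exact h3
  · apply Submodule.eq_top_of_finrank_eq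
    rw [Module.finrank_fintype_fun_eq_card]
    omega

/-- a regular unipotent matrix has a cyclic vector -/
theorem regUnipotent_exists_cyclic (u : Matrix ι ι F) (hnil : (u - 1) ^ Fintype.card ι = 0)
    (hreg : (u - 1).rank = Fintype.card ι - 1) (hpos : 0 < Fintype.card ι) :
    ∃ e : ι → F, Matrix.mulVec ((u - 1) ^ (Fintype.card ι - 1)) e ≠ 0 := by
  by_contra hcon
  push Not at hcon
  have h1 : LinearMap.ker (Matrix.mulVecLin ((u - 1) ^ (Fintype.card ι - 1))) = ⊤ := by
    rw [eq_top_iff]
    intro v _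
    rw [LinearMap.mem_ker, Matrix.mulVecLin_apply]
    exact hcon v
  have h2 := regUnipotent_finrank_ker_pow u hnil hreg (Fintype.card ι - 1) (Nat.sub_le _ _)
  rw [h1, finrank_top, Module.finrank_fintype_fun_eq_card] at h2
  omega

end

end Cfsg.Agent.Lib.Helper4
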