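import Mathlib
import Cfsg.Prelude.Def_RootSubgroups

set_option autoImplicit false

namespace Cfsg.Agent.Lib.Helper4.RI

variable {G H : Type*} [Group G] [Group H]

theorem map_conjBy' (f : G →* H) (A : Subgroup G) (g : G) :
    (Cfsg.conjBy A g).map f = Cfsg.conjBy (A.map f) (f g) := by
  show (A.map (MulAut.conj g).toMonoidHom).map f = (A.map f).map (MulAut.conj (f g)).toMonoidHom
  rw [Subgroup.map_map, Subgroup.map_map]
  congr 1
  ext x
  simp [MulAut.conj_apply]

theorem conjBy_bot (g : H) : Cfsg.conjBy (⊥ : Subgroup H) g = ⊥ := by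
  show (⊥ : Subgroup H).map (MulAut.conj g).toMonoidHom = ⊥
  exact Subgroup.map_bot _

theorem mem_conjBy_iff (B : Subgroup H) (g x : H) :
    x ∈ Cfsg.conjBy B g ↔ g⁻¹ * x * g ∈ B := by
  show x ∈ B.map (MulAut.conj g).toMonoidHom ↔ _
  rw [Subgroup.mem_map_equiv, MulAut.conj_symm_apply]

theorem conjBy_one (B : Subgroup H) : Cfsg.conjBy B 1 = B := by
  ext x
  rw [mem_conjBy_iff, inv_one, one_mul, mul_one]

theorem triv_step (S : Set (Subgroup G)) (hS : Cfsg.IsRootSubgroupSet S) (f : G →* H)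
    (A B : Subgroup G) (hAB : Cfsg.FAdj S A B) (hA : A.map f = ⊥) : B.map f = ⊥ := by
  obtain ⟨hAS, hBS, hpair⟩ := hAB
  have hne : A ≠ ⊥ := hS.ne_bot A hAS
  obtain ⟨a, ha, ha1⟩ : ∃ a ∈ A, a ≠ 1 := by
    by_contra hcon
    push Not at hcon
    exact hne ((Subgroup.eq_bot_iff_forall A).2 hcon)
  obtain ⟨b, hb, hb1, hconj⟩ := hpair.cond_left a ha ha1
  have h1 := congrArg (Subgroup.map f) hconj
  rw [map_conjBy', map_conjBy', hA, conjBy_bot] at h1
  have hfa : f a⁻¹ = 1 := by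
    have h2 : f a ∈ A.map f := Subgroup.mem_map_of_mem f ha
    rw [hA, Subgroup.mem_bot] at h2
    rw [map_inv, h2, inv_one]
  rw [hfa, conjBy_one] at h1
  exact h1.symm

theorem triv_all (S : Set (Subgroup G)) (hS : Cfsg.IsRootSubgroupSet S) (f : G →* H)
    (A B : Subgroup G) (h : Relation.ReflTransGen (Cfsg.FAdj S) A B) (hA : A.map f = ⊥) :
    B.map f = ⊥ := by
  induction h with
  | refl => exact hA
  | tail _ hstep ih => exact triv_step S hS f _ _ hstep ih

theorem cond_map (f : G →* H) (A B : Subgroup G) (h : Cfsg.RankOneCondition A B)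
    (hne : A.map f ≠ B.map f) : Cfsg.RankOneCondition (A.map f) (B.map f) := by
  intro x hx hx1
  obtain ⟨a, ha, rfl⟩ := Subgroup.mem_map.1 hx
  have ha1 : a ≠ 1 := by
    rintro rfl
    exact hx1 (map_one f)
  obtain ⟨b, hb, hb1, hconj⟩ := h a ha ha1
  have h1 := congrArg (Subgroup.map f) hconj
  rw [map_conjBy', map_conjBy', map_inv, map_inv] at h1
  refine ⟨f b, Subgroup.mem_map_of_mem f hb, ?_, h1⟩
  intro hfb
  rw [hfb, inv_one, conjBy_one] at h1
  have hc : f a ∈ A.map f := Subgroup.mem_map_of_mem f ha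
  have key : ∀ y, y ∈ A.map f ↔ f a * y * (f a)⁻¹ ∈ B.map f := by
    intro y
    rw [h1, mem_conjBy_iff, inv_inv]
  apply hne
  ext y
  have e : f a * ((f a)⁻¹ * y * f a) * (f a)⁻¹ = y := by group
  constructor
  · intro hy
    have h2 : (f a)⁻¹ * y * f a ∈ A.map f :=
      (A.map f).mul_mem ((A.map f).mul_mem ((A.map f).inv_mem hc) hy) hc
    have h3 := (key _).1 h2
    rw [e] at h3
    exact h3
  · intro hy
    have h2 : (f a)⁻¹ * y * f a ∈ A.map f := (key _).2 (by rw [e]; exact hy)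
    have h3 : f a * ((f a)⁻¹ * y * f a) * (f a)⁻¹ ∈ A.map f :=
      (A.map f).mul_mem ((A.map f).mul_mem hc h2) ((A.map f).inv_mem hc)
    rw [e] at h3
    exact h3

theorem pair_map (f : G →* H) (A B : Subgroup G) (h : Cfsg.IsRankOnePair A B)
    (hne : A.map f ≠ B.map f) : Cfsg.IsRankOnePair (A.map f) (B.map f) := by
  refine ⟨hne, ?_, ?_, cond_map f A B h.cond_left hne, cond_map f B A h.cond_right (Ne.symm hne)⟩
  · haveI := h.nilpotent_left
    exact nilpotent_of_surjective (f.subgroupMap A) (f.subgroupMap_surjective A)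
  · haveI := h.nilpotent_right
    exact nilpotent_of_surjective (f.subgroupMap B) (f.subgroupMap_surjective B)

theorem comm_map (f : G →* H) (A : Subgroup G) (hA : IsMulCommutative ↥A) :
    IsMulCommutative ↥(A.map f) := by
  refine ⟨⟨fun x y => ?_⟩⟩
  obtain ⟨a, ha, hax⟩ := Subgroup.mem_map.1 x.2
  obtain ⟨b, hb, hby⟩ := Subgroup.mem_map.1 y.2
  have h1 : (⟨a, ha⟩ : ↥A) * ⟨b, hb⟩ = ⟨b, hb⟩ * ⟨a, ha⟩ := hA.is_comm.comm _ _
  have h2 : a * b = b * a := congrArg Subtype.val h1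
  apply Subtype.ext
  show x.1 * y.1 = y.1 * x.1
  rw [← hax, ← hby, ← map_mul, ← map_mul, h2]

theorem comm_self (A : Subgroup H) (hA : IsMulCommutative ↥A) : ⁅A, A⁆ = ⊥ := by
  rw [Subgroup.commutator_eq_bot_iff_le_centralizer]
  intro x hx
  rw [Subgroup.mem_centralizer_iff]
  intro y hy
  exact congrArg Subtype.val (hA.is_comm.comm ⟨y, hy⟩ ⟨x, hx⟩)

theorem case_map (f : G →* H) (S : Set (Subgroup G)) (A B : Subgroup G)
    (h : Cfsg.RootCommutatorCase S A B) :
    Cfsg.RootCommutatorCase ((fun A : Subgroup G => A.map f) '' S) (A.map f) (B.map f) := by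
  obtain ⟨hmem, hcent, hcl1, hcl2⟩ := h
  have hcomm : ⁅A.map f, B.map f⁆ = (⁅A, B⁆).map f := by
    rw [Subgroup.map_commutator]
  refine ⟨?_, ?_, ?_, ?_⟩
  · rw [hcomm]
    exact ⟨⁅A, B⁆, hmem, rfl⟩
  · intro c hc x hx
    rw [hcomm] at hc
    obtain ⟨c₀, hc₀, rfl⟩ := Subgroup.mem_map.1 hc
    rw [← Subgroup.map_sup] at hx
    obtain ⟨x₀, hx₀, rfl⟩ := Subgroup.mem_map.1 hx
    rw [← map_mul, ← map_mul, hcent c₀ hc₀ x₀ hx₀]
  · intro x hx hx1
    obtain ⟨a, ha, rfl⟩ := Subgroup.mem_map.1 hx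
    have ha1 : a ≠ 1 := by
      rintro rfl
      exact hx1 (map_one f)
    rw [hcomm, ← hcl1 a ha ha1, MonoidHom.map_closure]
    congr 1
    ext y
    constructor
    · rintro ⟨z, hz, rfl⟩
      obtain ⟨b, hb, rfl⟩ := Subgroup.mem_map.1 hz
      exact ⟨a * b * a⁻¹ * b⁻¹, ⟨b, hb, rfl⟩, by simp⟩
    · rintro ⟨_, ⟨b, hb, rfl⟩, rfl⟩
      exact ⟨f b, Subgroup.mem_map_of_mem f hb, by simp⟩
  · intro x hx hx1
    obtain ⟨b, hb, rfl⟩ := Subgroup.mem_map.1 hx
    have hb1 : b ≠ 1 := by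
      rintro rfl
      exact hx1 (map_one f)
    rw [hcomm, ← hcl2 b hb hb1, MonoidHom.map_closure]
    congr 1
    ext y
    constructor
    · rintro ⟨z, hz, rfl⟩
      obtain ⟨a, ha, rfl⟩ := Subgroup.mem_map.1 hz
      exact ⟨a * b * a⁻¹ * b⁻¹, ⟨a, ha, rfl⟩, by simp⟩
    · rintro ⟨_, ⟨a, ha, rfl⟩, rfl⟩
      exact ⟨f a, Subgroup.mem_map_of_mem f ha, by simp⟩

theorem path_map (S : Set (Subgroup G)) (f : G →* H) (A B : Subgroup G)
    (h : Relation.ReflTransGen (Cfsg.FAdj S) A B) :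
    Relation.ReflTransGen (Cfsg.FAdj ((fun A : Subgroup G => A.map f) '' S)) (A.map f)
      (B.map f) := by
  induction h with
  | refl => exact Relation.ReflTransGen.refl
  | @tail C D _ hstep ih =>
    by_cases hne : C.map f = D.map f
    · rw [← hne]
      exact ih
    · exact ih.tail ⟨⟨C, hstep.1, rfl⟩, ⟨D, hstep.2.1, rfl⟩, pair_map f C D hstep.2.2 hne⟩

theorem image_main {S : Set (Subgroup G)} (hS : Cfsg.IsRootSubgroupSet S)
    (hc : Cfsg.IsConnectedFamily (Cfsg.FAdj S) S) (f : G →* H) (hf : Function.Surjective f) :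
    (Cfsg.IsRootSubgroupSet ((fun A : Subgroup G => A.map f) '' S) ∧
      Cfsg.IsConnectedFamily (Cfsg.FAdj ((fun A : Subgroup G => A.map f) '' S))
        ((fun A : Subgroup G => A.map f) '' S)) ∨
    ∃ A ∈ S, A.map f = ⊤ := by
  have hgen : (⨆ A ∈ (fun A : Subgroup G => A.map f) '' S, A) = (⊤ : Subgroup H) := by
    rw [eq_top_iff]
    have h1 : (⊤ : Subgroup H) = (⨆ A ∈ S, A).map f := by
      rw [hS.generates, ← MonoidHom.range_eq_map]
      exact (MonoidHom.range_eq_top.2 hf).symm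
    rw [h1, Subgroup.map_le_iff_le_comap]
    apply iSup₂_le
    intro A hA
    rw [← Subgroup.map_le_iff_le_comap]
    exact le_biSup (fun A : Subgroup H => A)
      (⟨A, hA, rfl⟩ : A.map f ∈ (fun A : Subgroup G => A.map f) '' S)
  by_cases htriv : ∃ A ∈ S, A.map f = ⊥
  · right
    obtain ⟨A, hA, hA0⟩ := htriv
    refine ⟨A, hA, ?_⟩
    have hall : ∀ B ∈ S, B.map f = ⊥ :=
      fun B hB => triv_all S hS f A B (hc A hA B hB) hA0
    rw [hA0, ← hgen]
    symm
    rw [eq_bot_iff]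
    apply iSup₂_le
    rintro _ ⟨B, hB, rfl⟩
    exact le_of_eq (hall B hB)
  · left
    push Not at htriv
    constructor
    · refine ⟨?_, ?_, hgen, ?_, ?_⟩
      · rintro _ ⟨A, hA, rfl⟩
        exact comm_map f A (hS.commutative A hA)
      · rintro _ ⟨A, hA, rfl⟩
        exact htriv A hA
      · rintro _ ⟨A, hA, rfl⟩ h
        obtain ⟨g, rfl⟩ := hf h
        exact ⟨Cfsg.conjBy A g, hS.conj_mem A hA g, map_conjBy' f A g⟩
      · rintro _ ⟨A, hA, rfl⟩ _ ⟨B, hB, rfl⟩
        rcases hS.pair A hA B hB with h | h | h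
        · left
          show ⁅A.map f, B.map f⁆ = ⊥
          rw [← Subgroup.map_commutator, h, Subgroup.map_bot]
        · by_cases hne : A.map f = B.map f
          · left
            show ⁅A.map f, B.map f⁆ = ⊥
            rw [← hne]
            exact comm_self _ (comm_map f A (hS.commutative A hA))
          · right
            left
            exact pair_map f A B h hne
        · right
          right
          exact case_map f S A B h
    · rintro _ ⟨A, hA, rfl⟩ _ ⟨B, hB, rfl⟩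
      exact path_map S f A B (hc A hA B hB)

end Cfsg.Agent.Lib.Helper4.RI
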