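import Mathlib
import Cfsg.Agent.Lib.Helper4.SL2Sylow

set_option autoImplicit false

namespace Cfsg.Agent.Lib.Helper4

/-- A `p`-element normalising a Sylow `p`-subgroup lies in it. -/
theorem mem_sylow_of_mem_normalizer_of_pow {G : Type*} [Group G] {p : ℕ} [Fact p.Prime]
    (P : Sylow p G) (t : G) (ht : t ∈ Subgroup.normalizer ((P : Subgroup G) : Set G)) (j : ℕ)
    (hj : t ^ (p ^ j) = 1) : t ∈ (P : Subgroup G) := by
  have hz : IsPGroup p (Subgroup.zpowers t) := by
    apply IsPGroup.of_card_dvd_pow (n := j)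
    rw [Nat.card_zpowers]
    exact orderOf_dvd_of_pow_eq_one hj
  have hle : Subgroup.zpowers t ≤ Subgroup.normalizer ((P : Subgroup G) : Set G) := by
    rw [Subgroup.zpowers_le]
    exact ht
  have hsup := IsPGroup.to_sup_of_normal_right' hz P.isPGroup' hle
  have h0 := P.is_maximal' hsup le_sup_right
  have h1 : Subgroup.zpowers t ≤ (P : Subgroup G) := by
    rw [← h0]
    exact le_sup_left
  exact h1 (Subgroup.mem_zpowers t)

theorem mem_normalizer_of_conj_mem_of_finite {G : Type*} [Group G] (H : Subgroup G) [Finite H]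
    (g : G) (h : ∀ s ∈ H, g * s * g⁻¹ ∈ H) : g ∈ Subgroup.normalizer (H : Set G) := by
  rw [Subgroup.mem_normalizer_iff_map_conj_eq]
  apply Subgroup.eq_of_le_of_card_ge
  · rintro _ ⟨s, hs, rfl⟩
    exact h s hs
  · rw [Subgroup.card_map_of_injective (MulAut.conj g).injective]

variable {F : Type*} [Field F]

theorem sl2_mem_normalizer_of_conj (a n : Matrix.SpecialLinearGroup (Fin 2) F)
    (hns : ¬ ((a : Matrix (Fin 2) (Fin 2) F) 0 1 = 0 ∧ (a : Matrix (Fin 2) (Fin 2) F) 1 0 = 0 ∧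
      (a : Matrix (Fin 2) (Fin 2) F) 0 0 = (a : Matrix (Fin 2) (Fin 2) F) 1 1))
    (h : n * a * n⁻¹ = a ∨ n * a * n⁻¹ = a⁻¹) :
    n ∈ Subgroup.normalizer ((Subgroup.centralizer
        ({a} : Set (Matrix.SpecialLinearGroup (Fin 2) F)) :
        Subgroup (Matrix.SpecialLinearGroup (Fin 2) F)) :
        Set (Matrix.SpecialLinearGroup (Fin 2) F)) := by
  have hmemC := sl2_mem_centralizer_singleton a
  rcases h with h | hw
  · apply Subgroup.le_normalizer
    rw [hmemC]
    calc n * a = (n * a * n⁻¹) * n := by group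
      _ = a * n := by rw [h]
  · have hinvT : ∀ m : Matrix.SpecialLinearGroup (Fin 2) F, m * a * m⁻¹ = a⁻¹ →
        ∀ b ∈ Subgroup.centralizer ({a} : Set (Matrix.SpecialLinearGroup (Fin 2) F)),
          m * b * m⁻¹ = b⁻¹ :=
      fun m hm b hb => sl2_conj_inv_of_commute a m b hns hm ((hmemC b).1 hb)
    have hwinv : n⁻¹ * a * n⁻¹⁻¹ = a⁻¹ := by
      rw [inv_inv]
      have h1 : a = n⁻¹ * a⁻¹ * n := by
        rw [← hw]
        group
      calc n⁻¹ * a * n = (n⁻¹ * a⁻¹ * n)⁻¹ := by group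
        _ = a⁻¹ := by rw [← h1]
    rw [Subgroup.mem_normalizer_iff]
    intro b
    constructor
    · intro hb
      rw [hinvT n hw b hb]
      exact Subgroup.inv_mem _ hb
    · intro hb
      have h1 := hinvT n⁻¹ hwinv _ hb
      have h3 : n⁻¹ * (n * b * n⁻¹) * n⁻¹⁻¹ = b := by group
      rw [h3] at h1
      rw [h1]
      exact Subgroup.inv_mem _ hb

/-- `SL₂(q)`, `q` odd, has an element of order `q + 1`. -/
theorem exists_orderOf_eq_card_add_one_odd [Fintype F] (hodd : Odd (Fintype.card F)) :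
    ∃ x : Matrix.SpecialLinearGroup (Fin 2) F, orderOf x = Fintype.card F + 1 := by
  obtain ⟨t, hnr⟩ := exists_trace_no_root_odd (F := F) hodd
  have hcyc := isCyclic_centralizer_sl2Comp_of_no_root t hnr
  obtain ⟨g, hg⟩ := IsCyclic.exists_generator
    (α := Subgroup.centralizer ({sl2Comp t 1} : Set (Matrix.SpecialLinearGroup (Fin 2) F)))
  have htr : Matrix.trace ((sl2Comp t 1 : Matrix.SpecialLinearGroup (Fin 2) F) :
      Matrix (Fin 2) (Fin 2) F) = t := by
    rw [sl2Comp_val, Matrix.trace_fin_two]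
    simp
  refine ⟨g.1, ?_⟩
  rw [Subgroup.orderOf_coe, orderOf_eq_card_of_forall_mem_zpowers hg]
  exact sl2_card_centralizer_of_no_root _ (by rw [htr]; exact hnr)

/-- Structure of a Sylow `2`-subgroup of `SL₂(q)`, `q` odd: a generator `a` of the cyclic
maximal subgroup and an element `w` inverting it. -/
theorem sl2_sylow_two_setup [Fintype F] (hodd : Odd (Fintype.card F))
    (S : Sylow 2 (Matrix.SpecialLinearGroup (Fin 2) F)) :
    ∃ (a w : Matrix.SpecialLinearGroup (Fin 2) F) (k : ℕ),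
      a ∈ (S : Subgroup (Matrix.SpecialLinearGroup (Fin 2) F)) ∧
      w ∈ (S : Subgroup (Matrix.SpecialLinearGroup (Fin 2) F)) ∧ 2 ≤ k ∧ orderOf a = 2 ^ k ∧
      Nat.card S = 2 ^ (k + 1) ∧ (Matrix.trace (a : Matrix (Fin 2) (Fin 2) F)) ^ 2 ≠ 4 ∧
      w * a * w⁻¹ = a⁻¹ ∧
      w ∉ Subgroup.centralizer ({a} : Set (Matrix.SpecialLinearGroup (Fin 2) F)) ∧
      (S : Subgroup (Matrix.SpecialLinearGroup (Fin 2) F)) ≤ Subgroup.normalizer
        ((Subgroup.centralizer ({a} : Set (Matrix.SpecialLinearGroup (Fin 2) F)) :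
        Subgroup (Matrix.SpecialLinearGroup (Fin 2) F)) :
        Set (Matrix.SpecialLinearGroup (Fin 2) F)) ∧
      ((Fintype.card F % 8 = 1 ∨ Fintype.card F % 8 = 7) → 3 ≤ k) ∧
      ((Fintype.card F % 8 = 3 ∨ Fintype.card F % 8 = 5) → k = 2 ∧
        Nat.card (Subgroup.centralizer
          ({a} : Set (Matrix.SpecialLinearGroup (Fin 2) F))) % 8 = 4) := by
  classical
  have h2 : (2 : F) ≠ 0 := two_ne_zero_of_odd_card hodd
  obtain ⟨p, hp⟩ := CharP.exists F
  have : Fact p.Prime := ⟨CharP.char_is_prime F p⟩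
  obtain ⟨n, -, hn⟩ := FiniteField.card F p
  have hq1 := Nat.odd_iff.1 hodd
  have hq2 := Fintype.one_lt_card (α := F)
  obtain ⟨r, hr⟩ : ∃ r, Fintype.card F = r + 2 := ⟨Fintype.card F - 2, by omega⟩
  have hcardG : Nat.card (Matrix.SpecialLinearGroup (Fin 2) F) = (r + 2) * ((r + 1) * (r + 3)) := by
    rw [card_sl2, hr]
    have h3 : (r + 2) ^ 2 - 1 = (r + 1) * (r + 3) := by
      have : (r + 2) ^ 2 = (r + 1) * (r + 3) + 1 := by ring
      omega
    rw [h3]
  obtain ⟨m, m', hmq, h4m, hm'2, hGm⟩ : ∃ m m', (m = Fintype.card F - 1 ∨ m = Fintype.card F + 1) ∧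
      m % 4 = 0 ∧ m' % 4 = 2 ∧ Nat.card (Matrix.SpecialLinearGroup (Fin 2) F) = m * m' := by
    by_cases hq4 : Fintype.card F % 4 = 1
    · refine ⟨r + 1, (r + 2) * (r + 3), Or.inl (by omega), by omega, ?_, ?_⟩
      · rw [Nat.mul_mod, show (r + 2) % 4 = 1 by omega, show (r + 3) % 4 = 2 by omega]
      · rw [hcardG]
        ring
    · refine ⟨r + 3, (r + 2) * (r + 1), Or.inr (by omega), by omega, ?_, ?_⟩
      · rw [Nat.mul_mod, show (r + 2) % 4 = 3 by omega, show (r + 1) % 4 = 2 by omega]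
      · rw [hcardG]
        ring
  have hm0 : m ≠ 0 := by omega
  obtain ⟨k, m0, hm0odd, hmk⟩ := Nat.exists_eq_two_pow_mul_odd hm0
  have hk2 : 2 ≤ k := by
    by_contra hk
    push Not at hk
    obtain ⟨j, hj⟩ := hm0odd
    interval_cases k
    · simp at hmk
      omega
    · simp at hmk
      omega
  obtain ⟨m1, hm1⟩ : ∃ m1, m' = 2 * m1 := ⟨m' / 2, by omega⟩
  have hm1odd : Odd m1 := by
    rw [Nat.odd_iff]
    omega
  have hG2 : Nat.card (Matrix.SpecialLinearGroup (Fin 2) F) = 2 ^ (k + 1) * (m0 * m1) := by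
    rw [hGm, hmk, hm1]
    ring
  have hodd01 : Odd (m0 * m1) := hm0odd.mul hm1odd
  have hcardS : Nat.card S = 2 ^ (k + 1) := by
    obtain ⟨j, hj⟩ := IsPGroup.iff_card.1 S.isPGroup'
    have h1 : 2 ^ (k + 1) ∣ Nat.card S :=
      S.pow_dvd_card_of_pow_dvd_card (hG2 ▸ Dvd.intro _ rfl)
    have h3 : Nat.card S ∣ 2 ^ (k + 1) := by
      have h4 : Nat.card S ∣ 2 ^ (k + 1) * (m0 * m1) := by
        rw [← hG2]
        exact (S : Subgroup (Matrix.SpecialLinearGroup (Fin 2) F)).card_subgroup_dvd_card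
      have hcop : Nat.Coprime (Nat.card S) (m0 * m1) := by
        rw [hj]
        exact Nat.Coprime.pow_left j (Nat.coprime_two_left.2 hodd01)
      exact hcop.dvd_of_dvd_mul_right h4
    exact Nat.dvd_antisymm h3 h1
  obtain ⟨y, hy⟩ : ∃ y : Matrix.SpecialLinearGroup (Fin 2) F, orderOf y = m := by
    rcases hmq with h | h
    · rw [h]
      exact exists_orderOf_eq_card_sub_one
    · rw [h]
      exact exists_orderOf_eq_card_add_one_odd hodd
  have hy0 : orderOf y ≠ 0 := by
    rw [hy]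
    exact hm0
  obtain ⟨a0, ha0⟩ : ∃ a0 : Matrix.SpecialLinearGroup (Fin 2) F, orderOf a0 = 2 ^ k :=
    ⟨_, orderOf_pow_orderOf_div hy0 (by rw [hy, hmk]; exact Dvd.intro _ rfl)⟩
  have hpg : IsPGroup 2 (Subgroup.zpowers a0) :=
    IsPGroup.of_card (n := k) (by rw [Nat.card_zpowers, ha0])
  obtain ⟨S', hS'⟩ := hpg.exists_le_sylow
  obtain ⟨a, haS, hao⟩ : ∃ a ∈ (S : Subgroup (Matrix.SpecialLinearGroup (Fin 2) F)),
      orderOf a = 2 ^ k := by
    refine ⟨(Sylow.equiv S' S ⟨a0, hS' (Subgroup.mem_zpowers a0)⟩ : S).1, Subtype.coe_prop _, ?_⟩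
    rw [Subgroup.orderOf_coe, MulEquiv.orderOf_eq, ← Subgroup.orderOf_coe]
    exact ha0
  have ht : (Matrix.trace (a : Matrix (Fin 2) (Fin 2) F)) ^ 2 ≠ 4 := by
    intro ht
    have h1 := sl2_pow_two_mul_char p a ht
    have h2' : 2 ^ k ∣ 2 * p := by
      rw [← hao]
      exact orderOf_dvd_of_pow_eq_one h1
    have h4 : 2 ^ 2 ∣ 2 * p := (pow_dvd_pow 2 hk2).trans h2'
    have h5 : 2 ∣ p := by omega
    have hp2 : p = 2 := ((Nat.prime_dvd_prime_iff_eq Nat.prime_two (Fact.out : p.Prime)).1 h5).symm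
    rw [hp2] at hn
    have h6 : 2 ∣ Fintype.card F := by
      rw [hn]
      exact dvd_pow_self 2 n.ne_zero
    omega
  have hns := sl2_nonscalar_of_trace a ht
  obtain ⟨hN1, hc1, hc2, hsq⟩ := sl2_normalizer_centralizer h2 a ht
  have hmemC := sl2_mem_centralizer_singleton a
  have haT : a ∈ Subgroup.centralizer ({a} : Set (Matrix.SpecialLinearGroup (Fin 2) F)) :=
    (hmemC a).2 rfl
  have hSN : (S : Subgroup (Matrix.SpecialLinearGroup (Fin 2) F)) ≤ Subgroup.normalizer
        ((Subgroup.centralizer ({a} : Set (Matrix.SpecialLinearGroup (Fin 2) F)) :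
        Subgroup (Matrix.SpecialLinearGroup (Fin 2) F)) :
        Set (Matrix.SpecialLinearGroup (Fin 2) F)) := by
    intro s hs
    have hAS : Subgroup.zpowers a ≤ (S : Subgroup (Matrix.SpecialLinearGroup (Fin 2) F)) := by
      rw [Subgroup.zpowers_le]
      exact haS
    have hidx : ((Subgroup.zpowers a).subgroupOf
        (S : Subgroup (Matrix.SpecialLinearGroup (Fin 2) F))).index = 2 := by
      have h1 := Subgroup.card_mul_index ((Subgroup.zpowers a).subgroupOf
        (S : Subgroup (Matrix.SpecialLinearGroup (Fin 2) F)))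
      rw [Nat.card_congr (Subgroup.subgroupOfEquivOfLe hAS).toEquiv, Nat.card_zpowers, hao] at h1
      have h3 : Nat.card (S : Subgroup (Matrix.SpecialLinearGroup (Fin 2) F)) = 2 ^ k * 2 := by
        rw [← pow_succ]
        exact hcardS
      rw [h3] at h1
      exact Nat.eq_of_mul_eq_mul_left (by positivity) h1
    have hnorm := Subgroup.normal_of_index_eq_two hidx
    have h1 := hnorm.conj_mem ⟨a, haS⟩
      (by rw [Subgroup.mem_subgroupOf]; exact Subgroup.mem_zpowers a) ⟨s, hs⟩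
    rw [Subgroup.mem_subgroupOf] at h1
    have h3 : s * a * s⁻¹ ∈ Subgroup.centralizer
        ({a} : Set (Matrix.SpecialLinearGroup (Fin 2) F)) :=
      (Subgroup.zpowers_le.2 haT) h1
    exact sl2_mem_normalizer_of_conj a s hns (sl2_eq_or_eq_inv_of_trace h2 a _ ht
      ((hmemC _).1 h3) (sl2_conj_trace (isConj_iff.2 ⟨s, rfl⟩)).symm)
  have hcardT : Nat.card (Subgroup.centralizer
      ({a} : Set (Matrix.SpecialLinearGroup (Fin 2) F))) = m := by
    have h1 : 2 ^ k ∣ Nat.card (Subgroup.centralizer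
        ({a} : Set (Matrix.SpecialLinearGroup (Fin 2) F))) := by
      rw [← hao]
      exact orderOf_dvd_of_pow_eq_one (sl2_pow_card_centralizer a)
    have h4 : 2 ^ 2 ∣ Nat.card (Subgroup.centralizer
        ({a} : Set (Matrix.SpecialLinearGroup (Fin 2) F))) := (pow_dvd_pow 2 hk2).trans h1
    by_cases hroot : ∃ b : F, b ^ 2 - Matrix.trace (a : Matrix (Fin 2) (Fin 2) F) * b + 1 = 0
    · obtain ⟨b, hb⟩ := hroot
      have hc := sl2_card_centralizer_of_split a ht b hb
      rw [hc] at h4 ⊢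
      omega
    · push Not at hroot
      have hc := sl2_card_centralizer_of_no_root a hroot
      rw [hc] at h4 ⊢
      omega
  obtain ⟨w, hwS, hwT⟩ : ∃ w ∈ (S : Subgroup (Matrix.SpecialLinearGroup (Fin 2) F)),
      w ∉ Subgroup.centralizer ({a} : Set (Matrix.SpecialLinearGroup (Fin 2) F)) := by
    by_contra hcon
    push Not at hcon
    have h1 : Nat.card (S : Subgroup (Matrix.SpecialLinearGroup (Fin 2) F)) ∣
        Nat.card (Subgroup.centralizer ({a} : Set (Matrix.SpecialLinearGroup (Fin 2) F))) :=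
      Subgroup.card_dvd_of_le hcon
    rw [hcardT, hmk] at h1
    have h3 : Nat.card (S : Subgroup (Matrix.SpecialLinearGroup (Fin 2) F)) = 2 ^ k * 2 := by
      rw [← pow_succ]
      exact hcardS
    rw [h3] at h1
    have h5 : 2 ∣ m0 := (Nat.mul_dvd_mul_iff_left (by positivity)).1 h1
    obtain ⟨j, hj⟩ := hm0odd
    omega
  have hwa : w * a * w⁻¹ = a⁻¹ := by
    rcases hN1 w (hSN hwS) with h | h
    · exfalso
      apply hwT
      rw [hmemC]
      calc w * a = (w * a * w⁻¹) * w := by group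
        _ = a * w := by rw [h]
    · exact h
  refine ⟨a, w, k, haS, hwS, hk2, hao, hcardS, ht, hwa, hwT, hSN, ?_, ?_⟩
  · intro hq8
    by_contra hk3
    have hk : k = 2 := by omega
    rw [hk] at hmk
    obtain ⟨j, hj⟩ := hm0odd
    omega
  · intro hq8
    have hk : k = 2 := by
      by_contra hk
      have hk3 : 3 ≤ k := by omega
      have h8 : 2 ^ 3 ∣ m := by
        rw [hmk]
        exact Dvd.dvd.mul_right (pow_dvd_pow 2 hk3) m0
      omega
    refine ⟨hk, ?_⟩
    rw [hcardT]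
    omega


theorem sl2_sylow_two_mem_of_conj (h2 : (2 : F) ≠ 0)
    (S : Sylow 2 (Matrix.SpecialLinearGroup (Fin 2) F))
    (a w : Matrix.SpecialLinearGroup (Fin 2) F)
    (hns : ¬ ((a : Matrix (Fin 2) (Fin 2) F) 0 1 = 0 ∧ (a : Matrix (Fin 2) (Fin 2) F) 1 0 = 0 ∧
      (a : Matrix (Fin 2) (Fin 2) F) 0 0 = (a : Matrix (Fin 2) (Fin 2) F) 1 1))
    (hwS : w ∈ (S : Subgroup (Matrix.SpecialLinearGroup (Fin 2) F)))
    (hwa : w * a * w⁻¹ = a⁻¹) (n : Matrix.SpecialLinearGroup (Fin 2) F)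
    (hn : n ∈ Subgroup.normalizer ((S : Subgroup (Matrix.SpecialLinearGroup (Fin 2) F)) :
      Set (Matrix.SpecialLinearGroup (Fin 2) F)))
    (h : n * a * n⁻¹ = a ∨ n * a * n⁻¹ = a⁻¹) :
    n ∈ (S : Subgroup (Matrix.SpecialLinearGroup (Fin 2) F)) := by
  have key : ∀ t : Matrix.SpecialLinearGroup (Fin 2) F,
      t ∈ Subgroup.normalizer ((S : Subgroup (Matrix.SpecialLinearGroup (Fin 2) F)) :
      Set (Matrix.SpecialLinearGroup (Fin 2) F)) → t * a = a * t →
      t ∈ (S : Subgroup (Matrix.SpecialLinearGroup (Fin 2) F)) := by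
    intro t ht hta
    have h1 : t * w * t⁻¹ ∈ (S : Subgroup (Matrix.SpecialLinearGroup (Fin 2) F)) :=
      (Subgroup.mem_normalizer_iff.1 ht w).1 hwS
    have hta' : t⁻¹ * a = a * t⁻¹ := by
      calc t⁻¹ * a = t⁻¹ * (a * t) * t⁻¹ := by group
        _ = t⁻¹ * (t * a) * t⁻¹ := by rw [hta]
        _ = a * t⁻¹ := by group
    have h3 := sl2_conj_inv_of_commute a w t⁻¹ hns hwa hta'
    rw [inv_inv] at h3
    have h4 : t * t = (t * w * t⁻¹) * w⁻¹ := by
      calc t * t = t * (w * t⁻¹ * w⁻¹) := by rw [h3]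
        _ = (t * w * t⁻¹) * w⁻¹ := by group
    have htt : t * t ∈ (S : Subgroup (Matrix.SpecialLinearGroup (Fin 2) F)) := by
      rw [h4]
      exact Subgroup.mul_mem _ h1 (Subgroup.inv_mem _ hwS)
    obtain ⟨j, hj⟩ := S.isPGroup' ⟨t * t, htt⟩
    have hj' : (t * t) ^ (2 ^ j) = 1 := by
      have := congrArg Subtype.val hj
      simpa using this
    apply mem_sylow_of_mem_normalizer_of_pow S t ht (j + 1)
    rw [pow_succ', pow_mul, pow_two]
    exact hj'
  rcases h with h | h
  · apply key n hn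
    calc n * a = (n * a * n⁻¹) * n := by group
      _ = a * n := by rw [h]
  · have hwN : w ∈ Subgroup.normalizer ((S : Subgroup (Matrix.SpecialLinearGroup (Fin 2) F)) :
        Set (Matrix.SpecialLinearGroup (Fin 2) F)) := Subgroup.le_normalizer hwS
    have h1 : w⁻¹ * n ∈ (S : Subgroup (Matrix.SpecialLinearGroup (Fin 2) F)) := by
      apply key _ (Subgroup.mul_mem _ (Subgroup.inv_mem _ hwN) hn)
      calc w⁻¹ * n * a = w⁻¹ * (n * a * n⁻¹) * n := by group
        _ = w⁻¹ * (w * a * w⁻¹) * n := by rw [h, hwa]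
        _ = a * (w⁻¹ * n) := by group
    have h5 : n = w * (w⁻¹ * n) := by group
    rw [h5]
    exact Subgroup.mul_mem _ hwS h1

/-- The centraliser of a Sylow `2`-subgroup of `SL₂(q)`, `q` odd, is the centre. -/
theorem sl2_sylow_two_centralizer [Fintype F] (hodd : Odd (Fintype.card F))
    (S : Sylow 2 (Matrix.SpecialLinearGroup (Fin 2) F)) :
    Subgroup.centralizer ((S : Subgroup (Matrix.SpecialLinearGroup (Fin 2) F)) :
      Set (Matrix.SpecialLinearGroup (Fin 2) F)) =
      Subgroup.center (Matrix.SpecialLinearGroup (Fin 2) F) := by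
  have h2 : (2 : F) ≠ 0 := two_ne_zero_of_odd_card hodd
  obtain ⟨a, w, k, haS, hwS, hk2, hao, hcardS, ht, hwa, hwT, hSN, -, -⟩ :=
    sl2_sylow_two_setup hodd S
  have hns := sl2_nonscalar_of_trace a ht
  apply le_antisymm
  · intro c hc
    rw [Subgroup.mem_centralizer_iff] at hc
    have hca : c * a = a * c := (hc a haS).symm
    have hcw : w * c = c * w := hc w hwS
    have h1 := sl2_conj_inv_of_commute a w c hns hwa hca
    have h3 : w * c * w⁻¹ = c := by
      rw [hcw]
      group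
    have h4 : c * c = 1 := by
      have h5 : c = c⁻¹ := h3.symm.trans h1
      nth_rewrite 1 [h5]
      exact inv_mul_cancel c
    rw [sl2_mem_center_iff]
    exact sl2_sq_eq_one_odd h2 c h4
  · exact Subgroup.center_le_centralizer _

/-- A Sylow `2`-subgroup of `SL₂(q)` is self-normalising when `q ≡ ±1 (mod 8)`. -/
theorem sl2_sylow_two_normalizer_eq [Fintype F] (hodd : Odd (Fintype.card F))
    (S : Sylow 2 (Matrix.SpecialLinearGroup (Fin 2) F))
    (hq : Fintype.card F % 8 = 1 ∨ Fintype.card F % 8 = 7) :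
    Subgroup.normalizer ((S : Subgroup (Matrix.SpecialLinearGroup (Fin 2) F)) :
      Set (Matrix.SpecialLinearGroup (Fin 2) F)) =
      (S : Subgroup (Matrix.SpecialLinearGroup (Fin 2) F)) := by
  have h2 : (2 : F) ≠ 0 := two_ne_zero_of_odd_card hodd
  obtain ⟨a, w, k, haS, hwS, hk2, hao, hcardS, ht, hwa, hwT, hSN, hk3, -⟩ :=
    sl2_sylow_two_setup hodd S
  have hk := hk3 hq
  have hns := sl2_nonscalar_of_trace a ht
  obtain ⟨hN1, hc1, hc2, hsq⟩ := sl2_normalizer_centralizer h2 a ht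
  apply le_antisymm
  · intro n hn
    have hs : n * a * n⁻¹ ∈ (S : Subgroup (Matrix.SpecialLinearGroup (Fin 2) F)) :=
      (Subgroup.mem_normalizer_iff.1 hn a).1 haS
    by_cases hsT : n * a * n⁻¹ ∈ Subgroup.centralizer
        ({a} : Set (Matrix.SpecialLinearGroup (Fin 2) F))
    · exact sl2_sylow_two_mem_of_conj h2 S a w hns hwS hwa n hn
        (sl2_eq_or_eq_inv_of_trace h2 a _ ht ((sl2_mem_centralizer_singleton a _).1 hsT)
          (sl2_conj_trace (isConj_iff.2 ⟨n, rfl⟩)).symm)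
    · exfalso
      have h1 := hsq _ (hSN hs) hsT
      have h3 : a * a = sl2PM false 0 := by
        have hz := Subgroup.mem_center_iff.1 (sl2PM_false_mem_center (F := F)) n
        calc a * a = n⁻¹ * ((n * a * n⁻¹) * (n * a * n⁻¹)) * n := by group
          _ = n⁻¹ * sl2PM false 0 * n := by rw [h1]
          _ = n⁻¹ * (n * sl2PM false 0) := by rw [mul_assoc, ← hz]
          _ = sl2PM false 0 := by group
      have h4 : a ^ 4 = 1 := by
        have h5 : a ^ 4 = (a * a) * (a * a) := by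
          rw [show (4 : ℕ) = 2 + 2 from rfl, pow_add, pow_two]
        rw [h5, h3, sl2PM_false_mul_self]
      have h5 : 2 ^ k ∣ 2 ^ 2 := by
        rw [← hao]
        exact orderOf_dvd_of_pow_eq_one h4
      have h6 := (Nat.pow_dvd_pow_iff_le_right (by norm_num : 1 < 2)).1 h5
      omega
  · exact Subgroup.le_normalizer

theorem sl2_trace_eq_zero_of_sq (x : Matrix.SpecialLinearGroup (Fin 2) F)
    (hx : x * x = sl2PM false 0) : Matrix.trace (x : Matrix (Fin 2) (Fin 2) F) = 0 := by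
  obtain ⟨x0, hx0⟩ : ∃ x0, x0 = (x : Matrix (Fin 2) (Fin 2) F) 0 0 := ⟨_, rfl⟩
  obtain ⟨x1, hx1⟩ : ∃ x1, x1 = (x : Matrix (Fin 2) (Fin 2) F) 0 1 := ⟨_, rfl⟩
  obtain ⟨x2, hx2⟩ : ∃ x2, x2 = (x : Matrix (Fin 2) (Fin 2) F) 1 0 := ⟨_, rfl⟩
  obtain ⟨x3, hx3⟩ : ∃ x3, x3 = (x : Matrix (Fin 2) (Fin 2) F) 1 1 := ⟨_, rfl⟩
  have hxm : (x : Matrix (Fin 2) (Fin 2) F) = !![x0, x1; x2, x3] := by
    rw [hx0, hx1, hx2, hx3]
    exact Matrix.eta_fin_two _
  have hdx : x0 * x3 - x1 * x2 = 1 := by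
    rw [hx0, hx1, hx2, hx3]
    exact sl2_det x
  have hm := congrArg (fun M : Matrix.SpecialLinearGroup (Fin 2) F =>
    (M : Matrix (Fin 2) (Fin 2) F)) hx
  simp only [Matrix.SpecialLinearGroup.coe_mul, sl2PM_val] at hm
  rw [hxm] at hm
  have e00 := congrFun (congrFun hm 0) 0
  have e11 := congrFun (congrFun hm 1) 1
  simp [Matrix.mul_apply, Fin.sum_univ_two] at e00 e11
  have h0 : (x0 + x3) ^ 2 = 0 := by linear_combination e00 + e11 + 2 * hdx
  rw [Matrix.trace_fin_two, ← hx0, ← hx3]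
  exact (pow_eq_zero_iff (two_ne_zero)).1 h0

theorem sl2_det_one_add (x : Matrix.SpecialLinearGroup (Fin 2) F)
    (htr : Matrix.trace (x : Matrix (Fin 2) (Fin 2) F) = 0) :
    Matrix.det (1 + (x : Matrix (Fin 2) (Fin 2) F)) = 2 := by
  have hd := sl2_det x
  rw [Matrix.trace_fin_two] at htr
  rw [Matrix.det_fin_two]
  simp only [Matrix.add_apply, Matrix.one_apply_eq, Matrix.one_apply_ne (show (0 : Fin 2) ≠ 1 by decide),
    Matrix.one_apply_ne (show (1 : Fin 2) ≠ 0 by decide), zero_add]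
  linear_combination htr + hd

/-- In a quaternion subgroup `⟨a, w⟩` of `SL₂` there is an element permuting `a, w, aw`
cyclically. -/
theorem sl2_exists_quaternion_normalizer (h2 : (2 : F) ≠ 0)
    (a w : Matrix.SpecialLinearGroup (Fin 2) F) (haa : a * a = sl2PM false 0)
    (hww : w * w = sl2PM false 0) (hwa : w * a * w⁻¹ = a⁻¹) :
    ∃ ψ : Matrix.SpecialLinearGroup (Fin 2) F, ψ * a * ψ⁻¹ = w ∧ ψ * w * ψ⁻¹ = a * w := by
  have hzz : sl2PM false (0 : F) * sl2PM false (0 : F) = 1 := sl2PM_false_mul_self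
  have hainv : sl2PM false (0 : F) * a = a⁻¹ := by
    apply eq_inv_of_mul_eq_one_left
    rw [mul_assoc, haa, hzz]
  have hwa' : w * a = sl2PM false (0 : F) * a * w := by
    rw [hainv]
    exact mul_inv_eq_iff_eq_mul.1 hwa
  obtain ⟨A, hA⟩ : ∃ A : Matrix (Fin 2) (Fin 2) F, A = (a : Matrix (Fin 2) (Fin 2) F) := ⟨_, rfl⟩
  obtain ⟨W, hW⟩ : ∃ W : Matrix (Fin 2) (Fin 2) F, W = (w : Matrix (Fin 2) (Fin 2) F) := ⟨_, rfl⟩
  have hAA : A * A = -1 := by
    have := congrArg (fun M : Matrix.SpecialLinearGroup (Fin 2) F =>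
      (M : Matrix (Fin 2) (Fin 2) F)) haa
    simp only [Matrix.SpecialLinearGroup.coe_mul, sl2PM_false_coe] at this
    rw [hA]
    exact this
  have hWW : W * W = -1 := by
    have := congrArg (fun M : Matrix.SpecialLinearGroup (Fin 2) F =>
      (M : Matrix (Fin 2) (Fin 2) F)) hww
    simp only [Matrix.SpecialLinearGroup.coe_mul, sl2PM_false_coe] at this
    rw [hW]
    exact this
  have hWA : W * A = -(A * W) := by
    have := congrArg (fun M : Matrix.SpecialLinearGroup (Fin 2) F =>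
      (M : Matrix (Fin 2) (Fin 2) F)) hwa'
    simp only [Matrix.SpecialLinearGroup.coe_mul, sl2PM_false_coe] at this
    rw [hA, hW, this]
    simp
  have hAWA : A * (W * A) = W := by
    rw [hWA, mul_neg, ← mul_assoc, hAA]
    first
      | done
      | simp
  have hWAW : W * (A * W) = A := by
    rw [← mul_assoc, hWA, neg_mul, mul_assoc, hWW]
    first
      | done
      | simp
  have hdet : Matrix.det ((2⁻¹ : F) • ((1 + A) * (1 + W))) = 1 := by
    rw [Matrix.det_smul, Matrix.det_mul, hA, hW,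
      sl2_det_one_add a (sl2_trace_eq_zero_of_sq a haa),
      sl2_det_one_add w (sl2_trace_eq_zero_of_sq w hww), Fintype.card_fin]
    field_simp
  obtain ⟨ψ, hψ⟩ : ∃ ψ : Matrix.SpecialLinearGroup (Fin 2) F, (ψ : Matrix (Fin 2) (Fin 2) F) =
      (2⁻¹ : F) • ((1 + A) * (1 + W)) := ⟨⟨_, hdet⟩, rfl⟩
  have e1 : (1 + A) * (1 + W) * A = A + W * A + A * A + A * (W * A) := by noncomm_ring
  have e2 : W * ((1 + A) * (1 + W)) = W + W * A + W * W + W * (A * W) := by noncomm_ring
  have e3 : (1 + A) * (1 + W) * W = W + W * W + A * W + A * (W * W) := by noncomm_ring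
  have e4 : A * W * ((1 + A) * (1 + W)) = A * W + A * (W * W) + A * (W * A) + A * (W * A) * W := by
    noncomm_ring
  have h1 : ψ * a = w * ψ := by
    apply Subtype.ext
    rw [Matrix.SpecialLinearGroup.coe_mul, Matrix.SpecialLinearGroup.coe_mul, hψ, ← hA, ← hW,
      Matrix.smul_mul, Matrix.mul_smul, e1, e2, hAWA, hWAW, hAA, hWW]
    congr 1
    abel
  have h3 : ψ * w = a * w * ψ := by
    apply Subtype.ext
    rw [Matrix.SpecialLinearGroup.coe_mul, Matrix.SpecialLinearGroup.coe_mul,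
      Matrix.SpecialLinearGroup.coe_mul, hψ, ← hA, ← hW,
      Matrix.smul_mul, Matrix.mul_smul, e3, e4, hAWA, hWW]
    congr 1
    abel
  exact ⟨ψ, mul_inv_eq_iff_eq_mul.2 h1, mul_inv_eq_iff_eq_mul.2 h3⟩


/-- A Sylow `2`-subgroup of `SL₂(q)` has index three in its normaliser when
`q ≡ ±3 (mod 8)`. -/
theorem sl2_sylow_two_normalizer_card [Fintype F] (hodd : Odd (Fintype.card F))
    (S : Sylow 2 (Matrix.SpecialLinearGroup (Fin 2) F))
    (hq : Fintype.card F % 8 = 3 ∨ Fintype.card F % 8 = 5) :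
    Nat.card (Subgroup.normalizer ((S : Subgroup (Matrix.SpecialLinearGroup (Fin 2) F)) :
      Set (Matrix.SpecialLinearGroup (Fin 2) F))) = 3 * Nat.card S := by
  classical
  have h2 : (2 : F) ≠ 0 := two_ne_zero_of_odd_card hodd
  obtain ⟨a, w, k, haS, hwS, hk2, hao, hcardS, ht, hwa, hwT, hSN, -, hk'⟩ :=
    sl2_sylow_two_setup hodd S
  obtain ⟨hk, hm8⟩ := hk' hq
  subst hk
  have hns := sl2_nonscalar_of_trace a ht
  have hmemC := sl2_mem_centralizer_singleton a
  obtain ⟨hN1, hc1, hc2, hsq⟩ := sl2_normalizer_centralizer h2 a ht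
  obtain ⟨z, hz⟩ : ∃ z : Matrix.SpecialLinearGroup (Fin 2) F, z = sl2PM false 0 := ⟨_, rfl⟩
  have hzc : ∀ g : Matrix.SpecialLinearGroup (Fin 2) F, g * z = z * g := by
    rw [hz]
    exact Subgroup.mem_center_iff.1 sl2PM_false_mem_center
  have hzz : z * z = 1 := by
    rw [hz]
    exact sl2PM_false_mul_self
  have hz1 : z ≠ 1 := by
    rw [hz]
    exact sl2PM_false_ne_one h2
  have hsq' : ∀ y : Matrix.SpecialLinearGroup (Fin 2) F, y * y = 1 → y = 1 ∨ y = z := by
    rw [hz]
    exact sl2_sq_eq_one_odd h2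
  have haa : a * a = z := by
    have h4 : a ^ 4 = 1 := by
      have h := pow_orderOf_eq_one a
      rw [hao] at h
      exact h
    have h5 : (a * a) * (a * a) = 1 := by
      rw [← h4, show (4 : ℕ) = 2 + 2 from rfl, pow_add, pow_two]
    rcases hsq' (a * a) h5 with h | h
    · exfalso
      have h6 : orderOf a ∣ 2 := orderOf_dvd_of_pow_eq_one (by rw [pow_two]; exact h)
      rw [hao] at h6
      have := Nat.le_of_dvd (by norm_num) h6
      norm_num at this
    · exact h
  have hww : w * w = z := by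
    rw [hz]
    exact hsq w (hSN hwS) hwT
  have hzS : z ∈ (S : Subgroup (Matrix.SpecialLinearGroup (Fin 2) F)) := by
    rw [← haa]
    exact Subgroup.mul_mem _ haS haS
  have hainv : a⁻¹ = z * a := by
    symm
    apply eq_inv_of_mul_eq_one_left
    rw [mul_assoc, haa, hzz]
  have hwinv : w⁻¹ = z * w := by
    symm
    apply eq_inv_of_mul_eq_one_left
    rw [mul_assoc, hww, hzz]
  have hcardC4 : ∀ c : Matrix.SpecialLinearGroup (Fin 2) F,
      c ∈ (S : Subgroup (Matrix.SpecialLinearGroup (Fin 2) F)) →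
      c ∈ Subgroup.centralizer ({a} : Set (Matrix.SpecialLinearGroup (Fin 2) F)) →
      c = 1 ∨ c = z ∨ c = a ∨ c = a⁻¹ := by
    intro c hcS hcT
    have h8 : c ^ 8 = 1 := by
      have h := pow_card_eq_one' (G := (S : Subgroup (Matrix.SpecialLinearGroup (Fin 2) F)))
        (x := ⟨c, hcS⟩)
      rw [hcardS] at h
      have h' := congrArg Subtype.val h
      simp only [SubmonoidClass.coe_pow, OneMemClass.coe_one] at h'
      exact h'
    have hm : c ^ Nat.card (Subgroup.centralizer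
        ({a} : Set (Matrix.SpecialLinearGroup (Fin 2) F))) = 1 := by
      have h := pow_card_eq_one' (G := Subgroup.centralizer
        ({a} : Set (Matrix.SpecialLinearGroup (Fin 2) F))) (x := ⟨c, hcT⟩)
      have h' := congrArg Subtype.val h
      simp only [SubmonoidClass.coe_pow, OneMemClass.coe_one] at h'
      exact h'
    obtain ⟨j, hj⟩ : ∃ j, Nat.card (Subgroup.centralizer
        ({a} : Set (Matrix.SpecialLinearGroup (Fin 2) F))) = 8 * j + 4 :=
      ⟨Nat.card (Subgroup.centralizer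
        ({a} : Set (Matrix.SpecialLinearGroup (Fin 2) F))) / 8, by omega⟩
    have h4 : c ^ 4 = 1 := by
      rw [hj, pow_add, pow_mul, h8, one_pow, one_mul] at hm
      exact hm
    have h5 : (c * c) * (c * c) = 1 := by
      rw [← h4, show (4 : ℕ) = 2 + 2 from rfl, pow_add, pow_two]
    rcases hsq' (c * c) h5 with h | h
    · rcases hsq' c h with h' | h'
      · exact Or.inl h'
      · exact Or.inr (Or.inl h')
    · have hca : c * a = a * c := (hmemC c).1 hcT
      have hca' : a⁻¹ * c = c * a⁻¹ := by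
        calc a⁻¹ * c = a⁻¹ * (c * a) * a⁻¹ := by group
          _ = a⁻¹ * (a * c) * a⁻¹ := by rw [hca]
          _ = c * a⁻¹ := by group
      have h6 : (c * a⁻¹) * (c * a⁻¹) = 1 := by
        calc c * a⁻¹ * (c * a⁻¹) = c * (a⁻¹ * c) * a⁻¹ := by group
          _ = c * (c * a⁻¹) * a⁻¹ := by rw [hca']
          _ = (c * c) * (a * a)⁻¹ := by group
          _ = 1 := by rw [h, haa, mul_inv_cancel]
      rcases hsq' _ h6 with h' | h'
      · right; right; left
        exact mul_inv_eq_one.1 h'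
      · right; right; right
        rw [hainv]
        exact mul_inv_eq_iff_eq_mul.1 h'
  have hE : ∀ s ∈ (S : Subgroup (Matrix.SpecialLinearGroup (Fin 2) F)),
      ∃ c : Matrix.SpecialLinearGroup (Fin 2) F, (c = 1 ∨ c = z ∨ c = a ∨ c = a⁻¹) ∧
        (s = c ∨ s = w * c) := by
    intro s hs
    by_cases hsT : s ∈ Subgroup.centralizer ({a} : Set (Matrix.SpecialLinearGroup (Fin 2) F))
    · exact ⟨s, hcardC4 s hs hsT, Or.inl rfl⟩
    · refine ⟨w⁻¹ * s, hcardC4 _ (Subgroup.mul_mem _ (Subgroup.inv_mem _ hwS) hs) ?_,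
        Or.inr (by group)⟩
      have hsa : s * a * s⁻¹ = a⁻¹ := by
        rcases hN1 s (hSN hs) with h | h
        · exfalso
          apply hsT
          rw [hmemC]
          calc s * a = (s * a * s⁻¹) * s := by group
            _ = a * s := by rw [h]
        · exact h
      rw [hmemC]
      calc w⁻¹ * s * a = w⁻¹ * (s * a * s⁻¹) * s := by group
        _ = w⁻¹ * (w * a * w⁻¹) * s := by rw [hsa, hwa]
        _ = a * (w⁻¹ * s) := by group
  obtain ⟨ψ, hψa, hψw⟩ := sl2_exists_quaternion_normalizer h2 a w (hz ▸ haa) (hz ▸ hww) hwa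
  have hψz : ψ * z * ψ⁻¹ = z := by
    rw [hzc ψ]
    group
  have hψainv : ψ * a⁻¹ * ψ⁻¹ = w⁻¹ := by
    rw [← hψa]
    group
  have hψN : ψ ∈ Subgroup.normalizer ((S : Subgroup (Matrix.SpecialLinearGroup (Fin 2) F)) :
      Set (Matrix.SpecialLinearGroup (Fin 2) F)) := by
    apply mem_normalizer_of_conj_mem_of_finite
    intro s hs
    obtain ⟨c, hc, hsc⟩ := hE s hs
    have hcS : ψ * c * ψ⁻¹ ∈ (S : Subgroup (Matrix.SpecialLinearGroup (Fin 2) F)) := by
      rcases hc with h | h | h | h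
      · rw [h, mul_one, mul_inv_cancel]
        exact Subgroup.one_mem _
      · rw [h, hψz]
        exact hzS
      · rw [h, hψa]
        exact hwS
      · rw [h, hψainv]
        exact Subgroup.inv_mem _ hwS
    rcases hsc with h | h
    · rw [h]
      exact hcS
    · have h5 : ψ * (w * c) * ψ⁻¹ = (ψ * w * ψ⁻¹) * (ψ * c * ψ⁻¹) := by group
      rw [h, h5, hψw]
      exact Subgroup.mul_mem _ (Subgroup.mul_mem _ haS hwS) hcS
  have hψS : ψ ∉ (S : Subgroup (Matrix.SpecialLinearGroup (Fin 2) F)) := by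
    intro h
    rcases hN1 ψ (hSN h) with h' | h'
    · rw [hψa] at h'
      apply hwT
      rw [h']
      exact (hmemC a).2 rfl
    · rw [hψa] at h'
      apply hwT
      rw [h']
      exact Subgroup.inv_mem _ ((hmemC a).2 rfl)
  have hL := sl2_sylow_two_mem_of_conj h2 S a w hns hwS hwa
  have hM : ∀ g ∈ Subgroup.normalizer ((S : Subgroup (Matrix.SpecialLinearGroup (Fin 2) F)) :
      Set (Matrix.SpecialLinearGroup (Fin 2) F)),
      ∀ n ∈ Subgroup.normalizer ((S : Subgroup (Matrix.SpecialLinearGroup (Fin 2) F)) :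
      Set (Matrix.SpecialLinearGroup (Fin 2) F)),
      (n * a * n⁻¹ = g * a * g⁻¹ ∨ n * a * n⁻¹ = g * a⁻¹ * g⁻¹) →
      g⁻¹ * n ∈ (S : Subgroup (Matrix.SpecialLinearGroup (Fin 2) F)) := by
    intro g hg n hn h
    apply hL _ (Subgroup.mul_mem _ (Subgroup.inv_mem _ hg) hn)
    rcases h with h | h
    · left
      calc g⁻¹ * n * a * (g⁻¹ * n)⁻¹ = g⁻¹ * (n * a * n⁻¹) * g := by group
        _ = g⁻¹ * (g * a * g⁻¹) * g := by rw [h]
        _ = a := by group
    · right
      calc g⁻¹ * n * a * (g⁻¹ * n)⁻¹ = g⁻¹ * (n * a * n⁻¹) * g := by group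
        _ = g⁻¹ * (g * a⁻¹ * g⁻¹) * g := by rw [h]
        _ = a⁻¹ := by group
  have ha1 : a ≠ 1 := by
    intro h
    rw [h, mul_one] at haa
    exact hz1 haa.symm
  have haz : a ≠ z := by
    intro h
    rw [h, hzz] at haa
    exact hz1 haa.symm
  have hψ2a : (ψ * ψ) * a * (ψ * ψ)⁻¹ = a * w := by
    calc (ψ * ψ) * a * (ψ * ψ)⁻¹ = ψ * (ψ * a * ψ⁻¹) * ψ⁻¹ := by group
      _ = a * w := by rw [hψa, hψw]
  have hψ2ainv : (ψ * ψ) * a⁻¹ * (ψ * ψ)⁻¹ = (a * w)⁻¹ := by
    have hci : ∀ g x : Matrix.SpecialLinearGroup (Fin 2) F, g * x⁻¹ * g⁻¹ = (g * x * g⁻¹)⁻¹ :=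
      fun g x => by group
    rw [hci, hψ2a]
  have hψ2N : ψ * ψ ∈ Subgroup.normalizer
      ((S : Subgroup (Matrix.SpecialLinearGroup (Fin 2) F)) :
      Set (Matrix.SpecialLinearGroup (Fin 2) F)) := Subgroup.mul_mem _ hψN hψN
  have hcover : ∀ n ∈ Subgroup.normalizer
      ((S : Subgroup (Matrix.SpecialLinearGroup (Fin 2) F)) :
      Set (Matrix.SpecialLinearGroup (Fin 2) F)),
      n ∈ (S : Subgroup (Matrix.SpecialLinearGroup (Fin 2) F)) ∨
      ψ⁻¹ * n ∈ (S : Subgroup (Matrix.SpecialLinearGroup (Fin 2) F)) ∨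
      (ψ * ψ)⁻¹ * n ∈ (S : Subgroup (Matrix.SpecialLinearGroup (Fin 2) F)) := by
    intro n hn
    have hs : n * a * n⁻¹ ∈ (S : Subgroup (Matrix.SpecialLinearGroup (Fin 2) F)) :=
      (Subgroup.mem_normalizer_iff.1 hn a).1 haS
    obtain ⟨c, hc, hsc⟩ := hE _ hs
    have hs1 : n * a * n⁻¹ ≠ 1 := by
      intro h
      apply ha1
      calc a = n⁻¹ * (n * a * n⁻¹) * n := by group
        _ = 1 := by rw [h]; group
    have hsz : n * a * n⁻¹ ≠ z := by
      intro h
      apply haz
      calc a = n⁻¹ * (n * a * n⁻¹) * n := by group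
        _ = n⁻¹ * z * n := by rw [h]
        _ = n⁻¹ * (n * z) := by rw [mul_assoc, ← hzc n]
        _ = z := by group
    rcases hsc with hsc | hsc
    · rcases hc with h | h | h | h
      · exact absurd (hsc.trans h) hs1
      · exact absurd (hsc.trans h) hsz
      · left
        exact hL n hn (Or.inl (hsc.trans h))
      · left
        exact hL n hn (Or.inr (hsc.trans h))
    · rcases hc with h | h | h | h
      · right; left
        apply hM ψ hψN n hn
        left
        rw [hsc, h, mul_one, hψa]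
      · right; left
        apply hM ψ hψN n hn
        right
        rw [hsc, h, hψainv, hwinv, hzc w]
      · right; right
        apply hM (ψ * ψ) hψ2N n hn
        right
        rw [hsc, h, hψ2ainv]
        apply eq_inv_of_mul_eq_one_left
        calc w * a * (a * w) = w * (a * a) * w := by group
          _ = w * z * w := by rw [haa]
          _ = z * (w * w) := by rw [hzc w]; group
          _ = 1 := by rw [hww, hzz]
      · right; right
        apply hM (ψ * ψ) hψ2N n hn
        left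
        rw [hsc, h, hψ2a]
        calc w * a⁻¹ = (w * a * w⁻¹)⁻¹ * w := by group
          _ = a * w := by rw [hwa, inv_inv]
  have hle : Nat.card (Subgroup.normalizer
      ((S : Subgroup (Matrix.SpecialLinearGroup (Fin 2) F)) :
      Set (Matrix.SpecialLinearGroup (Fin 2) F))) ≤ 3 * Nat.card S := by
    have hsub : ((Subgroup.normalizer ((S : Subgroup (Matrix.SpecialLinearGroup (Fin 2) F)) :
        Set (Matrix.SpecialLinearGroup (Fin 2) F)) :
        Subgroup (Matrix.SpecialLinearGroup (Fin 2) F)) :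
        Set (Matrix.SpecialLinearGroup (Fin 2) F)) ⊆
        (((S : Subgroup (Matrix.SpecialLinearGroup (Fin 2) F)) :
          Set (Matrix.SpecialLinearGroup (Fin 2) F)) ∪
        ((fun s => ψ * s) '' ((S : Subgroup (Matrix.SpecialLinearGroup (Fin 2) F)) :
          Set (Matrix.SpecialLinearGroup (Fin 2) F)))) ∪
        ((fun s => (ψ * ψ) * s) '' ((S : Subgroup (Matrix.SpecialLinearGroup (Fin 2) F)) :
          Set (Matrix.SpecialLinearGroup (Fin 2) F))) := by
      intro n hn
      rcases hcover n hn with h | h | h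
      · left; left
        exact h
      · left; right
        exact ⟨ψ⁻¹ * n, h, by group⟩
      · right
        exact ⟨(ψ * ψ)⁻¹ * n, h, by group⟩
    have h1 := Set.ncard_le_ncard hsub (Set.toFinite _)
    have h3 := Set.ncard_union_le
      (((S : Subgroup (Matrix.SpecialLinearGroup (Fin 2) F)) :
          Set (Matrix.SpecialLinearGroup (Fin 2) F)) ∪
        ((fun s => ψ * s) '' ((S : Subgroup (Matrix.SpecialLinearGroup (Fin 2) F)) :
          Set (Matrix.SpecialLinearGroup (Fin 2) F))))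
      ((fun s => (ψ * ψ) * s) '' ((S : Subgroup (Matrix.SpecialLinearGroup (Fin 2) F)) :
          Set (Matrix.SpecialLinearGroup (Fin 2) F)))
    have h4 := Set.ncard_union_le
      ((S : Subgroup (Matrix.SpecialLinearGroup (Fin 2) F)) :
          Set (Matrix.SpecialLinearGroup (Fin 2) F))
      ((fun s => ψ * s) '' ((S : Subgroup (Matrix.SpecialLinearGroup (Fin 2) F)) :
          Set (Matrix.SpecialLinearGroup (Fin 2) F)))
    have h5 := Set.ncard_image_le (f := fun s => ψ * s)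
      (s := ((S : Subgroup (Matrix.SpecialLinearGroup (Fin 2) F)) :
          Set (Matrix.SpecialLinearGroup (Fin 2) F))) (Set.toFinite _)
    have h6 := Set.ncard_image_le (f := fun s => (ψ * ψ) * s)
      (s := ((S : Subgroup (Matrix.SpecialLinearGroup (Fin 2) F)) :
          Set (Matrix.SpecialLinearGroup (Fin 2) F))) (Set.toFinite _)
    have h7 : Nat.card (Subgroup.normalizer
        ((S : Subgroup (Matrix.SpecialLinearGroup (Fin 2) F)) :
        Set (Matrix.SpecialLinearGroup (Fin 2) F))) =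
        ((Subgroup.normalizer ((S : Subgroup (Matrix.SpecialLinearGroup (Fin 2) F)) :
        Set (Matrix.SpecialLinearGroup (Fin 2) F)) :
        Subgroup (Matrix.SpecialLinearGroup (Fin 2) F)) :
        Set (Matrix.SpecialLinearGroup (Fin 2) F)).ncard := Nat.card_coe_set_eq _
    have h8 : Nat.card S = ((S : Subgroup (Matrix.SpecialLinearGroup (Fin 2) F)) :
        Set (Matrix.SpecialLinearGroup (Fin 2) F)).ncard := Nat.card_coe_set_eq _
    omega
  have hdvd : Nat.card S ∣ Nat.card (Subgroup.normalizer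
      ((S : Subgroup (Matrix.SpecialLinearGroup (Fin 2) F)) :
      Set (Matrix.SpecialLinearGroup (Fin 2) F))) :=
    Subgroup.card_dvd_of_le Subgroup.le_normalizer
  obtain ⟨j, hj⟩ := hdvd
  have hj1 : j ≠ 1 := by
    rintro rfl
    apply hψS
    have h : (S : Subgroup (Matrix.SpecialLinearGroup (Fin 2) F)) = Subgroup.normalizer
        ((S : Subgroup (Matrix.SpecialLinearGroup (Fin 2) F)) :
        Set (Matrix.SpecialLinearGroup (Fin 2) F)) :=
      Subgroup.eq_of_le_of_card_ge Subgroup.le_normalizer (by rw [hj, mul_one])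
    rw [h]
    exact hψN
  have hj2 : j ≠ 2 := by
    rintro rfl
    have hpg : IsPGroup 2 (Subgroup.normalizer
        ((S : Subgroup (Matrix.SpecialLinearGroup (Fin 2) F)) :
        Set (Matrix.SpecialLinearGroup (Fin 2) F))) :=
      IsPGroup.of_card (n := 4) (by rw [hj, hcardS]; norm_num)
    have h := S.is_maximal' hpg Subgroup.le_normalizer
    rw [h, hcardS] at hj
    norm_num at hj
  have hj3 : j ≤ 3 := by
    rw [hj] at hle
    have hpos : 0 < Nat.card S := Nat.card_pos
    nlinarith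
  have hj0 : j ≠ 0 := by
    rintro rfl
    rw [mul_zero] at hj
    have hpos : 0 < Nat.card (Subgroup.normalizer
        ((S : Subgroup (Matrix.SpecialLinearGroup (Fin 2) F)) :
        Set (Matrix.SpecialLinearGroup (Fin 2) F))) := Nat.card_pos
    omega
  have hj' : j = 3 := by omega
  rw [hj, hj', mul_comm]

end Cfsg.Agent.Lib.Helper4
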