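import Mathlib
import Cfsg.Prelude.Def_LieClassical
import Cfsg.Agent.Lib.Helper4.SUOrder
import Cfsg.Agent.Lib.Helper4.FieldEmb
import Cfsg.Agent.Lib.Helper4.SL2Unip

set_option autoImplicit false

namespace Cfsg.Agent.Lib.Helper4

open Matrix

theorem two_J_conj {F : Type*} [Field F] (A : Matrix (Fin 2) (Fin 2) F) :
    Aᵀ * !![0, 1; -1, 0] * A = A.det • !![0, 1; -1, 0] := by
  ext i j
  fin_cases i <;> fin_cases j <;>
    simp [Matrix.mul_apply, Fin.sum_univ_two, Matrix.det_fin_two] <;> ring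

theorem su2_card {F : Type*} [Field F] [Fintype F] {q : ℕ} (hF : Fintype.card F = q ^ 2) :
    Nat.card (Cfsg.SU 2 F q) = q * (q ^ 2 - 1) := by
  have hq := card_sq_two_le hF
  have h1 := su_card_mul hF 2 (by norm_num)
  rw [gu_card hF 2] at h1
  have h2 : (2 * (2 - 1) / 2 : ℕ) = 1 := by norm_num
  rw [h2, Finset.prod_range_succ, Finset.prod_range_one] at h1
  simp only [zero_add, pow_one] at h1
  have he0 : Even 0 := ⟨0, rfl⟩
  rw [if_pos he0, if_neg Nat.not_even_one] at h1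
  have h4 : (q + 1) * Nat.card (Cfsg.SU 2 F q) = (q + 1) * (q * (q ^ 2 - 1)) := by
    rw [h1]; ring
  exact Nat.eq_of_mul_eq_mul_left (by omega) h4

theorem su2_iso_sl2 {F K : Type*} [Field F] [Fintype F] [Field K] [Fintype K] {q : ℕ}
    (hF : Fintype.card F = q ^ 2) (hK : Fintype.card K = q) :
    Nonempty (Cfsg.SU 2 F q ≃* Matrix.SpecialLinearGroup (Fin 2) K) := by
  classical
  obtain ⟨ι⟩ := exists_ringHom_of_card_sq hK hF
  obtain ⟨φ, hφ⟩ := exists_frobQ hF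
  have hιq : ∀ x : K, φ (ι x) = ι x := by
    intro x
    rw [hφ, ← map_pow, ← hK, FiniteField.pow_card]
  obtain ⟨c₀, hc₀⟩ := exists_not_fixed hF
  obtain ⟨c, hc⟩ := exists_norm_eq hF (-1) (neg_ne_zero.mpr one_ne_zero)
    (by rw [← hφ, map_neg, map_one])
  have hc0 : c ≠ 0 := by
    rintro rfl
    rw [zero_pow (by omega)] at hc
    exact (neg_ne_zero.mpr one_ne_zero) hc.symm
  have hη : c₀ - c₀ ^ q ≠ 0 := fun h => hc₀ (sub_eq_zero.mp h).symm
  obtain ⟨P, hP⟩ : ∃ P : Matrix (Fin 2) (Fin 2) F, P = !![1, c₀ ^ q; c, c₀ * c] := ⟨_, rfl⟩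
  have hPdet : P.det ≠ 0 := by
    rw [hP, Matrix.det_fin_two_of]
    have : (1 : F) * (c₀ * c) - c₀ ^ q * c = (c₀ - c₀ ^ q) * c := by ring
    rw [this]
    exact mul_ne_zero hη hc0
  have hc₀qq : (c₀ ^ q) ^ q = c₀ := pow_card_sq hF c₀
  have hPH : Pᵀ * P.map φ = (c₀ - c₀ ^ q) • !![0, 1; -1, 0] := by
    rw [hP]
    ext i j
    fin_cases i <;> fin_cases j <;>
      simp [Matrix.mul_apply, Fin.sum_univ_two, hφ]
    · linear_combination hc
    · rw [hc₀qq, mul_pow]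
      linear_combination c₀ ^ q * hc
    · rw [← sub_eq_zero]
      linear_combination c₀ * hc
    · rw [hc₀qq, mul_pow]
      linear_combination c₀ * c₀ ^ q * hc
  obtain ⟨Pu, hPu⟩ : ∃ Pu : GL (Fin 2) F, Pu.1 = P :=
    ⟨Matrix.GeneralLinearGroup.mkOfDetNeZero P hPdet, rfl⟩
  obtain ⟨Q, hQ⟩ : ∃ Q : Matrix (Fin 2) (Fin 2) F, Q = (Pu⁻¹).1 := ⟨_, rfl⟩
  have hPQ : P * Q = 1 := by
    rw [hQ, ← hPu, ← Units.val_mul, mul_inv_cancel]; rfl
  obtain ⟨Ψ', hΨ'⟩ : ∃ Ψ' : Matrix.SpecialLinearGroup (Fin 2) K →* GL (Fin 2) F,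
      Ψ' = ((MulAut.conj Pu).toMonoidHom).comp
        (Matrix.SpecialLinearGroup.toGL.comp (Matrix.SpecialLinearGroup.map ι)) := ⟨_, rfl⟩
  have hΨ'val : ∀ B : Matrix.SpecialLinearGroup (Fin 2) K, (Ψ' B).1 = P * B.1.map ι * Q := by
    intro B
    rw [hΨ', hQ, ← hPu]
    rfl
  have hΨ'inj : Function.Injective Ψ' := by
    intro B B' h
    have h1 := hΨ'val B
    rw [h, hΨ'val B'] at h1
    have h2 := congrArg (fun M => Q * M * P) h1
    have hQP : Q * P = 1 := mul_eq_one_comm.mp hPQ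
    rw [← Matrix.mul_assoc, ← Matrix.mul_assoc, hQP, Matrix.one_mul, Matrix.mul_assoc, hQP,
      Matrix.mul_one, ← Matrix.mul_assoc, ← Matrix.mul_assoc, hQP, Matrix.one_mul, Matrix.mul_assoc,
      hQP, Matrix.mul_one] at h2
    apply Subtype.ext
    exact Matrix.map_injective ι.injective h2.symm
  have hdet : ∀ B : Matrix.SpecialLinearGroup (Fin 2) K, ((Ψ' B).1 : Matrix (Fin 2) (Fin 2) F).det = 1 := by
    intro B
    rw [hΨ'val, Matrix.det_mul, Matrix.det_mul, mul_right_comm, ← Matrix.det_mul, hPQ, Matrix.det_one,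
      one_mul]
    have h1 : (B.1.map ι).det = ι B.1.det := (RingHom.map_det ι B.1).symm
    rw [h1, B.2, map_one]
  have hmem : ∀ B : Matrix.SpecialLinearGroup (Fin 2) K,
      (⟨(Ψ' B).1, hdet B⟩ : Matrix.SpecialLinearGroup (Fin 2) F) ∈ Cfsg.SU 2 F q := by
    intro B
    have h0 : Matrix.SpecialLinearGroup.toGL (⟨(Ψ' B).1, hdet B⟩ : Matrix.SpecialLinearGroup (Fin 2) F)
        ∈ Cfsg.GU 2 F q := by
      rw [gu_mem_iff φ hφ]
      show ((Ψ' B).1)ᵀ * ((Ψ' B).1).map φ = 1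
      rw [hΨ'val]
      have hA : (B.1.map ι).map φ = B.1.map ι := by
        ext i j
        simp only [Matrix.map_apply]
        exact hιq _
      have hAdet : (B.1.map ι).det = 1 := by
        have h1 : (B.1.map ι).det = ι B.1.det := (RingHom.map_det ι B.1).symm
        rw [h1, B.2, map_one]
      rw [Matrix.transpose_mul, Matrix.transpose_mul, Matrix.map_mul, Matrix.map_mul, hA]
      calc Qᵀ * ((B.1.map ι)ᵀ * Pᵀ) * (P.map φ * B.1.map ι * Q.map φ)
          = Qᵀ * ((B.1.map ι)ᵀ * (Pᵀ * P.map φ) * B.1.map ι) * Q.map φ := by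
            simp only [Matrix.mul_assoc]
        _ = Qᵀ * (Pᵀ * P.map φ) * Q.map φ := by
            rw [hPH, Matrix.mul_smul, Matrix.smul_mul, two_J_conj, hAdet, one_smul]
        _ = (P * Q)ᵀ * (P * Q).map φ := by
            rw [Matrix.transpose_mul, Matrix.map_mul]
            simp only [Matrix.mul_assoc]
        _ = 1 := by
            rw [hPQ, Matrix.transpose_one, Matrix.map_one _ (map_zero φ) (map_one φ), Matrix.one_mul]
    exact h0
  let Ψ : Matrix.SpecialLinearGroup (Fin 2) K →* ↥(Cfsg.SU 2 F q) :=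
    MonoidHom.mk' (fun B => ⟨⟨(Ψ' B).1, hdet B⟩, hmem B⟩) (by
      intro B B'
      apply Subtype.ext
      apply Subtype.ext
      show (Ψ' (B * B')).1 = (Ψ' B).1 * (Ψ' B').1
      rw [map_mul]
      rfl)
  have hΨinj : Function.Injective Ψ := by
    intro B B' h
    apply hΨ'inj
    apply Units.ext
    have h1 := congrArg (fun g : ↥(Cfsg.SU 2 F q) => (g.1.1 : Matrix (Fin 2) (Fin 2) F)) h
    exact h1
  have hcard : Nat.card ↥(Cfsg.SU 2 F q) ≤ Nat.card (Matrix.SpecialLinearGroup (Fin 2) K) := by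
    rw [su2_card hF, card_sl2, hK]
  have hbij : Function.Bijective Ψ := hΨinj.bijective_of_nat_card_le hcard
  exact ⟨(MulEquiv.ofBijective Ψ hbij).symm⟩

end Cfsg.Agent.Lib.Helper4
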