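import Mathlib
import Cfsg.Prelude.Def_LieClassical
import Cfsg.Agent.Lib.Helper4.HermLines
import Cfsg.Agent.Lib.Helper4.HermWitt
import Cfsg.Agent.Lib.Helper4.SUOrder

set_option autoImplicit false

namespace Cfsg.Agent.Lib.Helper4

section

open Matrix

variable {F : Type*} [Field F] [Fintype F] {q : ℕ}

/-- Unitary matrices move any nonzero isotropic vector to any other. -/
theorem herm_move_vec (hF : Fintype.card F = q ^ 2) (n : ℕ) (u w : Fin n → F) (hu0 : u ≠ 0)
    (hw0 : w ≠ 0) (hu : Cfsg.hermForm n F q u u = 0) (hw : Cfsg.hermForm n F q w w = 0) :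
    ∃ G : Matrix (Fin n) (Fin n) F,
      (∀ x y, Cfsg.hermForm n F q (G *ᵥ x) (G *ᵥ y) = Cfsg.hermForm n F q x y) ∧ G *ᵥ u = w := by
  classical
  have hq := card_sq_two_le hF
  obtain ⟨φ, hφ⟩ := exists_frobQ hF
  have hφ2 : ∀ a : F, φ (φ a) = a := fun a => by rw [hφ, hφ, pow_card_sq hF]
  have hφne : φ ≠ RingHom.id F := by
    obtain ⟨c, hc⟩ := exists_not_fixed hF
    intro h
    apply hc
    rw [← hφ, h]
    rfl
  obtain ⟨B, hBdef⟩ : ∃ B : (Fin n → F) →ₛₗ[φ] (Fin n → F) →ₗ[F] F,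
      ∀ x y, B x y = Cfsg.hermForm n F q y x := by
    refine ⟨LinearMap.mk₂'ₛₗ φ (RingHom.id F)
      (fun x y : Fin n → F => Cfsg.hermForm n F q y x) ?_ ?_ ?_ ?_, fun x y => rfl⟩
    · intro x x' y
      exact herm_add_right φ hφ n y x x'
    · intro c x y
      show Cfsg.hermForm n F q y (c • x) = φ c • Cfsg.hermForm n F q y x
      rw [herm_smul_right, hφ, smul_eq_mul]
    · intro x y y'
      exact herm_add_left n y y' x
    · intro c x y
      show Cfsg.hermForm n F q (c • y) x = c • Cfsg.hermForm n F q y x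
      rw [herm_smul_left, smul_eq_mul]
  have hS : B.IsSymm := by
    refine ⟨fun x y => ?_⟩
    rw [hBdef, hBdef, hφ, ← herm_symm hF]
  have hB : B.Nondegenerate := by
    constructor
    · intro x hx
      apply herm_nondeg_std hF n x
      intro v
      have h1 := hx v
      rw [hBdef] at h1
      exact herm_sym_zero hF n _ _ h1
    · intro y hy
      apply herm_nondeg_std hF n y
      intro v
      have h1 := hy v
      rw [hBdef] at h1
      exact h1
  have hsp : ∀ x : Fin n → F, x ≠ 0 →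
      x ∉ Submodule.span F (Set.range (fun i : Fin 0 => (i.elim0 : Fin n → F))) := by
    intro x hx
    rw [Set.range_eq_empty, Submodule.span_empty, Submodule.mem_bot]
    exact hx
  obtain ⟨g, hg, hgu, -⟩ := herm_move φ hφne hφ2 B hS hB
    (fun i : Fin 0 => (i.elim0 : Fin n → F)) u w (hsp u hu0) (hsp w hw0) (fun j => j.elim0)
    (by rw [hBdef, hBdef, hu, hw])
  refine ⟨LinearMap.toMatrix' (g : (Fin n → F) →ₗ[F] (Fin n → F)), ?_, ?_⟩
  · intro x y
    rw [LinearMap.toMatrix'_mulVec, LinearMap.toMatrix'_mulVec]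
    have h1 := hg y x
    rw [hBdef, hBdef] at h1
    exact h1
  · rw [LinearMap.toMatrix'_mulVec]
    exact hgu

/-- A unit vector orthogonal to a nonzero isotropic vector (`n ≥ 3`). -/
theorem herm_perp_unit (hF : Fintype.card F = q ^ 2) (n : ℕ) (hn : 3 ≤ n) (v : Fin n → F)
    (hv0 : v ≠ 0) (hv : Cfsg.hermForm n F q v v = 0) :
    ∃ e : Fin n → F, Cfsg.hermForm n F q e e = 1 ∧ Cfsg.hermForm n F q e v = 0 := by
  classical
  have hq := card_sq_two_le hF
  obtain ⟨i, hi⟩ : ∃ i, v i ≠ 0 := by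
    by_contra hcon
    push Not at hcon
    exact hv0 (funext hcon)
  obtain ⟨u, hu⟩ : ∃ u : Fin n → F, Cfsg.hermForm n F q v u = 1 := by
    refine ⟨Pi.single i (((v i)⁻¹) ^ q), ?_⟩
    unfold Cfsg.hermForm
    rw [Finset.sum_eq_single i]
    · rw [Pi.single_eq_same, pow_card_sq hF, mul_inv_cancel₀ hi]
    · intro j _ hj
      rw [Pi.single_eq_of_ne hj, zero_pow (by omega), mul_zero]
    · intro h
      exact absurd (Finset.mem_univ i) h
  have huv : Cfsg.hermForm n F q u v = 1 := by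
    rw [herm_symm hF n v u, hu, one_pow]
  obtain ⟨f, hf⟩ : ∃ f : (Fin n → F) →ₗ[F] F × F, f = (hermL n F q v).prod (hermL n F q u) :=
    ⟨_, rfl⟩
  have hfapp : ∀ x, f x = (Cfsg.hermForm n F q x v, Cfsg.hermForm n F q x u) := by
    intro x
    rw [hf]
    rfl
  have hmem : ∀ z, z ∈ LinearMap.ker f ↔
      Cfsg.hermForm n F q z v = 0 ∧ Cfsg.hermForm n F q z u = 0 := by
    intro z
    rw [LinearMap.mem_ker, hfapp, Prod.mk_eq_zero]
  have hsurj : Function.Surjective f := by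
    rintro ⟨a, b⟩
    refine ⟨(b - a * Cfsg.hermForm n F q u u) • v + a • u, ?_⟩
    rw [hfapp]
    refine Prod.ext ?_ ?_
    · show Cfsg.hermForm n F q ((b - a * Cfsg.hermForm n F q u u) • v + a • u) v = a
      rw [herm_add_left, herm_smul_left, herm_smul_left, hv, huv]
      ring
    · show Cfsg.hermForm n F q ((b - a * Cfsg.hermForm n F q u u) • v + a • u) u = b
      rw [herm_add_left, herm_smul_left, herm_smul_left, hu]
      ring
  have hrank : Module.finrank F (LinearMap.ker f) = n - 2 := by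
    have h1 := LinearMap.finrank_range_add_finrank_ker f
    rw [LinearMap.range_eq_top.2 hsurj, finrank_top, Module.finrank_prod, Module.finrank_self,
      Module.finrank_fin_fun] at h1
    omega
  have hnd : ∀ z ∈ LinearMap.ker f,
      (∀ z' ∈ LinearMap.ker f, Cfsg.hermForm n F q z z' = 0) → z = 0 := by
    intro z hz hzz
    obtain ⟨hz1, hz2⟩ := (hmem z).1 hz
    apply herm_nondeg_std hF n z
    intro x
    apply herm_sym_zero hF
    obtain ⟨b, hb⟩ : ∃ b : F, b = Cfsg.hermForm n F q x v := ⟨_, rfl⟩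
    obtain ⟨a, ha⟩ : ∃ a : F, a = Cfsg.hermForm n F q x u - b * Cfsg.hermForm n F q u u :=
      ⟨_, rfl⟩
    have hz' : x - a • v - b • u ∈ LinearMap.ker f := by
      rw [hmem]
      constructor
      · rw [herm_sub_left, herm_sub_left, herm_smul_left, herm_smul_left, hv, huv, ← hb]
        ring
      · rw [herm_sub_left, herm_sub_left, herm_smul_left, herm_smul_left, hu, ha]
        ring
    have hx : x = a • v + b • u + (x - a • v - b • u) := by abel
    rw [hx, herm_add_left, herm_add_left, herm_smul_left, herm_smul_left,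
      herm_sym_zero hF n _ _ hz1, herm_sym_zero hF n _ _ hz2, herm_sym_zero hF n _ _ (hzz _ hz')]
    ring
  obtain ⟨b, hb⟩ := herm_sub_onb hF n _ hnd
  obtain ⟨i0, hi0⟩ : ∃ i0 : Fin (Module.finrank F (LinearMap.ker f)), i0 = ⟨0, by rw [hrank]; omega⟩ :=
    ⟨_, rfl⟩
  refine ⟨(b i0 : Fin n → F), ?_, ?_⟩
  · rw [hb i0 i0, if_pos rfl]
  · exact ((hmem _).1 (b i0).2).1

/-- A unitary matrix fixing `u` with prescribed determinant of norm one. -/
theorem herm_det_adjust (hF : Fintype.card F = q ^ 2) (n : ℕ) (hn : 3 ≤ n) (u : Fin n → F)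
    (hu0 : u ≠ 0) (hu : Cfsg.hermForm n F q u u = 0) (c : F) (hc : c ^ (q + 1) = 1) :
    ∃ D : Matrix (Fin n) (Fin n) F,
      (∀ x y, Cfsg.hermForm n F q (D *ᵥ x) (D *ᵥ y) = Cfsg.hermForm n F q x y) ∧
        D *ᵥ u = u ∧ D.det = c := by
  classical
  obtain ⟨φ, hφ⟩ := exists_frobQ hF
  obtain ⟨e, hee, heu⟩ := herm_perp_unit hF n hn u hu0 hu
  have hue : Cfsg.hermForm n F q u e = 0 := herm_sym_zero hF n _ _ heu
  obtain ⟨D, hD⟩ : ∃ D : Matrix (Fin n) (Fin n) F,
      D = 1 + Matrix.vecMulVec ((c - 1) • e) (fun i => φ (e i)) := ⟨_, rfl⟩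
  have hDx : ∀ x, D *ᵥ x = x + ((c - 1) * Cfsg.hermForm n F q x e) • e := by
    intro x
    ext i
    rw [hD, Matrix.add_mulVec, Matrix.one_mulVec]
    simp only [Pi.add_apply, Pi.smul_apply, smul_eq_mul, Matrix.mulVec, dotProduct,
      Matrix.vecMulVec_apply, hφ]
    unfold Cfsg.hermForm
    rw [Finset.mul_sum, Finset.sum_mul]
    congr 1
    apply Finset.sum_congr rfl
    intro j _
    ring
  refine ⟨D, ?_, ?_, ?_⟩
  · intro x y
    rw [hDx, hDx]
    obtain ⟨a, ha⟩ : ∃ a : F, a = Cfsg.hermForm n F q x e := ⟨_, rfl⟩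
    obtain ⟨b, hb⟩ : ∃ b : F, b = Cfsg.hermForm n F q y e := ⟨_, rfl⟩
    rw [← ha, ← hb]
    have hey : Cfsg.hermForm n F q e y = b ^ q := by rw [herm_symm hF n y e, ← hb]
    have hcq : (c - 1) ^ q = c ^ q - 1 := by
      rw [← hφ, map_sub, map_one, hφ]
    rw [herm_add_left, herm_smul_left, herm_add_right φ hφ, herm_add_right φ hφ,
      herm_smul_right, herm_smul_right, hee, hey, ← ha, mul_pow, hcq]
    have hc' : c * c ^ q = 1 := by rw [← pow_succ']; exact hc
    linear_combination (a * b ^ q) * hc'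
  · rw [hDx, hue, mul_zero, zero_smul, add_zero]
  · rw [hD, Matrix.vecMulVec_eq (ι := Unit), Matrix.det_one_add_replicateCol_mul_replicateRow,
      dotProduct_smul]
    have h1 : (fun i => φ (e i)) ⬝ᵥ e = Cfsg.hermForm n F q e e := by
      unfold Cfsg.hermForm dotProduct
      apply Finset.sum_congr rfl
      intro j _
      show φ (e j) * e j = e j * e j ^ q
      rw [hφ, mul_comm]
    rw [h1, hee, smul_eq_mul, mul_one]
    ring


/-- Shape of a unitary transvection. -/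
theorem su_transv_form (hF : Fintype.card F = q ^ 2) (n : ℕ) (S : Matrix (Fin n) (Fin n) F)
    (hS : ∀ x y, Cfsg.hermForm n F q (S *ᵥ x) (S *ᵥ y) = Cfsg.hermForm n F q x y)
    (hrank : (S - 1).rank = 1) (hsq : (S - 1) * (S - 1) = 0) :
    ∃ (a : F) (u : Fin n → F), a ≠ 0 ∧ u ≠ 0 ∧ Cfsg.hermForm n F q u u = 0 ∧ a ^ q = -a ∧
      ∀ x, S *ᵥ x = x + (a * Cfsg.hermForm n F q x u) • u := by
  classical
  have hq := card_sq_two_le hF
  obtain ⟨φ, hφ⟩ := exists_frobQ hF
  obtain ⟨N, hN⟩ : ∃ N : Matrix (Fin n) (Fin n) F, N = S - 1 := ⟨_, rfl⟩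
  rw [← hN] at hrank hsq
  have hSx : ∀ x, S *ᵥ x = x + N *ᵥ x := by
    intro x
    rw [hN, Matrix.sub_mulVec, Matrix.one_mulVec]
    abel
  have hr : Module.finrank F (LinearMap.range N.mulVecLin) = 1 := hrank
  obtain ⟨u', hu'0, hu'⟩ := finrank_eq_one_iff'.1 hr
  obtain ⟨u, hu⟩ : ∃ u : Fin n → F, u = (u' : Fin n → F) := ⟨_, rfl⟩
  have hu0 : u ≠ 0 := by
    rw [hu]
    intro h
    exact hu'0 (Subtype.ext h)
  have hNu : ∀ x, ∃ c : F, N *ᵥ x = c • u := by
    intro x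
    obtain ⟨c, hc⟩ := hu' ⟨N *ᵥ x, ⟨x, rfl⟩⟩
    refine ⟨c, ?_⟩
    have h := congrArg Subtype.val hc
    rw [hu]
    exact h.symm
  obtain ⟨i₀, hi₀⟩ : ∃ i, u i ≠ 0 := by
    by_contra hcon
    push Not at hcon
    exact hu0 (funext hcon)
  obtain ⟨ψ, hψ⟩ : ∃ ψ : (Fin n → F) → F, ∀ x, ψ x = (N *ᵥ x) i₀ / u i₀ := ⟨_, fun x => rfl⟩
  have hNψ : ∀ x, N *ᵥ x = ψ x • u := by
    intro x
    obtain ⟨c, hc⟩ := hNu x
    rw [hψ, hc, Pi.smul_apply, smul_eq_mul, mul_div_cancel_right₀ _ hi₀]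
  obtain ⟨x₀, hx₀⟩ : ∃ x₀, ψ x₀ ≠ 0 := by
    by_contra hcon
    push Not at hcon
    have hN0 : N = 0 := by
      ext i j
      have h := congrFun (hNψ (Pi.single j 1)) i
      rw [hcon, zero_smul, Matrix.mulVec_single_one] at h
      simpa using h
    rw [hN0] at hrank
    simp at hrank
  have hNu0 : N *ᵥ u = 0 := by
    have h1 : N *ᵥ (N *ᵥ x₀) = 0 := by rw [Matrix.mulVec_mulVec, hsq, Matrix.zero_mulVec]
    rw [hNψ x₀, Matrix.mulVec_smul] at h1
    exact (smul_eq_zero.1 h1).resolve_left hx₀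
  have hψu : ψ u = 0 := by
    have h := hNψ u
    rw [hNu0] at h
    exact (smul_eq_zero.1 h.symm).resolve_right hu0
  have hid : ∀ x y, ψ y ^ q * Cfsg.hermForm n F q x u + ψ x * Cfsg.hermForm n F q u y +
      ψ x * ψ y ^ q * Cfsg.hermForm n F q u u = 0 := by
    intro x y
    have h := hS x y
    simp only [hSx, hNψ, herm_add_left, herm_add_right φ hφ, herm_smul_left,
      herm_smul_right] at h
    linear_combination h
  have huu : Cfsg.hermForm n F q u u = 0 := by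
    have h := hid u x₀
    rw [hψu] at h
    simp only [zero_mul, add_zero] at h
    rcases mul_eq_zero.1 h with h' | h'
    · exact absurd h' (pow_ne_zero _ hx₀)
    · exact h'
  have hid' : ∀ x y, ψ y ^ q * Cfsg.hermForm n F q x u + ψ x * Cfsg.hermForm n F q u y = 0 := by
    intro x y
    have h := hid x y
    rw [huu, mul_zero, add_zero] at h
    exact h
  have hux₀ : Cfsg.hermForm n F q u x₀ ≠ 0 := by
    intro h0
    apply hu0
    apply herm_nondeg_std hF n u
    intro x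
    have h := hid' x x₀
    rw [h0, mul_zero, add_zero] at h
    exact herm_sym_zero hF n _ _ ((mul_eq_zero.1 h).resolve_left (pow_ne_zero _ hx₀))
  obtain ⟨a, ha⟩ : ∃ a : F, a = -(ψ x₀ ^ q) / Cfsg.hermForm n F q u x₀ := ⟨_, rfl⟩
  have hψa : ∀ x, ψ x = a * Cfsg.hermForm n F q x u := by
    intro x
    have h := hid' x x₀
    rw [ha]
    field_simp
    linear_combination h
  have ha0 : a ≠ 0 := by
    rw [ha]
    exact div_ne_zero (neg_ne_zero.2 (pow_ne_zero _ hx₀)) hux₀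
  have hx₀u : Cfsg.hermForm n F q x₀ u ≠ 0 := by
    intro h0
    apply hx₀
    rw [hψa, h0, mul_zero]
  have haq : a ^ q = -a := by
    have h := hid' x₀ x₀
    rw [hψa x₀, mul_pow, ← herm_symm hF n x₀ u] at h
    have h' : (a ^ q + a) * (Cfsg.hermForm n F q u x₀ * Cfsg.hermForm n F q x₀ u) = 0 := by
      linear_combination h
    have h'' := (mul_eq_zero.1 h').resolve_right (mul_ne_zero hux₀ hx₀u)
    linear_combination h''
  refine ⟨a, u, ha0, hu0, huu, haq, ?_⟩
  intro x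
  rw [hSx, hNψ, hψa]

/-- Any two transvections of `SU_n(q)`, `n ≥ 3`, are conjugate. -/
theorem su_transv_conj (hF : Fintype.card F = q ^ 2) (n : ℕ) (hn : 3 ≤ n)
    (s t : ↥(Cfsg.SU n F q))
    (hs : (s.1.1 - 1).rank = 1 ∧ (s.1.1 - 1) * (s.1.1 - 1) = 0)
    (ht : (t.1.1 - 1).rank = 1 ∧ (t.1.1 - 1) * (t.1.1 - 1) = 0) : IsConj s t := by
  classical
  have hq := card_sq_two_le hF
  obtain ⟨φ, hφ⟩ := exists_frobQ hF
  have hsU : ∀ x y, Cfsg.hermForm n F q (s.1.1 *ᵥ x) (s.1.1 *ᵥ y) = Cfsg.hermForm n F q x y :=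
    s.2
  have htU : ∀ x y, Cfsg.hermForm n F q (t.1.1 *ᵥ x) (t.1.1 *ᵥ y) = Cfsg.hermForm n F q x y :=
    t.2
  obtain ⟨a, u, ha0, hu0, huu, haq, hSx⟩ := su_transv_form hF n s.1.1 hsU hs.1 hs.2
  obtain ⟨b, w, hb0, hw0, hww, hbq, hTx⟩ := su_transv_form hF n t.1.1 htU ht.1 ht.2
  obtain ⟨l, hl⟩ := exists_norm_eq hF (b / a) (div_ne_zero hb0 ha0)
    (by rw [div_pow, haq, hbq, neg_div_neg_eq])
  have hl0 : l ≠ 0 := by
    rintro rfl
    rw [zero_pow (by omega)] at hl
    exact (div_ne_zero hb0 ha0) hl.symm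
  have hlw0 : l • w ≠ 0 := smul_ne_zero hl0 hw0
  have hlw : Cfsg.hermForm n F q (l • w) (l • w) = 0 := by
    rw [herm_smul_left, herm_smul_right, hww]
    ring
  obtain ⟨G, hGU, hGu⟩ := herm_move_vec hF n u (l • w) hu0 hlw0 huu hlw
  have hGdet : G.det ^ (q + 1) = 1 := by
    have h1 := (herm_mulVec_iff φ hφ n G).1 hGU
    have h2 := congrArg Matrix.det h1
    rw [Matrix.det_mul, Matrix.det_transpose, Matrix.det_one] at h2
    have h3 : (G.map φ).det = φ G.det := (RingHom.map_det φ G).symm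
    rw [h3, hφ] at h2
    rw [pow_succ']
    exact h2
  have hGdet0 : G.det ≠ 0 := by
    intro h
    rw [h, zero_pow (by omega)] at hGdet
    exact zero_ne_one hGdet
  obtain ⟨D, hDU, hDu, hDdet⟩ := herm_det_adjust hF n hn u hu0 huu (G.det)⁻¹
    (by rw [inv_pow, hGdet, inv_one])
  obtain ⟨C, hC⟩ : ∃ C : Matrix (Fin n) (Fin n) F, C = G * D := ⟨_, rfl⟩
  have hCdet : C.det = 1 := by rw [hC, Matrix.det_mul, hDdet, mul_inv_cancel₀ hGdet0]
  have hCU : ∀ x y, Cfsg.hermForm n F q (C *ᵥ x) (C *ᵥ y) = Cfsg.hermForm n F q x y := by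
    intro x y
    rw [hC, ← Matrix.mulVec_mulVec, ← Matrix.mulVec_mulVec, hGU, hDU]
  have hCu : C *ᵥ u = l • w := by rw [hC, ← Matrix.mulVec_mulVec, hDu, hGu]
  have hab : a * (l * l ^ q) = b := by
    rw [← pow_succ', hl]
    field_simp
  have hCS : C * s.1.1 = t.1.1 * C := by
    have hall : ∀ x, (C * s.1.1) *ᵥ x = (t.1.1 * C) *ᵥ x := by
      intro x
      rw [← Matrix.mulVec_mulVec, ← Matrix.mulVec_mulVec, hSx, hTx, Matrix.mulVec_add,
        Matrix.mulVec_smul, hCu]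
      have hkey : Cfsg.hermForm n F q x u = l ^ q * Cfsg.hermForm n F q (C *ᵥ x) w := by
        have h := hCU x u
        rw [hCu, herm_smul_right] at h
        exact h.symm
      rw [hkey, smul_smul]
      congr 2
      linear_combination (Cfsg.hermForm n F q (C *ᵥ x) w) * hab
    ext i j
    have h := congrFun (hall (Pi.single j 1)) i
    rw [Matrix.mulVec_single_one, Matrix.mulVec_single_one] at h
    simpa using h
  obtain ⟨c, hc⟩ : ∃ c : ↥(Cfsg.SU n F q), c.1.1 = C := ⟨⟨⟨C, hCdet⟩, hCU⟩, rfl⟩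
  rw [isConj_iff]
  refine ⟨c, ?_⟩
  rw [mul_inv_eq_iff_eq_mul]
  apply Subtype.ext
  apply Subtype.ext
  show c.1.1 * s.1.1 = t.1.1 * c.1.1
  rw [hc]
  exact hCS

end

end Cfsg.Agent.Lib.Helper4
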