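import Mathlib
import Cfsg.Prelude.Def_ClassicalGeometry
import Cfsg.Agent.Lib.Helper4.SUTransv

set_option autoImplicit false

namespace Cfsg.Agent.Lib.Helper4

section

open Matrix

variable {F : Type*} [Field F] [Fintype F] {q : ℕ}

/-- Column part of the Eichler-type element. -/
def rhoU (n : ℕ) (y v : Fin n → F) : Matrix (Fin n) (Fin 2) F :=
  Matrix.of (fun i k => ![y i, v i] k)

/-- Row part of the Eichler-type element. -/
def rhoW (n : ℕ) (q : ℕ) (y v : Fin n → F) (κ : F) : Matrix (Fin 2) (Fin n) F :=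
  Matrix.of (fun k j => ![(v j) ^ q, κ * (v j) ^ q - (y j) ^ q] k)

/-- `x ↦ x + h(x,v) y + (κ h(x,v) - h(x,y)) v`. -/
def rhoM (n : ℕ) (q : ℕ) (y v : Fin n → F) (κ : F) : Matrix (Fin n) (Fin n) F :=
  1 + rhoU n y v * rhoW n q y v κ

theorem rhoM_apply (n : ℕ) (y v : Fin n → F) (κ : F) (x : Fin n → F) :
    rhoM n q y v κ *ᵥ x = x + Cfsg.hermForm n F q x v • y +
      (κ * Cfsg.hermForm n F q x v - Cfsg.hermForm n F q x y) • v := by
  have hW : rhoW n q y v κ *ᵥ x = ![Cfsg.hermForm n F q x v,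
      κ * Cfsg.hermForm n F q x v - Cfsg.hermForm n F q x y] := by
    funext k
    fin_cases k
    · show ∑ j, (v j) ^ q * x j = Cfsg.hermForm n F q x v
      unfold Cfsg.hermForm
      exact Finset.sum_congr rfl (fun j _ => mul_comm _ _)
    · show ∑ j, (κ * (v j) ^ q - (y j) ^ q) * x j =
        κ * Cfsg.hermForm n F q x v - Cfsg.hermForm n F q x y
      unfold Cfsg.hermForm
      rw [Finset.mul_sum, ← Finset.sum_sub_distrib]
      exact Finset.sum_congr rfl (fun j _ => by ring)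
  have hU : ∀ (α β : F), rhoU n y v *ᵥ ![α, β] = α • y + β • v := by
    intro α β
    funext i
    show ∑ k, ![y i, v i] k * ![α, β] k = (α • y + β • v) i
    rw [Fin.sum_univ_two]
    simp only [Matrix.cons_val_zero, Matrix.cons_val_one, Pi.add_apply, Pi.smul_apply,
      smul_eq_mul]
    ring
  rw [rhoM, Matrix.add_mulVec, Matrix.one_mulVec, ← Matrix.mulVec_mulVec, hW, hU, add_assoc]

theorem rhoM_det (n : ℕ) (y v : Fin n → F) (κ : F) (hvv : Cfsg.hermForm n F q v v = 0)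
    (hyv : Cfsg.hermForm n F q y v = 0) (hvy : Cfsg.hermForm n F q v y = 0) :
    (rhoM n q y v κ).det = 1 := by
  unfold rhoM
  rw [Matrix.det_one_add_mul_comm, Matrix.det_fin_two]
  have e00 : (rhoW n q y v κ * rhoU n y v) 0 0 = Cfsg.hermForm n F q y v := by
    simp only [rhoW, rhoU, Matrix.mul_apply, Matrix.of_apply, Matrix.cons_val_zero]
    unfold Cfsg.hermForm
    exact Finset.sum_congr rfl (fun j _ => mul_comm _ _)
  have e01 : (rhoW n q y v κ * rhoU n y v) 0 1 = Cfsg.hermForm n F q v v := by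
    simp only [rhoW, rhoU, Matrix.mul_apply, Matrix.of_apply, Matrix.cons_val_zero,
      Matrix.cons_val_one]
    unfold Cfsg.hermForm
    exact Finset.sum_congr rfl (fun j _ => mul_comm _ _)
  have e11 : (rhoW n q y v κ * rhoU n y v) 1 1 =
      κ * Cfsg.hermForm n F q v v - Cfsg.hermForm n F q v y := by
    simp only [rhoW, rhoU, Matrix.mul_apply, Matrix.of_apply, Matrix.cons_val_zero,
      Matrix.cons_val_one]
    unfold Cfsg.hermForm
    rw [Finset.mul_sum, ← Finset.sum_sub_distrib]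
    exact Finset.sum_congr rfl (fun j _ => by ring)
  simp only [Matrix.add_apply, e00, e01, e11, hvv, hyv, hvy]
  simp


theorem rhoM_unitary (hF : Fintype.card F = q ^ 2) (n : ℕ) (y v : Fin n → F) (κ : F)
    (hvv : Cfsg.hermForm n F q v v = 0) (hyv : Cfsg.hermForm n F q y v = 0)
    (hκ : κ + κ ^ q + Cfsg.hermForm n F q y y = 0) (x x' : Fin n → F) :
    Cfsg.hermForm n F q (rhoM n q y v κ *ᵥ x) (rhoM n q y v κ *ᵥ x') =
      Cfsg.hermForm n F q x x' := by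
  obtain ⟨φ, hφ⟩ := exists_frobQ hF
  have hvy : Cfsg.hermForm n F q v y = 0 := herm_sym_zero hF n _ _ hyv
  rw [rhoM_apply, rhoM_apply]
  obtain ⟨a, ha⟩ : ∃ a : F, a = Cfsg.hermForm n F q x v := ⟨_, rfl⟩
  obtain ⟨b, hb⟩ : ∃ b : F, b = Cfsg.hermForm n F q x y := ⟨_, rfl⟩
  obtain ⟨a', ha'⟩ : ∃ a' : F, a' = Cfsg.hermForm n F q x' v := ⟨_, rfl⟩
  obtain ⟨b', hb'⟩ : ∃ b' : F, b' = Cfsg.hermForm n F q x' y := ⟨_, rfl⟩
  rw [← ha, ← hb, ← ha', ← hb']
  have hyx' : Cfsg.hermForm n F q y x' = b' ^ q := by rw [herm_symm hF n x' y, ← hb']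
  have hvx' : Cfsg.hermForm n F q v x' = a' ^ q := by rw [herm_symm hF n x' v, ← ha']
  have hcq : (κ * a' - b') ^ q = κ ^ q * a' ^ q - b' ^ q := by
    rw [← hφ, map_sub, map_mul, hφ, hφ, hφ]
  simp only [herm_add_left, herm_add_right φ hφ, herm_smul_left, herm_smul_right, hvv, hyv, hvy,
    hyx', hvx', ← ha, ← hb, hcq]
  linear_combination (a * a' ^ q) * hκ

theorem rhoM_mul_apply (n : ℕ) (y y' v : Fin n → F) (κ κ' : F)
    (hvv : Cfsg.hermForm n F q v v = 0) (hy'v : Cfsg.hermForm n F q y' v = 0)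
    (hvy : Cfsg.hermForm n F q v y = 0) (x : Fin n → F) :
    rhoM n q y v κ *ᵥ (rhoM n q y' v κ' *ᵥ x) =
      x + Cfsg.hermForm n F q x v • (y + y') +
        ((κ + κ' - Cfsg.hermForm n F q y' y) * Cfsg.hermForm n F q x v -
          Cfsg.hermForm n F q x y - Cfsg.hermForm n F q x y') • v := by
  rw [rhoM_apply n y' v κ' x, rhoM_apply]
  simp only [herm_add_left, herm_smul_left, hvv, hy'v, hvy]
  ext i
  simp only [Pi.add_apply, Pi.smul_apply, smul_eq_mul]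
  ring

/-- Every unitary transvection is a commutator in `SU_n(q)`, `n ≥ 3`. -/
theorem su_transv_comm (hF : Fintype.card F = q ^ 2) (n : ℕ) (hn : 3 ≤ n)
    (A : ↥(Cfsg.SU n F q)) (v : Fin n → F) (c : F) (hv0 : Cfsg.hermForm n F q v v = 0)
    (hA : A.1.1 = Cfsg.unitaryTransvection n q v c) : A ∈ commutatorSet ↥(Cfsg.SU n F q) := by
  classical
  have hq := card_sq_two_le hF
  obtain ⟨φ, hφ⟩ := exists_frobQ hF
  have hφ2 : ∀ a : F, φ (φ a) = a := fun a => by rw [hφ, hφ, pow_card_sq hF]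
  have hφne : φ ≠ RingHom.id F := by
    obtain ⟨c, hc⟩ := exists_not_fixed hF
    intro h
    apply hc
    rw [← hφ, h]
    rfl
  have hAx : ∀ x, A.1.1 *ᵥ x = x + (c * Cfsg.hermForm n F q x v) • v := by
    intro x
    rw [hA]
    unfold Cfsg.unitaryTransvection
    rw [Matrix.add_mulVec, Matrix.one_mulVec, Matrix.smul_mulVec]
    congr 1
    funext i
    simp only [Pi.smul_apply, smul_eq_mul, Matrix.mulVec, dotProduct, Matrix.vecMulVec_apply]
    unfold Cfsg.hermForm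
    rw [mul_assoc, Finset.sum_mul]
    congr 1
    exact Finset.sum_congr rfl (fun j _ => by ring)
  have hA1 : (c = 0 ∨ v = 0) → A ∈ commutatorSet ↥(Cfsg.SU n F q) := by
    intro h
    have h1 : A = 1 := by
      apply Subtype.ext
      apply Subtype.ext
      show A.1.1 = 1
      rw [hA]
      unfold Cfsg.unitaryTransvection
      rcases h with h | h
      · rw [h, zero_smul, add_zero]
      · rw [h]
        ext i j
        simp [Matrix.vecMulVec_apply]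
    rw [h1]
    exact ⟨1, 1, by simp⟩
  by_cases hc : c = 0
  · exact hA1 (Or.inl hc)
  by_cases hv : v = 0
  · exact hA1 (Or.inr hv)
  have hcq : c ^ q = -c := by
    obtain ⟨x₀, hx₀⟩ : ∃ x₀, Cfsg.hermForm n F q x₀ v ≠ 0 := by
      by_contra hcon
      push Not at hcon
      exact hv (herm_nondeg_std hF n v (fun x => herm_sym_zero hF n _ _ (hcon x)))
    have h' : Cfsg.hermForm n F q (A.1.1 *ᵥ x₀) (A.1.1 *ᵥ x₀) = Cfsg.hermForm n F q x₀ x₀ :=
      A.2 x₀ x₀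
    rw [hAx] at h'
    obtain ⟨a, ha⟩ : ∃ a : F, a = Cfsg.hermForm n F q x₀ v := ⟨_, rfl⟩
    rw [← ha] at h' hx₀
    have hvx : Cfsg.hermForm n F q v x₀ = a ^ q := by rw [herm_symm hF n x₀ v, ← ha]
    simp only [herm_add_left, herm_add_right φ hφ, herm_smul_left, herm_smul_right, hv0, hvx,
      ← ha, mul_pow] at h'
    have h'' : (c ^ q + c) * (a * a ^ q) = 0 := by linear_combination h'
    have h3 := (mul_eq_zero.1 h'').resolve_right (mul_ne_zero hx₀ (pow_ne_zero _ hx₀))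
    linear_combination h3
  obtain ⟨e, hee, hev⟩ := herm_perp_unit hF n hn v hv hv0
  have hve : Cfsg.hermForm n F q v e = 0 := herm_sym_zero hF n _ _ hev
  obtain ⟨θ, hθ⟩ := exists_not_fixed hF
  obtain ⟨d, hd⟩ : ∃ d : F, d = θ ^ q - θ := ⟨_, rfl⟩
  have hd0 : d ≠ 0 := by
    rw [hd]
    exact sub_ne_zero.2 hθ
  have hdq : d ^ q = -d := by
    rw [hd, ← hφ, map_sub, hφ, hφ, pow_card_sq hF]
    ring
  obtain ⟨μ, hμdef⟩ : ∃ μ : F, μ = c / d * θ := ⟨_, rfl⟩
  have hμ : μ ^ q - μ = c := by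
    rw [hμdef, mul_pow, div_pow, hcq, hdq, neg_div_neg_eq, ← mul_sub, ← hd]
    field_simp
  obtain ⟨κ₁, -, hκ₁⟩ := exists_trace_eq φ hφne hφ2 (-1) (by rw [map_neg, map_one])
  obtain ⟨κ₂, -, hκ₂⟩ := exists_trace_eq φ hφne hφ2 (-(μ * μ ^ q))
    (by rw [map_neg, hφ, norm_fixed hF])
  rw [hφ] at hκ₁ hκ₂
  obtain ⟨y', hy'⟩ : ∃ y' : Fin n → F, y' = μ • e := ⟨_, rfl⟩
  have hy'v : Cfsg.hermForm n F q y' v = 0 := by rw [hy', herm_smul_left, hev, mul_zero]
  have hvy' : Cfsg.hermForm n F q v y' = 0 := herm_sym_zero hF n _ _ hy'v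
  have hy'y' : Cfsg.hermForm n F q y' y' = μ * μ ^ q := by
    rw [hy', herm_smul_left, herm_smul_right, hee]
    ring
  have hey' : Cfsg.hermForm n F q e y' = μ ^ q := by rw [hy', herm_smul_right, hee, mul_one]
  have hy'e : Cfsg.hermForm n F q y' e = μ := by rw [hy', herm_smul_left, hee, mul_one]
  obtain ⟨R₁, hR₁⟩ : ∃ R : Matrix (Fin n) (Fin n) F, R = rhoM n q e v κ₁ := ⟨_, rfl⟩
  obtain ⟨R₂, hR₂⟩ : ∃ R : Matrix (Fin n) (Fin n) F, R = rhoM n q y' v κ₂ := ⟨_, rfl⟩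
  have hR₁U : ∀ x x', Cfsg.hermForm n F q (R₁ *ᵥ x) (R₁ *ᵥ x') = Cfsg.hermForm n F q x x' := by
    intro x x'
    rw [hR₁]
    exact rhoM_unitary hF n e v κ₁ hv0 hev (by rw [hee]; linear_combination hκ₁) x x'
  have hR₂U : ∀ x x', Cfsg.hermForm n F q (R₂ *ᵥ x) (R₂ *ᵥ x') = Cfsg.hermForm n F q x x' := by
    intro x x'
    rw [hR₂]
    exact rhoM_unitary hF n y' v κ₂ hv0 hy'v (by rw [hy'y']; linear_combination hκ₂) x x'
  have hR₁d : R₁.det = 1 := by
    rw [hR₁]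
    exact rhoM_det n e v κ₁ hv0 hev hve
  have hR₂d : R₂.det = 1 := by
    rw [hR₂]
    exact rhoM_det n y' v κ₂ hv0 hy'v hvy'
  have hkey : R₁ * R₂ = A.1.1 * (R₂ * R₁) := by
    have hall : ∀ x, (R₁ * R₂) *ᵥ x = (A.1.1 * (R₂ * R₁)) *ᵥ x := by
      intro x
      rw [← Matrix.mulVec_mulVec, ← Matrix.mulVec_mulVec, ← Matrix.mulVec_mulVec, hR₁, hR₂,
        rhoM_mul_apply n e y' v κ₁ κ₂ hv0 hy'v hve x,
        rhoM_mul_apply n y' e v κ₂ κ₁ hv0 hev hvy' x, hAx]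
      simp only [herm_add_left, herm_smul_left, hv0, hev, hy'v, hey', hy'e, mul_zero, add_zero]
      ext i
      simp only [Pi.add_apply, Pi.smul_apply, smul_eq_mul]
      linear_combination (Cfsg.hermForm n F q x v * v i) * hμ
    ext i j
    have h := congrFun (hall (Pi.single j 1)) i
    rw [Matrix.mulVec_single_one, Matrix.mulVec_single_one] at h
    simpa using h
  obtain ⟨r₁, hr₁⟩ : ∃ r : ↥(Cfsg.SU n F q), r.1.1 = R₁ := ⟨⟨⟨R₁, hR₁d⟩, hR₁U⟩, rfl⟩
  obtain ⟨r₂, hr₂⟩ : ∃ r : ↥(Cfsg.SU n F q), r.1.1 = R₂ := ⟨⟨⟨R₂, hR₂d⟩, hR₂U⟩, rfl⟩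
  refine ⟨r₁, r₂, ?_⟩
  have h1 : r₁ * r₂ = A * (r₂ * r₁) := by
    apply Subtype.ext
    apply Subtype.ext
    show r₁.1.1 * r₂.1.1 = A.1.1 * (r₂.1.1 * r₁.1.1)
    rw [hr₁, hr₂]
    exact hkey
  rw [commutatorElement_def, h1]
  group

end

end Cfsg.Agent.Lib.Helper4
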