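import Mathlib

set_option autoImplicit false

namespace Cfsg.Agent.Lib.Helper4

universe u v

open Polynomial

/-- Maschke's theorem for a cyclic group of order prime to the characteristic: an invariant
subspace has an equivariant projection onto it. -/
theorem maschke_cyclic {F : Type u} [Field F] {V : Type v} [AddCommGroup V] [Module F V]
    (T : Module.End F V) (e : ℕ) (hTe : T ^ e = 1) (he : (e : F) ≠ 0)
    (W : Submodule F V) (hW : ∀ w ∈ W, T w ∈ W) :
    ∃ π : Module.End F V, (∀ v, π v ∈ W) ∧ (∀ w ∈ W, π w = w) ∧ T * π = π * T := by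
  classical
  have he0 : e ≠ 0 := by
    rintro rfl
    simp at he
  have he1 : 1 ≤ e := Nat.one_le_iff_ne_zero.2 he0
  obtain ⟨W₀, hW₀⟩ := Submodule.exists_isCompl W
  let π₀ : Module.End F V := W.subtype ∘ₗ Submodule.projectionOnto W W₀ hW₀
  have hπ₀W : ∀ v, π₀ v ∈ W := fun v => (Submodule.projectionOnto W W₀ hW₀ v).2
  have hπ₀id : ∀ w ∈ W, π₀ w = w := by
    intro w hw
    show ((Submodule.projectionOnto W W₀ hW₀ w : W) : V) = w
    rw [Submodule.projectionOnto_apply_of_mem_left hW₀ hw]
  obtain ⟨Ti, hTi⟩ : ∃ Ti : Module.End F V, Ti = T ^ (e - 1) := ⟨_, rfl⟩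
  have hTTi : T * Ti = 1 := by
    rw [hTi, ← pow_succ', Nat.sub_add_cancel he1, hTe]
  have hTiT : Ti * T = 1 := by
    rw [hTi, ← pow_succ, Nat.sub_add_cancel he1, hTe]
  have hTie : Ti ^ e = 1 := by
    rw [hTi, ← pow_mul, mul_comm, pow_mul, hTe, one_pow]
  have hWpow : ∀ (k : ℕ), ∀ w ∈ W, (T ^ k) w ∈ W := by
    intro k
    induction k with
    | zero =>
      intro w hw
      simpa using hw
    | succ k ih =>
      intro w hw
      rw [pow_succ, Module.End.mul_apply]
      exact ih _ (hW w hw)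
  have hWi : ∀ w ∈ W, Ti w ∈ W := by
    intro w hw
    rw [hTi]
    exact hWpow _ w hw
  have hWipow : ∀ (k : ℕ), ∀ w ∈ W, (Ti ^ k) w ∈ W := by
    intro k
    induction k with
    | zero =>
      intro w hw
      simpa using hw
    | succ k ih =>
      intro w hw
      rw [pow_succ, Module.End.mul_apply]
      exact ih _ (hWi w hw)
  have hcancel : ∀ k : ℕ, T ^ k * Ti ^ k = 1 := by
    intro k
    induction k with
    | zero => simp
    | succ k ih =>
      rw [pow_succ, pow_succ', mul_assoc, ← mul_assoc T, hTTi, one_mul, ih]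
  obtain ⟨s, hs⟩ : ∃ s : Module.End F V, s = ∑ i ∈ Finset.range e, T ^ i * π₀ * Ti ^ i :=
    ⟨_, rfl⟩
  refine ⟨(e : F)⁻¹ • s, ?_, ?_, ?_⟩
  · intro v
    rw [LinearMap.smul_apply, hs, LinearMap.sum_apply]
    refine W.smul_mem _ (W.sum_mem fun i _ => ?_)
    rw [Module.End.mul_apply, Module.End.mul_apply]
    exact hWpow i _ (hπ₀W _)
  · intro w hw
    rw [LinearMap.smul_apply, hs, LinearMap.sum_apply]
    have h1 : ∀ i ∈ Finset.range e, (T ^ i * π₀ * Ti ^ i) w = w := by
      intro i _
      rw [Module.End.mul_apply, Module.End.mul_apply, hπ₀id _ (hWipow i w hw),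
        ← Module.End.mul_apply, hcancel]
      rfl
    rw [Finset.sum_congr rfl h1, Finset.sum_const, Finset.card_range,
      ← Nat.cast_smul_eq_nsmul F, smul_smul, inv_mul_cancel₀ he, one_smul]
  · rw [mul_smul_comm, smul_mul_assoc]
    congr 1
    have h1 : T * s * Ti = s := by
      rw [hs, Finset.mul_sum, Finset.sum_mul]
      have h2 : ∀ i ∈ Finset.range e,
          T * (T ^ i * π₀ * Ti ^ i) * Ti = T ^ (i + 1) * π₀ * Ti ^ (i + 1) := by
        intro i _
        rw [pow_succ' T, pow_succ Ti]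
        simp only [mul_assoc]
      rw [Finset.sum_congr rfl h2]
      have h3 : ∑ i ∈ Finset.range (e + 1), T ^ i * π₀ * Ti ^ i =
          ∑ i ∈ Finset.range e, T ^ (i + 1) * π₀ * Ti ^ (i + 1) + T ^ 0 * π₀ * Ti ^ 0 :=
        Finset.sum_range_succ' (fun i => T ^ i * π₀ * Ti ^ i) e
      have h4 : ∑ i ∈ Finset.range (e + 1), T ^ i * π₀ * Ti ^ i =
          ∑ i ∈ Finset.range e, T ^ i * π₀ * Ti ^ i + T ^ e * π₀ * Ti ^ e :=
        Finset.sum_range_succ (fun i => T ^ i * π₀ * Ti ^ i) e
      have h5 : T ^ e * π₀ * Ti ^ e = T ^ 0 * π₀ * Ti ^ 0 := by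
        rw [hTe, hTie, pow_zero, pow_zero]
      rw [h4, h5] at h3
      exact (add_right_cancel h3).symm
    calc T * s = T * s * (Ti * T) := by rw [hTiT, mul_one]
      _ = (T * s * Ti) * T := by simp only [mul_assoc]
      _ = s * T := by rw [h1]

/-- A minimal nonzero invariant subspace. -/
theorem exists_minimal_invariant {F : Type u} [Field F] {V : Type v} [AddCommGroup V]
    [Module F V] [FiniteDimensional F V] [Nontrivial V] (T : Module.End F V) :
    ∃ W : Submodule F V, W ≠ ⊥ ∧ (∀ w ∈ W, T w ∈ W) ∧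
      ∀ W₁ : Submodule F V, W₁ ≤ W → (∀ w ∈ W₁, T w ∈ W₁) → W₁ = ⊥ ∨ W₁ = W := by
  classical
  have hex : ∃ d, ∃ W : Submodule F V, W ≠ ⊥ ∧ (∀ w ∈ W, T w ∈ W) ∧ Module.finrank F W = d :=
    ⟨_, ⊤, top_ne_bot, fun _ _ => Submodule.mem_top, rfl⟩
  obtain ⟨W, hW0, hWT, hWd⟩ := Nat.find_spec hex
  refine ⟨W, hW0, hWT, ?_⟩
  intro W₁ hle hT₁
  by_cases h0 : W₁ = ⊥
  · exact Or.inl h0
  · right
    apply Submodule.eq_of_le_of_finrank_le hle
    rw [hWd]
    exact Nat.find_min' hex ⟨W₁, h0, hT₁, rfl⟩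

/-- On a simple module for one endomorphism over a finite field, polynomials in the
endomorphism attain every determinant. -/
theorem exists_aeval_det_eq {F : Type u} [Field F] [Finite F] {W : Type v} [AddCommGroup W]
    [Module F W] [FiniteDimensional F W] [Nontrivial W] (S : Module.End F W)
    (hsimple : ∀ W₁ : Submodule F W, (∀ w ∈ W₁, S w ∈ W₁) → W₁ = ⊥ ∨ W₁ = ⊤) (l : F) :
    ∃ h : F[X], LinearMap.det (aeval S h) = l := by
  classical
  obtain ⟨v₀, hv₀⟩ := exists_ne (0 : W)
  have hcyc : ∀ v : W, v ≠ 0 → ∀ w : W, ∃ h : F[X], aeval S h v = w := by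
    intro v hv w
    let C : Submodule F W := LinearMap.range ((LinearMap.applyₗ v : (W →ₗ[F] W) →ₗ[F] W) ∘ₗ
      (aeval S : F[X] →ₐ[F] Module.End F W).toLinearMap)
    have hC : ∀ w ∈ C, S w ∈ C := by
      rintro _ ⟨h, rfl⟩
      refine ⟨X * h, ?_⟩
      simp [map_mul, aeval_X]
    have hCne : C ≠ ⊥ := by
      intro hbot
      have : v ∈ C := ⟨1, by simp⟩
      rw [hbot, Submodule.mem_bot] at this
      exact hv this
    rcases hsimple C hC with h1 | h1
    · exact absurd h1 hCne
    · have : w ∈ C := by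
        rw [h1]
        exact Submodule.mem_top
      obtain ⟨h, hh⟩ := this
      exact ⟨h, by simpa using hh⟩
  obtain ⟨I, hI⟩ : ∃ I : Ideal F[X],
      I = RingHom.ker (aeval S : F[X] →ₐ[F] Module.End F W) := ⟨_, rfl⟩
  have hmemI : ∀ a : F[X], a ∈ I ↔ aeval S a = 0 := by
    intro a
    rw [hI]
    exact RingHom.mem_ker
  have hmax : I.IsMaximal := by
    rw [Ideal.isMaximal_iff]
    constructor
    · rw [hmemI, map_one]
      exact one_ne_zero
    · intro J a hIJ ha haJ
      rw [hmemI] at ha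
      have hker : LinearMap.ker (aeval S a) = ⊥ := by
        rcases hsimple (LinearMap.ker (aeval S a)) (by
          intro w hw
          rw [LinearMap.mem_ker] at hw ⊢
          have hc : aeval S a * S = S * aeval S a := by
            have h1 : aeval S (a * X) = aeval S (X * a) := by rw [mul_comm]
            rw [map_mul, map_mul, aeval_X] at h1
            exact h1
          have := congrArg (fun f => f w) hc
          simp only [Module.End.mul_apply] at this
          rw [this, hw, map_zero]) with h1 | h1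
        · exact h1
        · exfalso
          apply ha
          apply LinearMap.ext
          intro w
          have : w ∈ LinearMap.ker (aeval S a) := by
            rw [h1]
            exact Submodule.mem_top
          exact LinearMap.mem_ker.1 this
      have hav : aeval S a v₀ ≠ 0 := by
        intro h
        have : v₀ ∈ LinearMap.ker (aeval S a) := LinearMap.mem_ker.2 h
        rw [hker, Submodule.mem_bot] at this
        exact hv₀ this
      obtain ⟨b, hb⟩ := hcyc _ hav v₀
      have hba : b * a - 1 ∈ I := by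
        rw [hmemI]
        apply LinearMap.ext
        intro w
        obtain ⟨g, rfl⟩ := hcyc v₀ hv₀ w
        have h1 : aeval S (b * a - 1) * aeval S g = aeval S g * aeval S (b * a - 1) := by
          rw [← map_mul, ← map_mul, mul_comm]
        have h2 := congrArg (fun f => f v₀) h1
        simp only [Module.End.mul_apply] at h2
        rw [h2]
        have h3 : aeval S (b * a - 1) v₀ = 0 := by
          rw [map_sub, map_mul, map_one, LinearMap.sub_apply, Module.End.mul_apply, hb,
            Module.End.one_apply, sub_self]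
        rw [h3, map_zero]
        rfl
      have : (1 : F[X]) = b * a - (b * a - 1) := by ring
      rw [this]
      exact J.sub_mem (J.mul_mem_left b haJ) (hIJ hba)
  subst hI
  haveI := hmax
  letI : Field (F[X] ⧸ RingHom.ker (aeval S : F[X] →ₐ[F] Module.End F W)) :=
    Ideal.Quotient.field _
  let φ := Ideal.kerLiftAlg (aeval S : F[X] →ₐ[F] Module.End F W)
  let ψ₀ : (F[X] ⧸ RingHom.ker (aeval S : F[X] →ₐ[F] Module.End F W)) →ₗ[F] W :=
    (LinearMap.applyₗ v₀ : (W →ₗ[F] W) →ₗ[F] W) ∘ₗ φ.toLinearMap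
  have hψ₀ : ∀ k, ψ₀ k = φ k v₀ := fun k => rfl
  have hψinj : Function.Injective ψ₀ := by
    rw [← LinearMap.ker_eq_bot, LinearMap.ker_eq_bot']
    intro k hk
    by_contra hk0
    apply hv₀
    have h1 : φ (k⁻¹ * k) v₀ = v₀ := by
      rw [inv_mul_cancel₀ hk0, map_one]
      rfl
    rw [map_mul, Module.End.mul_apply] at h1
    rw [← h1]
    have : φ k v₀ = 0 := hk
    rw [this, map_zero]
  have hψsurj : Function.Surjective ψ₀ := by
    intro w
    obtain ⟨g, hg⟩ := hcyc v₀ hv₀ w
    exact ⟨Ideal.Quotient.mk _ g, by rw [hψ₀]; exact hg⟩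
  let ψ : (F[X] ⧸ RingHom.ker (aeval S : F[X] →ₐ[F] Module.End F W)) ≃ₗ[F] W :=
    LinearEquiv.ofBijective ψ₀ ⟨hψinj, hψsurj⟩
  haveI : Finite W := Module.finite_of_finite F
  haveI : Finite (F[X] ⧸ RingHom.ker (aeval S : F[X] →ₐ[F] Module.End F W)) :=
    Finite.of_injective ψ₀ hψinj
  obtain ⟨k, hk⟩ := FiniteField.norm_surjective F
    (F[X] ⧸ RingHom.ker (aeval S : F[X] →ₐ[F] Module.End F W)) l
  obtain ⟨h, rfl⟩ := Ideal.Quotient.mk_surjective k
  refine ⟨h, ?_⟩
  rw [← hk, Algebra.norm_apply]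
  have hconj : aeval S h =
      (ψ : (F[X] ⧸ RingHom.ker (aeval S : F[X] →ₐ[F] Module.End F W)) →ₗ[F] W) ∘ₗ
      (Algebra.lmul F (F[X] ⧸ RingHom.ker (aeval S : F[X] →ₐ[F] Module.End F W))
        (Ideal.Quotient.mk _ h)) ∘ₗ
      (ψ.symm : W →ₗ[F] (F[X] ⧸ RingHom.ker (aeval S : F[X] →ₐ[F] Module.End F W))) := by
    apply LinearMap.ext
    intro w
    obtain ⟨k', rfl⟩ := ψ.surjective w
    simp only [LinearMap.comp_apply, LinearEquiv.coe_coe, LinearEquiv.symm_apply_apply]
    show aeval S h (φ k' v₀) = φ (Ideal.Quotient.mk _ h * k') v₀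
    rw [map_mul, Module.End.mul_apply]
    rfl
  rw [hconj, LinearMap.det_conj]

theorem aeval_restrict_apply {F : Type u} [Field F] {V : Type v} [AddCommGroup V] [Module F V]
    (T : Module.End F V) (W : Submodule F V) (hW : ∀ w ∈ W, T w ∈ W) (g : F[X]) (w : W) :
    ((aeval (T.restrict hW) g) w : V) = (aeval T g) (w : V) := by
  induction g using Polynomial.induction_on generalizing w with
  | C a =>
    rw [aeval_C, aeval_C, Module.algebraMap_end_apply, Module.algebraMap_end_apply]
    rfl
  | add p q hp hq =>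
    rw [map_add, map_add, LinearMap.add_apply, LinearMap.add_apply, Submodule.coe_add, hp, hq]
  | monomial n a ih =>
    have e1 : (C a * X ^ (n + 1) : F[X]) = (C a * X ^ n) * X := by rw [pow_succ, mul_assoc]
    rw [e1, map_mul (aeval (T.restrict hW)) (C a * X ^ n) X, map_mul (aeval T) (C a * X ^ n) X,
      aeval_X, aeval_X, Module.End.mul_apply, Module.End.mul_apply, ih]
    rfl

/-- The centralizer of a semisimple element of `GL_n(F)` (finite field) surjects onto the
nonzero scalars under the determinant. -/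
theorem exists_commuting_det {F : Type u} [Field F] [Fintype F] {p : ℕ} [Fact p.Prime]
    [CharP F p] {n : ℕ} (hn : n ≠ 0) (x : GL (Fin n) F) (hx : (orderOf x).Coprime p) (l : F)
    (hl : l ≠ 0) :
    ∃ c : GL (Fin n) F, c * x = x * c ∧ (c : Matrix (Fin n) (Fin n) F).det = l := by
  classical
  haveI : NeZero n := ⟨hn⟩
  obtain ⟨T, hT⟩ : ∃ T : Module.End F (Fin n → F),
      T = Matrix.toLin' (x : Matrix (Fin n) (Fin n) F) := ⟨_, rfl⟩
  have hpow : ∀ k : ℕ, T ^ k = Matrix.toLin' ((x : Matrix (Fin n) (Fin n) F) ^ k) := by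
    intro k
    induction k with
    | zero =>
      rw [pow_zero, pow_zero, Matrix.toLin'_one]
      rfl
    | succ k ih =>
      rw [pow_succ, pow_succ, Matrix.toLin'_mul, ih, hT]
      rfl
  have hTe : T ^ orderOf x = 1 := by
    rw [hpow, ← Units.val_pow_eq_pow_val, pow_orderOf_eq_one, Units.val_one, Matrix.toLin'_one]
    rfl
  have he : ((orderOf x : ℕ) : F) ≠ 0 := by
    rw [Ne, CharP.cast_eq_zero_iff F p]
    intro hdvd
    exact (Fact.out : p.Prime).ne_one (hx.symm.eq_one_of_dvd hdvd)
  obtain ⟨W, hW0, hWT, hWmin⟩ := exists_minimal_invariant T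
  obtain ⟨π, hπW, hπid, hπT⟩ := maschke_cyclic T (orderOf x) hTe he W hWT
  haveI : Nontrivial W := Submodule.nontrivial_iff_ne_bot.2 hW0
  have hsimple : ∀ W₁ : Submodule F W, (∀ w ∈ W₁, (T.restrict hWT) w ∈ W₁) →
      W₁ = ⊥ ∨ W₁ = ⊤ := by
    intro W₁ h₁
    rcases hWmin (W₁.map W.subtype) (Submodule.map_subtype_le W W₁) (by
      rintro _ ⟨w, hw, rfl⟩
      exact ⟨(T.restrict hWT) w, h₁ w hw, rfl⟩) with h | h
    · left
      exact Submodule.map_injective_of_injective W.injective_subtype
        (h.trans (Submodule.map_bot _).symm)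
    · right
      apply Submodule.map_injective_of_injective W.injective_subtype
      rw [h, Submodule.map_subtype_top]
  obtain ⟨h, hh⟩ := exists_aeval_det_eq (T.restrict hWT) hsimple l
  obtain ⟨c, hc⟩ : ∃ c : Module.End F (Fin n → F), c = aeval T h * π + (1 - π) := ⟨_, rfl⟩
  have hcT : c * T = T * c := by
    have h1 : aeval T h * T = T * aeval T h := by
      have h2 : aeval T (h * X) = aeval T (X * h) := by rw [mul_comm]
      rw [map_mul, map_mul, aeval_X] at h2
      exact h2
    have e1 : aeval T h * π * T = T * (aeval T h * π) := by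
      rw [mul_assoc, ← hπT, ← mul_assoc, h1, mul_assoc]
    rw [hc, add_mul, mul_add, e1, sub_mul, mul_sub, one_mul, mul_one, hπT]
  have hcompl : IsCompl W (LinearMap.ker π) := by
    constructor
    · rw [disjoint_iff, Submodule.eq_bot_iff]
      rintro v ⟨hv1, hv2⟩
      have := hπid v hv1
      rw [LinearMap.mem_ker.1 hv2] at this
      exact this.symm
    · rw [codisjoint_iff, eq_top_iff]
      intro v _
      have : v = π v + (v - π v) := by abel
      rw [this]
      exact Submodule.add_mem_sup (hπW v) (by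
        rw [LinearMap.mem_ker, map_sub, hπid _ (hπW v), sub_self])
  have hceq : c = (Submodule.prodEquivOfIsCompl W (LinearMap.ker π) hcompl :
        (W × LinearMap.ker π) →ₗ[F] (Fin n → F)) ∘ₗ
      (LinearMap.prodMap (aeval (T.restrict hWT) h) LinearMap.id) ∘ₗ
      ((Submodule.prodEquivOfIsCompl W (LinearMap.ker π) hcompl).symm :
        (Fin n → F) →ₗ[F] (W × LinearMap.ker π)) := by
    apply LinearMap.ext
    intro v
    obtain ⟨⟨w, w'⟩, rfl⟩ := (Submodule.prodEquivOfIsCompl W (LinearMap.ker π) hcompl).surjective v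
    simp only [LinearMap.comp_apply, LinearEquiv.coe_coe, LinearEquiv.symm_apply_apply,
      LinearMap.prodMap_apply, LinearMap.id_apply]
    show c ((w : Fin n → F) + (w' : Fin n → F)) =
      ((aeval (T.restrict hWT) h) w : Fin n → F) + (w' : Fin n → F)
    have h1 : π ((w : Fin n → F) + (w' : Fin n → F)) = w := by
      rw [map_add, hπid _ w.2, LinearMap.mem_ker.1 w'.2, add_zero]
    rw [hc, LinearMap.add_apply, Module.End.mul_apply, LinearMap.sub_apply, Module.End.one_apply,
      h1, aeval_restrict_apply]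
    abel
  have hdetc : LinearMap.det c = l := by
    rw [hceq, LinearMap.det_conj, LinearMap.det_prodMap, hh, LinearMap.det_id, mul_one]
  have hdetC : (LinearMap.toMatrix' c).det = l := by
    rw [← LinearMap.det_toLin', Matrix.toLin'_toMatrix', hdetc]
  refine ⟨Matrix.GeneralLinearGroup.mkOfDetNeZero (LinearMap.toMatrix' c) (by rw [hdetC]; exact hl),
    Units.ext ?_, hdetC⟩
  show LinearMap.toMatrix' c * (x : Matrix (Fin n) (Fin n) F) =
    (x : Matrix (Fin n) (Fin n) F) * LinearMap.toMatrix' c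
  have := congrArg LinearMap.toMatrix' hcT
  rw [LinearMap.toMatrix'_mul, LinearMap.toMatrix'_mul, hT, LinearMap.toMatrix'_toLin'] at this
  exact this

end Cfsg.Agent.Lib.Helper4
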