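import Mathlib
import Cfsg.Agent.Lib.Helper4.SemisimpleDet

set_option autoImplicit false

namespace Cfsg.Agent.Lib.Helper4

universe u v

open Polynomial

/-- For commuting `a b`, `a - b` left-divides `p(a) - p(b)`. -/
theorem commute_sub_dvd_aeval_sub {F : Type u} [Field F] {R : Type v} [Ring R] [Algebra F R]
    (a b : R) (hab : Commute a b) (μ : F[X]) :
    ∃ Q : R, aeval a μ - aeval b μ = (a - b) * Q := by
  induction μ using Polynomial.induction_on' with
  | add p q hp hq =>
    obtain ⟨Q₁, h₁⟩ := hp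
    obtain ⟨Q₂, h₂⟩ := hq
    refine ⟨Q₁ + Q₂, ?_⟩
    rw [map_add, map_add, mul_add, ← h₁, ← h₂]
    abel
  | monomial n c =>
    refine ⟨c • ∑ i ∈ Finset.range n, a ^ i * b ^ (n - 1 - i), ?_⟩
    rw [aeval_monomial, aeval_monomial, mul_smul_comm, hab.mul_geom_sum₂, ← Algebra.smul_def,
      ← Algebra.smul_def, smul_sub]

/-- The characteristic polynomial divides a power of any annihilating polynomial. -/
theorem matrix_charpoly_dvd_pow {F : Type u} [Field F] {ι : Type v} [Fintype ι] [DecidableEq ι]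
    (M : Matrix ι ι F) (μ : F[X]) (hμ : aeval M μ = 0) :
    M.charpoly ∣ μ ^ Fintype.card ι := by
  have hA : aeval (algebraMap F[X] (Matrix ι ι F[X]) X) μ = algebraMap F[X] (Matrix ι ι F[X]) μ := by
    rw [aeval_algebraMap_apply, aeval_X_left_apply]
  have hB : aeval ((C : F →+* F[X]).mapMatrix M) μ = 0 := by
    have h1 := aeval_algHom_apply (AlgHom.mapMatrix (m := ι) (CAlgHom : F →ₐ[F] F[X])) M μ
    rw [hμ, map_zero] at h1
    exact h1
  obtain ⟨Q, hQ⟩ := commute_sub_dvd_aeval_sub (F := F)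
    (algebraMap F[X] (Matrix ι ι F[X]) X) ((C : F →+* F[X]).mapMatrix M)
    (Algebra.commutes X _) μ
  rw [hA, hB, sub_zero] at hQ
  have h2 := congrArg Matrix.det hQ
  rw [Matrix.det_mul] at h2
  have h3 : (algebraMap F[X] (Matrix ι ι F[X]) μ).det = μ ^ Fintype.card ι := by
    rw [Algebra.algebraMap_eq_smul_one, Matrix.det_smul, Matrix.det_one, mul_one]
  have h4 : (algebraMap F[X] (Matrix ι ι F[X]) X - (C : F →+* F[X]).mapMatrix M).det =
      M.charpoly := rfl
  rw [h3, h4] at h2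
  exact ⟨_, h2⟩

section simple

variable {F : Type u} [Field F]

/-- `S` has no nontrivial invariant subspaces. -/
def EndSimple {W : Type v} [AddCommGroup W] [Module F W] (S : Module.End F W) : Prop :=
  ∀ W₁ : Submodule F W, (∀ w ∈ W₁, S w ∈ W₁) → W₁ = ⊥ ∨ W₁ = ⊤

theorem aeval_comm_self {W : Type v} [AddCommGroup W] [Module F W] (S : Module.End F W)
    (a : F[X]) : aeval S a * S = S * aeval S a := by
  have h1 : aeval S (a * X) = aeval S (X * a) := by rw [mul_comm]
  rw [map_mul, map_mul, aeval_X] at h1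
  exact h1

theorem ker_aeval_invariant {W : Type v} [AddCommGroup W] [Module F W] (S : Module.End F W)
    (a : F[X]) : ∀ w ∈ LinearMap.ker (aeval S a), S w ∈ LinearMap.ker (aeval S a) := by
  intro w hw
  rw [LinearMap.mem_ker] at hw ⊢
  have := congrArg (fun f => f w) (aeval_comm_self S a)
  simp only [Module.End.mul_apply] at this
  rw [this, hw, map_zero]

theorem EndSimple.cyclic {W : Type v} [AddCommGroup W] [Module F W] {S : Module.End F W}
    (hS : EndSimple S) (v : W) (hv : v ≠ 0) (w : W) : ∃ g : F[X], aeval S g v = w := by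
  let C : Submodule F W := LinearMap.range ((LinearMap.applyₗ v : (W →ₗ[F] W) →ₗ[F] W) ∘ₗ
    (aeval S : F[X] →ₐ[F] Module.End F W).toLinearMap)
  have hC : ∀ w ∈ C, S w ∈ C := by
    rintro _ ⟨h, rfl⟩
    refine ⟨X * h, ?_⟩
    simp [map_mul, aeval_X]
  have hCne : C ≠ ⊥ := by
    intro hbot
    have : v ∈ C := ⟨1, by simp⟩
    rw [hbot, Submodule.mem_bot] at this
    exact hv this
  rcases hS C hC with h1 | h1
  · exact absurd h1 hCne
  · have : w ∈ C := by
      rw [h1]
      exact Submodule.mem_top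
    obtain ⟨h, hh⟩ := this
    exact ⟨h, by simpa using hh⟩

theorem EndSimple.aeval_eq_zero_of_apply {W : Type v} [AddCommGroup W] [Module F W]
    {S : Module.End F W} (hS : EndSimple S) (v : W) (hv : v ≠ 0) (g : F[X])
    (hg : aeval S g v = 0) : aeval S g = 0 := by
  apply LinearMap.ext
  intro w
  obtain ⟨a, rfl⟩ := hS.cyclic v hv w
  have h1 : aeval S g * aeval S a = aeval S a * aeval S g := by
    rw [← map_mul, ← map_mul, mul_comm]
  have h2 := congrArg (fun f => f v) h1
  simp only [Module.End.mul_apply] at h2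
  rw [h2, hg, map_zero]
  rfl

theorem EndSimple.charpoly_eq_minpoly {W : Type v} [AddCommGroup W] [Module F W]
    [FiniteDimensional F W] [Nontrivial W] {S : Module.End F W} (hS : EndSimple S) :
    S.charpoly = minpoly F S := by
  classical
  obtain ⟨v₀, hv₀⟩ := exists_ne (0 : W)
  have hint : IsIntegral F S := IsIntegral.of_finite F S
  have hmonic := minpoly.monic hint
  have hne1 : minpoly F S ≠ 1 := minpoly.ne_one F S
  have hspan : (⊤ : Submodule F W) ≤ Submodule.span F
      (Set.range (fun i : Fin (minpoly F S).natDegree => (S ^ (i : ℕ)) v₀)) := by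
    intro w _
    obtain ⟨g, rfl⟩ := hS.cyclic v₀ hv₀ w
    rw [← aeval_modByMonic_eq_self_of_root (minpoly.aeval F S)]
    have hdeg := natDegree_modByMonic_lt g hmonic hne1
    rw [aeval_eq_sum_range' hdeg, LinearMap.sum_apply]
    refine Submodule.sum_mem _ fun i hi => ?_
    rw [LinearMap.smul_apply]
    exact Submodule.smul_mem _ _ (Submodule.subset_span ⟨⟨i, Finset.mem_range.1 hi⟩, rfl⟩)
  have hfr : Module.finrank F W ≤ (minpoly F S).natDegree := by
    have h1 := finrank_range_le_card (R := F)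
      (fun i : Fin (minpoly F S).natDegree => (S ^ (i : ℕ)) v₀)
    rw [Fintype.card_fin] at h1
    have h2 : Module.finrank F W =
        (Set.range (fun i : Fin (minpoly F S).natDegree => (S ^ (i : ℕ)) v₀)).finrank F := by
      rw [Set.finrank, top_le_iff.1 hspan, finrank_top]
    omega
  exact eq_of_monic_of_dvd_of_natDegree_le hmonic (LinearMap.charpoly_monic S)
    (LinearMap.minpoly_dvd_charpoly S) (by rw [LinearMap.charpoly_natDegree]; exact hfr)

theorem EndSimple.minpoly_prime {W : Type v} [AddCommGroup W] [Module F W]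
    [FiniteDimensional F W] [Nontrivial W] {S : Module.End F W} (hS : EndSimple S) :
    Prime (minpoly F S) := by
  have hint : IsIntegral F S := IsIntegral.of_finite F S
  have hμ0 : minpoly F S ≠ 0 := minpoly.ne_zero hint
  rw [← irreducible_iff_prime, irreducible_iff]
  refine ⟨minpoly.not_isUnit F S, ?_⟩
  intro a b hab
  have ha0 : a ≠ 0 := by
    rintro rfl
    rw [zero_mul] at hab
    exact hμ0 hab
  have hb0 : b ≠ 0 := by
    rintro rfl
    rw [mul_zero] at hab
    exact hμ0 hab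
  have hprod : aeval S a * aeval S b = 0 := by
    rw [← map_mul, ← hab, minpoly.aeval]
  rcases hS (LinearMap.ker (aeval S a)) (ker_aeval_invariant S a) with h1 | h1
  · left
    have hbz : aeval S b = 0 := by
      apply LinearMap.ext
      intro w
      have h2 := congrArg (fun f => f w) hprod
      simp only [Module.End.mul_apply, LinearMap.zero_apply] at h2
      have h3 : aeval S b w ∈ LinearMap.ker (aeval S a) := LinearMap.mem_ker.2 h2
      rw [h1, Submodule.mem_bot] at h3
      exact h3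
    have h4 := minpoly.dvd F S hbz
    rw [hab] at h4
    have h5 : a * b ∣ 1 * b := by rwa [one_mul]
    exact isUnit_of_dvd_one ((mul_dvd_mul_iff_right hb0).1 h5)
  · right
    have haz : aeval S a = 0 := by
      apply LinearMap.ext
      intro w
      have : w ∈ LinearMap.ker (aeval S a) := by
        rw [h1]
        exact Submodule.mem_top
      exact LinearMap.mem_ker.1 this
    have h4 := minpoly.dvd F S haz
    rw [hab] at h4
    have h5 : a * b ∣ a * 1 := by rwa [mul_one]
    exact isUnit_of_dvd_one ((mul_dvd_mul_iff_left ha0).1 h5)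

theorem EndSimple.equiv_of_charpoly_eq {W W' : Type v} [AddCommGroup W] [Module F W]
    [FiniteDimensional F W] [Nontrivial W] [AddCommGroup W'] [Module F W']
    [FiniteDimensional F W'] [Nontrivial W'] {S : Module.End F W} {S' : Module.End F W'}
    (hS : EndSimple S) (hS' : EndSimple S') (hc : S.charpoly = S'.charpoly) :
    ∃ φ : W ≃ₗ[F] W', ∀ w, φ (S w) = S' (φ w) := by
  classical
  obtain ⟨v₀, hv₀⟩ := exists_ne (0 : W)
  obtain ⟨v₀', hv₀'⟩ := exists_ne (0 : W')
  let Ψ : F[X] →ₗ[F] W := (LinearMap.applyₗ v₀ : (W →ₗ[F] W) →ₗ[F] W) ∘ₗ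
    (aeval S : F[X] →ₐ[F] Module.End F W).toLinearMap
  let Ψ' : F[X] →ₗ[F] W' := (LinearMap.applyₗ v₀' : (W' →ₗ[F] W') →ₗ[F] W') ∘ₗ
    (aeval S' : F[X] →ₐ[F] Module.End F W').toLinearMap
  have hΨ : ∀ g, Ψ g = aeval S g v₀ := fun g => rfl
  have hΨ' : ∀ g, Ψ' g = aeval S' g v₀' := fun g => rfl
  have hsurj : Function.Surjective Ψ := fun w => hS.cyclic v₀ hv₀ w
  have hsurj' : Function.Surjective Ψ' := fun w => hS'.cyclic v₀' hv₀' w
  have hker : ∀ g, g ∈ LinearMap.ker Ψ ↔ S.charpoly ∣ g := by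
    intro g
    rw [LinearMap.mem_ker, hΨ]
    constructor
    · intro h
      rw [hS.charpoly_eq_minpoly]
      exact minpoly.dvd F S (hS.aeval_eq_zero_of_apply v₀ hv₀ g h)
    · rintro ⟨a, rfl⟩
      rw [map_mul, LinearMap.aeval_self_charpoly, zero_mul]
      rfl
  have hker' : ∀ g, g ∈ LinearMap.ker Ψ' ↔ S'.charpoly ∣ g := by
    intro g
    rw [LinearMap.mem_ker, hΨ']
    constructor
    · intro h
      rw [hS'.charpoly_eq_minpoly]
      exact minpoly.dvd F S' (hS'.aeval_eq_zero_of_apply v₀' hv₀' g h)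
    · rintro ⟨a, rfl⟩
      rw [map_mul, LinearMap.aeval_self_charpoly, zero_mul]
      rfl
  have hkeq : LinearMap.ker Ψ = LinearMap.ker Ψ' := by
    ext g
    rw [hker, hker', hc]
  let φ : W ≃ₗ[F] W' := (Ψ.quotKerEquivOfSurjective hsurj).symm.trans
    ((Submodule.quotEquivOfEq _ _ hkeq).trans (Ψ'.quotKerEquivOfSurjective hsurj'))
  have hφ : ∀ g, φ (Ψ g) = Ψ' g := by
    intro g
    show (Ψ'.quotKerEquivOfSurjective hsurj') ((Submodule.quotEquivOfEq _ _ hkeq)
      ((Ψ.quotKerEquivOfSurjective hsurj).symm (Ψ g))) = Ψ' g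
    have h1 : (Ψ.quotKerEquivOfSurjective hsurj).symm (Ψ g) = Submodule.Quotient.mk g := by
      rw [LinearEquiv.symm_apply_eq, LinearMap.quotKerEquivOfSurjective_apply_mk]
    rw [h1, Submodule.quotEquivOfEq_mk, LinearMap.quotKerEquivOfSurjective_apply_mk]
  refine ⟨φ, ?_⟩
  intro w
  obtain ⟨g, rfl⟩ := hsurj w
  have h1 : S (Ψ g) = Ψ (X * g) := by
    rw [hΨ, hΨ, map_mul, aeval_X]
    rfl
  have h2 : S' (Ψ' g) = Ψ' (X * g) := by
    rw [hΨ', hΨ', map_mul, aeval_X]
    rfl
  rw [h1, hφ, hφ, h2]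

theorem exists_minimal_invariant_le {V : Type v} [AddCommGroup V] [Module F V]
    [FiniteDimensional F V] (T : Module.End F V) (U₀ : Submodule F V) (hU₀ : U₀ ≠ ⊥)
    (hU₀T : ∀ u ∈ U₀, T u ∈ U₀) :
    ∃ (W : Submodule F V) (hW : ∀ w ∈ W, T w ∈ W), W ≤ U₀ ∧ W ≠ ⊥ ∧
      EndSimple (T.restrict hW) := by
  classical
  have hex : ∃ d, ∃ W : Submodule F V, W ≤ U₀ ∧ W ≠ ⊥ ∧ (∀ w ∈ W, T w ∈ W) ∧
      Module.finrank F W = d := ⟨_, U₀, le_rfl, hU₀, hU₀T, rfl⟩
  obtain ⟨W, hWle, hW0, hWT, hWd⟩ := Nat.find_spec hex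
  refine ⟨W, hWT, hWle, hW0, ?_⟩
  intro W₁ h₁
  have hmapT : ∀ w ∈ W₁.map W.subtype, T w ∈ W₁.map W.subtype := by
    rintro _ ⟨w, hw, rfl⟩
    exact ⟨(T.restrict hWT) w, h₁ w hw, rfl⟩
  by_cases h0 : W₁ = ⊥
  · exact Or.inl h0
  · right
    have hne : W₁.map W.subtype ≠ ⊥ := by
      intro h
      exact h0 (Submodule.map_injective_of_injective W.injective_subtype
        (h.trans (Submodule.map_bot _).symm))
    have hfin := Nat.find_min' hex
      ⟨W₁.map W.subtype, (Submodule.map_subtype_le W W₁).trans hWle, hne, hmapT, rfl⟩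
    have heq : W₁.map W.subtype = W :=
      Submodule.eq_of_le_of_finrank_le (Submodule.map_subtype_le W W₁) (by rw [hWd]; exact hfin)
    apply Submodule.map_injective_of_injective W.injective_subtype
    rw [heq, Submodule.map_subtype_top]

theorem charpoly_of_isCompl {V : Type v} [AddCommGroup V] [Module F V] [FiniteDimensional F V]
    (T : Module.End F V) (W W₁ : Submodule F V) (hW : ∀ w ∈ W, T w ∈ W)
    (hW₁ : ∀ w ∈ W₁, T w ∈ W₁) (hc : IsCompl W W₁) :
    T.charpoly = (T.restrict hW).charpoly * (T.restrict hW₁).charpoly := by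
  have h1 : (Submodule.prodEquivOfIsCompl W W₁ hc).conj
      ((T.restrict hW).prodMap (T.restrict hW₁)) = T := by
    apply LinearMap.ext
    intro v
    obtain ⟨⟨w, w₁⟩, rfl⟩ := (Submodule.prodEquivOfIsCompl W W₁ hc).surjective v
    rw [LinearEquiv.conj_apply_apply, LinearEquiv.symm_apply_apply]
    show ((T.restrict hW w : W) : V) + ((T.restrict hW₁ w₁ : W₁) : V) = T ((w : V) + (w₁ : V))
    rw [map_add]
    rfl
  calc T.charpoly = ((Submodule.prodEquivOfIsCompl W W₁ hc).conj
        ((T.restrict hW).prodMap (T.restrict hW₁))).charpoly := by rw [h1]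
    _ = _ := by rw [LinearEquiv.charpoly_conj, LinearMap.charpoly_prodMap]

theorem restrict_pow_eq_one {V : Type v} [AddCommGroup V] [Module F V] (T : Module.End F V)
    (W : Submodule F V) (hW : ∀ w ∈ W, T w ∈ W) (e : ℕ) (hTe : T ^ e = 1) :
    (T.restrict hW) ^ e = 1 := by
  apply LinearMap.ext
  intro w
  apply Subtype.ext
  have h1 := aeval_restrict_apply T W hW (X ^ e) w
  rw [map_pow, map_pow, aeval_X, aeval_X, hTe] at h1
  exact h1

theorem exists_simple_decomp {V : Type v} [AddCommGroup V] [Module F V] [FiniteDimensional F V]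
    (T : Module.End F V) (e : ℕ) (hTe : T ^ e = 1) (he : (e : F) ≠ 0)
    (U₀ : Submodule F V) (hU₀ : U₀ ≠ ⊥) (hU₀T : ∀ u ∈ U₀, T u ∈ U₀) :
    ∃ (W W₁ : Submodule F V) (hW : ∀ w ∈ W, T w ∈ W) (_ : ∀ w ∈ W₁, T w ∈ W₁),
      W ≤ U₀ ∧ W ≠ ⊥ ∧ IsCompl W W₁ ∧ EndSimple (T.restrict hW) := by
  obtain ⟨W, hW, hWle, hW0, hsimple⟩ := exists_minimal_invariant_le T U₀ hU₀ hU₀T
  obtain ⟨π, hπW, hπid, hπT⟩ := maschke_cyclic T e hTe he W hW
  refine ⟨W, LinearMap.ker π, hW, ?_, hWle, hW0, ?_, hsimple⟩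
  · intro w hw
    rw [LinearMap.mem_ker] at hw ⊢
    have := congrArg (fun f => f w) hπT
    simp only [Module.End.mul_apply] at this
    rw [← this, hw, map_zero]
  · constructor
    · rw [disjoint_iff, Submodule.eq_bot_iff]
      rintro v ⟨hv1, hv2⟩
      have := hπid v hv1
      rw [LinearMap.mem_ker.1 hv2] at this
      exact this.symm
    · rw [codisjoint_iff, eq_top_iff]
      intro v _
      have : v = π v + (v - π v) := by abel
      rw [this]
      exact Submodule.add_mem_sup (hπW v) (by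
        rw [LinearMap.mem_ker, map_sub, hπid _ (hπW v), sub_self])

theorem exists_simple_of_prime_dvd_charpoly {V : Type v} [AddCommGroup V] [Module F V]
    [FiniteDimensional F V] (T : Module.End F V) (e : ℕ) (hTe : T ^ e = 1) (he : (e : F) ≠ 0)
    (m : F[X]) (hm : Prime m) (hmm : m.Monic) (hdvd : m ∣ T.charpoly) :
    ∃ (W W₁ : Submodule F V) (hW : ∀ w ∈ W, T w ∈ W) (_ : ∀ w ∈ W₁, T w ∈ W₁),
      W ≠ ⊥ ∧ IsCompl W W₁ ∧ EndSimple (T.restrict hW) ∧ (T.restrict hW).charpoly = m := by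
  classical
  have h1 : T.charpoly ∣ (minpoly F T) ^ (Module.finrank F V) := by
    have h2 := matrix_charpoly_dvd_pow
      (LinearMap.toMatrix (Module.finBasis F V) (Module.finBasis F V) T) (minpoly F T) (by
        have h3 := aeval_algHom_apply
          (LinearMap.toMatrixAlgEquiv (Module.finBasis F V)).toAlgHom T (minpoly F T)
        rw [minpoly.aeval, map_zero] at h3
        exact h3)
    rw [LinearMap.charpoly_toMatrix, Fintype.card_fin] at h2
    exact h2
  have h2 : m ∣ minpoly F T := hm.dvd_of_dvd_pow (hdvd.trans h1)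
  obtain ⟨g, hg⟩ := h2
  have hint : IsIntegral F T := IsIntegral.of_finite F T
  have hg0 : g ≠ 0 := by
    rintro rfl
    rw [mul_zero] at hg
    exact minpoly.ne_zero hint hg
  have hgT : aeval T g ≠ 0 := by
    intro h
    have h3 := minpoly.dvd F T h
    rw [hg] at h3
    have h4 : m * g ∣ 1 * g := by rwa [one_mul]
    exact hm.not_unit (isUnit_of_dvd_one ((mul_dvd_mul_iff_right hg0).1 h4))
  obtain ⟨v, hv⟩ : ∃ v, aeval T g v ≠ 0 := by
    by_contra hcon
    push Not at hcon
    exact hgT (LinearMap.ext hcon)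
  have hker0 : LinearMap.ker (aeval T m) ≠ ⊥ := by
    intro h
    have : aeval T g v ∈ LinearMap.ker (aeval T m) := by
      rw [LinearMap.mem_ker, ← Module.End.mul_apply, ← map_mul, ← hg, minpoly.aeval]
      rfl
    rw [h, Submodule.mem_bot] at this
    exact hv this
  obtain ⟨W, W₁, hW, hW₁, hWle, hW0, hcompl, hsimple⟩ :=
    exists_simple_decomp T e hTe he _ hker0 (ker_aeval_invariant T m)
  refine ⟨W, W₁, hW, hW₁, hW0, hcompl, hsimple, ?_⟩
  haveI : Nontrivial W := Submodule.nontrivial_iff_ne_bot.2 hW0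
  rw [hsimple.charpoly_eq_minpoly]
  have h5 : aeval (T.restrict hW) m = 0 := by
    apply LinearMap.ext
    intro w
    apply Subtype.ext
    rw [aeval_restrict_apply]
    exact LinearMap.mem_ker.1 (hWle w.2)
  obtain ⟨c, hc⟩ := minpoly.dvd F (T.restrict hW) h5
  have hint' : IsIntegral F (T.restrict hW) := IsIntegral.of_finite F _
  rcases hm.irreducible.isUnit_or_isUnit hc with h | h
  · exact absurd h (minpoly.not_isUnit F _)
  · exact eq_of_monic_of_associated (minpoly.monic hint') hmm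
      ⟨h.unit, by rw [IsUnit.unit_spec]; exact hc.symm⟩

theorem glue_equiv {V V' : Type v} [AddCommGroup V] [Module F V] [AddCommGroup V'] [Module F V']
    (T : Module.End F V) (T' : Module.End F V')
    (W W₁ : Submodule F V) (hW : ∀ w ∈ W, T w ∈ W) (hW₁ : ∀ w ∈ W₁, T w ∈ W₁)
    (hc : IsCompl W W₁)
    (U U₁ : Submodule F V') (hU : ∀ w ∈ U, T' w ∈ U) (hU₁ : ∀ w ∈ U₁, T' w ∈ U₁)
    (hc' : IsCompl U U₁)
    (φ₁ : W ≃ₗ[F] U) (hφ₁ : ∀ w, φ₁ ((T.restrict hW) w) = (T'.restrict hU) (φ₁ w))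
    (φ₂ : W₁ ≃ₗ[F] U₁) (hφ₂ : ∀ w, φ₂ ((T.restrict hW₁) w) = (T'.restrict hU₁) (φ₂ w)) :
    ∃ φ : V ≃ₗ[F] V', ∀ v, φ (T v) = T' (φ v) := by
  refine ⟨(Submodule.prodEquivOfIsCompl W W₁ hc).symm.trans
    ((φ₁.prodCongr φ₂).trans (Submodule.prodEquivOfIsCompl U U₁ hc')), ?_⟩
  intro v
  obtain ⟨⟨w, w₁⟩, rfl⟩ := (Submodule.prodEquivOfIsCompl W W₁ hc).surjective v
  have h1 : T ((Submodule.prodEquivOfIsCompl W W₁ hc) (w, w₁)) =
      (Submodule.prodEquivOfIsCompl W W₁ hc) ((T.restrict hW) w, (T.restrict hW₁) w₁) := by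
    show T ((w : V) + (w₁ : V)) = ((T.restrict hW w : W) : V) + ((T.restrict hW₁ w₁ : W₁) : V)
    rw [map_add]
    rfl
  rw [h1]
  simp only [LinearEquiv.trans_apply, LinearEquiv.symm_apply_apply, LinearEquiv.prodCongr_apply,
    hφ₁, hφ₂]
  show ((T'.restrict hU (φ₁ w) : U) : V') + ((T'.restrict hU₁ (φ₂ w₁) : U₁) : V') =
    T' (((φ₁ w : U) : V') + ((φ₂ w₁ : U₁) : V'))
  rw [map_add]
  rfl

/-- Two semisimple endomorphisms (of order dividing `e`, `e` invertible in `F`) with the same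
characteristic polynomial are conjugate. -/
theorem semisimple_equiv_of_charpoly_eq (e : ℕ) (he : (e : F) ≠ 0) :
    ∀ (d : ℕ) (V V' : Type v) [AddCommGroup V] [Module F V] [FiniteDimensional F V]
      [AddCommGroup V'] [Module F V'] [FiniteDimensional F V'] (T : Module.End F V)
      (T' : Module.End F V'),
      Module.finrank F V = d → T ^ e = 1 → T' ^ e = 1 → T.charpoly = T'.charpoly →
      ∃ φ : V ≃ₗ[F] V', ∀ v, φ (T v) = T' (φ v) := by
  intro d
  induction d using Nat.strong_induction_on with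
  | _ d ih =>
    intro V V' _ _ _ _ _ _ T T' hd hTe hTe' hchar
    by_cases hnt : Nontrivial V
    · obtain ⟨W, W₁, hW, hW₁, -, hW0, hcompl, hsimple⟩ :=
        exists_simple_decomp T e hTe he ⊤ top_ne_bot (fun _ _ => Submodule.mem_top)
      haveI : Nontrivial W := Submodule.nontrivial_iff_ne_bot.2 hW0
      have hprime : Prime (T.restrict hW).charpoly := by
        rw [hsimple.charpoly_eq_minpoly]
        exact hsimple.minpoly_prime
      have hdvd : (T.restrict hW).charpoly ∣ T'.charpoly := by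
        rw [← hchar, charpoly_of_isCompl T W W₁ hW hW₁ hcompl]
        exact dvd_mul_right _ _
      obtain ⟨U, U₁, hU, hU₁, hU0, hcompl', hsimple', hcharU⟩ :=
        exists_simple_of_prime_dvd_charpoly T' e hTe' he _ hprime (LinearMap.charpoly_monic _) hdvd
      haveI : Nontrivial U := Submodule.nontrivial_iff_ne_bot.2 hU0
      obtain ⟨φ₁, hφ₁⟩ := hsimple.equiv_of_charpoly_eq hsimple' hcharU.symm
      have hchar₁ : (T.restrict hW₁).charpoly = (T'.restrict hU₁).charpoly := by
        have h1 := charpoly_of_isCompl T W W₁ hW hW₁ hcompl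
        have h2 := charpoly_of_isCompl T' U U₁ hU hU₁ hcompl'
        rw [hchar, h2, hcharU] at h1
        exact (mul_left_cancel₀ hprime.ne_zero h1).symm
      have hlt : Module.finrank F W₁ < d := by
        have h1 := Submodule.finrank_add_eq_of_isCompl hcompl
        have h2 : 0 < Module.finrank F W := Module.finrank_pos
        omega
      obtain ⟨φ₂, hφ₂⟩ := ih _ hlt W₁ U₁ (T.restrict hW₁) (T'.restrict hU₁) rfl
        (restrict_pow_eq_one T W₁ hW₁ e hTe) (restrict_pow_eq_one T' U₁ hU₁ e hTe') hchar₁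
      exact glue_equiv T T' W W₁ hW hW₁ hcompl U U₁ hU hU₁ hcompl' φ₁ hφ₁ φ₂ hφ₂
    · rw [not_nontrivial_iff_subsingleton] at hnt
      have h0 : Module.finrank F V = 0 := Module.finrank_zero_of_subsingleton
      have h0' : Module.finrank F V' = 0 := by
        rw [← LinearMap.charpoly_natDegree T', ← hchar, LinearMap.charpoly_natDegree, h0]
      haveI : Subsingleton V' := Module.finrank_zero_iff.1 h0'
      exact ⟨LinearEquiv.ofSubsingleton V V', fun v => Subsingleton.elim _ _⟩

end simple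

/-- Matrix form: two matrices of order dividing `e` (invertible in `F`) with the same
characteristic polynomial are similar. -/
theorem gl_conj_of_charpoly_eq {F : Type u} [Field F] (e : ℕ) (he : (e : F) ≠ 0) {n : ℕ}
    (A B : Matrix (Fin n) (Fin n) F) (hA : A ^ e = 1) (hB : B ^ e = 1)
    (hc : A.charpoly = B.charpoly) :
    ∃ P : Matrix (Fin n) (Fin n) F, P.det ≠ 0 ∧ P * A = B * P := by
  classical
  have hpow : ∀ (M : Matrix (Fin n) (Fin n) F) (k : ℕ),
      (Matrix.toLin' M : Module.End F (Fin n → F)) ^ k = Matrix.toLin' (M ^ k) := by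
    intro M k
    induction k with
    | zero =>
      rw [pow_zero, pow_zero, Matrix.toLin'_one]
      rfl
    | succ k ih =>
      rw [pow_succ, pow_succ, Matrix.toLin'_mul, ih]
      rfl
  obtain ⟨φ, hφ⟩ := semisimple_equiv_of_charpoly_eq e he _ (Fin n → F) (Fin n → F)
    (Matrix.toLin' A) (Matrix.toLin' B) rfl
    (by rw [hpow, hA, Matrix.toLin'_one]; rfl) (by rw [hpow, hB, Matrix.toLin'_one]; rfl)
    (by rw [Matrix.charpoly_toLin', Matrix.charpoly_toLin', hc])
  refine ⟨LinearMap.toMatrix' (φ : (Fin n → F) →ₗ[F] (Fin n → F)), ?_, ?_⟩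
  · rw [LinearMap.det_toMatrix']
    exact (LinearEquiv.isUnit_det' φ).ne_zero
  · have h2 : (φ : (Fin n → F) →ₗ[F] (Fin n → F)) ∘ₗ Matrix.toLin' A =
        Matrix.toLin' B ∘ₗ (φ : (Fin n → F) →ₗ[F] (Fin n → F)) := LinearMap.ext hφ
    have := congrArg LinearMap.toMatrix' h2
    rw [LinearMap.toMatrix'_comp, LinearMap.toMatrix'_comp, LinearMap.toMatrix'_toLin',
      LinearMap.toMatrix'_toLin'] at this
    exact this

/-- Semisimple elements of `SL_n(F)` with the same characteristic polynomial are conjugate in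
`SL_n(F)`. -/
theorem sl_conj_of_charpoly_eq {F : Type u} [Field F] [Fintype F] (p : ℕ) [Fact p.Prime]
    [CharP F p] (n : ℕ) (g h : Matrix.SpecialLinearGroup (Fin n) F)
    (hg : (orderOf g).Coprime p) (hh : (orderOf h).Coprime p)
    (hc : (g : Matrix (Fin n) (Fin n) F).charpoly = (h : Matrix (Fin n) (Fin n) F).charpoly) :
    IsConj g h := by
  classical
  by_cases hn : n = 0
  · subst hn
    have : g = h := by
      apply Subtype.ext
      ext i
      exact i.elim0
    rw [this]
  · obtain ⟨e, he⟩ : ∃ e, e = orderOf g * orderOf h := ⟨_, rfl⟩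
    have hcop : e.Coprime p := by
      rw [he]
      exact Nat.Coprime.mul_left hg hh
    have heF : (e : F) ≠ 0 := by
      rw [Ne, CharP.cast_eq_zero_iff F p]
      intro hdvd
      exact (Fact.out : p.Prime).ne_one (hcop.symm.eq_one_of_dvd hdvd)
    have hge : (g : Matrix (Fin n) (Fin n) F) ^ e = 1 := by
      rw [← Matrix.SpecialLinearGroup.coe_pow, he, pow_mul, pow_orderOf_eq_one, one_pow]
      rfl
    have hhe : (h : Matrix (Fin n) (Fin n) F) ^ e = 1 := by
      rw [← Matrix.SpecialLinearGroup.coe_pow, he, mul_comm, pow_mul, pow_orderOf_eq_one, one_pow]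
      rfl
    obtain ⟨P, hP0, hP⟩ := gl_conj_of_charpoly_eq e heF _ _ hge hhe hc
    have hordG : (orderOf (Matrix.SpecialLinearGroup.toGL g)).Coprime p := by
      rw [orderOf_injective Matrix.SpecialLinearGroup.toGL
        Matrix.SpecialLinearGroup.toGL_injective g]
      exact hg
    obtain ⟨c, hcx, hcdet⟩ := exists_commuting_det hn (Matrix.SpecialLinearGroup.toGL g) hordG
      P.det⁻¹ (inv_ne_zero hP0)
    have hcg : (c : Matrix (Fin n) (Fin n) F) * (g : Matrix (Fin n) (Fin n) F) =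
        (g : Matrix (Fin n) (Fin n) F) * (c : Matrix (Fin n) (Fin n) F) :=
      congrArg Units.val hcx
    have hz : (P * (c : Matrix (Fin n) (Fin n) F)).det = 1 := by
      rw [Matrix.det_mul, hcdet, mul_inv_cancel₀ hP0]
    obtain ⟨z, hz'⟩ : ∃ z : Matrix.SpecialLinearGroup (Fin n) F,
        (z : Matrix (Fin n) (Fin n) F) = P * (c : Matrix (Fin n) (Fin n) F) :=
      ⟨⟨P * (c : Matrix (Fin n) (Fin n) F), hz⟩, rfl⟩
    rw [isConj_iff]
    refine ⟨z, ?_⟩
    rw [mul_inv_eq_iff_eq_mul]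
    apply Subtype.ext
    show (z : Matrix (Fin n) (Fin n) F) * (g : Matrix (Fin n) (Fin n) F) =
      (h : Matrix (Fin n) (Fin n) F) * (z : Matrix (Fin n) (Fin n) F)
    rw [hz', mul_assoc, hcg, ← mul_assoc, hP, mul_assoc]

end Cfsg.Agent.Lib.Helper4
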