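import Mathlib
import Cfsg.Agent.Lib.Helper4.SemisimpleConj

set_option autoImplicit false

namespace Cfsg.Agent.Lib.Helper4

universe u

open Polynomial

/-- Every monic polynomial with nonzero constant term is the characteristic polynomial of an
endomorphism of finite order prime to the characteristic (over a finite field). -/
theorem exists_semisimple_model {F : Type u} [Field F] [Fintype F] (p : ℕ) [Fact p.Prime]
    [CharP F p] :
    ∀ (d : ℕ) (f : F[X]), f.Monic → f.natDegree = d → f.coeff 0 ≠ 0 →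
      ∃ (V : Type u) (_ : AddCommGroup V) (_ : Module F V) (_ : FiniteDimensional F V)
        (T : Module.End F V) (e : ℕ), e.Coprime p ∧ T ^ e = 1 ∧ T.charpoly = f := by
  classical
  intro d
  induction d using Nat.strong_induction_on with
  | _ d ih =>
    intro f hfm hfd hf0
    by_cases hd : d = 0
    · have hf1 : f = 1 := eq_one_of_monic_natDegree_zero hfm (hfd.trans hd)
      refine ⟨PUnit, inferInstance, inferInstance, inferInstance, 1, 1, Nat.coprime_one_left p,
        pow_one 1, ?_⟩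
      rw [hf1]
      exact eq_one_of_monic_natDegree_zero (LinearMap.charpoly_monic _)
        (by rw [LinearMap.charpoly_natDegree]; exact Module.finrank_zero_of_subsingleton)
    · have hf00 : f ≠ 0 := hfm.ne_zero
      have hnu : ¬ IsUnit f := not_isUnit_of_natDegree_pos f (by omega)
      obtain ⟨f₁, hf₁, hf₁dvd⟩ := WfDvdMonoid.exists_irreducible_factor hnu hf00
      obtain ⟨g₁, hg₁def⟩ : ∃ g₁ : F[X], g₁ = normalize f₁ := ⟨_, rfl⟩
      have hg₁m : g₁.Monic := by
        rw [hg₁def]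
        exact monic_normalize hf₁.ne_zero
      have hg₁ : Irreducible g₁ := by
        rw [hg₁def]
        exact (normalize_associated f₁).symm.irreducible hf₁
      have hg₁dvd : g₁ ∣ f := by
        rw [hg₁def]
        exact normalize_dvd_iff.2 hf₁dvd
      obtain ⟨f₂, hf₂⟩ := hg₁dvd
      have hf₂m : f₂.Monic := hg₁m.of_mul_monic_left (hf₂ ▸ hfm)
      have hdeg : g₁.natDegree + f₂.natDegree = d := by
        rw [← hfd, hf₂, hg₁m.natDegree_mul hf₂m]
      have hg₁pos : 0 < g₁.natDegree := hg₁.natDegree_pos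
      have hc0 : g₁.coeff 0 * f₂.coeff 0 ≠ 0 := by
        rw [← mul_coeff_zero, ← hf₂]
        exact hf0
      have hg₁0 : g₁.coeff 0 ≠ 0 := left_ne_zero_of_mul hc0
      have hf₂0 : f₂.coeff 0 ≠ 0 := right_ne_zero_of_mul hc0
      obtain ⟨V₂, i1, i2, i3, T₂, e₂, he₂, hT₂e, hT₂⟩ :=
        ih f₂.natDegree (by omega) f₂ hf₂m rfl hf₂0
      haveI : Fact (Irreducible g₁) := ⟨hg₁⟩
      have hg₁ne : g₁ ≠ 0 := hg₁.ne_zero
      haveI : Module.Finite F (AdjoinRoot g₁) := (AdjoinRoot.powerBasis hg₁ne).finite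
      haveI : Finite (AdjoinRoot g₁) := Module.finite_of_finite F
      haveI : Fintype (AdjoinRoot g₁) := Fintype.ofFinite _
      have hroot0 : AdjoinRoot.root g₁ ≠ 0 := by
        intro h0
        have h1 : g₁ ∣ X := by
          rw [← AdjoinRoot.mk_eq_zero, AdjoinRoot.mk_X]
          exact h0
        have h2 : g₁ = X :=
          eq_of_monic_of_associated hg₁m monic_X (hg₁.associated_of_dvd irreducible_X h1)
        rw [h2, coeff_X_zero] at hg₁0
        exact hg₁0 rfl
      obtain ⟨e₁, he₁def⟩ : ∃ e₁ : ℕ, e₁ = Fintype.card (AdjoinRoot g₁) - 1 := ⟨_, rfl⟩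
      have hroote : AdjoinRoot.root g₁ ^ e₁ = 1 := by
        rw [he₁def]
        exact FiniteField.pow_card_sub_one_eq_one _ hroot0
      have he₁ : e₁.Coprime p := by
        have hpF : p ∣ Fintype.card F := by
          rw [← CharP.cast_eq_zero_iff F p]
          exact Nat.cast_card_eq_zero F
        have hpK : p ∣ Fintype.card (AdjoinRoot g₁) := by
          rw [← Nat.card_eq_fintype_card, Module.natCard_eq_pow_finrank (K := F),
            Nat.card_eq_fintype_card]
          have h2 : 0 < Module.finrank F (AdjoinRoot g₁) := Module.finrank_pos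
          exact dvd_trans hpF (dvd_pow_self _ h2.ne')
        have hK1 : 1 ≤ Fintype.card (AdjoinRoot g₁) := Fintype.card_pos
        apply Nat.Coprime.symm
        rw [(Fact.out : p.Prime).coprime_iff_not_dvd]
        intro h3
        have h4 : p ∣ 1 := by
          have h5 : Fintype.card (AdjoinRoot g₁) = e₁ + 1 := by omega
          rw [h5] at hpK
          exact (Nat.dvd_add_right h3).1 hpK
        exact (Fact.out : p.Prime).one_lt.ne' (Nat.dvd_one.1 h4)
      obtain ⟨T₁, hT₁def⟩ : ∃ T₁ : Module.End F (AdjoinRoot g₁),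
          T₁ = Algebra.lmul F (AdjoinRoot g₁) (AdjoinRoot.root g₁) := ⟨_, rfl⟩
      have hT₁e : T₁ ^ e₁ = 1 := by
        rw [hT₁def, ← map_pow, hroote, map_one]
      have hT₁c : T₁.charpoly = g₁ := by
        rw [← LinearMap.charpoly_toMatrix T₁ (AdjoinRoot.powerBasis hg₁ne).basis, hT₁def,
          ← Algebra.leftMulMatrix_apply, ← AdjoinRoot.powerBasis_gen hg₁ne, charpoly_leftMulMatrix,
          AdjoinRoot.powerBasis_gen, AdjoinRoot.minpoly_root hg₁ne, hg₁m.leadingCoeff, inv_one,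
          C_1, mul_one]
      refine ⟨AdjoinRoot g₁ × V₂, inferInstance, inferInstance, inferInstance,
        T₁.prodMap T₂, e₁ * e₂, Nat.Coprime.mul_left he₁ he₂, ?_, ?_⟩
      · have h1 : ∀ k : ℕ, (T₁.prodMap T₂) ^ k = (T₁ ^ k).prodMap (T₂ ^ k) := by
          intro k
          induction k with
          | zero =>
            rw [pow_zero, pow_zero, pow_zero, LinearMap.prodMap_one]
          | succ k ihk =>
            rw [pow_succ, ihk, LinearMap.prodMap_mul, ← pow_succ, ← pow_succ]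
        rw [h1, pow_mul, hT₁e, one_pow, mul_comm, pow_mul, hT₂e, one_pow, LinearMap.prodMap_one]
      · rw [LinearMap.charpoly_prodMap, hT₁c, hT₂, hf₂]

theorem exists_gl_of_charpoly {F : Type u} [Field F] [Fintype F] (p : ℕ) [Fact p.Prime]
    [CharP F p] (n : ℕ) (f : F[X]) (hfm : f.Monic) (hfd : f.natDegree = n)
    (hf0 : f.coeff 0 ≠ 0) :
    ∃ g : GL (Fin n) F, (orderOf g).Coprime p ∧ (g : Matrix (Fin n) (Fin n) F).charpoly = f := by
  classical
  obtain ⟨V, i1, i2, i3, T, e, he, hTe, hT⟩ := exists_semisimple_model p n f hfm hfd hf0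
  have hfr : Module.finrank F V = n := by
    rw [← LinearMap.charpoly_natDegree T, hT, hfd]
  obtain ⟨M, hM⟩ : ∃ M : Matrix (Fin n) (Fin n) F,
      M = LinearMap.toMatrix (Module.finBasisOfFinrankEq F V hfr)
        (Module.finBasisOfFinrankEq F V hfr) T := ⟨_, rfl⟩
  have hMe : M ^ e = 1 := by
    have h1 := map_pow (LinearMap.toMatrixAlgEquiv (Module.finBasisOfFinrankEq F V hfr)) T e
    rw [hTe, map_one] at h1
    rw [hM]
    exact h1.symm
  have he0 : e ≠ 0 := by
    rintro rfl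
    rw [Nat.coprime_zero_left] at he
    exact (Fact.out : p.Prime).ne_one he
  have hdet : M.det ≠ 0 := by
    intro h0
    have := congrArg Matrix.det hMe
    rw [Matrix.det_pow, h0, zero_pow he0, Matrix.det_one] at this
    exact zero_ne_one this
  refine ⟨Matrix.GeneralLinearGroup.mkOfDetNeZero M hdet, ?_, ?_⟩
  · have h1 : (Matrix.GeneralLinearGroup.mkOfDetNeZero M hdet) ^ e = 1 :=
      Units.ext (by rw [Units.val_pow_eq_pow_val]; exact hMe)
    exact Nat.Coprime.coprime_dvd_left (orderOf_dvd_of_pow_eq_one h1) he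
  · show M.charpoly = f
    rw [hM, LinearMap.charpoly_toMatrix, hT]

theorem gl_isConj_of_charpoly_eq {F : Type u} [Field F] (p : ℕ) [Fact p.Prime] [CharP F p]
    {n : ℕ} (g h : GL (Fin n) F) (hg : (orderOf g).Coprime p) (hh : (orderOf h).Coprime p)
    (hc : (g : Matrix (Fin n) (Fin n) F).charpoly = (h : Matrix (Fin n) (Fin n) F).charpoly) :
    IsConj g h := by
  classical
  obtain ⟨e, he⟩ : ∃ e, e = orderOf g * orderOf h := ⟨_, rfl⟩
  have hcop : e.Coprime p := by
    rw [he]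
    exact Nat.Coprime.mul_left hg hh
  have heF : (e : F) ≠ 0 := by
    rw [Ne, CharP.cast_eq_zero_iff F p]
    intro hdvd
    exact (Fact.out : p.Prime).ne_one (hcop.symm.eq_one_of_dvd hdvd)
  have hge : (g : Matrix (Fin n) (Fin n) F) ^ e = 1 := by
    rw [← Units.val_pow_eq_pow_val, he, pow_mul, pow_orderOf_eq_one, one_pow]
    rfl
  have hhe : (h : Matrix (Fin n) (Fin n) F) ^ e = 1 := by
    rw [← Units.val_pow_eq_pow_val, he, mul_comm, pow_mul, pow_orderOf_eq_one, one_pow]
    rfl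
  obtain ⟨P, hP0, hP⟩ := gl_conj_of_charpoly_eq e heF _ _ hge hhe hc
  rw [isConj_iff]
  refine ⟨Matrix.GeneralLinearGroup.mkOfDetNeZero P hP0, ?_⟩
  rw [mul_inv_eq_iff_eq_mul]
  exact Units.ext hP

theorem monic_coeff_zero_equiv_aux {F : Type u} [Field F] (k : ℕ)
    (a : {f : F[X] // f.Monic ∧ f.natDegree = k + 1}) :
    ((monicEquivDegreeLT (k + 1)).trans (degreeLTEquiv F (k + 1)).toEquiv) a 0 = a.1.coeff 0 := by
  show (a.1.eraseLead).coeff ((0 : Fin (k + 1)) : ℕ) = a.1.coeff 0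
  rw [Fin.val_zero]
  exact eraseLead_coeff_of_ne 0 (by rw [a.2.2]; omega)

theorem monic_coeff_zero_ne_card {F : Type u} [Field F] [Fintype F] (n : ℕ) (hn : 1 ≤ n) :
    Nat.card {a : {f : F[X] // f.Monic ∧ f.natDegree = n} // a.1.coeff 0 ≠ 0} =
      (Fintype.card F - 1) * Fintype.card F ^ (n - 1) := by
  classical
  obtain ⟨k, rfl⟩ : ∃ k, n = k + 1 := ⟨n - 1, by omega⟩
  rw [Nat.card_congr (Equiv.subtypeEquiv
    ((monicEquivDegreeLT (k + 1)).trans (degreeLTEquiv F (k + 1)).toEquiv)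
    (fun a => by rw [monic_coeff_zero_equiv_aux]) :
      {a : {f : F[X] // f.Monic ∧ f.natDegree = k + 1} // a.1.coeff 0 ≠ 0} ≃
        {b : Fin (k + 1) → F // b 0 ≠ 0})]
  rw [Nat.card_congr (Equiv.subtypeEquiv (Fin.consEquiv (fun _ => F)).symm (fun b => Iff.rfl) :
    {b : Fin (k + 1) → F // b 0 ≠ 0} ≃ {x : F × (Fin k → F) // x.1 ≠ 0})]
  rw [Nat.card_congr (Equiv.prodSubtypeFstEquivSubtypeProd (α := F) (β := Fin k → F)
      (p := fun a => a ≠ 0)), Nat.card_prod,
    ← Nat.card_congr unitsEquivNeZero, Nat.card_units, Nat.card_fun, Nat.card_eq_fintype_card,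
    Nat.card_eq_fintype_card, Fintype.card_fin]
  rfl

theorem monic_coeff_zero_eq_card {F : Type u} [Field F] [Fintype F] (n : ℕ) (hn : 1 ≤ n)
    (c : F) :
    Nat.card {a : {f : F[X] // f.Monic ∧ f.natDegree = n} // a.1.coeff 0 = c} =
      Fintype.card F ^ (n - 1) := by
  classical
  obtain ⟨k, rfl⟩ : ∃ k, n = k + 1 := ⟨n - 1, by omega⟩
  rw [Nat.card_congr (Equiv.subtypeEquiv
    ((monicEquivDegreeLT (k + 1)).trans (degreeLTEquiv F (k + 1)).toEquiv)
    (fun a => by rw [monic_coeff_zero_equiv_aux]) :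
      {a : {f : F[X] // f.Monic ∧ f.natDegree = k + 1} // a.1.coeff 0 = c} ≃
        {b : Fin (k + 1) → F // b 0 = c})]
  rw [Nat.card_congr (Equiv.subtypeEquiv (Fin.consEquiv (fun _ => F)).symm (fun b => Iff.rfl) :
    {b : Fin (k + 1) → F // b 0 = c} ≃ {x : F × (Fin k → F) // x.1 = c})]
  rw [Nat.card_congr (Equiv.prodSubtypeFstEquivSubtypeProd (α := F) (β := Fin k → F)
      (p := fun a => a = c)), Nat.card_prod,
    Nat.card_eq_fintype_card, Fintype.card_subtype_eq, one_mul, Nat.card_fun,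
    Nat.card_eq_fintype_card, Nat.card_eq_fintype_card, Fintype.card_fin]
  rfl

/-- The number of semisimple classes of `GL_n(F_q)` is `(q-1) q^(n-1)`. -/
theorem gl_semisimple_classes_card {F : Type u} [Field F] [Fintype F] (p : ℕ) [Fact p.Prime]
    [CharP F p] (n : ℕ) (hn : 1 ≤ n) :
    Nat.card {c : ConjClasses (GL (Fin n) F) //
        ∃ g : GL (Fin n) F, ConjClasses.mk g = c ∧ (orderOf g).Coprime p} =
      (Fintype.card F - 1) * Fintype.card F ^ (n - 1) := by
  classical
  rw [← monic_coeff_zero_ne_card n hn]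
  apply Nat.card_congr
  refine Equiv.ofBijective (fun c =>
    ⟨⟨(c.2.choose : Matrix (Fin n) (Fin n) F).charpoly, Matrix.charpoly_monic _, by
      rw [Matrix.charpoly_natDegree_eq_dim, Fintype.card_fin]⟩, ?_⟩) ⟨?_, ?_⟩
  · intro h0
    have h1 := Matrix.det_eq_sign_charpoly_coeff (c.2.choose : Matrix (Fin n) (Fin n) F)
    change (c.2.choose : Matrix (Fin n) (Fin n) F).charpoly.coeff 0 = 0 at h0
    rw [h0, mul_zero] at h1
    exact ((Matrix.isUnit_iff_isUnit_det _).1 c.2.choose.isUnit).ne_zero h1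
  · rintro ⟨c, hc⟩ ⟨c', hc'⟩ heq
    have h1 : (hc.choose : Matrix (Fin n) (Fin n) F).charpoly =
        (hc'.choose : Matrix (Fin n) (Fin n) F).charpoly := congrArg (fun x => x.1.1) heq
    obtain ⟨hm, ho⟩ := hc.choose_spec
    obtain ⟨hm', ho'⟩ := hc'.choose_spec
    apply Subtype.ext
    show c = c'
    rw [← hm, ← hm', ConjClasses.mk_eq_mk_iff_isConj]
    exact gl_isConj_of_charpoly_eq p _ _ ho ho' h1
  · rintro ⟨⟨f, hfm, hfd⟩, hf0⟩
    obtain ⟨g, hg, hgf⟩ := exists_gl_of_charpoly p n f hfm hfd hf0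
    have hex : ∃ g' : GL (Fin n) F,
        ConjClasses.mk g' = ConjClasses.mk g ∧ (orderOf g').Coprime p := ⟨g, rfl, hg⟩
    refine ⟨⟨ConjClasses.mk g, hex⟩, ?_⟩
    apply Subtype.ext
    apply Subtype.ext
    show (hex.choose : Matrix (Fin n) (Fin n) F).charpoly = f
    obtain ⟨hspec, -⟩ := hex.choose_spec
    obtain ⟨g', hg'⟩ : ∃ g' : GL (Fin n) F, g' = hex.choose := ⟨_, rfl⟩
    rw [← hg'] at hspec ⊢
    rw [ConjClasses.mk_eq_mk_iff_isConj, isConj_iff] at hspec
    obtain ⟨y, hy⟩ := hspec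
    rw [← hgf, ← hy, Units.val_mul, Units.val_mul, Matrix.coe_units_inv]
    exact (Matrix.charpoly_units_conj y (g' : Matrix (Fin n) (Fin n) F)).symm

/-- The number of semisimple classes of `SL_n(F_q)` is `q^(n-1)`. -/
theorem sl_semisimple_classes_card {F : Type u} [Field F] [Fintype F] (p : ℕ) [Fact p.Prime]
    [CharP F p] (n : ℕ) (hn : 1 ≤ n) :
    Nat.card {c : ConjClasses (Matrix.SpecialLinearGroup (Fin n) F) //
        ∃ g : Matrix.SpecialLinearGroup (Fin n) F,
          ConjClasses.mk g = c ∧ (orderOf g).Coprime p} =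
      Fintype.card F ^ (n - 1) := by
  classical
  have hsq : ((-1 : F) ^ n) * ((-1) ^ n) = 1 := by
    rw [← mul_pow]
    simp
  rw [← monic_coeff_zero_eq_card n hn ((-1 : F) ^ n)]
  apply Nat.card_congr
  refine Equiv.ofBijective (fun c =>
    ⟨⟨(c.2.choose : Matrix (Fin n) (Fin n) F).charpoly, Matrix.charpoly_monic _, by
      rw [Matrix.charpoly_natDegree_eq_dim, Fintype.card_fin]⟩, ?_⟩) ⟨?_, ?_⟩
  · have h1 := Matrix.det_eq_sign_charpoly_coeff (c.2.choose : Matrix (Fin n) (Fin n) F)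
    rw [c.2.choose.2, Fintype.card_fin] at h1
    show (c.2.choose : Matrix (Fin n) (Fin n) F).charpoly.coeff 0 = (-1) ^ n
    calc (c.2.choose : Matrix (Fin n) (Fin n) F).charpoly.coeff 0
        = ((-1 : F) ^ n * (-1) ^ n) *
            (c.2.choose : Matrix (Fin n) (Fin n) F).charpoly.coeff 0 := by rw [hsq, one_mul]
      _ = (-1 : F) ^ n * ((-1) ^ n *
            (c.2.choose : Matrix (Fin n) (Fin n) F).charpoly.coeff 0) := by ring
      _ = (-1) ^ n := by rw [← h1, mul_one]
  · rintro ⟨c, hc⟩ ⟨c', hc'⟩ heq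
    have h1 : (hc.choose : Matrix (Fin n) (Fin n) F).charpoly =
        (hc'.choose : Matrix (Fin n) (Fin n) F).charpoly := congrArg (fun x => x.1.1) heq
    obtain ⟨hm, ho⟩ := hc.choose_spec
    obtain ⟨hm', ho'⟩ := hc'.choose_spec
    apply Subtype.ext
    show c = c'
    rw [← hm, ← hm', ConjClasses.mk_eq_mk_iff_isConj]
    exact sl_conj_of_charpoly_eq p n _ _ ho ho' h1
  · rintro ⟨⟨f, hfm, hfd⟩, hf0⟩
    have hf0' : f.coeff 0 ≠ 0 := by
      have h : f.coeff 0 = (-1) ^ n := hf0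
      rw [h]
      exact pow_ne_zero _ (neg_ne_zero.2 one_ne_zero)
    obtain ⟨g, hg, hgf⟩ := exists_gl_of_charpoly p n f hfm hfd hf0'
    have hdet : (g : Matrix (Fin n) (Fin n) F).det = 1 := by
      have h : f.coeff 0 = (-1) ^ n := hf0
      rw [Matrix.det_eq_sign_charpoly_coeff, Fintype.card_fin, hgf, h, hsq]
    obtain ⟨s, hs⟩ : ∃ s : Matrix.SpecialLinearGroup (Fin n) F,
        (s : Matrix (Fin n) (Fin n) F) = g := ⟨⟨g, hdet⟩, rfl⟩
    have hsg : Matrix.SpecialLinearGroup.toGL s = g := Units.ext hs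
    have hso : (orderOf s).Coprime p := by
      rw [← orderOf_injective Matrix.SpecialLinearGroup.toGL
        Matrix.SpecialLinearGroup.toGL_injective s, hsg]
      exact hg
    have hex : ∃ g' : Matrix.SpecialLinearGroup (Fin n) F,
        ConjClasses.mk g' = ConjClasses.mk s ∧ (orderOf g').Coprime p := ⟨s, rfl, hso⟩
    refine ⟨⟨ConjClasses.mk s, hex⟩, ?_⟩
    apply Subtype.ext
    apply Subtype.ext
    show (hex.choose : Matrix (Fin n) (Fin n) F).charpoly = f
    obtain ⟨hspec, -⟩ := hex.choose_spec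
    obtain ⟨s', hs'⟩ : ∃ s' : Matrix.SpecialLinearGroup (Fin n) F, s' = hex.choose := ⟨_, rfl⟩
    rw [← hs'] at hspec ⊢
    rw [ConjClasses.mk_eq_mk_iff_isConj, isConj_iff] at hspec
    obtain ⟨y, hy⟩ := hspec
    have h3 : ((Matrix.SpecialLinearGroup.toGL y)⁻¹ : GL (Fin n) F) =
        Matrix.SpecialLinearGroup.toGL y⁻¹ := (map_inv _ y).symm
    have h2 : (s : Matrix (Fin n) (Fin n) F) =
        ((Matrix.SpecialLinearGroup.toGL y : GL (Fin n) F) : Matrix (Fin n) (Fin n) F) *
          (s' : Matrix (Fin n) (Fin n) F) *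
          (((Matrix.SpecialLinearGroup.toGL y)⁻¹ : GL (Fin n) F) : Matrix (Fin n) (Fin n) F) := by
      rw [h3, ← hy]
      rfl
    rw [← hgf, ← hs, h2, Matrix.coe_units_inv]
    exact (Matrix.charpoly_units_conj (Matrix.SpecialLinearGroup.toGL y)
      (s' : Matrix (Fin n) (Fin n) F)).symm

end Cfsg.Agent.Lib.Helper4
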