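import Mathlib

set_option autoImplicit false

namespace Cfsg.Agent.Lib.Helper4

variable {X : Type*} [Group X]

theorem shin_pow_succ_apply (σ : MulAut X) (n : ℕ) (a : X) : (σ ^ (n + 1)) a = (σ ^ n) (σ a) := by
  rw [pow_succ]; rfl

theorem shin_pow_succ_apply' (σ : MulAut X) (n : ℕ) (a : X) : (σ ^ (n + 1)) a = σ ((σ ^ n) a) := by
  rw [pow_succ']; rfl

theorem shin_fix_pow (σ : MulAut X) (x : X) (h : σ x = x) (n : ℕ) : (σ ^ n) x = x := by
  induction n with
  | zero => simp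
  | succ n ih => rw [shin_pow_succ_apply, h, ih]

theorem shin_tele (σ : MulAut X) (a : X) (n : ℕ) :
    ((List.range n).map (fun i => (σ ^ i) (a * (σ a)⁻¹))).prod = a * ((σ ^ n) a)⁻¹ := by
  induction n with
  | zero => simp
  | succ n ih =>
    rw [List.range_succ, List.map_append, List.prod_append, ih]
    simp only [List.map_cons, List.map_nil, List.prod_cons, List.prod_nil, mul_one, map_mul, map_inv]
    rw [shin_pow_succ_apply σ n a]
    group

theorem shin_x_fixed (σ : MulAut X) (e : ℕ) (a : X)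
    (hg : (σ ^ e) (a * (σ a)⁻¹) = a * (σ a)⁻¹) :
    σ (((σ ^ e) a)⁻¹ * a) = ((σ ^ e) a)⁻¹ * a := by
  have h1 : (σ ^ e) (σ a) = σ ((σ ^ e) a) := by
    rw [← shin_pow_succ_apply, shin_pow_succ_apply']
  rw [map_mul, map_inv, h1] at hg
  rw [map_mul, map_inv]
  -- hg : A * (σ A)⁻¹ = a * (σ a)⁻¹
  have : (σ ((σ ^ e) a))⁻¹ = ((σ ^ e) a)⁻¹ * (a * (σ a)⁻¹) := by
    rw [← hg]; group
  rw [this]; group

end Cfsg.Agent.Lib.Helper4
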