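import Mathlib
import Cfsg.Prelude.Def_ClassicalGeometry
import Cfsg.Agent.Lib.Helper4.SpTransvGen
import Cfsg.Agent.Lib.Helper4.SpTransitive
import Cfsg.Agent.Lib.Helper4.SpQuadCharTwo

set_option autoImplicit false

namespace Cfsg.Agent.Lib.Helper4

open Matrix
open scoped LinearAlgebra.Projectivization
open scoped Pointwise

universe u

section

variable {F : Type u} [Field F] {m : ℕ}

theorem sp_act (A : Matrix.symplecticGroup (Fin m) F) :
    ∃ g : ↥(Cfsg.spGL m F), ∀ v : Fin m ⊕ Fin m → F, g • v = A.1 *ᵥ v := by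
  have hdet : A.1.det ≠ 0 := (SymplecticGroup.symplectic_det A.2).ne_zero
  refine ⟨⟨Matrix.GeneralLinearGroup.mkOfDetNeZero A.1 hdet, ?_⟩, fun v => rfl⟩
  intro u v
  exact sympForm_mulVec A.1 A.2 u v

theorem sp_smul_mk (g : ↥(Cfsg.spGL m F)) (v : Fin m ⊕ Fin m → F) (hv : v ≠ 0)
    (w : Fin m ⊕ Fin m → F) (hw : w ≠ 0) (h : g • v = w) :
    g • Projectivization.mk F v hv = Projectivization.mk F w hw := by
  subst h
  exact Projectivization.smul_mk g.1 hv

theorem sp_block_tool {B : Set (ℙ F (Fin m ⊕ Fin m → F))}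
    (hB : MulAction.IsBlock ↥(Cfsg.spGL m F) B)
    (A : Matrix.symplecticGroup (Fin m) F) (a : Fin m ⊕ Fin m → F) (ha : a ≠ 0)
    (haB : Projectivization.mk F a ha ∈ B) (hAa : A.1 *ᵥ a = a)
    (b : Fin m ⊕ Fin m → F) (hb : b ≠ 0) (hbB : Projectivization.mk F b hb ∈ B)
    (w : Fin m ⊕ Fin m → F) (hw : w ≠ 0) (hAb : A.1 *ᵥ b = w) :
    Projectivization.mk F w hw ∈ B := by
  obtain ⟨g, hg⟩ := sp_act A
  have h1 : g • Projectivization.mk F a ha = Projectivization.mk F a ha :=
    sp_smul_mk g a ha a ha (by rw [hg, hAa])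
  have h2 : g • Projectivization.mk F b hb = Projectivization.mk F w hw :=
    sp_smul_mk g b hb w hw (by rw [hg, hAb])
  rcases MulAction.isBlock_iff_smul_eq_or_disjoint.mp hB g with h | h
  · rw [← h2, ← h]
    exact Set.smul_mem_smul_set hbB
  · exfalso
    have h3 : g • Projectivization.mk F a ha ∈ g • B := Set.smul_mem_smul_set haB
    rw [h1] at h3
    exact Set.disjoint_left.mp h h3 haB

theorem sp_block_l1 {B : Set (ℙ F (Fin m ⊕ Fin m → F))}
    (hB : MulAction.IsBlock ↥(Cfsg.spGL m F) B)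
    (a b w : Fin m ⊕ Fin m → F) (ha : a ≠ 0) (hb : b ≠ 0) (hw : w ≠ 0)
    (haB : Projectivization.mk F a ha ∈ B) (hbB : Projectivization.mk F b hb ∈ B)
    (hab : stdSymp m F a b ≠ 0) (haw : stdSymp m F a w ≠ 0) :
    Projectivization.mk F w hw ∈ B := by
  obtain ⟨c, hc⟩ : ∃ c : F, c = stdSymp m F a b / stdSymp m F a w := ⟨_, rfl⟩
  have hc0 : c ≠ 0 := by rw [hc]; exact div_ne_zero hab haw
  have hw' : c • w ≠ 0 := smul_ne_zero hc0 hw
  have haw' : stdSymp m F a (c • w) = stdSymp m F a b := by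
    rw [map_smul, smul_eq_mul, hc, div_mul_cancel₀ _ haw]
  have hmk : Projectivization.mk F w hw = Projectivization.mk F (c • w) hw' := by
    rw [Projectivization.mk_eq_mk_iff']
    exact ⟨c⁻¹, by rw [smul_smul, inv_mul_cancel₀ hc0, one_smul]⟩
  rw [hmk]
  have hS : ∀ s ∈ ({a} : Set (Fin m ⊕ Fin m → F)),
      Cfsg.sympForm m F s b = Cfsg.sympForm m F s (c • w) := by
    intro s hs
    rw [Set.mem_singleton_iff] at hs
    rw [hs, ← stdSymp_apply, ← stdSymp_apply, haw']
  by_cases hbw : stdSymp m F b (c • w) = 0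
  · have hSz : ∀ s ∈ ({a} : Set (Fin m ⊕ Fin m → F)),
        Cfsg.sympForm m F s b = Cfsg.sympForm m F s (b + a) := by
      intro s hs
      rw [Set.mem_singleton_iff] at hs
      rw [hs, ← stdSymp_apply, ← stdSymp_apply, map_add, stdSymp_alt, add_zero]
    have h1 : Cfsg.sympForm m F b (b + a) ≠ 0 := by
      rw [← stdSymp_apply, map_add, stdSymp_alt, zero_add, alt_swap (stdSymp m F) stdSymp_alt]
      exact neg_ne_zero.mpr hab
    have h2 : Cfsg.sympForm m F (b + a) (c • w) ≠ 0 := by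
      rw [← stdSymp_apply, map_add, LinearMap.add_apply, hbw, zero_add, haw']
      exact hab
    obtain ⟨A, hA, hAb⟩ := transv_move2 {a} b (c • w) (b + a) hS hSz h1 h2
    exact sp_block_tool hB A a ha haB (transvGrp_fix {a} A hA a rfl) b hb hbB _ hw' hAb
  · obtain ⟨A, hA, hAb⟩ := transv_move {a} b (c • w) hS (by rw [← stdSymp_apply]; exact hbw)
    exact sp_block_tool hB A a ha haB (transvGrp_fix {a} A hA a rfl) b hb hbB _ hw' hAb

theorem sp_block_l2 {B : Set (ℙ F (Fin m ⊕ Fin m → F))}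
    (hB : MulAction.IsBlock ↥(Cfsg.spGL m F) B)
    (a b : Fin m ⊕ Fin m → F) (ha : a ≠ 0) (hb : b ≠ 0)
    (haB : Projectivization.mk F a ha ∈ B) (hbB : Projectivization.mk F b hb ∈ B)
    (hab : stdSymp m F a b ≠ 0) (w : Fin m ⊕ Fin m → F) (hw : w ≠ 0) :
    Projectivization.mk F w hw ∈ B := by
  by_cases haw : stdSymp m F a w = 0
  · obtain ⟨z₂, hz₂⟩ : ∃ z, stdSymp m F z w ≠ 0 := by
      by_contra hcon
      push Not at hcon
      apply hw
      apply sympForm_nondeg
      intro y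
      rw [← stdSymp_apply, alt_swap (stdSymp m F) stdSymp_alt, hcon y, neg_zero]
    obtain ⟨z, hz1, hz2⟩ : ∃ z, stdSymp m F a z ≠ 0 ∧ stdSymp m F z w ≠ 0 := by
      by_cases h1 : stdSymp m F b w = 0
      · by_cases h2 : stdSymp m F a z₂ = 0
        · refine ⟨b + z₂, ?_, ?_⟩
          · rw [map_add, h2, add_zero]; exact hab
          · rw [map_add, LinearMap.add_apply, h1, zero_add]; exact hz₂
        · exact ⟨z₂, h2, hz₂⟩
      · exact ⟨b, hab, h1⟩
    have hz : z ≠ 0 := by
      rintro rfl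
      apply hz1
      rw [map_zero]
    have hzB := sp_block_l1 hB a b z ha hb hz haB hbB hab hz1
    refine sp_block_l1 hB z a w hz ha hw hzB haB ?_ hz2
    rw [alt_swap (stdSymp m F) stdSymp_alt]
    exact neg_ne_zero.mpr hz1
  · exact sp_block_l1 hB a b w ha hb hw haB hbB hab haw

theorem sp_block_l3 {B : Set (ℙ F (Fin m ⊕ Fin m → F))}
    (hB : MulAction.IsBlock ↥(Cfsg.spGL m F) B)
    (u u' : Fin m ⊕ Fin m → F) (hu : u ≠ 0) (hu' : u' ≠ 0)
    (huB : Projectivization.mk F u hu ∈ B) (hu'B : Projectivization.mk F u' hu' ∈ B)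
    (hne : Projectivization.mk F u hu ≠ Projectivization.mk F u' hu')
    (huu : stdSymp m F u u' = 0) :
    ∃ (a b : Fin m ⊕ Fin m → F) (ha : a ≠ 0) (hb : b ≠ 0),
      Projectivization.mk F a ha ∈ B ∧ Projectivization.mk F b hb ∈ B ∧ stdSymp m F a b ≠ 0 := by
  obtain ⟨z, hz1, hz2⟩ : ∃ z, stdSymp m F u' z = 0 ∧ stdSymp m F u z ≠ 0 := by
    by_contra hcon
    push Not at hcon
    obtain ⟨z₁, hz₁⟩ : ∃ z, stdSymp m F u' z ≠ 0 := by
      by_contra hcon2
      push Not at hcon2
      apply hu'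
      apply sympForm_nondeg
      intro y
      rw [← stdSymp_apply, hcon2 y]
    apply hne
    rw [Projectivization.mk_eq_mk_iff']
    refine ⟨stdSymp m F u z₁ / stdSymp m F u' z₁, ?_⟩
    symm
    rw [← sub_eq_zero]
    apply sympForm_nondeg
    intro y
    rw [← stdSymp_apply, map_sub, LinearMap.sub_apply, map_smul, LinearMap.smul_apply, smul_eq_mul]
    have h1 := hcon (y - (stdSymp m F u' y / stdSymp m F u' z₁) • z₁) (by
      rw [map_sub, map_smul, smul_eq_mul, div_mul_cancel₀ _ hz₁, sub_self])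
    rw [map_sub, map_smul, smul_eq_mul] at h1
    rw [← h1]; field_simp
  obtain ⟨T, hT⟩ : ∃ T : Matrix.symplecticGroup (Fin m) F, T.1 = Cfsg.sympTransvection m z 1 :=
    ⟨⟨_, sympTransv_mem m z 1⟩, rfl⟩
  have hTu' : T.1 *ᵥ u' = u' := by
    rw [hT, sympTransv_mulVec, ← stdSymp_apply, hz1, mul_zero, zero_smul, add_zero]
  have hTu : T.1 *ᵥ u = u + stdSymp m F u z • z := by
    rw [hT, sympTransv_mulVec, ← stdSymp_apply, one_mul]
  have hf : stdSymp m F u (u + stdSymp m F u z • z) ≠ 0 := by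
    rw [map_add, stdSymp_alt, zero_add, map_smul, smul_eq_mul]
    exact mul_ne_zero hz2 hz2
  have hb : u + stdSymp m F u z • z ≠ 0 := by
    intro h0
    apply hf
    rw [h0, map_zero]
  exact ⟨u, _, hu, hb, huB, sp_block_tool hB T u' hu' hu'B hTu' u hu huB _ hb hTu, hf⟩

theorem sp_preprimitive (m : ℕ) :
    MulAction.IsPreprimitive ↥(Cfsg.spGL m F) (ℙ F (Fin m ⊕ Fin m → F)) := by
  haveI : MulAction.IsPretransitive ↥(Cfsg.spGL m F) (ℙ F (Fin m ⊕ Fin m → F)) := by
    constructor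
    intro x y
    induction x using Projectivization.ind with
    | h v hv =>
      induction y using Projectivization.ind with
      | h w hw =>
        obtain ⟨A, hA⟩ := sp_transitive_nonzero m v w hv hw
        obtain ⟨g, hg⟩ := sp_act A
        exact ⟨g, sp_smul_mk g v hv w hw (by rw [hg]; exact hA)⟩
  constructor
  intro B hB
  by_cases hsub : B.Subsingleton
  · exact Or.inl hsub
  · right
    rw [Set.not_subsingleton_iff] at hsub
    obtain ⟨p, hp, q, hq, hpq⟩ := hsub
    induction p using Projectivization.ind with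
    | h u hu =>
      induction q using Projectivization.ind with
      | h u' hu' =>
        rw [Set.eq_univ_iff_forall]
        intro x
        induction x using Projectivization.ind with
        | h w hw =>
          by_cases huu : stdSymp m F u u' = 0
          · obtain ⟨a, b, ha, hb, haB, hbB, hab⟩ := sp_block_l3 hB u u' hu hu' hp hq hpq huu
            exact sp_block_l2 hB a b ha hb haB hbB hab w hw
          · exact sp_block_l2 hB u u' hu hu' hp hq huu w hw

end

end Cfsg.Agent.Lib.Helper4
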