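import Mathlib
import Cfsg.Prelude.Def_Classical
import Cfsg.Agent.Lib.Helper4.SpPerfect
import Cfsg.Agent.Lib.Helper4.SpPrimitive
import Cfsg.Agent.Lib.Helper4.SpOrder

set_option autoImplicit false

namespace Cfsg.Agent.Lib.Helper4

open Matrix
open scoped LinearAlgebra.Projectivization
open scoped Pointwise

universe u

section

variable {F : Type u} [Field F] {m : ℕ}

theorem mem_symp_of_preserve (M : Matrix (Fin m ⊕ Fin m) (Fin m ⊕ Fin m) F)
    (key : ∀ w w', Cfsg.sympForm m F (M *ᵥ w) (M *ᵥ w') = Cfsg.sympForm m F w w') :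
    M ∈ Matrix.symplecticGroup (Fin m) F := by
  classical
  rw [SymplecticGroup.mem_iff']
  have e1 : ∀ i, (Pi.single i (1 : F) : Fin m ⊕ Fin m → F) =
      fun r => (1 : Matrix (Fin m ⊕ Fin m) (Fin m ⊕ Fin m) F) r i := by
    intro i; funext r; rw [Matrix.one_apply, Pi.single_apply]
  ext i j
  have h1 := key (Pi.single i 1) (Pi.single j 1)
  rw [Matrix.mulVec_single_one, Matrix.mulVec_single_one] at h1
  have h2 := sympForm_col M i j
  have h3 := sympForm_col (1 : Matrix (Fin m ⊕ Fin m) (Fin m ⊕ Fin m) F) i j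
  rw [Matrix.transpose_one, Matrix.one_mul, Matrix.mul_one] at h3
  rw [← h2, ← h3, ← e1, ← e1]
  exact h1

/-- The map from Mathlib's symplectic group to the form-preserving subgroup of `GL`. -/
noncomputable def spToGL (m : ℕ) (F : Type u) [Field F] :
    Matrix.symplecticGroup (Fin m) F →* ↥(Cfsg.spGL m F) where
  toFun A := ⟨Matrix.GeneralLinearGroup.mkOfDetNeZero A.1
    (SymplecticGroup.symplectic_det A.2).ne_zero, fun u v => sympForm_mulVec A.1 A.2 u v⟩
  map_one' := by
    apply Subtype.ext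
    apply Units.ext
    rfl
  map_mul' A B := by
    apply Subtype.ext
    apply Units.ext
    rfl

theorem spToGL_surj : Function.Surjective (spToGL m F) := by
  intro g
  refine ⟨⟨g.1.1, mem_symp_of_preserve _ g.2⟩, ?_⟩
  apply Subtype.ext
  apply Units.ext
  rfl

theorem spToGL_smul (A : Matrix.symplecticGroup (Fin m) F) (v : Fin m ⊕ Fin m → F) :
    spToGL m F A • v = A.1 *ᵥ v := rfl

/-- The action of the symplectic group on projective points. -/
@[reducible] noncomputable def spActP (m : ℕ) (F : Type u) [Field F] :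
    MulAction (Matrix.symplecticGroup (Fin m) F) (ℙ F (Fin m ⊕ Fin m → F)) :=
  MulAction.compHom _ (spToGL m F)

theorem spActP_prim (m : ℕ) :
    @MulAction.IsPreprimitive (Matrix.symplecticGroup (Fin m) F) (ℙ F (Fin m ⊕ Fin m → F))
      (spActP m F).toSMul := by
  letI := spActP m F
  let f : (ℙ F (Fin m ⊕ Fin m → F)) →ₑ[⇑(spToGL m F)] (ℙ F (Fin m ⊕ Fin m → F)) :=
    ⟨id, fun g x => rfl⟩
  exact (MulAction.isPreprimitive_congr (f := f) spToGL_surj Function.bijective_id).2
    (sp_preprimitive m)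

theorem spActP_mk (A : Matrix.symplecticGroup (Fin m) F) (v : Fin m ⊕ Fin m → F) (hv : v ≠ 0)
    (hw : A.1 *ᵥ v ≠ 0) :
    (spActP m F).smul A (Projectivization.mk F v hv) = Projectivization.mk F (A.1 *ᵥ v) hw := by
  exact sp_smul_mk (spToGL m F A) v hv _ hw rfl

theorem sp_mulVec_ne_zero (A : Matrix.symplecticGroup (Fin m) F) (v : Fin m ⊕ Fin m → F)
    (hv : v ≠ 0) : A.1 *ᵥ v ≠ 0 := by
  intro h0
  apply hv
  have h1 : (A⁻¹).1 * A.1 = 1 := congrArg Subtype.val (inv_mul_cancel A)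
  have h2 : ((A⁻¹).1 * A.1) *ᵥ v = 0 := by
    rw [← Matrix.mulVec_mulVec, h0, Matrix.mulVec_zero]
  rw [h1, Matrix.one_mulVec] at h2
  exact h2

theorem tvS_add (v : Fin m ⊕ Fin m → F) (c d : F) :
    tvS m v c * tvS m v d = tvS m v (c + d) := by
  apply Subtype.ext
  simp only [Submonoid.coe_mul, tvS_val]
  apply Matrix.mulVec_injective
  funext x
  simp only [← Matrix.mulVec_mulVec]
  simp only [tv_apply, map_add, map_smul, LinearMap.add_apply, LinearMap.smul_apply, stdSymp_alt,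
    smul_eq_mul, mul_zero, add_zero]
  funext i
  simp only [Pi.add_apply, Pi.smul_apply, smul_eq_mul]
  ring

theorem tvS_smul (w : Fin m ⊕ Fin m → F) (a c : F) :
    tvS m (a • w) c = tvS m w (a ^ 2 * c) := by
  apply Subtype.ext
  simp only [tvS_val]
  apply Matrix.mulVec_injective
  funext x
  simp only [tv_apply, map_smul, smul_eq_mul]
  funext i
  simp only [Pi.add_apply, Pi.smul_apply, smul_eq_mul]
  ring

/-- The group of transvections with a given centre. -/
def tvGrp (m : ℕ) (v : Fin m ⊕ Fin m → F) : Subgroup (Matrix.symplecticGroup (Fin m) F) where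
  carrier := {A | ∃ c : F, A = tvS m v c}
  mul_mem' := by
    rintro _ _ ⟨c, rfl⟩ ⟨d, rfl⟩
    exact ⟨c + d, tvS_add v c d⟩
  one_mem' := ⟨0, (tvS_zero_right v).symm⟩
  inv_mem' := by
    rintro _ ⟨c, rfl⟩
    exact ⟨-c, tvS_inv v c⟩

theorem tvGrp_comm (v : Fin m ⊕ Fin m → F) : IsMulCommutative (tvGrp m v) := by
  refine ⟨⟨fun a b => ?_⟩⟩
  obtain ⟨c, hc⟩ := a.2
  obtain ⟨d, hd⟩ := b.2
  apply Subtype.ext
  show a.1 * b.1 = b.1 * a.1
  rw [hc, hd, tvS_add, tvS_add, add_comm]

theorem tvS_ne_one (v : Fin m ⊕ Fin m → F) (hv : v ≠ 0) : tvS m v 1 ≠ 1 := by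
  intro h
  obtain ⟨y, hy⟩ : ∃ y, stdSymp m F y v ≠ 0 := by
    by_contra hcon
    push Not at hcon
    exact hv ((stdSymp_nondeg m).2 v hcon)
  have h1 : (tvS m v (1 : F)).1 *ᵥ y = (1 : Matrix.symplecticGroup (Fin m) F).1 *ᵥ y := by rw [h]
  have h2 : ((1 : Matrix.symplecticGroup (Fin m) F) : Matrix _ _ F) *ᵥ y = y :=
    Matrix.one_mulVec y
  rw [h2, tvS_val, tv_apply, one_mul] at h1
  exact smul_ne_zero hy hv (add_left_cancel (a := y) (by rw [h1, add_zero]))

theorem sp_normal_dichotomy (m : ℕ) (hm : 1 ≤ m)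
    (hperf : commutator (Matrix.symplecticGroup (Fin m) F) = ⊤)
    (N : Subgroup (Matrix.symplecticGroup (Fin m) F)) [hN : N.Normal] :
    N ≤ Subgroup.center (Matrix.symplecticGroup (Fin m) F) ∨ N = ⊤ := by
  classical
  letI := spActP m F
  haveI : MulAction.IsPreprimitive (Matrix.symplecticGroup (Fin m) F)
    (ℙ F (Fin m ⊕ Fin m → F)) := spActP_prim m
  by_cases hfix : MulAction.fixedPoints N (ℙ F (Fin m ⊕ Fin m → F)) = Set.univ
  · left
    intro n hn
    have heig : ∀ v : Fin m ⊕ Fin m → F, ∃ c : F, n.1 *ᵥ v = c • v := by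
      intro v
      by_cases hv : v = 0
      · exact ⟨0, by rw [hv, Matrix.mulVec_zero, smul_zero]⟩
      have h1 : Projectivization.mk F v hv ∈
          MulAction.fixedPoints N (ℙ F (Fin m ⊕ Fin m → F)) := by
        rw [hfix]
        exact Set.mem_univ _
      have h2 := h1 ⟨n, hn⟩
      have h3 : (spActP m F).smul n (Projectivization.mk F v hv) = Projectivization.mk F v hv :=
        h2
      rw [spActP_mk n v hv (sp_mulVec_ne_zero n v hv), Projectivization.mk_eq_mk_iff] at h3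
      obtain ⟨a, ha⟩ := h3
      exact ⟨a, ha.symm⟩
    have hsc := matrix_scalar_of_eigen n.1 heig (Sum.inl ⟨0, hm⟩)
    rw [Subgroup.mem_center_iff]
    intro g
    apply Subtype.ext
    show g.1 * n.1 = n.1 * g.1
    rw [hsc]
    simp
  · right
    haveI : MulAction.IsPretransitive N (ℙ F (Fin m ⊕ Fin m → F)) :=
      MulAction.IsQuasiPreprimitive.isPretransitive_of_normal hfix
    obtain ⟨v₀, hv₀⟩ : ∃ v₀ : Fin m ⊕ Fin m → F, v₀ ≠ 0 :=
      ⟨Pi.single (Sum.inl ⟨0, hm⟩) 1, by
        intro h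
        have := congrFun h (Sum.inl ⟨0, hm⟩)
        simp at this⟩
    have hsup : N ⊔ tvGrp m v₀ = ⊤ := by
      rw [eq_top_iff, ← sp_gen_transv m F, Subgroup.closure_le]
      rintro A ⟨w, c, hA⟩
      have hA' : A = tvS m w c := Subtype.ext hA
      rw [hA']
      show tvS m w c ∈ N ⊔ tvGrp m v₀
      by_cases hw : w = 0
      · rw [hw, tvS_zero_left]
        exact one_mem _
      obtain ⟨n, hn⟩ := MulAction.exists_smul_eq N (Projectivization.mk F v₀ hv₀)
        (Projectivization.mk F w hw)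
      have h3 : (spActP m F).smul n.1 (Projectivization.mk F v₀ hv₀)
          = Projectivization.mk F w hw := hn
      rw [spActP_mk n.1 v₀ hv₀ (sp_mulVec_ne_zero n.1 v₀ hv₀), Projectivization.mk_eq_mk_iff]
        at h3
      obtain ⟨a, ha⟩ := h3
      have ha0 : (a : F) ≠ 0 := a.ne_zero
      have h4 : tvS m w c = n.1 * tvS m v₀ (c / (a : F) ^ 2) * n.1⁻¹ := by
        rw [tvS_conj, ← ha]
        have h5 : a • w = (a : F) • w := rfl
        rw [h5, tvS_smul]
        congr 1
        field_simp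
      rw [h4]
      exact mul_mem (mul_mem (Subgroup.mem_sup_left n.2) (Subgroup.mem_sup_right ⟨_, rfl⟩))
        (inv_mem (Subgroup.mem_sup_left n.2))
    have hle := hN.commutator_le_of_self_sup_commutative_eq_top hsup (tvGrp_comm v₀)
    rw [hperf] at hle
    exact top_le_iff.1 hle

/-- `PSp_{2m}(q)` is simple for `m ≥ 2`, `(m, q) ≠ (2, 2)`. -/
theorem psp_simple [Fintype F] (m : ℕ) (hm : 2 ≤ m) (h : m = 2 → 3 ≤ Fintype.card F) :
    IsSimpleGroup (Cfsg.PSp m F) := by
  have hperf : commutator (Matrix.symplecticGroup (Fin m) F) = ⊤ := by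
    apply sp_perfect
    by_cases h2 : m = 2
    · exact Or.inr (Or.inl ⟨h2, h h2⟩)
    · exact Or.inl (by omega)
  have hZ : Subgroup.center (Matrix.symplecticGroup (Fin m) F) ≠ ⊤ := by
    intro hZ
    have h1 := (commutator_eq_bot_iff_center_eq_top _).2 hZ
    rw [hperf] at h1
    obtain ⟨v₀, hv₀⟩ : ∃ v₀ : Fin m ⊕ Fin m → F, v₀ ≠ 0 :=
      ⟨Pi.single (Sum.inl ⟨0, by omega⟩) 1, by
        intro h
        have := congrFun h (Sum.inl ⟨0, by omega⟩)
        simp at this⟩
    have h2 : tvS m v₀ 1 ∈ (⊤ : Subgroup (Matrix.symplecticGroup (Fin m) F)) := Subgroup.mem_top _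
    rw [h1, Subgroup.mem_bot] at h2
    exact tvS_ne_one v₀ hv₀ h2
  haveI : Nontrivial (Cfsg.PSp m F) := QuotientGroup.nontrivial_iff.2 hZ
  refine ⟨fun H hH => ?_⟩
  haveI := hH
  obtain hle | htop := sp_normal_dichotomy m (by omega) hperf
    (H.comap (QuotientGroup.mk' (Subgroup.center (Matrix.symplecticGroup (Fin m) F))))
  · left
    rw [eq_bot_iff]
    intro x hx
    obtain ⟨g, rfl⟩ := QuotientGroup.mk_surjective x
    have h3 : g ∈ Subgroup.center (Matrix.symplecticGroup (Fin m) F) := hle hx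
    rw [Subgroup.mem_bot]
    exact (QuotientGroup.eq_one_iff g).2 h3
  · right
    rw [eq_top_iff]
    intro x _
    obtain ⟨g, rfl⟩ := QuotientGroup.mk_surjective x
    have h3 : g ∈ H.comap (QuotientGroup.mk' (Subgroup.center
        (Matrix.symplecticGroup (Fin m) F))) := by
      rw [htop]
      exact Subgroup.mem_top _
    exact h3

end

end Cfsg.Agent.Lib.Helper4
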