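import Mathlib
import Cfsg.Prelude.Def_ClassicalGeometry
import Cfsg.Agent.Lib.Helper4.BlockDecomp
import Cfsg.Agent.Lib.Helper4.SympBasis
import Cfsg.Agent.Lib.Helper4.SpOrder
import Cfsg.Agent.Lib.Helper4.SpQuadCharTwo

set_option autoImplicit false

namespace Cfsg.Agent.Lib.Helper4

open Matrix

universe u

section

variable {F : Type u} [Field F] {m : ℕ}

theorem symp_gram_entry {ι ι' : Type*} (P : Matrix (Fin m ⊕ Fin m) ι F)
    (P' : Matrix (Fin m ⊕ Fin m) ι' F) (i : ι) (j : ι') :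
    (Pᵀ * Matrix.J (Fin m) F * P') i j =
      Cfsg.sympForm m F (fun a => P a i) (fun a => P' a j) := by
  unfold Cfsg.sympForm
  rw [Matrix.mul_assoc, Matrix.mul_apply]
  rfl

set_option maxHeartbeats 1600000 in
theorem sp_stab_nondeg_iso (m k : ℕ) (hk : k ≤ m) (W : Submodule F (Fin m ⊕ Fin m → F))
    (hWk : Module.finrank F W = 2 * k)
    (hW : ∀ u ∈ W, (∀ v ∈ W, Cfsg.sympForm m F u v = 0) → u = 0) :
    Nonempty (↥(Cfsg.stabilizing (Cfsg.spToMat m F) (W : Set (Fin m ⊕ Fin m → F))) ≃*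
      Matrix.symplecticGroup (Fin k) F × Matrix.symplecticGroup (Fin (m - k)) F) := by
  classical
  have hB := stdSymp_nondeg (F := F) m
  have halt : ∀ x, stdSymp m F x x = 0 := stdSymp_alt
  have hrefl : (stdSymp m F).IsRefl := alt_isRefl _ halt
  have hnd1 : ((stdSymp m F).restrict W).Nondegenerate := by
    refine alt_nondeg_of_left _ (fun x => halt x.1) ?_
    intro x hx
    apply Subtype.ext
    apply hW x.1 x.2
    intro v hv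
    rw [← stdSymp_apply]
    exact hx ⟨v, hv⟩
  obtain ⟨b₁, hb₁⟩ := alt_basis ((stdSymp m F).restrict W) (fun x => halt x.1) hnd1 hWk
  obtain ⟨W', hW'⟩ : ∃ W' : Submodule F (Fin m ⊕ Fin m → F),
      W' = (stdSymp m F).orthogonal W := ⟨_, rfl⟩
  have hW'k : Module.finrank F W' = 2 * (m - k) := by
    rw [hW', LinearMap.BilinForm.finrank_orthogonal hB, hWk, Module.finrank_fintype_fun_eq_card]
    simp
    omega
  have hnd2 : ((stdSymp m F).restrict W').Nondegenerate := by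
    refine alt_nondeg_of_left _ (fun x => halt x.1) ?_
    intro x hx
    apply Subtype.ext
    have hx' : x.1 ∈ (stdSymp m F).orthogonal W := by rw [← hW']; exact x.2
    have hxW : x.1 ∈ W := by
      rw [← LinearMap.BilinForm.orthogonal_orthogonal hB hrefl W, ← hW',
        LinearMap.BilinForm.mem_orthogonal_iff]
      intro n hn
      have h1 : stdSymp m F x.1 n = 0 := hx ⟨n, hn⟩
      show stdSymp m F n x.1 = 0
      rw [alt_swap (stdSymp m F) halt, h1, neg_zero]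
    apply hW x.1 hxW
    intro v hv
    have h1 : stdSymp m F v x.1 = 0 := hx' v hv
    rw [← stdSymp_apply, alt_swap (stdSymp m F) halt, h1, neg_zero]
  obtain ⟨b₂, hb₂⟩ := alt_basis ((stdSymp m F).restrict W') (fun x => halt x.1) hnd2 hW'k
  obtain ⟨P₁, hP₁⟩ : ∃ P₁ : Matrix (Fin m ⊕ Fin m) (Fin k ⊕ Fin k) F,
      P₁ = Matrix.of (fun a j => (b₁ j : Fin m ⊕ Fin m → F) a) := ⟨_, rfl⟩
  obtain ⟨P₂, hP₂⟩ : ∃ P₂ : Matrix (Fin m ⊕ Fin m) (Fin (m - k) ⊕ Fin (m - k)) F,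
      P₂ = Matrix.of (fun a j => (b₂ j : Fin m ⊕ Fin m → F) a) := ⟨_, rfl⟩
  have hcol1 : ∀ j, (fun a => P₁ a j) = (b₁ j : Fin m ⊕ Fin m → F) := by
    intro j; rw [hP₁]; rfl
  have hcol2 : ∀ j, (fun a => P₂ a j) = (b₂ j : Fin m ⊕ Fin m → F) := by
    intro j; rw [hP₂]; rfl
  have hR1 : P₁ᵀ * Matrix.J (Fin m) F * P₁ = Matrix.J (Fin k) F := by
    ext i j
    rw [symp_gram_entry, hcol1, hcol1, ← stdSymp_apply, ← hb₁,
      LinearMap.BilinForm.toMatrix_apply]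
    rfl
  have hR2 : P₂ᵀ * Matrix.J (Fin m) F * P₂ = Matrix.J (Fin (m - k)) F := by
    ext i j
    rw [symp_gram_entry, hcol2, hcol2, ← stdSymp_apply, ← hb₂,
      LinearMap.BilinForm.toMatrix_apply]
    rfl
  have hR3 : P₁ᵀ * Matrix.J (Fin m) F * P₂ = 0 := by
    ext i j
    rw [symp_gram_entry, hcol1, hcol2, ← stdSymp_apply]
    have h1 : (b₂ j : Fin m ⊕ Fin m → F) ∈ (stdSymp m F).orthogonal W := by
      rw [← hW']; exact (b₂ j).2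
    exact h1 _ (b₁ i).2
  have hR4 : P₂ᵀ * Matrix.J (Fin m) F * P₁ = 0 := by
    have h1 := congrArg Matrix.transpose hR3
    rw [Matrix.transpose_mul, Matrix.transpose_mul, Matrix.transpose_transpose,
      Matrix.J_transpose, Matrix.transpose_zero, Matrix.neg_mul, Matrix.mul_neg, neg_eq_zero,
      ← Matrix.mul_assoc] at h1
    exact h1
  obtain ⟨Q₁, hQ₁⟩ : ∃ Q₁ : Matrix (Fin k ⊕ Fin k) (Fin m ⊕ Fin m) F,
      Q₁ = -(Matrix.J (Fin k) F) * (P₁ᵀ * Matrix.J (Fin m) F) := ⟨_, rfl⟩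
  obtain ⟨Q₂, hQ₂⟩ : ∃ Q₂ : Matrix (Fin (m - k) ⊕ Fin (m - k)) (Fin m ⊕ Fin m) F,
      Q₂ = -(Matrix.J (Fin (m - k)) F) * (P₂ᵀ * Matrix.J (Fin m) F) := ⟨_, rfl⟩
  have h11 : Q₁ * P₁ = 1 := by
    rw [hQ₁, Matrix.mul_assoc, hR1, Matrix.neg_mul, Matrix.J_squared, neg_neg]
  have h12 : Q₁ * P₂ = 0 := by
    rw [hQ₁, Matrix.mul_assoc, hR3, Matrix.mul_zero]
  have h21 : Q₂ * P₁ = 0 := by
    rw [hQ₂, Matrix.mul_assoc, hR4, Matrix.mul_zero]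
  have h22 : Q₂ * P₂ = 1 := by
    rw [hQ₂, Matrix.mul_assoc, hR2, Matrix.neg_mul, Matrix.J_squared, neg_neg]
  have e : Fin m ⊕ Fin m ≃ (Fin k ⊕ Fin k) ⊕ (Fin (m - k) ⊕ Fin (m - k)) :=
    Fintype.equivOfCardEq (by simp; omega)
  have hsum := block_sum_one e P₁ P₂ Q₁ Q₂ h11 h12 h21 h22
  have hPc : ∀ c : Fin k ⊕ Fin k → F,
      P₁ *ᵥ c = ((∑ j, c j • b₁ j : W) : Fin m ⊕ Fin m → F) := by
    intro c
    ext a
    rw [Submodule.coe_sum]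
    simp only [Matrix.mulVec, dotProduct, Finset.sum_apply, Submodule.coe_smul, Pi.smul_apply,
      smul_eq_mul, hP₁, Matrix.of_apply]
    exact Finset.sum_congr rfl (fun j _ => mul_comm _ _)
  have hWiff : ∀ v : Fin m ⊕ Fin m → F, v ∈ W ↔ Q₂ *ᵥ v = 0 := by
    intro v
    constructor
    · intro hv
      have h1 : v = P₁ *ᵥ (fun j => b₁.repr ⟨v, hv⟩ j) := by
        rw [hPc, b₁.sum_repr]
      rw [h1, Matrix.mulVec_mulVec, h21, Matrix.zero_mulVec]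
    · intro hv
      have h1 : v = P₁ *ᵥ (Q₁ *ᵥ v) := by
        have h2 := congrArg (fun M => M *ᵥ v) hsum
        simp only [Matrix.add_mulVec, Matrix.one_mulVec, ← Matrix.mulVec_mulVec, hv,
          Matrix.mulVec_zero, add_zero] at h2
        exact h2.symm
      rw [h1, hPc]
      exact Submodule.coe_mem _
  have hS1 : ∀ A ∈ Cfsg.stabilizing (Cfsg.spToMat m F) (W : Set (Fin m ⊕ Fin m → F)),
      Q₂ * A.1 * P₁ = 0 := by
    intro A hA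
    ext i j
    have h1 : (Q₂ * A.1 * P₁) i j = ((Q₂ * A.1) *ᵥ (fun a => P₁ a j)) i := rfl
    have h2 : Q₂ *ᵥ (A.1 *ᵥ (b₁ j : Fin m ⊕ Fin m → F)) = 0 :=
      (hWiff _).mp ((hA _).mp (b₁ j).2)
    rw [h1, hcol1, ← Matrix.mulVec_mulVec, h2]
    rfl
  have hAP : ∀ A ∈ Cfsg.stabilizing (Cfsg.spToMat m F) (W : Set (Fin m ⊕ Fin m → F)),
      A.1 * P₁ = P₁ * (Q₁ * A.1 * P₁) := by
    intro A hA
    calc A.1 * P₁ = (P₁ * Q₁ + P₂ * Q₂) * (A.1 * P₁) := by rw [hsum, Matrix.one_mul]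
      _ = P₁ * (Q₁ * A.1 * P₁) + P₂ * (Q₂ * A.1 * P₁) := by
          simp only [Matrix.add_mul, Matrix.mul_assoc]
      _ = _ := by rw [hS1 A hA, Matrix.mul_zero, add_zero]
  have hJA : ∀ A : Matrix.symplecticGroup (Fin m) F,
      Matrix.J (Fin m) F * A.1 = (A⁻¹).1ᵀ * Matrix.J (Fin m) F := by
    intro A
    have h1 := SymplecticGroup.mem_iff'.mp (A⁻¹).2
    have h2 : (A⁻¹).1 * A.1 = 1 := by
      have := congrArg Subtype.val (inv_mul_cancel A)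
      exact this
    calc Matrix.J (Fin m) F * A.1 = ((A⁻¹).1ᵀ * Matrix.J (Fin m) F * (A⁻¹).1) * A.1 := by rw [h1]
      _ = (A⁻¹).1ᵀ * Matrix.J (Fin m) F * ((A⁻¹).1 * A.1) := by simp only [Matrix.mul_assoc]
      _ = _ := by rw [h2, Matrix.mul_one]
  have hS2 : ∀ A ∈ Cfsg.stabilizing (Cfsg.spToMat m F) (W : Set (Fin m ⊕ Fin m → F)),
      Q₁ * A.1 * P₂ = 0 := by
    intro A hA
    have hA' := inv_mem hA
    have h1 := hAP A⁻¹ hA'
    calc Q₁ * A.1 * P₂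
        = -(Matrix.J (Fin k) F) * (P₁ᵀ * (Matrix.J (Fin m) F * A.1) * P₂) := by
          rw [hQ₁]; simp only [Matrix.mul_assoc]
      _ = -(Matrix.J (Fin k) F) * (((A⁻¹).1 * P₁)ᵀ * Matrix.J (Fin m) F * P₂) := by
          rw [hJA A, Matrix.transpose_mul]; simp only [Matrix.mul_assoc]
      _ = -(Matrix.J (Fin k) F) *
            ((Q₁ * (A⁻¹).1 * P₁)ᵀ * (P₁ᵀ * Matrix.J (Fin m) F * P₂)) := by
          rw [h1, Matrix.transpose_mul]; simp only [Matrix.mul_assoc]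
      _ = 0 := by rw [hR3, Matrix.mul_zero, Matrix.mul_zero]
  have hAP2 : ∀ A ∈ Cfsg.stabilizing (Cfsg.spToMat m F) (W : Set (Fin m ⊕ Fin m → F)),
      A.1 * P₂ = P₂ * (Q₂ * A.1 * P₂) := by
    intro A hA
    calc A.1 * P₂ = (P₁ * Q₁ + P₂ * Q₂) * (A.1 * P₂) := by rw [hsum, Matrix.one_mul]
      _ = P₁ * (Q₁ * A.1 * P₂) + P₂ * (Q₂ * A.1 * P₂) := by
          simp only [Matrix.add_mul, Matrix.mul_assoc]
      _ = _ := by rw [hS2 A hA, Matrix.mul_zero, zero_add]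
  have hC1 : ∀ A ∈ Cfsg.stabilizing (Cfsg.spToMat m F) (W : Set (Fin m ⊕ Fin m → F)),
      Q₁ * A.1 * P₁ ∈ Matrix.symplecticGroup (Fin k) F := by
    intro A hA
    rw [SymplecticGroup.mem_iff']
    have h1 := SymplecticGroup.mem_iff'.mp A.2
    have h2 := hAP A hA
    obtain ⟨C, hC⟩ : ∃ C : Matrix (Fin k ⊕ Fin k) (Fin k ⊕ Fin k) F, C = Q₁ * A.1 * P₁ :=
      ⟨_, rfl⟩
    rw [← hC] at h2 ⊢
    calc Cᵀ * Matrix.J (Fin k) F * C
        = (P₁ * C)ᵀ * Matrix.J (Fin m) F * (P₁ * C) := by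
          rw [Matrix.transpose_mul, ← hR1]; simp only [Matrix.mul_assoc]
      _ = P₁ᵀ * (A.1ᵀ * Matrix.J (Fin m) F * A.1) * P₁ := by
          rw [← h2, Matrix.transpose_mul]; simp only [Matrix.mul_assoc]
      _ = _ := by rw [h1, hR1]
  have hC2 : ∀ A ∈ Cfsg.stabilizing (Cfsg.spToMat m F) (W : Set (Fin m ⊕ Fin m → F)),
      Q₂ * A.1 * P₂ ∈ Matrix.symplecticGroup (Fin (m - k)) F := by
    intro A hA
    rw [SymplecticGroup.mem_iff']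
    have h1 := SymplecticGroup.mem_iff'.mp A.2
    have h2 := hAP2 A hA
    obtain ⟨C, hC⟩ : ∃ C : Matrix (Fin (m - k) ⊕ Fin (m - k)) (Fin (m - k) ⊕ Fin (m - k)) F,
        C = Q₂ * A.1 * P₂ := ⟨_, rfl⟩
    rw [← hC] at h2 ⊢
    calc Cᵀ * Matrix.J (Fin (m - k)) F * C
        = (P₂ * C)ᵀ * Matrix.J (Fin m) F * (P₂ * C) := by
          rw [Matrix.transpose_mul, ← hR2]; simp only [Matrix.mul_assoc]
      _ = P₂ᵀ * (A.1ᵀ * Matrix.J (Fin m) F * A.1) * P₂ := by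
          rw [← h2, Matrix.transpose_mul]; simp only [Matrix.mul_assoc]
      _ = _ := by rw [h1, hR2]
  have hR1' : ∀ Z : Matrix (Fin k ⊕ Fin k) (Fin m ⊕ Fin m) F,
      P₁ᵀ * (Matrix.J (Fin m) F * (P₁ * Z)) = Matrix.J (Fin k) F * Z := by
    intro Z; rw [← Matrix.mul_assoc, ← Matrix.mul_assoc, hR1]
  have hR2' : ∀ Z : Matrix (Fin (m - k) ⊕ Fin (m - k)) (Fin m ⊕ Fin m) F,
      P₂ᵀ * (Matrix.J (Fin m) F * (P₂ * Z)) = Matrix.J (Fin (m - k)) F * Z := by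
    intro Z; rw [← Matrix.mul_assoc, ← Matrix.mul_assoc, hR2]
  have hR3' : ∀ Z : Matrix (Fin (m - k) ⊕ Fin (m - k)) (Fin m ⊕ Fin m) F,
      P₁ᵀ * (Matrix.J (Fin m) F * (P₂ * Z)) = 0 := by
    intro Z; rw [← Matrix.mul_assoc, ← Matrix.mul_assoc, hR3, Matrix.zero_mul]
  have hR4' : ∀ Z : Matrix (Fin k ⊕ Fin k) (Fin m ⊕ Fin m) F,
      P₂ᵀ * (Matrix.J (Fin m) F * (P₁ * Z)) = 0 := by
    intro Z; rw [← Matrix.mul_assoc, ← Matrix.mul_assoc, hR4, Matrix.zero_mul]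
  have hgen : ∀ (X₁ Y₁ : Matrix (Fin k ⊕ Fin k) (Fin k ⊕ Fin k) F)
      (X₂ Y₂ : Matrix (Fin (m - k) ⊕ Fin (m - k)) (Fin (m - k) ⊕ Fin (m - k)) F),
      (P₁ * X₁ * Q₁ + P₂ * X₂ * Q₂)ᵀ * Matrix.J (Fin m) F * (P₁ * Y₁ * Q₁ + P₂ * Y₂ * Q₂) =
        Q₁ᵀ * (X₁ᵀ * (Matrix.J (Fin k) F * (Y₁ * Q₁))) +
          Q₂ᵀ * (X₂ᵀ * (Matrix.J (Fin (m - k)) F * (Y₂ * Q₂))) := by
    intro X₁ Y₁ X₂ Y₂
    simp only [Matrix.transpose_add, Matrix.transpose_mul, Matrix.add_mul, Matrix.mul_add,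
      Matrix.mul_assoc, hR1', hR2', hR3', hR4', Matrix.mul_zero, add_zero, zero_add]
  have hJ : Matrix.J (Fin m) F =
      Q₁ᵀ * (Matrix.J (Fin k) F * Q₁) + Q₂ᵀ * (Matrix.J (Fin (m - k)) F * Q₂) := by
    have h1 := hgen 1 1 1 1
    simp only [Matrix.mul_one, Matrix.transpose_one, Matrix.one_mul] at h1
    rw [hsum, Matrix.transpose_one, Matrix.one_mul, Matrix.mul_one] at h1
    exact h1
  have hβ : ∀ (A₁ : Matrix.symplecticGroup (Fin k) F)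
      (A₂ : Matrix.symplecticGroup (Fin (m - k)) F),
      ∃ h ∈ Cfsg.stabilizing (Cfsg.spToMat m F) (W : Set (Fin m ⊕ Fin m → F)),
        Cfsg.spToMat m F h = P₁ * A₁.1 * Q₁ + P₂ * A₂.1 * Q₂ := by
    intro A₁ A₂
    have hmem : P₁ * A₁.1 * Q₁ + P₂ * A₂.1 * Q₂ ∈ Matrix.symplecticGroup (Fin m) F := by
      rw [SymplecticGroup.mem_iff', hgen]
      have h1 := SymplecticGroup.mem_iff'.mp A₁.2
      have h2 := SymplecticGroup.mem_iff'.mp A₂.2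
      have e1 : A₁.1ᵀ * (Matrix.J (Fin k) F * (A₁.1 * Q₁)) = Matrix.J (Fin k) F * Q₁ := by
        rw [← Matrix.mul_assoc, ← Matrix.mul_assoc, h1]
      have e2 : A₂.1ᵀ * (Matrix.J (Fin (m - k)) F * (A₂.1 * Q₂)) =
          Matrix.J (Fin (m - k)) F * Q₂ := by
        rw [← Matrix.mul_assoc, ← Matrix.mul_assoc, h2]
      rw [e1, e2]
      exact hJ.symm
    refine ⟨⟨_, hmem⟩, ?_, rfl⟩
    intro v
    show v ∈ W ↔ (P₁ * A₁.1 * Q₁ + P₂ * A₂.1 * Q₂) *ᵥ v ∈ W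
    rw [hWiff, hWiff, Matrix.mulVec_mulVec]
    have e1 : Q₂ * (P₁ * A₁.1 * Q₁ + P₂ * A₂.1 * Q₂) = A₂.1 * Q₂ := by
      have e2 : Q₂ * (P₁ * A₁.1 * Q₁ + P₂ * A₂.1 * Q₂) =
          (Q₂ * P₁) * A₁.1 * Q₁ + (Q₂ * P₂) * A₂.1 * Q₂ := by
        simp only [Matrix.mul_add, Matrix.mul_assoc]
      rw [e2, h21, h22, Matrix.zero_mul, Matrix.zero_mul, Matrix.one_mul, zero_add]
    rw [e1, ← Matrix.mulVec_mulVec]
    constructor
    · intro h; rw [h, Matrix.mulVec_zero]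
    · intro h
      have h2 : (A₂⁻¹).1 * A₂.1 = 1 := congrArg Subtype.val (inv_mul_cancel A₂)
      have h3 : (A₂⁻¹).1 *ᵥ (A₂.1 *ᵥ (Q₂ *ᵥ v)) = 0 := by rw [h, Matrix.mulVec_zero]
      rw [Matrix.mulVec_mulVec, h2, Matrix.one_mulVec] at h3
      exact h3
  exact block_decomp_iso P₁ P₂ Q₁ Q₂ h11 h12 h21 h22 hsum (Cfsg.spToMat m F)
    (Matrix.symplecticGroup (Fin k) F).subtype (Matrix.symplecticGroup (Fin (m - k)) F).subtype
    Subtype.coe_injective Subtype.coe_injective Subtype.coe_injective _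
    (fun A hA => ⟨hS1 A hA, hS2 A hA, ⟨⟨_, hC1 A hA⟩, rfl⟩, ⟨⟨_, hC2 A hA⟩, rfl⟩⟩) hβ

end

end Cfsg.Agent.Lib.Helper4
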