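import Mathlib
import Cfsg.Agent.Lib.Helper4.SpTransv
import Cfsg.Agent.Lib.Helper4.SpTransvGen
import Cfsg.Agent.Lib.Helper4.SpTransitive

set_option autoImplicit false

namespace Cfsg.Agent.Lib.Helper4

open Matrix

section

variable {n : ℕ}

theorem t3_two (c : ZMod 2) : c + c = 0 := CharTwo.add_self_eq_zero c

theorem t3_cases (c : ZMod 2) : c = 0 ∨ c = 1 := by revert c; decide

theorem t3_apply (u x : Fin n ⊕ Fin n → ZMod 2) :
    (Cfsg.sympTransvection n u (1 : ZMod 2)).mulVec x = x + stdSymp n (ZMod 2) x u • u := by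
  rw [sympTransv_mulVec, one_mul, stdSymp_apply]

theorem t3_swap (a b : Fin n ⊕ Fin n → ZMod 2) :
    stdSymp n (ZMod 2) a b = stdSymp n (ZMod 2) b a := by
  rw [alt_swap (stdSymp n (ZMod 2)) stdSymp_alt a b]
  exact neg_eq_of_add_eq_zero_left (t3_two _)

theorem t3_rank (u : Fin n ⊕ Fin n → ZMod 2) (hu : u ≠ 0) :
    (Cfsg.sympTransvection n u (1 : ZMod 2) - 1).rank = 1 := by
  obtain ⟨y, hy⟩ : ∃ y, stdSymp n (ZMod 2) y u ≠ 0 := by
    by_contra hcon
    push Not at hcon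
    exact hu ((stdSymp_nondeg n).2 u hcon)
  have hy1 : stdSymp n (ZMod 2) y u = 1 := (t3_cases _).resolve_left hy
  have hx : ∀ x, (Cfsg.sympTransvection n u (1 : ZMod 2) - 1).mulVec x
      = stdSymp n (ZMod 2) x u • u := by
    intro x
    rw [Matrix.sub_mulVec, t3_apply, Matrix.one_mulVec, add_sub_cancel_left]
  show Module.finrank (ZMod 2)
    (LinearMap.range (Matrix.mulVecLin (Cfsg.sympTransvection n u (1 : ZMod 2) - 1))) = 1
  rw [finrank_eq_one_iff']
  refine ⟨⟨u, ⟨y, ?_⟩⟩, ?_, ?_⟩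
  · rw [Matrix.mulVecLin_apply, hx, hy1, one_smul]
  · intro h
    exact hu (congrArg Subtype.val h)
  · rintro ⟨w, ⟨x, rfl⟩⟩
    refine ⟨stdSymp n (ZMod 2) x u, ?_⟩
    apply Subtype.ext
    exact (hx x).symm

theorem t3_mem_iff (g : Matrix (Fin n ⊕ Fin n) (Fin n ⊕ Fin n) (ZMod 2))
    (hg : g ∈ Matrix.symplecticGroup (Fin n) (ZMod 2)) :
    (g - 1).rank = 1 ↔
      ∃ u : Fin n ⊕ Fin n → ZMod 2, u ≠ 0 ∧ g = Cfsg.sympTransvection n u 1 := by
  constructor
  · intro h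
    obtain ⟨u, hu, hx⟩ := symp_transv_vector g hg h
    refine ⟨u, hu, ?_⟩
    apply Matrix.mulVec_injective
    funext x
    rw [hx, t3_apply]
  · rintro ⟨u, hu, rfl⟩
    exact t3_rank u hu

theorem t3_sq (u : Fin n ⊕ Fin n → ZMod 2) :
    Cfsg.sympTransvection n u (1 : ZMod 2) * Cfsg.sympTransvection n u 1 = 1 := by
  apply Matrix.mulVec_injective
  funext x
  rw [← Matrix.mulVec_mulVec, t3_apply, t3_apply, Matrix.one_mulVec, map_add, map_smul,
    LinearMap.add_apply, LinearMap.smul_apply, stdSymp_alt u, smul_zero, add_zero, add_assoc,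
    ← add_smul, t3_two, zero_smul, add_zero]

theorem t3_comm (u w : Fin n ⊕ Fin n → ZMod 2) (h : stdSymp n (ZMod 2) u w = 0) :
    Cfsg.sympTransvection n u (1 : ZMod 2) * Cfsg.sympTransvection n w 1
      = Cfsg.sympTransvection n w 1 * Cfsg.sympTransvection n u 1 := by
  have h' : stdSymp n (ZMod 2) w u = 0 := by rw [t3_swap, h]
  apply Matrix.mulVec_injective
  funext x
  rw [← Matrix.mulVec_mulVec, ← Matrix.mulVec_mulVec]
  simp only [t3_apply, map_add, map_smul, LinearMap.add_apply, LinearMap.smul_apply, h, h',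
    smul_zero, add_zero]
  abel

theorem t3_sq_comm (u w : Fin n ⊕ Fin n → ZMod 2) (h : stdSymp n (ZMod 2) u w = 0) :
    (Cfsg.sympTransvection n u (1 : ZMod 2) * Cfsg.sympTransvection n w 1) ^ 2 = 1 := by
  rw [sq, Matrix.mul_assoc, ← Matrix.mul_assoc (Cfsg.sympTransvection n w 1), ← t3_comm u w h,
    Matrix.mul_assoc, t3_sq, Matrix.mul_one, t3_sq]

theorem t3_step (u w x : Fin n ⊕ Fin n → ZMod 2) (h : stdSymp n (ZMod 2) u w = 1) :
    (Cfsg.sympTransvection n u (1 : ZMod 2) * Cfsg.sympTransvection n w 1).mulVec x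
      = x + stdSymp n (ZMod 2) x w • (u + w) + stdSymp n (ZMod 2) x u • u := by
  have h' : stdSymp n (ZMod 2) w u = 1 := by rw [t3_swap, h]
  rw [← Matrix.mulVec_mulVec]
  simp only [t3_apply, map_add, map_smul, LinearMap.add_apply, LinearMap.smul_apply, h', smul_eq_mul,
    mul_one]
  rw [smul_add, add_smul]
  abel

theorem t3_cube (u w : Fin n ⊕ Fin n → ZMod 2) (h : stdSymp n (ZMod 2) u w = 1) :
    (Cfsg.sympTransvection n u (1 : ZMod 2) * Cfsg.sympTransvection n w 1) ^ 3 = 1 := by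
  have h' : stdSymp n (ZMod 2) w u = 1 := by rw [t3_swap, h]
  have h2 : (2 : ZMod 2) = 0 := by decide
  obtain ⟨M, hM⟩ : ∃ M, M = Cfsg.sympTransvection n u (1 : ZMod 2) * Cfsg.sympTransvection n w 1 :=
    ⟨_, rfl⟩
  have hstep : ∀ y, M.mulVec y
      = y + stdSymp n (ZMod 2) y w • (u + w) + stdSymp n (ZMod 2) y u • u := by
    intro y
    rw [hM]
    exact t3_step u w y h
  rw [← hM]
  apply Matrix.mulVec_injective
  funext x
  rw [pow_three, ← Matrix.mulVec_mulVec x M (M * M), ← Matrix.mulVec_mulVec x M M, hstep x,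
    hstep, hstep, Matrix.one_mulVec]
  simp only [map_add, map_smul, LinearMap.add_apply, LinearMap.smul_apply, h, h', smul_eq_mul,
    mul_one, stdSymp_alt, mul_zero, add_zero, zero_add]
  obtain ⟨a, ha⟩ : ∃ a, a = stdSymp n (ZMod 2) x w := ⟨_, rfl⟩
  obtain ⟨b, hb⟩ : ∃ b, b = stdSymp n (ZMod 2) x u := ⟨_, rfl⟩
  rw [← ha, ← hb]
  funext i
  simp only [Pi.add_apply, Pi.smul_apply, smul_eq_mul]
  linear_combination ((4 * a + 2 * b) * (u i + w i) + (2 * a + 2 * b) * u i) * h2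

theorem t3_conj (h : Matrix (Fin n ⊕ Fin n) (Fin n ⊕ Fin n) (ZMod 2))
    (hh : h ∈ Matrix.symplecticGroup (Fin n) (ZMod 2)) (u : Fin n ⊕ Fin n → ZMod 2) :
    h * Cfsg.sympTransvection n u (1 : ZMod 2)
      = Cfsg.sympTransvection n (h.mulVec u) 1 * h := by
  apply Matrix.mulVec_injective
  funext x
  rw [← Matrix.mulVec_mulVec, ← Matrix.mulVec_mulVec, t3_apply, t3_apply, Matrix.mulVec_add,
    Matrix.mulVec_smul, stdSymp_mulVec h hh]

end

end Cfsg.Agent.Lib.Helper4
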