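import Mathlib
import Cfsg.Agent.Lib.Helper4.SympBasis

set_option autoImplicit false

namespace Cfsg.Agent.Lib.Helper4

/-- `S_{2n}` embeds in `Sp_{2n-2}(2)` (heart of the permutation module). -/
theorem sym_symp_embedding (n : ℕ) (hn : 3 ≤ n) :
    ∃ f : Equiv.Perm (Fin (2 * n)) →* Matrix.symplecticGroup (Fin (n - 1)) (ZMod 2),
      Function.Injective f := by
  classical
  obtain ⟨m, hm⟩ : ∃ m, m = 2 * n := ⟨_, rfl⟩
  rw [← hm]
  have hm6 : 6 ≤ m := by omega
  have hm0 : (m : ZMod 2) = 0 := by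
    rw [hm, Nat.cast_mul]
    have : ((2 : ℕ) : ZMod 2) = 0 := rfl
    rw [this, zero_mul]
  have hch : ∀ a : ZMod 2, a + a = 0 := fun a => CharTwo.add_self_eq_zero a
  have hsq : ∀ a : ZMod 2, a * a = a := by decide
  obtain ⟨z, hz⟩ : ∃ z : Fin m, z = ⟨0, by omega⟩ := ⟨_, rfl⟩
  obtain ⟨L, hL⟩ : ∃ L : (Fin m → ZMod 2) →ₗ[ZMod 2] ZMod 2 × ZMod 2,
      L = (∑ i, LinearMap.proj i : (Fin m → ZMod 2) →ₗ[ZMod 2] ZMod 2).prod (LinearMap.proj z) :=
    ⟨_, rfl⟩
  have hLapp : ∀ x, L x = (∑ i, x i, x z) := by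
    intro x
    rw [hL]
    simp [LinearMap.prod_apply]
  obtain ⟨E, hE⟩ : ∃ E : Submodule (ZMod 2) (Fin m → ZMod 2), E = LinearMap.ker L := ⟨_, rfl⟩
  have hEmem : ∀ x, x ∈ E ↔ ∑ i, x i = 0 ∧ x z = 0 := by
    intro x
    rw [hE, LinearMap.mem_ker, hLapp, Prod.mk_eq_zero]
  have hpair : ∀ i j : Fin m, i ≠ z → j ≠ z →
      (Pi.single i (1 : ZMod 2) + Pi.single j 1 : Fin m → ZMod 2) ∈ E := by
    intro i j hi hj
    rw [hEmem]
    constructor
    · simp only [Pi.add_apply, Finset.sum_add_distrib, Finset.sum_pi_single', Finset.mem_univ,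
        if_true]
      exact hch 1
    · rw [Pi.add_apply, Pi.single_eq_of_ne (Ne.symm hi), Pi.single_eq_of_ne (Ne.symm hj),
        add_zero]
  have hsurj : Function.Surjective L := by
    rintro ⟨a, b⟩
    obtain ⟨w, hw⟩ : ∃ w : Fin m, w ≠ z :=
      ⟨⟨1, by omega⟩, by rw [hz]; simp [Fin.ext_iff]⟩
    refine ⟨Pi.single z b + Pi.single w (a - b), ?_⟩
    rw [hLapp]
    refine Prod.ext ?_ ?_
    · simp only [Pi.add_apply, Finset.sum_add_distrib, Finset.sum_pi_single', Finset.mem_univ,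
        if_true]
      ring
    · simp only [Pi.add_apply, Pi.single_eq_same, Pi.single_eq_of_ne (Ne.symm hw), add_zero]
  have hV : Module.finrank (ZMod 2) E = 2 * (n - 1) := by
    have h1 := LinearMap.finrank_range_add_finrank_ker L
    rw [LinearMap.range_eq_top.2 hsurj, finrank_top, Module.finrank_prod, Module.finrank_self,
      Module.finrank_fin_fun, ← hE] at h1
    omega
  obtain ⟨T, hT⟩ : ∃ T : Equiv.Perm (Fin m) →
      ((Fin m → ZMod 2) →ₗ[ZMod 2] (Fin m → ZMod 2)),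
      ∀ σ x i, T σ x i = x (σ⁻¹ i) + x (σ⁻¹ z) :=
    ⟨fun σ =>
      { toFun := fun x i => x (σ⁻¹ i) + x (σ⁻¹ z)
        map_add' := fun x y => by
          funext i
          simp only [Pi.add_apply]
          ring
        map_smul' := fun c x => by
          funext i
          simp only [Pi.smul_apply, smul_eq_mul, RingHom.id_apply]
          ring },
     fun σ x i => rfl⟩
  have hTE : ∀ σ, ∀ x ∈ E, T σ x ∈ E := by
    intro σ x hx
    obtain ⟨hx1, hx2⟩ := (hEmem x).1 hx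
    rw [hEmem]
    constructor
    · simp only [hT, Finset.sum_add_distrib, Finset.sum_const, Finset.card_univ,
        Fintype.card_fin, nsmul_eq_mul, hm0, zero_mul, add_zero]
      rw [Equiv.sum_comp σ⁻¹ x]
      exact hx1
    · rw [hT]
      exact hch _
  obtain ⟨ψ, hψapp⟩ : ∃ ψ : Equiv.Perm (Fin m) →* (E →ₗ[ZMod 2] E),
      ∀ σ (x : E) i, ((ψ σ x : E) : Fin m → ZMod 2) i =
        (x : Fin m → ZMod 2) (σ⁻¹ i) + (x : Fin m → ZMod 2) (σ⁻¹ z) := by
    refine ⟨{ toFun := fun σ => (T σ).restrict (hTE σ)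
              map_one' := ?_
              map_mul' := ?_ }, ?_⟩
    · apply LinearMap.ext
      intro x
      apply Subtype.ext
      funext i
      show T 1 (x : Fin m → ZMod 2) i = (x : Fin m → ZMod 2) i
      rw [hT]
      simp only [inv_one, Equiv.Perm.coe_one, id_eq]
      rw [((hEmem _).1 x.2).2, add_zero]
    · intro τ σ
      apply LinearMap.ext
      intro x
      apply Subtype.ext
      funext i
      show T (τ * σ) (x : Fin m → ZMod 2) i = T τ (T σ (x : Fin m → ZMod 2)) i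
      simp only [hT, mul_inv_rev, Equiv.Perm.coe_mul, Function.comp_apply]
      have := hch ((x : Fin m → ZMod 2) (σ⁻¹ z))
      linear_combination -this
    · intro σ x i
      exact hT σ x i
  have hB0 : ∀ x y : Fin m → ZMod 2,
      Matrix.toLinearMap₂' (ZMod 2) (1 : Matrix (Fin m) (Fin m) (ZMod 2)) x y =
        ∑ i, x i * y i := by
    intro x y
    rw [Matrix.toLinearMap₂'_apply', Matrix.one_mulVec]
    rfl
  obtain ⟨B, hB⟩ : ∃ B : LinearMap.BilinForm (ZMod 2) E,
      ∀ x y : E, B x y = ∑ i, (x : Fin m → ZMod 2) i * (y : Fin m → ZMod 2) i :=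
    ⟨LinearMap.BilinForm.restrict
      (Matrix.toLinearMap₂' (ZMod 2) (1 : Matrix (Fin m) (Fin m) (ZMod 2))) E,
      fun x y => hB0 x y⟩
  have halt : ∀ x : E, B x x = 0 := by
    intro x
    rw [hB]
    simp only [hsq]
    exact ((hEmem _).1 x.2).1
  have hiso : ∀ σ (u w : E), B (ψ σ u) (ψ σ w) = B u w := by
    intro σ u w
    rw [hB, hB]
    simp only [hψapp]
    have s1 : ∑ i, (u : Fin m → ZMod 2) (σ⁻¹ i) * (w : Fin m → ZMod 2) (σ⁻¹ i) =
        ∑ i, (u : Fin m → ZMod 2) i * (w : Fin m → ZMod 2) i :=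
      Equiv.sum_comp σ⁻¹ (fun i => (u : Fin m → ZMod 2) i * (w : Fin m → ZMod 2) i)
    have s2 : ∑ i, (u : Fin m → ZMod 2) (σ⁻¹ i) = 0 := by
      rw [Equiv.sum_comp σ⁻¹ (u : Fin m → ZMod 2)]
      exact ((hEmem _).1 u.2).1
    have s3 : ∑ i, (w : Fin m → ZMod 2) (σ⁻¹ i) = 0 := by
      rw [Equiv.sum_comp σ⁻¹ (w : Fin m → ZMod 2)]
      exact ((hEmem _).1 w.2).1
    obtain ⟨a, ha⟩ : ∃ a : ZMod 2, a = (u : Fin m → ZMod 2) (σ⁻¹ z) := ⟨_, rfl⟩
    obtain ⟨b, hb⟩ : ∃ b : ZMod 2, b = (w : Fin m → ZMod 2) (σ⁻¹ z) := ⟨_, rfl⟩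
    rw [← ha, ← hb]
    have e1 : ∀ i, ((u : Fin m → ZMod 2) (σ⁻¹ i) + a) * ((w : Fin m → ZMod 2) (σ⁻¹ i) + b) =
        (u : Fin m → ZMod 2) (σ⁻¹ i) * (w : Fin m → ZMod 2) (σ⁻¹ i) +
          (u : Fin m → ZMod 2) (σ⁻¹ i) * b + a * (w : Fin m → ZMod 2) (σ⁻¹ i) + a * b :=
      fun i => by ring
    simp only [e1, Finset.sum_add_distrib, ← Finset.sum_mul, ← Finset.mul_sum, Finset.sum_const,
      Finset.card_univ, Fintype.card_fin, nsmul_eq_mul, hm0, zero_mul, add_zero, s1, s2, s3,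
      mul_zero]
  have hsingle : ∀ (y : Fin m → ZMod 2) (i : Fin m),
      ∑ k, y k * (Pi.single i (1 : ZMod 2) : Fin m → ZMod 2) k = y i := by
    intro y i
    rw [Finset.sum_eq_single i (fun k _ hk => by rw [Pi.single_eq_of_ne hk, mul_zero])
      (fun h => absurd (Finset.mem_univ i) h), Pi.single_eq_same, mul_one]
  have hnd : ∀ x : E, (∀ y : E, B x y = 0) → x = 0 := by
    intro x hx
    have hxz := ((hEmem _).1 x.2).2
    have hxs := ((hEmem _).1 x.2).1
    have h1 : ∀ i j : Fin m, i ≠ z → j ≠ z →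
        (x : Fin m → ZMod 2) i = (x : Fin m → ZMod 2) j := by
      intro i j hi hj
      have h := hx ⟨_, hpair i j hi hj⟩
      rw [hB] at h
      simp only [Pi.add_apply, mul_add, Finset.sum_add_distrib, hsingle] at h
      exact CharTwo.add_eq_zero.1 h
    obtain ⟨w0, hw0⟩ : ∃ w : Fin m, w ≠ z :=
      ⟨⟨1, by omega⟩, by rw [hz]; simp [Fin.ext_iff]⟩
    obtain ⟨c, hc⟩ : ∃ c : ZMod 2, c = (x : Fin m → ZMod 2) w0 := ⟨_, rfl⟩
    have hx' : ∀ i, (x : Fin m → ZMod 2) i = c - (Pi.single z c : Fin m → ZMod 2) i := by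
      intro i
      by_cases hi : i = z
      · rw [hi, Pi.single_eq_same, sub_self, hxz]
      · rw [Pi.single_eq_of_ne hi, sub_zero, hc]
        exact h1 i w0 hi hw0
    have hc0 : c = 0 := by
      have h2 : ∑ i, (x : Fin m → ZMod 2) i = -c := by
        simp only [hx', Finset.sum_sub_distrib, Finset.sum_const, Finset.card_univ,
          Fintype.card_fin, nsmul_eq_mul, hm0, zero_mul, Finset.sum_pi_single', Finset.mem_univ,
          if_true, zero_sub]
      rw [hxs] at h2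
      exact neg_eq_zero.1 h2.symm
    apply Subtype.ext
    funext i
    rw [hx', hc0]
    simp
  have havoid : ∀ S : Finset (Fin m), S.card < m → ∃ k, k ∉ S := by
    intro S hS
    by_contra hcon
    push Not at hcon
    have : S = Finset.univ := Finset.eq_univ_iff_forall.2 hcon
    rw [this, Finset.card_univ, Fintype.card_fin] at hS
    exact lt_irrefl _ hS
  have hψ : Function.Injective ψ := by
    rw [injective_iff_map_eq_one]
    intro σ hσ
    have hfix : ∀ x : E, ∀ i, (x : Fin m → ZMod 2) (σ⁻¹ i) + (x : Fin m → ZMod 2) (σ⁻¹ z) =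
        (x : Fin m → ZMod 2) i := by
      intro x i
      rw [← hψapp σ x i, hσ]
      rfl
    have hz' : σ⁻¹ z = z := by
      by_contra hw
      obtain ⟨j, hj⟩ := havoid {σ⁻¹ z, z} (lt_of_le_of_lt Finset.card_le_two (by omega))
      simp only [Finset.mem_insert, Finset.mem_singleton, not_or] at hj
      obtain ⟨k, hk⟩ := havoid {z, σ j, σ⁻¹ z, j} (lt_of_le_of_lt Finset.card_le_four (by omega))
      simp only [Finset.mem_insert, Finset.mem_singleton, not_or] at hk
      have h := hfix ⟨_, hpair (σ⁻¹ z) j hw hj.2⟩ k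
      have e1 : σ⁻¹ k ≠ σ⁻¹ z := fun h => hk.1 (σ⁻¹.injective h)
      have e2 : σ⁻¹ k ≠ j := fun h => hk.2.1 (by rw [← h]; simp)
      simp only [Pi.add_apply, Pi.single_apply, if_neg e1, if_neg e2, if_neg hk.2.2.1,
        if_neg hk.2.2.2, if_true, if_neg (Ne.symm hj.1), add_zero, zero_add] at h
      exact one_ne_zero h
    have hall : ∀ i, σ⁻¹ i = i := by
      intro i
      by_cases hi : i = z
      · rw [hi, hz']
      · by_contra hu
        have huz : σ⁻¹ i ≠ z := fun h => hi (σ⁻¹.injective (h.trans hz'.symm))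
        obtain ⟨j, hj⟩ := havoid {z, i, σ⁻¹ i} (lt_of_le_of_lt Finset.card_le_three (by omega))
        simp only [Finset.mem_insert, Finset.mem_singleton, not_or] at hj
        have h := hfix ⟨_, hpair i j hi hj.1⟩ i
        rw [hz'] at h
        simp only [Pi.add_apply, Pi.single_apply, if_neg hu, if_neg (Ne.symm hj.2.2),
          if_neg (Ne.symm hi), if_neg (Ne.symm hj.1), if_true, if_neg (Ne.symm hj.2.1),
          add_zero] at h
        exact one_ne_zero h.symm
    have : σ⁻¹ = 1 := Equiv.ext hall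
    exact inv_eq_one.1 this
  exact exists_symp_embedding B halt hnd hV ψ hψ hiso

end Cfsg.Agent.Lib.Helper4
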