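import Mathlib

set_option autoImplicit false

namespace Cfsg.Agent.Lib.Helper4

theorem exists_li_family_zero {K V : Type*} [Field K] [AddCommGroup V] [Module K V]
    [FiniteDimensional K V] (u : V) (hu : u ≠ 0) :
    ∀ k, k + 1 ≤ Module.finrank K V →
      ∃ v : Fin (k + 1) → V, LinearIndependent K v ∧ v 0 = u := by
  intro k
  induction k with
  | zero =>
    intro _
    exact ⟨fun _ => u, (linearIndependent_unique_iff (ι := Fin 1) (v := fun _ => u)).2 hu, rfl⟩
  | succ k ih =>
    intro hk
    obtain ⟨v, hv, hv0⟩ := ih (by omega)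
    obtain ⟨x, hx⟩ := exists_linearIndependent_snoc_of_lt_finrank hv (by omega)
    refine ⟨Fin.snoc v x, hx, ?_⟩
    rw [← Fin.castSucc_zero, Fin.snoc_castSucc, hv0]

/-- Normal form of a rank one, square zero matrix in dimension at least three. -/
theorem rank_one_sq_zero_normal_form {F : Type*} [Field F] {m : ℕ}
    (N : Matrix (Fin (m + 3)) (Fin (m + 3)) F) (hr : N.rank = 1) (hsq : N * N = 0) :
    ∃ g : Matrix (Fin (m + 3)) (Fin (m + 3)) F, g.det = 1 ∧
      N * g = g * (Matrix.single 1 0 (1 : F) : Matrix (Fin (m + 3)) (Fin (m + 3)) F) := by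
  classical
  have hrange : Module.finrank F (LinearMap.range N.mulVecLin) = 1 := hr
  -- a vector not in the kernel
  obtain ⟨w, hw⟩ : ∃ w, N.mulVec w ≠ 0 := by
    by_contra hcon
    push Not at hcon
    have h0 : LinearMap.range N.mulVecLin = ⊥ := by
      rw [LinearMap.range_eq_bot]
      exact LinearMap.ext fun x => hcon x
    rw [h0] at hrange
    simp at hrange
  have hNu : N.mulVec (N.mulVec w) = 0 := by
    rw [Matrix.mulVec_mulVec, hsq, Matrix.zero_mulVec]
  have hker : Module.finrank F (LinearMap.ker N.mulVecLin) = m + 2 := by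
    have h := LinearMap.finrank_range_add_finrank_ker N.mulVecLin
    rw [hrange, Module.finrank_fin_fun] at h
    omega
  have humem : N.mulVec w ∈ LinearMap.ker N.mulVecLin := by
    rw [LinearMap.mem_ker]
    exact hNu
  obtain ⟨v, hv, hv0⟩ := exists_li_family_zero (K := F)
    (⟨N.mulVec w, humem⟩ : LinearMap.ker N.mulVecLin)
    (fun h => hw (congrArg Subtype.val h)) (m + 1) (by omega)
  have hvmem : ∀ j, N.mulVec (v j : Fin (m + 3) → F) = 0 := fun j => by
    have := (v j).2
    rwa [LinearMap.mem_ker] at this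
  set p : Fin (m + 3) → (Fin (m + 3) → F) := Fin.cons w (fun j => (v j : Fin (m + 3) → F))
    with hp_def
  have hp : LinearIndependent F p := by
    rw [hp_def, linearIndependent_fin_cons]
    refine ⟨hv.map' (LinearMap.ker N.mulVecLin).subtype (Submodule.ker_subtype _), ?_⟩
    intro hmem
    have hle : Submodule.span F (Set.range fun j => (v j : Fin (m + 3) → F)) ≤
        LinearMap.ker N.mulVecLin := by
      rw [Submodule.span_le]
      rintro _ ⟨j, rfl⟩
      exact (v j).2
    have := hle hmem
    rw [LinearMap.mem_ker] at this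
    exact hw this
  set P : Matrix (Fin (m + 3)) (Fin (m + 3)) F := Matrix.of (fun i j => p j i) with hP_def
  have hPu : IsUnit P := by
    rw [← Matrix.linearIndependent_cols_iff_isUnit]
    exact hp
  have hdet : P.det ≠ 0 := ((Matrix.isUnit_iff_isUnit_det P).1 hPu).ne_zero
  have h20 : (2 : Fin (m + 3)) ≠ 0 := by
    intro h
    rw [Fin.ext_iff, Fin.val_two] at h
    simp at h
  have h21 : (2 : Fin (m + 3)) ≠ 1 := by
    intro h
    rw [Fin.ext_iff, Fin.val_two] at h
    simp at h
  set D : Matrix (Fin (m + 3)) (Fin (m + 3)) F :=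
    Matrix.diagonal (Function.update (fun _ => (1 : F)) 2 (P.det)⁻¹) with hD_def
  have hDdet : D.det = (P.det)⁻¹ := by
    rw [hD_def, Matrix.det_diagonal, Finset.prod_update_of_mem (Finset.mem_univ _)]
    simp
  have hNP : N * P = P * (Matrix.single 1 0 (1 : F) : Matrix (Fin (m + 3)) (Fin (m + 3)) F) := by
    ext i j
    have h1 : (N * P) i j = N.mulVec (p j) i := rfl
    rw [h1]
    have h2 : (P * (Matrix.single 1 0 (1 : F) : Matrix (Fin (m + 3)) (Fin (m + 3)) F)) i j =
        if j = 0 then p 1 i else 0 := by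
      rw [Matrix.mul_apply]
      simp only [Matrix.single_apply, hP_def, Matrix.of_apply]
      by_cases hj : j = 0
      · simp [hj]
      · have : ∀ x : Fin (m + 3), ¬ (1 = x ∧ 0 = j) := fun x hx => hj hx.2.symm
        simp [this, hj]
    rw [h2]
    by_cases hj : j = 0
    · subst hj
      rw [if_pos rfl]
      have h3 : p 0 = w := rfl
      have h4 : p 1 = N.mulVec w := by
        have : p 1 = (v 0 : Fin (m + 3) → F) := rfl
        rw [this, hv0]
      rw [h3, h4]
    · rw [if_neg hj]
      obtain ⟨j', rfl⟩ := Fin.exists_succ_eq.2 hj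
      have h3 : p j'.succ = (v j' : Fin (m + 3) → F) := by
        rw [hp_def, Fin.cons_succ]
      rw [h3, hvmem]
      rfl
  have hED : (Matrix.single 1 0 (1 : F) : Matrix (Fin (m + 3)) (Fin (m + 3)) F) * D =
      Matrix.single 1 0 1 := by
    ext i j
    rw [hD_def, Matrix.mul_diagonal]
    by_cases hj : j = 0
    · subst hj
      rw [Function.update_of_ne h20.symm, mul_one]
    · simp [Ne.symm hj]
  have hDE : D * (Matrix.single 1 0 (1 : F) : Matrix (Fin (m + 3)) (Fin (m + 3)) F) =
      Matrix.single 1 0 1 := by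
    ext i j
    rw [hD_def, Matrix.diagonal_mul]
    by_cases hi : i = 1
    · subst hi
      rw [Function.update_of_ne h21.symm, one_mul]
    · simp [Ne.symm hi]
  refine ⟨P * D, ?_, ?_⟩
  · rw [Matrix.det_mul, hDdet, mul_inv_cancel₀ hdet]
  · rw [← Matrix.mul_assoc, hNP, Matrix.mul_assoc, hED, Matrix.mul_assoc, hDE]

end Cfsg.Agent.Lib.Helper4
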