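import Mathlib
import Cfsg.Agent.Lib.Helper4.TransvConj

set_option autoImplicit false

namespace Cfsg.Agent.Lib.Helper4

/-- Normal form of a rank one, square zero matrix in dimension at least two (no determinant
condition). -/
theorem rank_one_sq_zero_normal_form_gl {F : Type*} [Field F] {m : ℕ}
    (N : Matrix (Fin (m + 2)) (Fin (m + 2)) F) (hr : N.rank = 1) (hsq : N * N = 0) :
    ∃ P : Matrix (Fin (m + 2)) (Fin (m + 2)) F, IsUnit P ∧
      N * P = P * (Matrix.single 1 0 (1 : F) : Matrix (Fin (m + 2)) (Fin (m + 2)) F) := by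
  classical
  have hrange : Module.finrank F (LinearMap.range N.mulVecLin) = 1 := hr
  obtain ⟨w, hw⟩ : ∃ w, N.mulVec w ≠ 0 := by
    by_contra hcon
    push Not at hcon
    have h0 : LinearMap.range N.mulVecLin = ⊥ := by
      rw [LinearMap.range_eq_bot]
      exact LinearMap.ext fun x => hcon x
    rw [h0] at hrange
    simp at hrange
  have hNu : N.mulVec (N.mulVec w) = 0 := by
    rw [Matrix.mulVec_mulVec, hsq, Matrix.zero_mulVec]
  have hker : Module.finrank F (LinearMap.ker N.mulVecLin) = m + 1 := by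
    have h := LinearMap.finrank_range_add_finrank_ker N.mulVecLin
    rw [hrange, Module.finrank_fin_fun] at h
    omega
  have humem : N.mulVec w ∈ LinearMap.ker N.mulVecLin := by
    rw [LinearMap.mem_ker]
    exact hNu
  obtain ⟨v, hv, hv0⟩ := exists_li_family_zero (K := F)
    (⟨N.mulVec w, humem⟩ : LinearMap.ker N.mulVecLin)
    (fun h => hw (congrArg Subtype.val h)) m (by omega)
  have hvmem : ∀ j, N.mulVec (v j : Fin (m + 2) → F) = 0 := fun j => by
    have := (v j).2
    rwa [LinearMap.mem_ker] at this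
  set p : Fin (m + 2) → (Fin (m + 2) → F) := Fin.cons w (fun j => (v j : Fin (m + 2) → F))
    with hp_def
  have hp : LinearIndependent F p := by
    rw [hp_def, linearIndependent_fin_cons]
    refine ⟨hv.map' (LinearMap.ker N.mulVecLin).subtype (Submodule.ker_subtype _), ?_⟩
    intro hmem
    have hle : Submodule.span F (Set.range fun j => (v j : Fin (m + 2) → F)) ≤
        LinearMap.ker N.mulVecLin := by
      rw [Submodule.span_le]
      rintro _ ⟨j, rfl⟩
      exact (v j).2
    have := hle hmem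
    rw [LinearMap.mem_ker] at this
    exact hw this
  set P : Matrix (Fin (m + 2)) (Fin (m + 2)) F := Matrix.of (fun i j => p j i) with hP_def
  have hPu : IsUnit P := by
    rw [← Matrix.linearIndependent_cols_iff_isUnit]
    exact hp
  refine ⟨P, hPu, ?_⟩
  ext i j
  have h1 : (N * P) i j = N.mulVec (p j) i := rfl
  rw [h1]
  have h2 : (P * (Matrix.single 1 0 (1 : F) : Matrix (Fin (m + 2)) (Fin (m + 2)) F)) i j =
      if j = 0 then p 1 i else 0 := by
    rw [Matrix.mul_apply]
    simp only [Matrix.single_apply, hP_def, Matrix.of_apply]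
    by_cases hj : j = 0
    · simp [hj]
    · have : ∀ x : Fin (m + 2), ¬ (1 = x ∧ 0 = j) := fun x hx => hj hx.2.symm
      simp [this, hj]
  rw [h2]
  by_cases hj : j = 0
  · subst hj
    rw [if_pos rfl]
    have h3 : p 0 = w := rfl
    have h4 : p 1 = N.mulVec w := by
      have : p 1 = (v 0 : Fin (m + 2) → F) := rfl
      rw [this, hv0]
    rw [h3, h4]
  · rw [if_neg hj]
    obtain ⟨j', rfl⟩ := Fin.exists_succ_eq.2 hj
    have h3 : p j'.succ = (v j' : Fin (m + 2) → F) := by
      rw [hp_def, Fin.cons_succ]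
    rw [h3, hvmem]
    rfl

/-- Reduction of the centraliser of a transvection to the standard one. -/
theorem transv_centralizer_card_eq {F : Type*} [Field F] {m : ℕ}
    (t : GL (Fin (m + 2)) F)
    (hr : ((t : Matrix (Fin (m + 2)) (Fin (m + 2)) F) - 1).rank = 1)
    (hsq : ((t : Matrix (Fin (m + 2)) (Fin (m + 2)) F) - 1) *
      ((t : Matrix (Fin (m + 2)) (Fin (m + 2)) F) - 1) = 0) :
    Nat.card ↥(Subgroup.centralizer ({t} : Set (GL (Fin (m + 2)) F))) =
      Nat.card {g : GL (Fin (m + 2)) F // (g : Matrix (Fin (m + 2)) (Fin (m + 2)) F) *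
        (Matrix.single 1 0 (1 : F) : Matrix (Fin (m + 2)) (Fin (m + 2)) F) =
        (Matrix.single 1 0 (1 : F) : Matrix (Fin (m + 2)) (Fin (m + 2)) F) *
          (g : Matrix (Fin (m + 2)) (Fin (m + 2)) F)} := by
  classical
  obtain ⟨P, hPu, hNP⟩ := rank_one_sq_zero_normal_form_gl _ hr hsq
  obtain ⟨P', hP'⟩ := hPu
  obtain ⟨E, hE⟩ : ∃ E : Matrix (Fin (m + 2)) (Fin (m + 2)) F, E = Matrix.single 1 0 (1 : F) :=
    ⟨_, rfl⟩
  rw [← hE] at hNP ⊢
  rw [← hP'] at hNP
  -- the conjugate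
  have ht' : ((P'⁻¹ * t * P' : GL (Fin (m + 2)) F) : Matrix (Fin (m + 2)) (Fin (m + 2)) F) =
      1 + E := by
    have h1 : (t : Matrix (Fin (m + 2)) (Fin (m + 2)) F) =
        1 + ((t : Matrix (Fin (m + 2)) (Fin (m + 2)) F) - 1) := by
      abel
    have h2 : ((P'⁻¹ : GL (Fin (m + 2)) F) : Matrix (Fin (m + 2)) (Fin (m + 2)) F) *
        (P' : Matrix (Fin (m + 2)) (Fin (m + 2)) F) = 1 := by
      rw [← Units.val_mul, inv_mul_cancel, Units.val_one]
    rw [Units.val_mul, Units.val_mul, h1, Matrix.mul_add, Matrix.add_mul, Matrix.mul_one, h2,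
      Matrix.mul_assoc, hNP, ← Matrix.mul_assoc, h2, Matrix.one_mul]
  let e : ↥(Subgroup.centralizer ({t} : Set (GL (Fin (m + 2)) F))) ≃
      ↥(Subgroup.centralizer ({P'⁻¹ * t * P'} : Set (GL (Fin (m + 2)) F))) :=
    { toFun := fun g => ⟨P'⁻¹ * g.1 * P', by
        rw [Subgroup.mem_centralizer_iff]
        intro h hh
        rw [Set.mem_singleton_iff] at hh
        subst hh
        have hg := Subgroup.mem_centralizer_iff.1 g.2 t (Set.mem_singleton t)
        have e1 : P'⁻¹ * t * P' * (P'⁻¹ * g.1 * P') = P'⁻¹ * (t * g.1) * P' := by group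
        have e2 : P'⁻¹ * g.1 * P' * (P'⁻¹ * t * P') = P'⁻¹ * (g.1 * t) * P' := by group
        rw [e1, e2, hg]⟩
      invFun := fun g => ⟨P' * g.1 * P'⁻¹, by
        rw [Subgroup.mem_centralizer_iff]
        intro h hh
        rw [Set.mem_singleton_iff] at hh
        subst hh
        have hg := Subgroup.mem_centralizer_iff.1 g.2 (P'⁻¹ * h * P') (Set.mem_singleton _)
        have e1 : h * (P' * g.1 * P'⁻¹) = P' * ((P'⁻¹ * h * P') * g.1) * P'⁻¹ := by group
        have e2 : P' * g.1 * P'⁻¹ * h = P' * (g.1 * (P'⁻¹ * h * P')) * P'⁻¹ := by group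
        rw [e1, e2, hg]⟩
      left_inv := fun g => by
        apply Subtype.ext
        show P' * (P'⁻¹ * g.1 * P') * P'⁻¹ = g.1
        group
      right_inv := fun g => by
        apply Subtype.ext
        show P'⁻¹ * (P' * g.1 * P'⁻¹) * P' = g.1
        group }
  rw [Nat.card_congr e]
  refine Nat.card_congr (Equiv.subtypeEquivRight (fun g => ?_))
  rw [Subgroup.mem_centralizer_iff]
  constructor
  · intro h
    have h1 := h _ (Set.mem_singleton _)
    have h2 := congrArg (fun u : GL (Fin (m + 2)) F =>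
      (u : Matrix (Fin (m + 2)) (Fin (m + 2)) F)) h1
    simp only [Units.val_mul] at h2
    rw [← Units.val_mul, ← Units.val_mul, ht'] at h2
    rw [Matrix.add_mul, Matrix.mul_add, Matrix.one_mul, Matrix.mul_one] at h2
    exact (add_left_cancel h2).symm
  · intro h u hu
    rw [Set.mem_singleton_iff] at hu
    subst hu
    apply Units.ext
    have e1 : ((P'⁻¹ * t * P' * g : GL (Fin (m + 2)) F) : Matrix (Fin (m + 2)) (Fin (m + 2)) F) =
        ((P'⁻¹ * t * P' : GL (Fin (m + 2)) F) : Matrix (Fin (m + 2)) (Fin (m + 2)) F) *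
          (g : Matrix (Fin (m + 2)) (Fin (m + 2)) F) := Units.val_mul _ _
    have e2 : ((g * (P'⁻¹ * t * P') : GL (Fin (m + 2)) F) :
        Matrix (Fin (m + 2)) (Fin (m + 2)) F) = (g : Matrix (Fin (m + 2)) (Fin (m + 2)) F) *
        ((P'⁻¹ * t * P' : GL (Fin (m + 2)) F) : Matrix (Fin (m + 2)) (Fin (m + 2)) F) :=
      Units.val_mul _ _
    rw [e1, e2, ht', Matrix.add_mul, Matrix.mul_add, Matrix.one_mul, Matrix.mul_one, h]

section shape

variable {F : Type*} [Field F] {m : ℕ}

/-- The shape of a matrix commuting with `E₁₀`. -/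
def tcMat (a : F) (c : Fin (m + 1) → F) (ρ : Fin m → F) (B : Matrix (Fin m) (Fin m) F) :
    Matrix (Fin (m + 2)) (Fin (m + 2)) F :=
  Matrix.of (Fin.cons (α := fun _ => Fin (m + 2) → F)
    (Fin.cons (α := fun _ => F) a (fun _ => 0))
    (fun i => Fin.cons (α := fun _ => F) (c i)
      (Fin.cons (α := fun _ => Fin (m + 1) → F) (Fin.cons (α := fun _ => F) a ρ)
        (fun i' => Fin.cons (α := fun _ => F) 0 (B i')) i)))

theorem tcMat_00 (a : F) (c : Fin (m + 1) → F) (ρ : Fin m → F) (B : Matrix (Fin m) (Fin m) F) :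
    tcMat a c ρ B 0 0 = a := rfl

theorem tcMat_0s (a : F) (c : Fin (m + 1) → F) (ρ : Fin m → F) (B : Matrix (Fin m) (Fin m) F)
    (j : Fin (m + 1)) : tcMat a c ρ B 0 j.succ = 0 := by
  simp [tcMat]

theorem tcMat_s0 (a : F) (c : Fin (m + 1) → F) (ρ : Fin m → F) (B : Matrix (Fin m) (Fin m) F)
    (i : Fin (m + 1)) : tcMat a c ρ B i.succ 0 = c i := by
  simp [tcMat]

theorem tcMat_11 (a : F) (c : Fin (m + 1) → F) (ρ : Fin m → F) (B : Matrix (Fin m) (Fin m) F) :
    tcMat a c ρ B (Fin.succ 0) (Fin.succ 0) = a := by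
  simp [tcMat]

theorem tcMat_1s (a : F) (c : Fin (m + 1) → F) (ρ : Fin m → F) (B : Matrix (Fin m) (Fin m) F)
    (j : Fin m) : tcMat a c ρ B (Fin.succ 0) j.succ.succ = ρ j := by
  simp [tcMat]

theorem tcMat_s1 (a : F) (c : Fin (m + 1) → F) (ρ : Fin m → F) (B : Matrix (Fin m) (Fin m) F)
    (i : Fin m) : tcMat a c ρ B i.succ.succ (Fin.succ 0) = 0 := by
  simp [tcMat]

theorem tcMat_ss (a : F) (c : Fin (m + 1) → F) (ρ : Fin m → F) (B : Matrix (Fin m) (Fin m) F)
    (i j : Fin m) : tcMat a c ρ B i.succ.succ j.succ.succ = B i j := by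
  simp [tcMat]

theorem tcMat_det (a : F) (c : Fin (m + 1) → F) (ρ : Fin m → F)
    (B : Matrix (Fin m) (Fin m) F) : (tcMat a c ρ B).det = a * a * B.det := by
  rw [Matrix.det_succ_row_zero, Fin.sum_univ_succ]
  have h0 : ∑ j : Fin (m + 1), (-1 : F) ^ (j.succ : ℕ) * tcMat a c ρ B 0 j.succ *
      ((tcMat a c ρ B).submatrix Fin.succ j.succ.succAbove).det = 0 :=
    Finset.sum_eq_zero fun j _ => by rw [tcMat_0s, mul_zero, zero_mul]
  rw [h0, add_zero, tcMat_00]
  rw [Matrix.det_succ_column_zero, Fin.sum_univ_succ]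
  have h1 : ∑ i : Fin m, (-1 : F) ^ (i.succ : ℕ) *
      ((tcMat a c ρ B).submatrix Fin.succ (Fin.succAbove 0)) i.succ 0 *
      (((tcMat a c ρ B).submatrix Fin.succ (Fin.succAbove 0)).submatrix i.succ.succAbove
        Fin.succ).det = 0 :=
    Finset.sum_eq_zero fun i _ => by
      have : ((tcMat a c ρ B).submatrix Fin.succ (Fin.succAbove 0)) i.succ 0 = 0 := by
        simp only [Matrix.submatrix_apply, Fin.succAbove_zero]
        exact tcMat_s1 a c ρ B i
      rw [this, mul_zero, zero_mul]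
  rw [h1, add_zero]
  have h2 : ((tcMat a c ρ B).submatrix Fin.succ (Fin.succAbove 0)) 0 0 = a := by
    simp only [Matrix.submatrix_apply, Fin.succAbove_zero]
    exact tcMat_11 a c ρ B
  have h3 : (((tcMat a c ρ B).submatrix Fin.succ (Fin.succAbove 0)).submatrix
      (Fin.succAbove 0) Fin.succ) = B := by
    ext i j
    simp only [Matrix.submatrix_apply, Fin.succAbove_zero]
    exact tcMat_ss a c ρ B i j
  rw [h2, h3]
  simp
  ring

theorem mul_single_10 (g : Matrix (Fin (m + 2)) (Fin (m + 2)) F) (i j : Fin (m + 2)) :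
    (g * (Matrix.single 1 0 (1 : F) : Matrix (Fin (m + 2)) (Fin (m + 2)) F)) i j =
      if j = 0 then g i 1 else 0 := by
  rw [Matrix.mul_apply]
  simp only [Matrix.single_apply]
  by_cases hj : j = 0
  · simp [hj]
  · have : ∀ x : Fin (m + 2), ¬ (1 = x ∧ 0 = j) := fun x hx => hj hx.2.symm
    simp [this, hj]

theorem single_10_mul (g : Matrix (Fin (m + 2)) (Fin (m + 2)) F) (i j : Fin (m + 2)) :
    ((Matrix.single 1 0 (1 : F) : Matrix (Fin (m + 2)) (Fin (m + 2)) F) * g) i j =
      if i = 1 then g 0 j else 0 := by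
  rw [Matrix.mul_apply]
  simp only [Matrix.single_apply]
  by_cases hi : i = 1
  · simp [hi]
  · have : ∀ x : Fin (m + 2), ¬ (1 = i ∧ 0 = x) := fun x hx => hi hx.1.symm
    simp [this, hi]

theorem comm_single_iff (g : Matrix (Fin (m + 2)) (Fin (m + 2)) F) :
    g * (Matrix.single 1 0 (1 : F) : Matrix (Fin (m + 2)) (Fin (m + 2)) F) =
      (Matrix.single 1 0 (1 : F) : Matrix (Fin (m + 2)) (Fin (m + 2)) F) * g ↔
      (∀ j : Fin (m + 1), g 0 j.succ = 0) ∧
        (∀ i : Fin (m + 2), g i 1 = if i = 1 then g 0 0 else 0) := by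
  constructor
  · intro h
    refine ⟨fun j => ?_, fun i => ?_⟩
    · have h1 := congrFun (congrFun h 1) j.succ
      rw [mul_single_10, single_10_mul, if_neg (Fin.succ_ne_zero j), if_pos rfl] at h1
      exact h1.symm
    · have h1 := congrFun (congrFun h i) 0
      rw [mul_single_10, single_10_mul, if_pos rfl] at h1
      exact h1
  · rintro ⟨h1, h2⟩
    ext i j
    rw [mul_single_10, single_10_mul]
    by_cases hj : j = 0
    · subst hj
      rw [if_pos rfl, h2 i]
    · rw [if_neg hj]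
      obtain ⟨j', rfl⟩ := Fin.exists_succ_eq.2 hj
      rw [h1 j']
      simp

theorem tcMat_comm (a : F) (c : Fin (m + 1) → F) (ρ : Fin m → F)
    (B : Matrix (Fin m) (Fin m) F) :
    tcMat a c ρ B * (Matrix.single 1 0 (1 : F) : Matrix (Fin (m + 2)) (Fin (m + 2)) F) =
      (Matrix.single 1 0 (1 : F) : Matrix (Fin (m + 2)) (Fin (m + 2)) F) * tcMat a c ρ B := by
  rw [comm_single_iff]
  refine ⟨fun j => tcMat_0s a c ρ B j, fun i => ?_⟩
  have h1 : (1 : Fin (m + 2)) = Fin.succ 0 := rfl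
  rw [h1]
  refine Fin.cases ?_ (fun i' => ?_) i
  · rw [if_neg (Fin.succ_ne_zero 0).symm]
    exact tcMat_0s a c ρ B 0
  · refine Fin.cases ?_ (fun i'' => ?_) i'
    · rw [if_pos rfl, tcMat_11, tcMat_00]
    · rw [if_neg (fun h => Fin.succ_ne_zero i'' (Fin.succ_injective _ h)), tcMat_s1]

theorem eq_tcMat_of_comm (g : Matrix (Fin (m + 2)) (Fin (m + 2)) F)
    (h : g * (Matrix.single 1 0 (1 : F) : Matrix (Fin (m + 2)) (Fin (m + 2)) F) =
      (Matrix.single 1 0 (1 : F) : Matrix (Fin (m + 2)) (Fin (m + 2)) F) * g) :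
    g = tcMat (g 0 0) (fun i => g i.succ 0) (fun j => g (Fin.succ 0) j.succ.succ)
      (g.submatrix (fun i => i.succ.succ) (fun j => j.succ.succ)) := by
  obtain ⟨h1, h2⟩ := (comm_single_iff g).1 h
  have h11 : (1 : Fin (m + 2)) = Fin.succ 0 := rfl
  ext i j
  refine Fin.cases ?_ (fun i' => ?_) i
  · refine Fin.cases ?_ (fun j' => ?_) j
    · rw [tcMat_00]
    · rw [tcMat_0s, h1]
  · refine Fin.cases ?_ (fun j' => ?_) j
    · rw [tcMat_s0]
    · refine Fin.cases ?_ (fun i'' => ?_) i'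
      · refine Fin.cases ?_ (fun j'' => ?_) j'
        · rw [tcMat_11]
          have := h2 (Fin.succ 0)
          rw [h11] at this
          rw [this, if_pos rfl]
        · rw [tcMat_1s]
      · refine Fin.cases ?_ (fun j'' => ?_) j'
        · rw [tcMat_s1]
          have := h2 i''.succ.succ
          rw [h11] at this
          rw [this, if_neg (fun h => Fin.succ_ne_zero i'' (Fin.succ_injective _ h))]
        · rw [tcMat_ss]
          rfl

end shape

theorem transv_std_centralizer_card {F : Type*} [Field F] [Fintype F] (m : ℕ) :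
    Nat.card {g : GL (Fin (m + 2)) F // (g : Matrix (Fin (m + 2)) (Fin (m + 2)) F) *
        (Matrix.single 1 0 (1 : F) : Matrix (Fin (m + 2)) (Fin (m + 2)) F) =
        (Matrix.single 1 0 (1 : F) : Matrix (Fin (m + 2)) (Fin (m + 2)) F) *
          (g : Matrix (Fin (m + 2)) (Fin (m + 2)) F)} =
      (Fintype.card F - 1) * Fintype.card F ^ (m + 1) * Fintype.card F ^ m *
        ∏ i : Fin m, (Fintype.card F ^ m - Fintype.card F ^ (i : ℕ)) := by
  classical
  let Ψ : Fˣ × (Fin (m + 1) → F) × (Fin m → F) × GL (Fin m) F →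
      {g : GL (Fin (m + 2)) F // (g : Matrix (Fin (m + 2)) (Fin (m + 2)) F) *
        (Matrix.single 1 0 (1 : F) : Matrix (Fin (m + 2)) (Fin (m + 2)) F) =
        (Matrix.single 1 0 (1 : F) : Matrix (Fin (m + 2)) (Fin (m + 2)) F) *
          (g : Matrix (Fin (m + 2)) (Fin (m + 2)) F)} :=
    fun x => ⟨Matrix.GeneralLinearGroup.mkOfDetNeZero
      (tcMat (x.1 : F) x.2.1 x.2.2.1 (x.2.2.2 : Matrix (Fin m) (Fin m) F)) (by
        rw [tcMat_det]
        have h1 : (x.1 : F) ≠ 0 := x.1.ne_zero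
        have h2 : (x.2.2.2 : Matrix (Fin m) (Fin m) F).det ≠ 0 :=
          ((Matrix.isUnit_iff_isUnit_det _).1 x.2.2.2.isUnit).ne_zero
        exact mul_ne_zero (mul_ne_zero h1 h1) h2),
      tcMat_comm _ _ _ _⟩
  have hΨ : ∀ x, (((Ψ x).1 : GL (Fin (m + 2)) F) : Matrix (Fin (m + 2)) (Fin (m + 2)) F) =
      tcMat (x.1 : F) x.2.1 x.2.2.1 (x.2.2.2 : Matrix (Fin m) (Fin m) F) := fun x => rfl
  have hinj : Function.Injective Ψ := by
    rintro ⟨a, c, ρ, B⟩ ⟨a', c', ρ', B'⟩ h
    have h1 : tcMat (a : F) c ρ (B : Matrix (Fin m) (Fin m) F) =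
        tcMat (a' : F) c' ρ' (B' : Matrix (Fin m) (Fin m) F) := by
      have := congrArg (fun y => ((y.1 : GL (Fin (m + 2)) F) :
        Matrix (Fin (m + 2)) (Fin (m + 2)) F)) h
      simpa only [hΨ] using this
    have ha : a = a' := by
      apply Units.ext
      have := congrFun (congrFun h1 0) 0
      rwa [tcMat_00, tcMat_00] at this
    have hc : c = c' := by
      funext i
      have := congrFun (congrFun h1 i.succ) 0
      rwa [tcMat_s0, tcMat_s0] at this
    have hρ : ρ = ρ' := by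
      funext j
      have := congrFun (congrFun h1 (Fin.succ 0)) j.succ.succ
      rwa [tcMat_1s, tcMat_1s] at this
    have hB : B = B' := by
      apply Units.ext
      ext i j
      have := congrFun (congrFun h1 i.succ.succ) j.succ.succ
      rwa [tcMat_ss, tcMat_ss] at this
    rw [ha, hc, hρ, hB]
  have hsurj : Function.Surjective Ψ := by
    rintro ⟨g, hg⟩
    have hshape := eq_tcMat_of_comm _ hg
    have hdet : (g : Matrix (Fin (m + 2)) (Fin (m + 2)) F).det ≠ 0 :=
      ((Matrix.isUnit_iff_isUnit_det _).1 g.isUnit).ne_zero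
    rw [hshape, tcMat_det] at hdet
    have ha : (g : Matrix (Fin (m + 2)) (Fin (m + 2)) F) 0 0 ≠ 0 := by
      intro h0
      rw [h0] at hdet
      simp at hdet
    have hB : ((g : Matrix (Fin (m + 2)) (Fin (m + 2)) F).submatrix (fun i : Fin m => i.succ.succ)
        (fun j : Fin m => j.succ.succ)).det ≠ 0 := by
      intro h0
      rw [h0] at hdet
      simp at hdet
    refine ⟨(Units.mk0 _ ha, fun i => (g : Matrix (Fin (m + 2)) (Fin (m + 2)) F) i.succ 0,
      fun j => (g : Matrix (Fin (m + 2)) (Fin (m + 2)) F) (Fin.succ 0) j.succ.succ,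
      Matrix.GeneralLinearGroup.mkOfDetNeZero _ hB), ?_⟩
    apply Subtype.ext
    apply Units.ext
    rw [hΨ]
    exact hshape.symm
  rw [← Nat.card_congr (Equiv.ofBijective Ψ ⟨hinj, hsurj⟩), Nat.card_prod, Nat.card_prod,
    Nat.card_prod, Nat.card_units, Nat.card_fun, Nat.card_fun, Matrix.card_GL_field]
  simp only [Nat.card_eq_fintype_card, Fintype.card_fin]
  ring

end Cfsg.Agent.Lib.Helper4
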