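import Mathlib
import Cfsg.Prelude.Def_LieClassical
import Cfsg.Agent.Lib.Helper4.QuadWitt
import Cfsg.Agent.Lib.Helper4.OrthoExt

set_option autoImplicit false

namespace Cfsg.Agent.Lib.Helper4

open QuadraticMap

section

variable {K F : Type*} [Field K] [Fintype K] [Field F] [Fintype F] [Algebra F K] {q : ℕ}

/-- The quadratic form `u ↦ μ (h(u, u))` over the subfield. -/
noncomputable def hermQ (hF : Fintype.card F = q) (μ : K →ₗ[F] F) (n : ℕ) :
    QuadraticForm F (Fin n → K) :=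
  LinearMap.BilinMap.toQuadraticMap (LinearMap.compr₂ (hermLin (K := K) hF n) μ)

theorem hermQ_apply (hF : Fintype.card F = q) (μ : K →ₗ[F] F) (n : ℕ) (u : Fin n → K) :
    hermQ hF μ n u = μ (Cfsg.hermForm n K q u u) := rfl

theorem hermQ_polar (hF : Fintype.card F = q) (μ : K →ₗ[F] F) (n : ℕ) (u v : Fin n → K) :
    polar (hermQ hF μ n) u v = μ (Cfsg.hermForm n K q u v) + μ (Cfsg.hermForm n K q v u) := by
  unfold hermQ
  rw [LinearMap.BilinMap.polar_toQuadraticMap]
  rfl

theorem herm_single_right {n : ℕ} (hq0 : q ≠ 0) (x : Fin n → K) (i : Fin n) (c : K) :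
    Cfsg.hermForm n K q x (Pi.single i c) = x i * c ^ q := by
  classical
  unfold Cfsg.hermForm
  rw [Finset.sum_eq_single i]
  · rw [Pi.single_eq_same]
  · intro j _ hji
    rw [Pi.single_eq_of_ne hji, zero_pow hq0, mul_zero]
  · intro h
    exact absurd (Finset.mem_univ i) h

theorem herm_single_left {n : ℕ} (x : Fin n → K) (i : Fin n) (c : K) :
    Cfsg.hermForm n K q (Pi.single i c) x = c * x i ^ q := by
  classical
  unfold Cfsg.hermForm
  rw [Finset.sum_eq_single i]
  · rw [Pi.single_eq_same]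
  · intro j _ hji
    rw [Pi.single_eq_of_ne hji, zero_mul]
  · intro h
    exact absurd (Finset.mem_univ i) h

theorem mu_algebraMap (μ : K →ₗ[F] F) (hμ : μ 1 = 1) (s : F) : μ (algebraMap F K s) = s := by
  rw [Algebra.algebraMap_eq_smul_one, map_smul, hμ, smul_eq_mul, mul_one]

theorem exists_trace_ne (hF : Fintype.card F = q) (hK : Fintype.card K = q ^ 2)
    (μ : K →ₗ[F] F) (hμ : μ 1 = 1) : ∃ z : K, μ (z + z ^ q) ≠ 0 := by
  have hq : 1 < q := by
    rw [← hF]
    exact Fintype.one_lt_card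
  by_cases h2 : (2 : K) = 0
  · obtain ⟨z, hz⟩ := exists_not_frob_fixed hq hK
    have hz' : z + z ^ q ≠ 0 := by
      intro h
      apply hz
      linear_combination h - (z ^ q) * h2
    have hfix : (z + z ^ q) ^ q = z + z ^ q := by
      rw [frob_add hF, frob_frob hK]
      ring
    obtain ⟨s, hs⟩ := mem_range_of_frob_fixed hF _ hfix
    refine ⟨z, ?_⟩
    rw [← hs, mu_algebraMap μ hμ]
    intro h0
    apply hz'
    rw [← hs, h0, map_zero]
  · refine ⟨1, ?_⟩
    rw [one_pow]
    have h3 : (1 : K) + 1 = algebraMap F K 2 := by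
      rw [map_ofNat]
      norm_num
    rw [h3, mu_algebraMap μ hμ]
    intro h0
    apply h2
    have h4 := congrArg (algebraMap F K) h0
    rw [map_ofNat, map_zero] at h4
    exact h4

theorem hermQ_nondeg (hF : Fintype.card F = q) (hK : Fintype.card K = q ^ 2)
    (μ : K →ₗ[F] F) (hμ : μ 1 = 1) (n : ℕ) :
    (polarBilin (hermQ hF μ n)).Nondegenerate := by
  obtain ⟨z₀, hz₀⟩ := exists_trace_ne hF hK μ hμ
  have hq0 : q ≠ 0 := by
    rw [← hF]
    exact Fintype.card_ne_zero
  have key : ∀ x : Fin n → K, (∀ y, polar (hermQ hF μ n) x y = 0) → x = 0 := by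
    intro x hx
    by_contra hne
    obtain ⟨i, hi⟩ : ∃ i, x i ≠ 0 := by
      by_contra hcon
      push Not at hcon
      exact hne (funext hcon)
    have h1 := hx (Pi.single i ((z₀ / x i) ^ q))
    rw [hermQ_polar, herm_single_right hq0, herm_single_left, frob_frob hK, ← map_add] at h1
    apply hz₀
    rw [← h1]
    congr 1
    rw [← mul_pow]
    field_simp
  refine ⟨fun x hx => key x (fun y => hx y), fun y hy => key y (fun x => ?_)⟩
  rw [polar_comm]
  exact hy x

theorem hermQ_gu (hF : Fintype.card F = q) (μ : K →ₗ[F] F) (n : ℕ) (g : ↥(Cfsg.GU n K q))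
    (v : Fin n → K) :
    hermQ hF μ n (matRestr F (Fin n) ((g.1 : Matrix (Fin n) (Fin n) K)) v) = hermQ hF μ n v := by
  rw [matRestr_apply, hermQ_apply, hermQ_apply]
  have h1 := g.2 v v
  simp only [Units.coeHom_apply] at h1
  rw [h1]

theorem norm_neg_one (hF : Fintype.card F = q) (hK : Fintype.card K = q ^ 2) :
    ∃ c : K, c ^ (q + 1) = -1 := by
  obtain ⟨c, hc⟩ := FiniteField.norm_surjective F K (-1)
  refine ⟨c, ?_⟩
  have hq : 1 < q := by
    rw [← hF]
    exact Fintype.one_lt_card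
  have h1 := FiniteField.algebraMap_norm_eq_pow (K := F) (K' := K) (x := c)
  rw [hc] at h1
  have h2 : (Nat.card K - 1) / (Nat.card F - 1) = q + 1 := by
    rw [Nat.card_eq_fintype_card, Nat.card_eq_fintype_card, hK, hF]
    have h3 : q ^ 2 - 1 = (q + 1) * (q - 1) := by
      obtain ⟨r, rfl⟩ : ∃ r, q = r + 1 := ⟨q - 1, by omega⟩
      simp only [Nat.add_sub_cancel]
      have : (r + 1) ^ 2 = (r + 1 + 1) * r + 1 := by ring
      omega
    rw [h3, Nat.mul_div_cancel _ (by omega)]
  rw [h2] at h1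
  rw [← h1]
  simp

theorem hermQ_hyp (hF : Fintype.card F = q) (hK : Fintype.card K = q ^ 2)
    (μ : K →ₗ[F] F) (hμ : μ 1 = 1) (k : ℕ) :
    ∃ e f : Fin (k + k) → (Fin (k + k) → K), HypFam (hermQ hF μ (k + k)) e f := by
  classical
  obtain ⟨c, hc⟩ := norm_neg_one (K := K) hF hK
  let J : (Fin k → K) →ₗ[F] (Fin (k + k) → K) :=
    LinearMap.pi (Fin.addCases (motive := fun _ => ((Fin k → K) →ₗ[F] K))
      (fun i => (LinearMap.proj i : (Fin k → K) →ₗ[K] K).restrictScalars F)
      (fun i => (c • (LinearMap.proj i : (Fin k → K) →ₗ[K] K)).restrictScalars F))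
  have hJ1 : ∀ w i, J w (Fin.castAdd k i) = w i := by
    intro w i
    simp [J]
  have hJ2 : ∀ w i, J w (Fin.natAdd k i) = c * w i := by
    intro w i
    show (Fin.addCases (motive := fun _ => ((Fin k → K) →ₗ[F] K))
      (fun i => (LinearMap.proj i : (Fin k → K) →ₗ[K] K).restrictScalars F)
      (fun i => (c • (LinearMap.proj i : (Fin k → K) →ₗ[K] K)).restrictScalars F)
      (Fin.natAdd k i)) w = c * w i
    rw [Fin.addCases_right]
    rfl
  have hJinj : Function.Injective J := by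
    rw [← LinearMap.ker_eq_bot, LinearMap.ker_eq_bot']
    intro w hw
    funext i
    rw [← hJ1 w i, hw]
    rfl
  have hV : Module.finrank F (Fin (k + k) → K) = 2 * (k + k) := by
    rw [finrank_pi_of_card_sq hF hK]
    simp
  have hdim : k + k ≤ Module.finrank F (LinearMap.range J) := by
    rw [LinearMap.finrank_range_of_inj hJinj, finrank_pi_of_card_sq hF hK]
    simp
    omega
  refine hyp_of_totally_singular F (k + k) _ (hermQ hF μ (k + k)) hV
    (hermQ_nondeg hF hK μ hμ _) (LinearMap.range J) ?_ hdim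
  rintro u ⟨w, rfl⟩
  rw [hermQ_apply]
  have h0 : Cfsg.hermForm (k + k) K q (J w) (J w) = 0 := by
    unfold Cfsg.hermForm
    rw [Fin.sum_univ_add, ← Finset.sum_add_distrib]
    refine Finset.sum_eq_zero fun i _ => ?_
    rw [hJ1, hJ2]
    have : w i * w i ^ q + c * w i * (c * w i) ^ q = w i ^ (q + 1) * (1 + c ^ (q + 1)) := by
      ring
    rw [this, hc]
    ring
  rw [h0, map_zero]

end

theorem exists_mu_one {K F : Type*} [Field K] [Field F] [Algebra F K] :
    ∃ μ : K →ₗ[F] F, μ 1 = 1 := by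
  obtain ⟨μ', hμ'⟩ : ∃ μ : K →ₗ[F] F, μ 1 ≠ 0 := by
    by_contra hcon
    push Not at hcon
    exact one_ne_zero ((Module.forall_dual_apply_eq_zero_iff F (1 : K)).1 hcon)
  refine ⟨(μ' 1)⁻¹ • μ', ?_⟩
  rw [LinearMap.smul_apply, smul_eq_mul, inv_mul_cancel₀ hμ']

theorem gu_oplus_embedding {K F : Type*} [Field K] [Fintype K] [Field F] [Fintype F] {q : ℕ}
    (hK : Fintype.card K = q ^ 2) (hF : Fintype.card F = q) (m : ℕ) (hm : Even m) :
    ∃ φ : ↥(Cfsg.GU m K q) →* ↥(Cfsg.isometryGroup F (Cfsg.quadFormPlus m F)),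
      Function.Injective φ := by
  classical
  obtain ⟨k, rfl⟩ := hm
  obtain ⟨ι⟩ := exists_ringHom_of_card_sq hF hK
  letI : Algebra F K := ι.toAlgebra
  obtain ⟨μ, hμ⟩ := exists_mu_one (K := K) (F := F)
  obtain ⟨e, f, hfam⟩ := hermQ_hyp hF hK μ hμ k
  have hV : Module.finrank F (Fin (k + k) → K) = 2 * (k + k) := by
    rw [finrank_pi_of_card_sq hF hK]
    simp
  obtain ⟨b, hb⟩ := hyp_basis (hermQ hF μ (k + k)) hV e f hfam
  let ψ : ↥(Cfsg.GU (k + k) K q) →* ((Fin (k + k) → K) →ₗ[F] (Fin (k + k) → K)) :=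
    ((matRestr F (Fin (k + k))).comp (Units.coeHom (Matrix (Fin (k + k)) (Fin (k + k)) K))).comp
      (Cfsg.GU (k + k) K q).subtype
  refine exists_isometry_embedding b (fun v => hermQ hF μ (k + k) v)
    (Cfsg.quadFormPlus (k + k) F) (hyp_coord _ b e f hb hfam) ψ ?_ ?_
  · intro g h hgh
    apply Subtype.ext
    apply Units.ext
    exact matRestr_injective F _ hgh
  · intro g v
    exact hermQ_gu hF μ (k + k) g v

end Cfsg.Agent.Lib.Helper4
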