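import Mathlib
import Cfsg.Prelude.Def_LieClassical
import Cfsg.Agent.Lib.Helper4.UnitaryQuad

set_option autoImplicit false

namespace Cfsg.Agent.Lib.Helper4

open QuadraticMap

theorem gu_ominus_embedding_aux {K F : Type*} [Field K] [Fintype K] [Field F] [Fintype F] {q : ℕ}
    (hK : Fintype.card K = q ^ 2) (hF : Fintype.card F = q) (k : ℕ) (a b : F)
    (hab : ∀ z₁ z₂ : F, z₁ ^ 2 + a * z₁ * z₂ + b * z₂ ^ 2 = 0 → z₁ = 0 ∧ z₂ = 0) :
    ∃ φ : ↥(Cfsg.GU (k + k + 1) K q) →*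
      ↥(Cfsg.isometryGroup F (Cfsg.quadFormMinus (k + k) F a b)), Function.Injective φ := by
  classical
  obtain ⟨ι⟩ := exists_ringHom_of_card_sq hF hK
  letI : Algebra F K := ι.toAlgebra
  obtain ⟨μ, hμ⟩ := exists_mu_one (K := K) (F := F)
  obtain ⟨θ, hθ⟩ := exists_root_of_anisotropic (K := K) hF hK a b hab
  obtain ⟨hconj, hne⟩ := root_conj hF a b hab θ hθ
  have hq0 : q ≠ 0 := by
    rw [← hF]
    exact Fintype.card_ne_zero
  obtain ⟨e₀, f₀, hfam₀⟩ := hermQ_hyp hF hK μ hμ k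
  obtain ⟨j, hjdef⟩ : ∃ j : (Fin (k + k) → K) → (Fin (k + k + 1) → K),
      j = fun w => Fin.snoc (α := fun _ => K) w 0 := ⟨_, rfl⟩
  have hj_last : ∀ w, j w (Fin.last (k + k)) = 0 := fun w => by
    rw [hjdef]
    simp
  have hj_cs : ∀ w i, j w (Fin.castSucc i) = w i := fun w i => by
    rw [hjdef]
    simp
  have hjh : ∀ u v, Cfsg.hermForm (k + k + 1) K q (j u) (j v) =
      Cfsg.hermForm (k + k) K q u v := by
    intro u v
    unfold Cfsg.hermForm
    rw [Fin.sum_univ_castSucc, hj_last, zero_mul, add_zero]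
    simp only [hj_cs]
  have hjQ : ∀ u, hermQ hF μ (k + k + 1) (j u) = hermQ hF μ (k + k) u := by
    intro u
    rw [hermQ_apply, hermQ_apply, hjh]
  have hjP : ∀ u v, polar (hermQ hF μ (k + k + 1)) (j u) (j v) =
      polar (hermQ hF μ (k + k)) u v := by
    intro u v
    rw [hermQ_polar, hermQ_polar, hjh, hjh]
  obtain ⟨h1, h2, h3⟩ := hfam₀
  have hfam : HypFam (hermQ hF μ (k + k + 1)) (fun i => j (e₀ i)) (fun i => j (f₀ i)) := by
    refine ⟨fun i => ⟨?_, ?_⟩, fun i i' => ?_, fun i i' => ⟨?_, ?_⟩⟩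
    · rw [hjQ]
      exact (h1 i).1
    · rw [hjQ]
      exact (h1 i).2
    · rw [hjP]
      exact h2 i i'
    · rw [hjP]
      exact (h3 i i').1
    · rw [hjP]
      exact (h3 i i').2
  obtain ⟨x, hxdef⟩ : ∃ x : Fin (k + k + 1) → K, x = Pi.single (Fin.last (k + k)) 1 := ⟨_, rfl⟩
  obtain ⟨y, hydef⟩ : ∃ y : Fin (k + k + 1) → K, y = Pi.single (Fin.last (k + k)) θ := ⟨_, rfl⟩
  have hx : hermQ hF μ (k + k + 1) x = 1 := by
    rw [hermQ_apply, hxdef, herm_single_right hq0, Pi.single_eq_same, one_pow, one_mul, hμ]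
  have hθθ : θ * θ ^ q = algebraMap F K b := by
    rw [hconj]
    linear_combination -hθ
  have hy : hermQ hF μ (k + k + 1) y = b := by
    rw [hermQ_apply, hydef, herm_single_right hq0, Pi.single_eq_same, hθθ, mu_algebraMap μ hμ]
  have hxy : polar (hermQ hF μ (k + k + 1)) x y = a := by
    rw [hermQ_polar, hxdef, hydef, herm_single_right hq0, herm_single_right hq0,
      Pi.single_eq_same, Pi.single_eq_same, ← map_add]
    have h4 : (1 : K) * θ ^ q + θ * 1 ^ q = algebraMap F K a := by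
      rw [hconj]
      ring
    rw [h4, mu_algebraMap μ hμ]
  have horth1 : ∀ w (c : K),
      polar (hermQ hF μ (k + k + 1)) (j w) (Pi.single (Fin.last (k + k)) c) = 0 := by
    intro w c
    rw [hermQ_polar, herm_single_right hq0, herm_single_left, hj_last, zero_mul, zero_pow hq0,
      mul_zero, map_zero, add_zero]
  have hdisc : a ^ 2 - 4 * b ≠ 0 := by
    intro h0
    have h4 : (θ ^ q - θ) ^ 2 = algebraMap F K (a ^ 2 - 4 * b) := by
      rw [map_sub, map_pow, map_mul, ← hθθ, hconj, map_ofNat]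
      ring
    rw [h0, map_zero] at h4
    exact hne (sub_eq_zero.1 ((pow_eq_zero_iff (two_ne_zero)).1 h4))
  have hV : Module.finrank F (Fin (k + k + 1) → K) = 2 * (k + k) + 2 := by
    rw [finrank_pi_of_card_sq hF hK]
    simp
    omega
  have horth : ∀ i, polar (hermQ hF μ (k + k + 1)) (j (e₀ i)) x = 0 ∧
      polar (hermQ hF μ (k + k + 1)) (j (f₀ i)) x = 0 ∧
      polar (hermQ hF μ (k + k + 1)) (j (e₀ i)) y = 0 ∧
      polar (hermQ hF μ (k + k + 1)) (j (f₀ i)) y = 0 := by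
    intro i
    rw [hxdef, hydef]
    exact ⟨horth1 _ _, horth1 _ _, horth1 _ _, horth1 _ _⟩
  obtain ⟨bb, hbb⟩ := ell_basis' (hermQ hF μ (k + k + 1)) hV (fun i => j (e₀ i))
    (fun i => j (f₀ i)) x y a b hdisc hfam horth hx hxy hy
  let ψ : ↥(Cfsg.GU (k + k + 1) K q) →*
      ((Fin (k + k + 1) → K) →ₗ[F] (Fin (k + k + 1) → K)) :=
    ((matRestr F (Fin (k + k + 1))).comp
      (Units.coeHom (Matrix (Fin (k + k + 1)) (Fin (k + k + 1)) K))).comp
      (Cfsg.GU (k + k + 1) K q).subtype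
  refine exists_isometry_embedding bb (fun v => hermQ hF μ (k + k + 1) v)
    (Cfsg.quadFormMinus (k + k) F a b)
    (ell_coord _ bb _ _ x y a b hbb hfam horth hx hxy hy) ψ ?_ ?_
  · intro g h hgh
    apply Subtype.ext
    apply Units.ext
    exact matRestr_injective F _ hgh
  · intro g v
    exact hermQ_gu hF μ (k + k + 1) g v

end Cfsg.Agent.Lib.Helper4
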